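/-
Central `p`-subgroups: lifting functions on the `p`-regular elements of the quotient to generalized characters.
-/
import Mathlib
import Cfsg.Agent.Lib.Blocks.CentralProd
import Cfsg.Agent.Lib.Blocks.CentralQuot
import Cfsg.Agent.Lib.Char.Perm

set_option autoImplicit false
set_option linter.style.haveILetI false

namespace Cfsg.Agent.Lib.Blocks.AbLat

open Cfsg Cfsg.Agent.Lib.Blocks.Local Cfsg.Agent.Lib.Blocks.Central Cfsg.Agent.Lib.Blocks.Osima
  Cfsg.Agent.Lib.Blocks.Regular Cfsg.Agent.Lib.Blocks.BlockCount Cfsg.Agent.Lib.Blocks.Dominate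
  Cfsg.Agent.Lib.Blocks.CentralProd Cfsg.Agent.Lib.Blocks.CentralQuot
open Cfsg.Agent.Lib.Char.Virtual
open scoped ComplexConjugate

universe u

section Star

variable {G : Type u} [Group G] [Fintype G] {p : ℕ} [hp : Fact p.Prime]

/-- The `p`-regular part of an element. -/
noncomputable def rp (p : ℕ) [Fact p.Prime] (g : G) : G := (pp p g)⁻¹ * g

lemma rp_conj (x g : G) : rp p (x * g * x⁻¹) = x * rp p g * x⁻¹ := by
  rw [rp, rp, pp_conj]
  group

lemma isPPart_one_of_regular {y : G} (hy : ¬ p ∣ orderOf y) : IsPPart p y 1 :=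
  ⟨y, one_mul y, Commute.one_left y, ⟨0, by simp⟩, hy⟩

lemma rp_of_regular {y : G} (hy : ¬ p ∣ orderOf y) : rp p y = y := by
  rw [rp, pp_eq (isPPart_one_of_regular hy), inv_one, one_mul]

lemma rp_of_isPPart {g z y : G} (hzy : z * y = g) (hc : Commute z y) (hz : ∃ k : ℕ, orderOf z = p ^ k)
    (hy : ¬ p ∣ orderOf y) : rp p g = y := by
  rw [rp, pp_eq (⟨y, hzy, hc, hz, hy⟩ : IsPPart p g z), ← hzy, inv_mul_cancel_left]

/-- The function `g ↦ μ(g_{p'})`. -/
noncomputable def star (p : ℕ) [Fact p.Prime] (μ : G → ℂ) (g : G) : ℂ := μ (rp p g)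

/-- **The function `g ↦ μ(g_{p'})` is a generalized character.** -/
theorem isGeneralized_star {μ : G → ℂ} (hμ : IsCharacter G μ) : IsGeneralizedCharacter G (star p μ) := by
  classical
  refine Cfsg.Agent.Lib.Char.BrauerInd.isGeneralized_of_restrict ?_ ?_
  · intro g h
    simp only [star]
    rw [rp_conj]
    exact Cfsg.Agent.Lib.Char.Basic.isClassFunction_of_isCharacter hμ _ _
  · intro E r hr hE
    obtain ⟨Q, L, hQn, hLn, hQp, hLr, Φ, hΦ⟩ := exists_decomp_of_isElementary r p hr hE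
    let π : E →* G := E.subtype.comp (L.subtype.comp ((MonoidHom.snd Q L).comp Φ.symm.toMonoidHom))
    have h1 : IsCharacter E (μ ∘ π) := Cfsg.Agent.Lib.Char.Basic.isCharacter_comp_hom hμ π
    have h2 : (fun e : E => star p μ (e : G)) = μ ∘ π := by
      funext e
      obtain ⟨z, rfl⟩ := Φ.surjective e
      simp only [star, Function.comp_apply, π, MonoidHom.comp_apply, MonoidHom.coe_snd, Subgroup.coe_subtype]
      congr 1
      have h3 : ((Φ z : E) : G) = ((z.1 : E) : G) * ((z.2 : E) : G) := by rw [hΦ]; rfl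
      rw [h3]
      have h4 : Φ.symm.toMonoidHom (Φ z) = z := Φ.symm_apply_apply z
      rw [show (Φ.symm.toMonoidHom (Φ z)).2 = z.2 by rw [h4]]
      refine rp_of_isPPart rfl ?_ ?_ ?_
      · have h5 : (z.1 : E) * z.2 = z.2 * z.1 := by
          apply Subgroup.commute_of_normal_of_disjoint _ _ hQn hLn _ _ _ z.1.2 z.2.2
          apply Subgroup.disjoint_of_coprime_natCard
          obtain ⟨n, hn⟩ := IsPGroup.iff_card.1 hQp
          rw [hn]
          refine Nat.Coprime.pow_left n ((Nat.Prime.coprime_iff_not_dvd hp.out).2 fun hd => ?_)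
          obtain ⟨x, hx⟩ := exists_prime_orderOf_dvd_card' (G := L) p hd
          apply hLr x
          rw [Subgroup.orderOf_coe, hx]
        exact congrArg Subtype.val h5
      · obtain ⟨k, hk⟩ := (IsPGroup.iff_orderOf.1 hQp) z.1
        refine ⟨k, ?_⟩
        rw [← hk, Subgroup.orderOf_coe, Subgroup.orderOf_coe]
      · rw [Subgroup.orderOf_coe]
        exact hLr z.2
    rw [h2]
    exact isGeneralized_of_isCharacter h1

end Star

section Lift

variable {H : Type u} [Group H] [Fintype H] {p : ℕ} [hp : Fact p.Prime] (Z : Subgroup H) [hZn : Z.Normal]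
  [Fintype (H ⧸ Z)]

/-- The lift of a function on the quotient. -/
noncomputable def lf (p : ℕ) (f : H ⧸ Z → ℂ) : H → ℂ :=
  fun y => (Nat.card Z : ℂ) * reg p (f ∘ QuotientGroup.mk) y

omit [Fintype (H ⧸ Z)] in
lemma hC_of_central (hZ : ∀ z ∈ Z, ∀ g : H, g * z = z * g) :
    ∃ k : ℕ, (Subgroup.centralizer (Z : Set H)).index = p ^ k := by
  refine ⟨0, ?_⟩
  rw [pow_zero, Subgroup.index_eq_one, eq_top_iff]
  intro g _
  rw [Subgroup.mem_centralizer_iff]
  intro z hz
  exact (hZ z hz g).symm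

lemma card_inv_mul (hc : (Nat.card H : ℂ) ≠ 0) :
    (Nat.card H : ℂ)⁻¹ * (Nat.card Z : ℂ) = (Nat.card (H ⧸ Z) : ℂ)⁻¹ := by
  have h1 : Nat.card H = Nat.card (H ⧸ Z) * Nat.card Z := Subgroup.card_eq_card_quotient_mul_card_subgroup Z
  have h2 : (Nat.card Z : ℂ) ≠ 0 := Nat.cast_ne_zero.mpr Nat.card_pos.ne'
  have h3 : (Nat.card (H ⧸ Z) : ℂ) ≠ 0 := Nat.cast_ne_zero.mpr Nat.card_pos.ne'
  rw [h1]
  push_cast
  field_simp

/-- The inner product of a lift with the regular part of an inflation. -/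
theorem classInner_lf_reg (hZ : ∀ z ∈ Z, ∀ g : H, g * z = z * g) (hZp : IsPGroup p Z) {f : H ⧸ Z → ℂ}
    (hf : ∀ c : H ⧸ Z, p ∣ orderOf c → f c = 0) (η : H ⧸ Z → ℂ) :
    classInner (lf Z p f) (reg p (η ∘ QuotientGroup.mk)) = classInner f η := by
  classical
  have hc : (Nat.card H : ℂ) ≠ 0 := Nat.cast_ne_zero.mpr Nat.card_pos.ne'
  have h1 := sum_regular_eq Z hZp (hC_of_central (p := p) Z hZ) (fun c => f c * conj (η c)) (fun c hc => by
    simp only [hf c hc, zero_mul])
  rw [classInner, classInner, ← card_inv_mul Z hc, mul_assoc, ← h1]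
  congr 1
  rw [Finset.mul_sum]
  refine Finset.sum_congr rfl fun g _ => ?_
  simp only [lf]
  by_cases hg : p ∣ orderOf g
  · rw [reg_of_dvd _ hg, if_pos hg]
    simp
  · rw [reg_of_not_dvd _ hg, reg_of_not_dvd _ hg, if_neg hg]
    simp only [Function.comp_apply]
    ring

/-- The norm of a lift. -/
theorem classInner_lf_self (hZ : ∀ z ∈ Z, ∀ g : H, g * z = z * g) (hZp : IsPGroup p Z) {f : H ⧸ Z → ℂ}
    (hf : ∀ c : H ⧸ Z, p ∣ orderOf c → f c = 0) :
    classInner (lf Z p f) (lf Z p f) = (Nat.card Z : ℂ) * classInner f f := by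
  have h1 : lf Z p f = (Nat.card Z : ℂ) • reg p (f ∘ QuotientGroup.mk) := rfl
  have h2 : classInner (lf Z p f) (lf Z p f) = classInner (lf Z p f) ((Nat.card Z : ℂ) • reg p (f ∘ QuotientGroup.mk)) := by
    rw [← h1]
  rw [h2, Cfsg.Agent.Lib.Char.Ortho.classInner_smul_right, classInner_lf_reg Z hZ hZp hf, Complex.conj_natCast]

omit [Fintype (H ⧸ Z)] in
lemma rp_mul_central (hZ : ∀ z ∈ Z, ∀ g : H, g * z = z * g) (hZp : IsPGroup p Z) {z : H} (hz : z ∈ Z) (g : H) :
    rp p (g * z) = rp p g := by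
  obtain ⟨y, hzy, hcomm, ⟨k, hk⟩, hy⟩ := pp_spec (p := p) g
  have h1 : rp p g = y := inv_mul_eq_of_eq_mul hzy.symm
  rw [h1]
  obtain ⟨j, hj⟩ := (IsPGroup.iff_orderOf.1 hZp) ⟨z, hz⟩
  have hzo : orderOf z = p ^ j := by rw [← hj, Subgroup.orderOf_mk]
  have hcz : Commute (pp p g) z := (hZ z hz _)
  refine rp_of_isPPart (z := pp p g * z) (y := y) ?_ ?_ ?_ hy
  · have h3 : y * z = z * y := hZ z hz y
    calc pp p g * z * y = pp p g * (z * y) := mul_assoc _ _ _
      _ = pp p g * (y * z) := by rw [h3]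
      _ = pp p g * y * z := (mul_assoc _ _ _).symm
      _ = g * z := by rw [hzy]
  · exact hcomm.mul_left ((hZ z hz y).symm)
  · have hcop : Commute (pp p g) z := hcz
    obtain ⟨a, ha⟩ : ∃ a, (pp p g * z) ^ (p ^ (k + j)) = 1 ∧ a = 0 := ⟨0, by
      rw [hcop.mul_pow]
      constructor
      · have h5 : pp p g ^ (p ^ (k + j)) = 1 := by
          rw [pow_add, pow_mul, ← hk, pow_orderOf_eq_one, one_pow]
        have h6 : z ^ (p ^ (k + j)) = 1 := by
          rw [add_comm, pow_add, pow_mul, ← hzo, pow_orderOf_eq_one, one_pow]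
        rw [h5, h6, one_mul]
      · rfl⟩
    obtain ⟨i, -, hi⟩ := (Nat.dvd_prime_pow hp.out).1 (orderOf_dvd_of_pow_eq_one ha.1)
    exact ⟨i, hi⟩

/-- **The inner product of a lift with a character is an integer.** -/
theorem exists_int_classInner_lf (hZ : ∀ z ∈ Z, ∀ g : H, g * z = z * g) (hZp : IsPGroup p Z) {f : H ⧸ Z → ℂ}
    (hf : ∀ c : H ⧸ Z, p ∣ orderOf c → f c = 0) (hfg : IsGeneralizedCharacter (H ⧸ Z) f) {μ : H → ℂ}
    (hμ : IsCharacter H μ) : ∃ n : ℤ, classInner (lf Z p f) μ = n := by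
  classical
  have hg1 : IsGeneralizedCharacter H (f ∘ QuotientGroup.mk) := by
    obtain ⟨α, β, hα, hβ, rfl⟩ := hfg
    refine ⟨α ∘ QuotientGroup.mk, β ∘ QuotientGroup.mk,
      Cfsg.Agent.Lib.Char.Basic.isCharacter_comp_hom hα (QuotientGroup.mk' Z),
      Cfsg.Agent.Lib.Char.Basic.isCharacter_comp_hom hβ (QuotientGroup.mk' Z), ?_⟩
    rfl
  obtain ⟨n, hn⟩ := exists_int_classInner hg1 (isGeneralized_star (p := p) hμ)
  refine ⟨n, ?_⟩
  rw [← hn]
  -- the function on the quotient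
  let out : H ⧸ Z → H := fun c => (QuotientGroup.mk_surjective c).choose
  have hout : ∀ c : H ⧸ Z, ((out c : H) : H ⧸ Z) = c := fun c => (QuotientGroup.mk_surjective c).choose_spec
  let G' : H ⧸ Z → ℂ := fun c => star p μ (out c)
  have hG' : ∀ x : H, star p μ x = G' (x : H ⧸ Z) := by
    intro x
    simp only [G', star]
    obtain ⟨z, hz⟩ : ∃ z ∈ Z, out (x : H ⧸ Z) = x * z := by
      have h2 := QuotientGroup.eq.1 (hout (x : H ⧸ Z)).symm
      exact ⟨_, h2, by group⟩
    rw [hz.2, rp_mul_central Z hZ hZp hz.1]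
  have hc : (Nat.card H : ℂ) ≠ 0 := Nat.cast_ne_zero.mpr Nat.card_pos.ne'
  have h1 := sum_regular_eq Z hZp (hC_of_central (p := p) Z hZ) (fun c => f c * conj (G' c)) (fun c hc => by
    simp only [hf c hc, zero_mul])
  have h2 : ∑ x : H, (f ∘ QuotientGroup.mk) x * conj (star p μ x) =
      (Nat.card Z : ℂ) * ∑ c : H ⧸ Z, f c * conj (G' c) := by
    rw [← Cfsg.Agent.Lib.Char.Perm.sum_mk_eq Z (fun c => f c * conj (G' c))]
    refine Finset.sum_congr rfl fun x _ => ?_
    simp only [Function.comp_apply, hG']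
  rw [classInner, classInner, h2, ← h1]
  congr 1
  rw [Finset.mul_sum]
  refine Finset.sum_congr rfl fun g _ => ?_
  simp only [lf]
  by_cases hg : p ∣ orderOf g
  · rw [reg_of_dvd _ hg, if_pos hg]
    simp
  · rw [reg_of_not_dvd _ hg, if_neg hg]
    have h3 : G' (g : H ⧸ Z) = μ g := by
      rw [← hG', star, rp_of_regular hg]
    rw [h3]
    simp only [Function.comp_apply]
    ring

end Lift

end Cfsg.Agent.Lib.Blocks.AbLat
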