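/-
Major subsections: counting the characters of a block with a design of functions on the centralizer.
-/
import Mathlib
import Cfsg.Agent.Lib.Blocks.MajorLattice

set_option autoImplicit false
set_option linter.style.haveILetI false

namespace Cfsg.Agent.Lib.Blocks.AbLat

open Cfsg Cfsg.Agent.Lib.Blocks.Local Cfsg.Agent.Lib.Blocks.Central Cfsg.Agent.Lib.Blocks.Osima
  Cfsg.Agent.Lib.Blocks.Regular Cfsg.Agent.Lib.Blocks.Cartan Cfsg.Agent.Lib.Blocks.Sections
  Cfsg.Agent.Lib.Blocks.BlockCount Cfsg.Agent.Lib.Blocks.HeightZero Cfsg.Agent.Lib.Blocks.MajorSub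
  Cfsg.Agent.Lib.Blocks.MajorSub2 Cfsg.Agent.Lib.Blocks.MajorSub3 Cfsg.Agent.Lib.Blocks.MajorNum
  Cfsg.Agent.Lib.Blocks.CycloSums Cfsg.Agent.Lib.Blocks.MajorLattice
open scoped ComplexConjugate

universe u

variable {G : Type u} [Group G] [Fintype G] {M : Ideal AlgInt} [hMp : M.IsPrime] {p : ℕ} [hp : Fact p.Prime]
variable {u : G} [Fintype (Cen u)] {b : Set (IrrCharacter (Cen u))}

open Classical

/-- The row of a character of `G` at a function on the centralizer. -/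
noncomputable def row (p : ℕ) (b : Set (IrrCharacter (Cen u))) (χ : IrrCharacter G) (f : Cen u → ℂ) : ℂ :=
  classInner (gg p b χ) f

lemma classInner_reg_of_vanish (μ : Cen u → ℂ) {f : Cen u → ℂ} (hf : ∀ c : Cen u, p ∣ orderOf c → f c = 0) :
    classInner (reg p μ) f = classInner μ f := by
  rw [classInner, classInner]
  congr 1
  refine Finset.sum_congr rfl fun c _ => ?_
  by_cases hc : p ∣ orderOf c
  · rw [hf c hc]
    simp
  · rw [reg_of_not_dvd _ hc]

/-- The rows are cyclotomic integers. -/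
theorem row_mem {k : ℕ} (hk : orderOf u = p ^ k) {f : Cen u → ℂ} (hf : ∀ c : Cen u, p ∣ orderOf c → f c = 0)
    (hfint : ∀ μ : IrrCharacter (Cen u), ∃ n : ℤ, classInner f (μ : Cen u → ℂ) = n) (χ : IrrCharacter G) :
    row p b χ f ∈ rootRing (p ^ (k + 1)) := by
  rw [row, gg_eq, Cfsg.Agent.Lib.Char.Ortho.classInner_sum_left]
  refine Subring.sum_mem _ fun μ _ => ?_
  rw [Cfsg.Agent.Lib.Char.Ortho.classInner_smul_left, classInner_reg_of_vanish _ hf,
    ← Cfsg.Agent.Lib.Char.Ortho.classInner_conj_symm]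
  obtain ⟨n, hn⟩ := hfint μ
  rw [hn, map_intCast]
  exact Subring.mul_mem _ (Subring.mul_mem _ (natCast_mem _ _) (nu_mem hk μ)) (intCast_mem _ _)

/-- The rows are orthonormal. -/
theorem row_sum (hM : IsPModular p M) {k : ℕ} (hk : orderOf u = p ^ k) {B : Set (IrrCharacter G)}
    (hind : IsInducedBlock M (Cen u) b B) {f : Cen u → ℂ} (hfm : f ∈ regSpan p b) :
    ∑ χ ∈ Finset.univ.filter (· ∈ B), row p b χ f * conj (row p b χ f) = classInner f f := by
  have h1 := sum_SS hM hk hind hfm hfm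
  have hp0 : ((p : ℂ) ^ blockDefect p b) ≠ 0 := pow_ne_zero _ (by exact_mod_cast hp.out.ne_zero)
  have h2 : ∀ χ : IrrCharacter G, conj (SS p b (gg p b χ) f) * SS p b (gg p b χ) f =
      ((p : ℂ) ^ blockDefect p b) ^ 2 * (row p b χ f * conj (row p b χ f)) := by
    intro χ
    simp only [SS, row, map_mul, map_pow, Complex.conj_natCast]
    ring
  simp only [h2] at h1
  rw [← Finset.mul_sum] at h1
  have h3 : ((p ^ blockDefect p b : ℕ) : ℂ) * SS p b f f = ((p : ℂ) ^ blockDefect p b) ^ 2 * classInner f f := by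
    rw [SS]
    push_cast
    ring
  rw [h3] at h1
  exact mul_left_cancel₀ (pow_ne_zero 2 hp0) h1

/-- **The count.** -/
theorem card_le_of_design (hM : IsPModular p M) {k : ℕ} (hk : orderOf u = p ^ k) {B : Set (IrrCharacter G)}
    (hind : IsInducedBlock M (Cen u) b B) {J : Type*} [Fintype J] (F : J → Cen u → ℂ) (w : J → ℝ) (N : J → ℕ)
    (hw : ∀ j, 0 ≤ w j) (hFm : ∀ j, F j ∈ regSpan p b) (hFreg : ∀ j, ∀ c : Cen u, p ∣ orderOf c → F j c = 0)
    (hFint : ∀ j, ∀ μ : IrrCharacter (Cen u), ∃ n : ℤ, classInner (F j) (μ : Cen u → ℂ) = n)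
    (hN : ∀ j, classInner (F j) (F j) = N j)
    (hpat : ∀ χ ∈ B, 1 ≤ ∑ j, if row p b χ (F j) ≠ 0 then w j else 0) :
    ((Finset.univ.filter (· ∈ B)).card : ℝ) ≤ ∑ j, w j * N j := by
  set S := Finset.univ.filter (· ∈ B) with hS
  have h1 : ∀ j, ∑ χ ∈ S, nAvg (p ^ (k + 1)) (row p b χ (F j)) = N j := by
    intro j
    have h2 := sum_nAvg_eq (n := p ^ (k + 1)) (s := S) (x := fun χ => row p b χ (F j)) (c := N j) (y := 1)
      (fun χ _ => row_mem hk (hFreg j) (hFint j) χ) (by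
        rw [row_sum hM hk hind (hFm j), hN j, mul_one])
    have h3 : aAvg (p ^ (k + 1)) (1 : ℂ) = 1 := by
      have := aAvg_natCast (n := p ^ (k + 1)) 1
      simpa using this
    rw [h3, mul_one] at h2
    exact h2
  have h2 : ∀ χ ∈ S, (1 : ℝ) ≤ ∑ j, w j * nAvg (p ^ (k + 1)) (row p b χ (F j)) := by
    intro χ hχ
    refine (hpat χ (Finset.mem_filter.mp hχ).2).trans (Finset.sum_le_sum fun j _ => ?_)
    by_cases h0 : row p b χ (F j) ≠ 0
    · rw [if_pos h0]
      have h3 := one_le_nAvg (row_mem hk (hFreg j) (hFint j) χ) h0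
      nlinarith [hw j]
    · rw [if_neg h0]
      exact mul_nonneg (hw j) (nAvg_nonneg _)
  have h3 : (S.card : ℝ) ≤ ∑ χ ∈ S, ∑ j, w j * nAvg (p ^ (k + 1)) (row p b χ (F j)) := by
    have h4 : ∑ _χ ∈ S, (1 : ℝ) ≤ ∑ χ ∈ S, ∑ j, w j * nAvg (p ^ (k + 1)) (row p b χ (F j)) :=
      Finset.sum_le_sum h2
    simpa using h4
  refine h3.trans (le_of_eq ?_)
  rw [Finset.sum_comm]
  refine Finset.sum_congr rfl fun j _ => ?_
  rw [← Finset.mul_sum, h1 j]

end Cfsg.Agent.Lib.Blocks.AbLat
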