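/-
The functions vanishing on the singular elements attached to the lattice of a block.
-/
import Mathlib
import Cfsg.Agent.Lib.Blocks.AbLat3
import Cfsg.Agent.Lib.Blocks.AbFrob2

set_option autoImplicit false
set_option linter.style.haveILetI false

namespace Cfsg.Agent.Lib.Blocks.AbLat

open Cfsg Cfsg.Agent.Lib.Blocks.Local Cfsg.Agent.Lib.Blocks.Central Cfsg.Agent.Lib.Blocks.Osima
  Cfsg.Agent.Lib.Blocks.Regular Cfsg.Agent.Lib.Blocks.BlockCount Cfsg.Agent.Lib.Blocks.Sections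
  Cfsg.Agent.Lib.Blocks.SecondMain Cfsg.Agent.Lib.Blocks.Cartan
open Cfsg.Agent.Lib.Char.Virtual
open scoped ComplexConjugate

universe u

section Vanish

variable {Q : Type u} [Group Q] [Fintype Q] {M : Ideal AlgInt} [hMp : M.IsPrime] {p : ℕ} [hp : Fact p.Prime]

open Classical

/-- The data of the lattice of a block. -/
structure LatData (p : ℕ) (S₀ : Set (IrrCharacter Q)) (X : Finset (IrrCharacter Q)) (q : ℤ)
    (a : IrrCharacter Q → ℤ) (ω : Q → ℂ) : Prop where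
  hX : ∀ χ ∈ X, χ ∈ S₀
  hcard : X.card = blockRank p S₀
  hω : ∀ χ ∈ S₀, χ ∉ X → ∀ x : Q, ¬ p ∣ orderOf x → (χ : Q → ℂ) x = ω x
  hq : q ≠ 0
  ha : ∀ χ ∈ X, a χ ≠ 0
  hrel : ∀ x : Q, ¬ p ∣ orderOf x → ∑ χ ∈ X, (a χ : ℂ) * (χ : Q → ℂ) x + (q : ℂ) * ω x = 0

variable {S₀ : Set (IrrCharacter Q)} {X : Finset (IrrCharacter Q)} {q : ℤ} {a : IrrCharacter Q → ℤ} {ω : Q → ℂ}

/-- The non-exceptional characters form a basis on the `p`-regular elements. -/
theorem LatData.linearIndependent (D : LatData p S₀ X q a ω) :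
    LinearIndependent ℂ (fun χ : X => reg p ((χ : IrrCharacter Q) : Q → ℂ)) := by
  have hq0 : (q : ℂ) ≠ 0 := by exact_mod_cast D.hq
  rw [linearIndependent_iff_card_eq_finrank_span, Fintype.card_coe, D.hcard, blockRank_eq]
  have hspan : Submodule.span ℂ (Set.range fun χ : X => reg p ((χ : IrrCharacter Q) : Q → ℂ)) = regSpan p S₀ := by
    apply le_antisymm
    · rw [Submodule.span_le]
      rintro _ ⟨χ, rfl⟩
      refine Submodule.subset_span ⟨χ, D.hX χ χ.2, ?_⟩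
      exact pRegularPart_eq_reg _ _
    · rw [regSpan, Submodule.span_le]
      rintro _ ⟨χ, hχ, rfl⟩
      show pRegularPart p (χ : Q → ℂ) ∈ _
      rw [pRegularPart_eq_reg]
      by_cases hχX : χ ∈ X
      · exact Submodule.subset_span ⟨⟨χ, hχX⟩, rfl⟩
      · have h1 : reg p (χ : Q → ℂ) = (-(q : ℂ)⁻¹) • ∑ ψ : X, (a ψ : ℂ) • reg p ((ψ : IrrCharacter Q) : Q → ℂ) := by
          funext x
          by_cases hx : p ∣ orderOf x
          · simp [reg_of_dvd _ hx]
          · have h2 := D.hrel x hx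
            rw [reg_of_not_dvd _ hx, D.hω χ hχ hχX x hx]
            simp only [Pi.smul_apply, Finset.sum_apply, smul_eq_mul, reg_of_not_dvd _ hx]
            rw [Finset.sum_coe_sort X (fun ψ => (a ψ : ℂ) * (ψ : Q → ℂ) x)]
            field_simp
            linear_combination h2
        rw [h1]
        refine Submodule.smul_mem _ _ (Submodule.sum_mem _ fun ψ _ => Submodule.smul_mem _ _ ?_)
        exact Submodule.subset_span ⟨ψ, rfl⟩
  rw [Set.finrank, hspan]

/-- The kernel of the regular parts. -/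
theorem LatData.kernel (D : LatData p S₀ X q a ω) {r : IrrCharacter Q → ℂ}
    (hr : ∀ x : Q, ¬ p ∣ orderOf x → ∑ χ ∈ Finset.univ.filter (· ∈ S₀), r χ * (χ : Q → ℂ) x = 0) {i : IrrCharacter Q}
    (hi : i ∈ X) : (q : ℂ) * r i = (a i : ℂ) * ∑ s ∈ (Finset.univ.filter (· ∈ S₀)) \ X, r s := by
  set S := Finset.univ.filter (· ∈ S₀) with hS
  set ρ := ∑ s ∈ S \ X, r s with hρ
  have hXS : X ⊆ S := fun χ hχ => Finset.mem_filter.mpr ⟨Finset.mem_univ _, D.hX χ hχ⟩
  have h1 : ∑ χ : X, ((q : ℂ) * r χ - ρ * (a χ : ℂ)) • reg p ((χ : IrrCharacter Q) : Q → ℂ) = 0 := by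
    funext x
    by_cases hx : p ∣ orderOf x
    · simp [reg_of_dvd _ hx]
    · simp only [Finset.sum_apply, Pi.smul_apply, smul_eq_mul, reg_of_not_dvd _ hx, Pi.zero_apply]
      rw [Finset.sum_coe_sort X (fun ψ => ((q : ℂ) * r ψ - ρ * (a ψ : ℂ)) * (ψ : Q → ℂ) x)]
      have h2 := hr x hx
      rw [← Finset.sum_sdiff hXS] at h2
      have h3 : ∑ χ ∈ S \ X, r χ * (χ : Q → ℂ) x = ρ * ω x := by
        rw [hρ, Finset.sum_mul]
        refine Finset.sum_congr rfl fun s hs => ?_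
        obtain ⟨hs1, hs2⟩ := Finset.mem_sdiff.mp hs
        rw [D.hω s (Finset.mem_filter.mp hs1).2 hs2 x hx]
      rw [h3] at h2
      have h4 := D.hrel x hx
      have h5 : ∑ ψ ∈ X, ((q : ℂ) * r ψ - ρ * (a ψ : ℂ)) * (ψ : Q → ℂ) x =
          (q : ℂ) * ∑ ψ ∈ X, r ψ * (ψ : Q → ℂ) x - ρ * ∑ ψ ∈ X, (a ψ : ℂ) * (ψ : Q → ℂ) x := by
        rw [Finset.mul_sum, Finset.mul_sum, ← Finset.sum_sub_distrib]
        refine Finset.sum_congr rfl fun ψ _ => ?_
        ring
      rw [h5]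
      linear_combination (q : ℂ) * h2 - ρ * h4
  have h2 := (Fintype.linearIndependent_iff.mp D.linearIndependent) _ h1 ⟨i, hi⟩
  simp only at h2
  rw [hρ] at h2 ⊢
  linear_combination h2

/-- The values at the singular elements. -/
theorem LatData.singular (hM : IsPModular p M) (hB : IsPBlock M S₀) (D : LatData p S₀ X q a ω) {y : Q}
    (hy : p ∣ orderOf y) {i : IrrCharacter Q} (hi : i ∈ X) :
    (q : ℂ) * (i : Q → ℂ) y = (a i : ℂ) * ∑ s ∈ (Finset.univ.filter (· ∈ S₀)) \ X, (s : Q → ℂ) y := by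
  refine D.kernel (r := fun χ => (χ : Q → ℂ) y) (fun x hx => ?_) hi
  obtain ⟨z, hz⟩ := exists_isPPart p y⁻¹
  have hz1 : z ≠ 1 := by
    rintro rfl
    obtain ⟨y', hy', -, -, hy'r⟩ := hz
    rw [one_mul] at hy'
    rw [hy', orderOf_inv] at hy'r
    exact hy'r hy
  have hnc : ¬ IsConj (1 : Q) z := fun h => hz1 (isConj_one_right.mp h)
  have h2 := block_orthogonality hM (Cfsg.Agent.Lib.Blocks.AbFrob.isPPart_one_of_reg hx) hz hnc hB
  rw [Osima.finsum_mem_eq_sum_filter, inv_inv] at h2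
  rw [← h2]
  exact Finset.sum_congr rfl fun χ _ => mul_comm _ _

end Vanish

end Cfsg.Agent.Lib.Blocks.AbLat
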