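/-
Major subsections whose quotient block has a lattice: the design and the bound.
-/
import Mathlib
import Cfsg.Agent.Lib.Blocks.AbLat4
import Cfsg.Agent.Lib.Blocks.AbLat5

set_option autoImplicit false
set_option linter.style.haveILetI false

namespace Cfsg.Agent.Lib.Blocks.AbLat

open Cfsg Cfsg.Agent.Lib.Blocks.Local Cfsg.Agent.Lib.Blocks.Central Cfsg.Agent.Lib.Blocks.Osima
  Cfsg.Agent.Lib.Blocks.Regular Cfsg.Agent.Lib.Blocks.Cartan Cfsg.Agent.Lib.Blocks.Sections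
  Cfsg.Agent.Lib.Blocks.BlockCount Cfsg.Agent.Lib.Blocks.HeightZero Cfsg.Agent.Lib.Blocks.MajorSub
  Cfsg.Agent.Lib.Blocks.MajorSub2 Cfsg.Agent.Lib.Blocks.MajorSub3 Cfsg.Agent.Lib.Blocks.MajorNum
  Cfsg.Agent.Lib.Blocks.CycloSums Cfsg.Agent.Lib.Blocks.MajorLattice Cfsg.Agent.Lib.Blocks.CentralQuot
open Cfsg.Agent.Lib.Char.Virtual
open scoped ComplexConjugate

universe u

section Comb

variable {Q : Type u} [Group Q] [Fintype Q]

/-- An integer combination of the irreducible characters. -/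
noncomputable def zf (z : IrrCharacter Q → ℤ) : Q → ℂ := ∑ χ : IrrCharacter Q, (z χ : ℂ) • (χ : Q → ℂ)

lemma zf_apply (z : IrrCharacter Q → ℤ) (y : Q) : zf z y = ∑ χ : IrrCharacter Q, (z χ : ℂ) * (χ : Q → ℂ) y := by
  rw [zf, Finset.sum_apply]
  rfl

lemma isGeneralized_zf (z : IrrCharacter Q → ℤ) : IsGeneralizedCharacter Q (zf z) :=
  isGeneralized_finset_sum _ fun χ _ => isGeneralized_intCast_smul (isGeneralized_of_isIrr χ.2) _

lemma classInner_zf_irr (z : IrrCharacter Q → ℤ) (ψ : IrrCharacter Q) : classInner (zf z) (ψ : Q → ℂ) = z ψ :=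
  Cfsg.Agent.Lib.Char.Ortho.classInner_sum_irr (fun χ => (z χ : ℂ)) ψ

lemma classInner_zf_self (z : IrrCharacter Q → ℤ) :
    classInner (zf z) (zf z) = ((∑ χ : IrrCharacter Q, z χ ^ 2 : ℤ) : ℂ) := by
  conv_lhs => arg 2; rw [zf]
  rw [Cfsg.Agent.Lib.Char.Ortho.classInner_sum_right]
  push_cast
  refine Finset.sum_congr rfl fun χ _ => ?_
  rw [Cfsg.Agent.Lib.Char.Ortho.classInner_smul_right, classInner_zf_irr, map_intCast]
  ring

/-- The norm as a natural number. -/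
noncomputable def Nz (z : IrrCharacter Q → ℤ) : ℕ := (∑ χ : IrrCharacter Q, z χ ^ 2).toNat

lemma Nz_cast (z : IrrCharacter Q → ℤ) : ((Nz z : ℕ) : ℤ) = ∑ χ : IrrCharacter Q, z χ ^ 2 :=
  Int.toNat_of_nonneg (Finset.sum_nonneg fun _ _ => sq_nonneg _)

end Comb

section Lift

variable {H : Type u} [Group H] [Fintype H] {p : ℕ} [hp : Fact p.Prime] (Z : Subgroup H) [hZn : Z.Normal]
  [Fintype (H ⧸ Z)]

lemma lf_eq_sum (z : IrrCharacter (H ⧸ Z) → ℤ) :
    lf Z p (zf z) = (Nat.card Z : ℂ) • ∑ χ : IrrCharacter (H ⧸ Z), (z χ : ℂ) • reg p ((χ : H ⧸ Z → ℂ) ∘ QuotientGroup.mk) := by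
  funext y
  simp only [lf, Pi.smul_apply, smul_eq_mul, Finset.sum_apply]
  congr 1
  by_cases hy : p ∣ orderOf y
  · simp [reg_of_dvd _ hy]
  · simp only [reg_of_not_dvd _ hy, Function.comp_apply, zf_apply]

lemma lf_mem_regSpan {b : Set (IrrCharacter H)} {z : IrrCharacter (H ⧸ Z) → ℤ} (hz : ∀ χ, z χ ≠ 0 → χ ∈ quotBlock Z b) :
    lf Z p (zf z) ∈ regSpan p b := by
  rw [lf_eq_sum]
  refine Submodule.smul_mem _ _ (Submodule.sum_mem _ fun χ _ => ?_)
  by_cases h0 : z χ = 0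
  · rw [h0]
    simp
  · refine Submodule.smul_mem _ _ (Submodule.subset_span ⟨infl Z χ, hz χ h0, ?_⟩)
    show pRegularPart p ((infl Z χ : IrrCharacter H) : H → ℂ) = _
    rw [pRegularPart_eq_reg]
    rfl

/-- The regular parts of the characters of a block are combinations of those of the quotient block. -/
theorem regSpan_le_span {M : Ideal AlgInt} [hMp : M.IsPrime] (hM : IsPModular p M)
    (hZ : ∀ z ∈ Z, ∀ g : H, g * z = z * g) (hZp : IsPGroup p Z) {b : Set (IrrCharacter H)} (hb : IsPBlock M b)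
    {X : Finset (IrrCharacter (H ⧸ Z))} {q : ℤ} {a : IrrCharacter (H ⧸ Z) → ℤ} {ω : H ⧸ Z → ℂ}
    (D : LatData p (quotBlock Z b) X q a ω) :
    regSpan p b ≤ Submodule.span ℂ (Set.range fun k : X => reg p (((k : IrrCharacter (H ⧸ Z)) : H ⧸ Z → ℂ) ∘ QuotientGroup.mk)) := by
  classical
  letI : Fintype Z := Fintype.ofFinite _
  refine (regSpan_le hM Z hZ hZp hb).trans ?_
  rw [regSpan, Submodule.span_le]
  rintro _ ⟨η, ⟨hη, hk⟩, rfl⟩
  obtain ⟨η₁, hη₁⟩ := Cfsg.Agent.Lib.Blocks.Kernel.exists_irr_of_kernel Z η.2 hk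
  have hη₀ : η = infl Z η₁ := Subtype.ext hη₁
  have hq0 : (q : ℂ) ≠ 0 := by exact_mod_cast D.hq
  have hη₁b : η₁ ∈ quotBlock Z b := by
    show infl Z η₁ ∈ b
    rw [← hη₀]
    exact hη
  show pRegularPart p (η : H → ℂ) ∈ _
  rw [pRegularPart_eq_reg, hη₀]
  show reg p ((η₁ : H ⧸ Z → ℂ) ∘ QuotientGroup.mk) ∈ _
  by_cases hX : η₁ ∈ X
  · exact Submodule.subset_span ⟨⟨η₁, hX⟩, rfl⟩
  · have h1 : reg p ((η₁ : H ⧸ Z → ℂ) ∘ QuotientGroup.mk) =
        (-(q : ℂ)⁻¹) • ∑ k : X, (a k : ℂ) • reg p (((k : IrrCharacter (H ⧸ Z)) : H ⧸ Z → ℂ) ∘ QuotientGroup.mk) := by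
      funext y
      by_cases hy : p ∣ orderOf y
      · simp [reg_of_dvd _ hy]
      · have hy' : ¬ p ∣ orderOf (y : H ⧸ Z) := fun h => hy (h.trans (orderOf_map_dvd (QuotientGroup.mk' Z) y))
        have h2 := D.hrel _ hy'
        simp only [Pi.smul_apply, Finset.sum_apply, smul_eq_mul, reg_of_not_dvd _ hy, Function.comp_apply]
        rw [D.hω η₁ hη₁b hX _ hy', Finset.sum_coe_sort X (fun ψ => (a ψ : ℂ) * (ψ : H ⧸ Z → ℂ) y)]
        field_simp
        linear_combination h2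
    rw [h1]
    refine Submodule.smul_mem _ _ (Submodule.sum_mem _ fun ψ _ => Submodule.smul_mem _ _ ?_)
    exact Submodule.subset_span ⟨ψ, rfl⟩

end Lift

section Main

variable {G : Type u} [Group G] [Fintype G] {M : Ideal AlgInt} [hMp : M.IsPrime] {p : ℕ} [hp : Fact p.Prime]
variable {u : G} [Fintype (Cen u)] {b : Set (IrrCharacter (Cen u))}

open Classical

/-- The row of a lift in terms of the coordinates. -/
theorem row_lf (Z : Subgroup (Cen u)) [hZn : Z.Normal] [Fintype (Cen u ⧸ Z)] (hZ : ∀ z ∈ Z, ∀ g : Cen u, g * z = z * g)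
    (hZp : IsPGroup p Z) {X : Finset (IrrCharacter (Cen u ⧸ Z))} {χ : IrrCharacter G} {g : X → ℂ}
    (hg : ∑ k : X, g k • reg p (((k : IrrCharacter (Cen u ⧸ Z)) : Cen u ⧸ Z → ℂ) ∘ QuotientGroup.mk) = gg p b χ)
    {z : IrrCharacter (Cen u ⧸ Z) → ℤ} (hf : ∀ c : Cen u ⧸ Z, p ∣ orderOf c → zf z c = 0) :
    row p b χ (lf Z p (zf z)) = ∑ k : X, g k * (z k : ℂ) := by
  rw [row, ← hg, Cfsg.Agent.Lib.Char.Ortho.classInner_sum_left]
  refine Finset.sum_congr rfl fun k _ => ?_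
  rw [Cfsg.Agent.Lib.Char.Ortho.classInner_smul_left, ← Cfsg.Agent.Lib.Char.Ortho.classInner_conj_symm,
    classInner_lf_reg Z hZ hZp hf, classInner_zf_irr, map_intCast]

/-- The arithmetic of the design. -/
lemma design_pattern {ι : Type*} [Fintype ι] (g a : ι → ℂ) (q : ℂ) (hq : q ≠ 0) (ha : ∀ i, a i ≠ 0) {i₀ : ι} (hi₀ : g i₀ ≠ 0) :
    (1 : ℝ) ≤ ∑ i, (if q * g i ≠ 0 then ((Fintype.card ι : ℝ))⁻¹ else 0) +
      ∑ x : ι × ι, (if a x.2 * g x.1 - a x.1 * g x.2 ≠ 0 then (2 * (Fintype.card ι : ℝ))⁻¹ else 0) := by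
  set l : ℝ := ((Fintype.card ι : ℕ) : ℝ) with hl
  have hl0 : 0 < l := by
    rw [hl]
    exact_mod_cast Fintype.card_pos_iff.mpr ⟨i₀⟩
  set T := Finset.univ.filter (fun i => g i = 0) with hT
  have hi₀T : i₀ ∉ T := by
    simp [hT, hi₀]
  have h1 : ∑ i, (if q * g i ≠ 0 then l⁻¹ else 0) = ((Finset.univ.filter (fun i => g i ≠ 0)).card : ℝ) * l⁻¹ := by
    rw [Finset.card_filter]
    push_cast
    rw [Finset.sum_mul]
    refine Finset.sum_congr rfl fun i _ => ?_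
    by_cases h : g i = 0
    · simp [h]
    · simp [h, hq]
  have h2 : (T.card : ℝ) + ((Finset.univ.filter (fun i => g i ≠ 0)).card : ℝ) = l := by
    have := Finset.card_filter_add_card_filter_not (s := (Finset.univ : Finset ι)) (fun i => g i = 0)
    rw [Finset.card_univ] at this
    rw [hl, ← this, hT]
    push_cast
    rfl
  -- the pairs
  have h3 : (2 * (T.card : ℝ)) * (2 * l)⁻¹ ≤
      ∑ x : ι × ι, (if a x.2 * g x.1 - a x.1 * g x.2 ≠ 0 then (2 * l)⁻¹ else 0) := by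
    rw [Fintype.sum_prod_type]
    have hw : (0 : ℝ) ≤ (2 * l)⁻¹ := by positivity
    have hnn : ∀ i j : ι, (0 : ℝ) ≤ (if a j * g i - a i * g j ≠ 0 then (2 * l)⁻¹ else 0) := by
      intro i j
      split_ifs
      · exact hw
      · exact le_rfl
    have hnn' : ∀ i : ι, (0 : ℝ) ≤ ∑ j, (if a j * g i - a i * g j ≠ 0 then (2 * l)⁻¹ else 0) :=
      fun i => Finset.sum_nonneg fun j _ => hnn i j
    have h4 : ∀ i ∈ T, (2 * l)⁻¹ ≤ ∑ j, (if a j * g i - a i * g j ≠ 0 then (2 * l)⁻¹ else 0) := by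
      intro i hi
      have hgi : g i = 0 := (Finset.mem_filter.mp hi).2
      have h5 : (if a i₀ * g i - a i * g i₀ ≠ 0 then (2 * l)⁻¹ else 0) = (2 * l)⁻¹ := by
        rw [if_pos]
        rw [hgi, mul_zero, zero_sub]
        exact neg_ne_zero.mpr (mul_ne_zero (ha i) hi₀)
      calc (2 * l)⁻¹ = _ := h5.symm
        _ ≤ _ := Finset.single_le_sum (f := fun j => (if a j * g i - a i * g j ≠ 0 then (2 * l)⁻¹ else 0))
            (fun j _ => hnn i j) (Finset.mem_univ i₀)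
    have h6 : (T.card : ℝ) * (2 * l)⁻¹ ≤ ∑ j, (if a j * g i₀ - a i₀ * g j ≠ 0 then (2 * l)⁻¹ else 0) := by
      have h7 : ∑ j ∈ T, (if a j * g i₀ - a i₀ * g j ≠ 0 then (2 * l)⁻¹ else 0) = (T.card : ℝ) * (2 * l)⁻¹ := by
        rw [Finset.card_eq_sum_ones]
        push_cast
        rw [Finset.sum_mul]
        refine Finset.sum_congr rfl fun j hj => ?_
        have hgj : g j = 0 := (Finset.mem_filter.mp hj).2
        rw [if_pos]
        · ring
        · rw [hgj, mul_zero, sub_zero]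
          exact mul_ne_zero (ha j) hi₀
      rw [← h7]
      exact Finset.sum_le_sum_of_subset_of_nonneg (Finset.subset_univ _) (fun j _ _ => hnn i₀ j)
    have h8 : (T.card : ℝ) * (2 * l)⁻¹ ≤ ∑ i ∈ T, ∑ j, (if a j * g i - a i * g j ≠ 0 then (2 * l)⁻¹ else 0) := by
      have h9 : ∑ _i ∈ T, (2 * l)⁻¹ ≤ ∑ i ∈ T, ∑ j, (if a j * g i - a i * g j ≠ 0 then (2 * l)⁻¹ else 0) :=
        Finset.sum_le_sum h4
      simpa using h9
    have h10 : ∑ i ∈ T, ∑ j, (if a j * g i - a i * g j ≠ 0 then (2 * l)⁻¹ else 0) +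
        ∑ j, (if a j * g i₀ - a i₀ * g j ≠ 0 then (2 * l)⁻¹ else 0) ≤
        ∑ i, ∑ j, (if a j * g i - a i * g j ≠ 0 then (2 * l)⁻¹ else 0) := by
      rw [add_comm, ← Finset.sum_insert (f := fun i => ∑ j, (if a j * g i - a i * g j ≠ 0 then (2 * l)⁻¹ else 0)) hi₀T]
      exact Finset.sum_le_sum_of_subset_of_nonneg (Finset.subset_univ _) (fun i _ _ => hnn' i)
    calc (2 * (T.card : ℝ)) * (2 * l)⁻¹ = (T.card : ℝ) * (2 * l)⁻¹ + (T.card : ℝ) * (2 * l)⁻¹ := by ring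
      _ ≤ _ := by linarith
  rw [h1]
  have h11 : (2 * (T.card : ℝ)) * (2 * l)⁻¹ = (T.card : ℝ) * l⁻¹ := by
    field_simp
  rw [h11] at h3
  have h12 : (1 : ℝ) = (T.card : ℝ) * l⁻¹ + ((Finset.univ.filter (fun i => g i ≠ 0)).card : ℝ) * l⁻¹ := by
    rw [← add_mul, h2]
    field_simp
  linarith

end Main

end Cfsg.Agent.Lib.Blocks.AbLat
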