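/-
Major subsections whose quotient block has a lattice: the bound.
-/
import Mathlib
import Cfsg.Agent.Lib.Blocks.AbLat6

set_option autoImplicit false
set_option linter.style.haveILetI false

namespace Cfsg.Agent.Lib.Blocks.AbLat

open Cfsg Cfsg.Agent.Lib.Blocks.Local Cfsg.Agent.Lib.Blocks.Central Cfsg.Agent.Lib.Blocks.Osima
  Cfsg.Agent.Lib.Blocks.Regular Cfsg.Agent.Lib.Blocks.Cartan Cfsg.Agent.Lib.Blocks.Sections
  Cfsg.Agent.Lib.Blocks.BlockCount Cfsg.Agent.Lib.Blocks.HeightZero Cfsg.Agent.Lib.Blocks.MajorSub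
  Cfsg.Agent.Lib.Blocks.MajorSub2 Cfsg.Agent.Lib.Blocks.MajorSub3 Cfsg.Agent.Lib.Blocks.MajorNum
  Cfsg.Agent.Lib.Blocks.CycloSums Cfsg.Agent.Lib.Blocks.MajorLattice Cfsg.Agent.Lib.Blocks.CentralQuot
open Cfsg.Agent.Lib.Char.Virtual
open scoped ComplexConjugate

universe u

section Design

variable {Q : Type u} [Group Q] [Fintype Q]

open Classical

/-- The combination `q χ_i - a_i ∑_Y χ_s`. -/
noncomputable def zI (Y : Finset (IrrCharacter Q)) (q : ℤ) (a : IrrCharacter Q → ℤ) (i χ : IrrCharacter Q) : ℤ :=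
  (if χ = i then q else 0) - (if χ ∈ Y then a i else 0)

/-- The combination `a_j χ_i - a_i χ_j`. -/
noncomputable def zP (a : IrrCharacter Q → ℤ) (i j χ : IrrCharacter Q) : ℤ :=
  (if χ = i then a j else 0) - (if χ = j then a i else 0)

variable {Y : Finset (IrrCharacter Q)} {q : ℤ} {a : IrrCharacter Q → ℤ}

lemma zf_zI (i : IrrCharacter Q) (y : Q) :
    zf (zI Y q a i) y = (q : ℂ) * (i : Q → ℂ) y - (a i : ℂ) * ∑ s ∈ Y, (s : Q → ℂ) y := by
  rw [zf_apply]
  simp only [zI]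
  push_cast
  simp only [sub_mul, Finset.sum_sub_distrib]
  congr 1
  · simp
  · rw [Finset.mul_sum, ← Finset.sum_filter_add_sum_filter_not (Finset.univ : Finset (IrrCharacter Q)) (· ∈ Y)]
    have h1 : (Finset.univ : Finset (IrrCharacter Q)).filter (· ∈ Y) = Y := by
      ext χ
      simp
    have h2 : ∀ χ ∈ (Finset.univ : Finset (IrrCharacter Q)).filter (fun χ => χ ∉ Y),
        (if χ ∈ Y then (a i : ℂ) else 0) * (χ : Q → ℂ) y = 0 := by
      intro χ hχ
      rw [if_neg (Finset.mem_filter.mp hχ).2, zero_mul]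
    rw [Finset.sum_eq_zero h2, add_zero, h1]
    refine Finset.sum_congr rfl fun χ hχ => ?_
    rw [if_pos hχ]

lemma zf_zP (i j : IrrCharacter Q) (y : Q) :
    zf (zP a i j) y = (a j : ℂ) * (i : Q → ℂ) y - (a i : ℂ) * (j : Q → ℂ) y := by
  rw [zf_apply]
  simp only [zP]
  push_cast
  simp only [sub_mul, Finset.sum_sub_distrib]
  congr 1 <;> simp

lemma sum_zI_sq {i : IrrCharacter Q} (hi : i ∉ Y) :
    ∑ χ : IrrCharacter Q, zI Y q a i χ ^ 2 = q ^ 2 + (Y.card : ℤ) * a i ^ 2 := by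
  have h1 : ∀ χ : IrrCharacter Q, zI Y q a i χ ^ 2 = (if χ = i then q ^ 2 else 0) + (if χ ∈ Y then a i ^ 2 else 0) := by
    intro χ
    simp only [zI]
    by_cases h : χ = i
    · subst h
      rw [if_pos rfl, if_pos rfl, if_neg hi, if_neg hi]
      ring
    · rw [if_neg h, if_neg h]
      by_cases h2 : χ ∈ Y
      · rw [if_pos h2, if_pos h2]
        ring
      · rw [if_neg h2, if_neg h2]
        ring
  simp only [h1, Finset.sum_add_distrib]
  congr 1
  · simp
  · rw [← Finset.sum_filter]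
    have h2 : (Finset.univ : Finset (IrrCharacter Q)).filter (· ∈ Y) = Y := by
      ext χ
      simp
    rw [h2, Finset.sum_const, nsmul_eq_mul]

lemma sum_zP_sq (i j : IrrCharacter Q) :
    ∑ χ : IrrCharacter Q, zP a i j χ ^ 2 = if i = j then 0 else a j ^ 2 + a i ^ 2 := by
  by_cases hij : i = j
  · subst hij
    rw [if_pos rfl]
    apply Finset.sum_eq_zero
    intro χ _
    simp [zP]
  · rw [if_neg hij]
    have h1 : ∀ χ : IrrCharacter Q, zP a i j χ ^ 2 = (if χ = i then a j ^ 2 else 0) + (if χ = j then a i ^ 2 else 0) := by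
      intro χ
      simp only [zP]
      by_cases h : χ = i
      · subst h
        rw [if_pos rfl, if_pos rfl, if_neg hij, if_neg hij]
        ring
      · rw [if_neg h, if_neg h]
        by_cases h2 : χ = j
        · rw [if_pos h2, if_pos h2]
          ring
        · rw [if_neg h2, if_neg h2]
          ring
    simp only [h1, Finset.sum_add_distrib]
    simp

end Design

section Arith

/-- The final numerics. -/
lemma design_sum {ι : Type*} [Fintype ι] (c : ι → ℝ) (hc : ∀ i, 0 ≤ c i) (Q' : ℝ) (m : ℕ) (hm : 1 ≤ m) (hl : 0 < Fintype.card ι)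
    [DecidableEq ι] :
    ∑ i, ((Fintype.card ι : ℝ))⁻¹ * (Q' + m * c i) + ∑ x : ι × ι, (2 * (Fintype.card ι : ℝ))⁻¹ * (if x.1 = x.2 then 0 else c x.2 + c x.1) ≤
      Q' + m * ∑ i, c i := by
  set l : ℝ := ((Fintype.card ι : ℕ) : ℝ) with hl'
  have hl0 : (1 : ℝ) ≤ l := by
    rw [hl']
    exact_mod_cast hl
  set A := ∑ i, c i with hA
  have hA0 : 0 ≤ A := Finset.sum_nonneg fun i _ => hc i
  have h1 : ∑ i, l⁻¹ * (Q' + m * c i) = Q' + l⁻¹ * (m * A) := by
    rw [← Finset.mul_sum, Finset.sum_add_distrib, Finset.sum_const, Finset.card_univ, nsmul_eq_mul, ← Finset.mul_sum, ← hl', ← hA]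
    field_simp
  have h2 : ∑ x : ι × ι, (2 * l)⁻¹ * (if x.1 = x.2 then 0 else c x.2 + c x.1) = (2 * l)⁻¹ * (2 * (l - 1) * A) := by
    rw [← Finset.mul_sum, Fintype.sum_prod_type]
    congr 1
    have h3 : ∀ i : ι, ∑ j, (if i = j then 0 else c j + c i) = A + l * c i - 2 * c i := by
      intro i
      have h4 : ∀ j, (if i = j then 0 else c j + c i) = (c j + c i) - (if i = j then c j + c i else 0) := by
        intro j
        split_ifs <;> ring
      simp only [h4]
      rw [Finset.sum_sub_distrib, Finset.sum_add_distrib, Finset.sum_const, Finset.card_univ, nsmul_eq_mul, Finset.sum_ite_eq]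
      simp only [Finset.mem_univ, if_true, ← hA, ← hl']
      ring
    simp only [h3]
    rw [Finset.sum_sub_distrib, Finset.sum_add_distrib, Finset.sum_const, Finset.card_univ, nsmul_eq_mul, ← Finset.mul_sum,
      ← Finset.mul_sum, ← hA, ← hl']
    ring
  rw [h1, h2]
  have h3 : (1 : ℝ) ≤ m := by exact_mod_cast hm
  have h4 : (2 * l)⁻¹ * (2 * (l - 1) * A) = l⁻¹ * ((l - 1) * A) := by
    field_simp
  rw [h4]
  have h5 : l⁻¹ * (m * A + (l - 1) * A) ≤ m * A := by
    rw [inv_mul_le_iff₀ (by linarith)]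
    nlinarith [mul_nonneg (mul_nonneg (sub_nonneg.mpr h3) (sub_nonneg.mpr hl0)) hA0]
  rw [mul_add] at h5
  linarith

end Arith

section Main

variable {G : Type u} [Group G] [Fintype G] {M : Ideal AlgInt} [hMp : M.IsPrime] {p : ℕ} [hp : Fact p.Prime]
variable {u : G} [Fintype (Cen u)] {b : Set (IrrCharacter (Cen u))}

open Classical

set_option maxHeartbeats 1000000 in
/-- **The bound for a major subsection whose quotient block has a lattice.** -/
theorem card_le_of_lat (hM : IsPModular p M) {k : ℕ} (hk : orderOf u = p ^ k) {B : Set (IrrCharacter G)}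
    (hind : IsInducedBlock M (Cen u) b B) (hd : blockDefect p b = blockDefect p B)
    (Z : Subgroup (Cen u)) [hZn : Z.Normal] [Fintype (Cen u ⧸ Z)] (hZ : ∀ z ∈ Z, ∀ g : Cen u, g * z = z * g)
    (hZp : IsPGroup p Z) (hbq : IsPBlock M (quotBlock Z b))
    {X : Finset (IrrCharacter (Cen u ⧸ Z))} {q : ℤ} {a : IrrCharacter (Cen u ⧸ Z) → ℤ} {ω : Cen u ⧸ Z → ℂ}
    (D : LatData p (quotBlock Z b) X q a ω) {m : ℕ}
    (hm : ((Finset.univ.filter (· ∈ quotBlock Z b)) \ X).card = m) (hm1 : 1 ≤ m) (hl : 0 < X.card) :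
    ((Finset.univ.filter (· ∈ B)).card : ℝ) ≤ (Nat.card Z : ℝ) * ((q : ℝ) ^ 2 + m * ∑ χ ∈ X, (a χ : ℝ) ^ 2) := by
  set Y := (Finset.univ.filter (· ∈ quotBlock Z b)) \ X with hY
  have hXY : ∀ χ ∈ X, χ ∉ Y := fun χ hχ h => (Finset.mem_sdiff.mp h).2 hχ
  have hYb : ∀ χ ∈ Y, χ ∈ quotBlock Z b := fun χ hχ => (Finset.mem_filter.mp (Finset.mem_sdiff.mp hχ).1).2
  have hq0 : (q : ℂ) ≠ 0 := by exact_mod_cast D.hq
  have hlX : 0 < Fintype.card X := by rwa [Fintype.card_coe]
  -- the family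
  let zJ : X ⊕ (X × X) → IrrCharacter (Cen u ⧸ Z) → ℤ :=
    Sum.elim (fun i => zI Y q a i) (fun x => zP a x.1 x.2)
  let F : X ⊕ (X × X) → Cen u → ℂ := fun j => lf Z p (zf (zJ j))
  let l : ℝ := ((Fintype.card X : ℕ) : ℝ)
  let w : X ⊕ (X × X) → ℝ := Sum.elim (fun _ => l⁻¹) (fun _ => (2 * l)⁻¹)
  let N : X ⊕ (X × X) → ℕ := fun j => Nat.card Z * Nz (zJ j)
  have hl0 : 0 < l := by
    show (0 : ℝ) < ((Fintype.card X : ℕ) : ℝ)
    exact_mod_cast hlX
  have hvan : ∀ j, ∀ c : Cen u ⧸ Z, p ∣ orderOf c → zf (zJ j) c = 0 := by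
    rintro (i | x) c hc
    · show zf (zI Y q a i) c = 0
      rw [zf_zI, D.singular hM hbq hc i.2, sub_self]
    · show zf (zP a x.1 x.2) c = 0
      rw [zf_zP]
      have h1 := D.singular hM hbq hc x.1.2
      have h2 := D.singular hM hbq hc x.2.2
      apply mul_left_cancel₀ hq0
      rw [mul_zero]
      linear_combination (a x.2 : ℂ) * h1 - (a x.1 : ℂ) * h2
  have hsupp : ∀ j, ∀ χ, zJ j χ ≠ 0 → χ ∈ quotBlock Z b := by
    rintro (i | x) χ h0
    · by_cases h1 : χ = i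
      · rw [h1]
        exact D.hX i i.2
      · by_cases h2 : χ ∈ Y
        · exact hYb χ h2
        · exfalso
          apply h0
          show zI Y q a i χ = 0
          simp [zI, h1, h2]
    · by_cases h1 : χ = x.1
      · rw [h1]
        exact D.hX _ x.1.2
      · by_cases h2 : χ = x.2
        · rw [h2]
          exact D.hX _ x.2.2
        · exfalso
          apply h0
          show zP a x.1 x.2 χ = 0
          simp [zP, h1, h2]
  have hpat : ∀ χ ∈ B, 1 ≤ ∑ j, if row p b χ (F j) ≠ 0 then w j else 0 := by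
    intro χ hχ
    -- coordinates
    have hgm := regSpan_le_span Z hM hZ hZp hind.1 D (gg_mem b χ)
    obtain ⟨g, hg⟩ := (Submodule.mem_span_range_iff_exists_fun ℂ).mp hgm
    obtain ⟨χ₁, hχ₁, h₁⟩ := exists_height_zero (p := p) (nonempty_of_isPBlock hind.2.1)
    have hne := XX_ne_of_height_zero hM hk hind hd hχ hχ₁ h₁
    have hg0 : ∃ i₀, g i₀ ≠ 0 := by
      by_contra hcon
      push Not at hcon
      apply hne
      have h0 : gg p b χ = 0 := by
        rw [← hg]
        simp [hcon]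
      rw [XX, h0, Cfsg.Agent.Lib.Blocks.MajorSub2.classInner_eq_sumInner, Cfsg.Agent.Lib.Blocks.SubsectionNorm.sumInner]
      simp
    obtain ⟨i₀, hi₀⟩ := hg0
    have hrow1 : ∀ i : X, row p b χ (F (Sum.inl i)) = (q : ℂ) * g i := by
      intro i
      rw [show F (Sum.inl i) = lf Z p (zf (zJ (Sum.inl i))) from rfl, row_lf Z hZ hZp hg (hvan (Sum.inl i))]
      rw [Finset.sum_eq_single i]
      · simp only [zJ, Sum.elim_inl, zI, if_true, if_neg (hXY i i.2)]
        push_cast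
        ring
      · intro k _ hk
        have h1 : (k : IrrCharacter (Cen u ⧸ Z)) ≠ i := fun h => hk (Subtype.ext h)
        simp only [zJ, Sum.elim_inl, zI, if_neg h1, if_neg (hXY k k.2)]
        simp
      · simp
    have hrow2 : ∀ x : X × X, row p b χ (F (Sum.inr x)) = (a x.2 : ℂ) * g x.1 - (a x.1 : ℂ) * g x.2 := by
      intro x
      rw [show F (Sum.inr x) = lf Z p (zf (zJ (Sum.inr x))) from rfl, row_lf Z hZ hZp hg (hvan (Sum.inr x))]
      simp only [zJ, Sum.elim_inr, zP]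
      push_cast
      simp only [mul_sub, Finset.sum_sub_distrib]
      congr 1
      · rw [Finset.sum_eq_single x.1]
        · simp only [if_true]
          ring
        · intro k _ hk
          have h1 : (k : IrrCharacter (Cen u ⧸ Z)) ≠ x.1 := fun h => hk (Subtype.ext h)
          rw [if_neg h1, mul_zero]
        · simp
      · rw [Finset.sum_eq_single x.2]
        · simp only [if_true]
          ring
        · intro k _ hk
          have h1 : (k : IrrCharacter (Cen u ⧸ Z)) ≠ x.2 := fun h => hk (Subtype.ext h)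
          rw [if_neg h1, mul_zero]
        · simp
    have h2 := design_pattern g (fun k : X => (a k : ℂ)) (q : ℂ) hq0
      (fun k => by
        have := D.ha k k.2
        exact_mod_cast this) hi₀
    rw [Fintype.sum_sum_type]
    simp only [hrow1, hrow2]
    exact h2
  have h1 := card_le_of_design hM hk hind F w N
    (by
      rintro (i | x)
      · exact inv_nonneg.mpr hl0.le
      · exact inv_nonneg.mpr (by positivity))
    (fun j => lf_mem_regSpan Z (hsupp j))
    (fun j c hc => by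
      show lf Z p _ c = 0
      rw [lf, reg_of_dvd _ hc, mul_zero])
    (fun j μ => exists_int_classInner_lf Z hZ hZp (hvan j) (isGeneralized_zf _)
      (Cfsg.Agent.Lib.Char.Basic.isCharacter_of_isIrrCharacter μ.2))
    (fun j => by
      show classInner (lf Z p (zf (zJ j))) (lf Z p (zf (zJ j))) = ((Nat.card Z * Nz (zJ j) : ℕ) : ℂ)
      rw [classInner_lf_self Z hZ hZp (hvan j), classInner_zf_self, ← Nz_cast]
      push_cast
      rfl)
    hpat
  refine h1.trans ?_
  -- the numerics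
  have hZ0 : (0 : ℝ) ≤ (Nat.card Z : ℝ) := by positivity
  have hNz : ∀ j, (N j : ℝ) = (Nat.card Z : ℝ) * ((∑ χ, zJ j χ ^ 2 : ℤ) : ℝ) := by
    intro j
    show ((Nat.card Z * Nz (zJ j) : ℕ) : ℝ) = _
    rw [← Nz_cast]
    push_cast
    rfl
  rw [Fintype.sum_sum_type]
  simp only [hNz]
  have h3 : ∀ i : X, w (Sum.inl i) * ((Nat.card Z : ℝ) * ((∑ χ, zJ (Sum.inl i) χ ^ 2 : ℤ) : ℝ)) =
      (Nat.card Z : ℝ) * (l⁻¹ * ((q : ℝ) ^ 2 + m * (a i : ℝ) ^ 2)) := by
    intro i
    have h4 : ∑ χ, zJ (Sum.inl i) χ ^ 2 = q ^ 2 + (m : ℤ) * a i ^ 2 := by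
      show ∑ χ, zI Y q a i χ ^ 2 = _
      rw [sum_zI_sq (hXY i i.2), hm]
    rw [h4]
    push_cast
    show l⁻¹ * _ = _
    ring
  have h5 : ∀ x : X × X, w (Sum.inr x) * ((Nat.card Z : ℝ) * ((∑ χ, zJ (Sum.inr x) χ ^ 2 : ℤ) : ℝ)) =
      (Nat.card Z : ℝ) * ((2 * l)⁻¹ * (if x.1 = x.2 then 0 else (a x.2 : ℝ) ^ 2 + (a x.1 : ℝ) ^ 2)) := by
    intro x
    have h4 : ∑ χ, zJ (Sum.inr x) χ ^ 2 = if (x.1 : IrrCharacter (Cen u ⧸ Z)) = x.2 then 0 else a x.2 ^ 2 + a x.1 ^ 2 := sum_zP_sq _ _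
    rw [h4]
    show (2 * l)⁻¹ * _ = _
    by_cases h6 : x.1 = x.2
    · rw [if_pos h6, if_pos (congrArg _ h6)]
      simp
    · rw [if_neg h6, if_neg (fun h => h6 (Subtype.ext h))]
      push_cast
      ring
  simp only [h3, h5]
  have e : ∑ i : X, (Nat.card Z : ℝ) * (l⁻¹ * ((q : ℝ) ^ 2 + m * (a i : ℝ) ^ 2)) +
      ∑ x : X × X, (Nat.card Z : ℝ) * ((2 * l)⁻¹ * (if x.1 = x.2 then 0 else (a x.2 : ℝ) ^ 2 + (a x.1 : ℝ) ^ 2)) =
      (Nat.card Z : ℝ) * (∑ i : X, l⁻¹ * ((q : ℝ) ^ 2 + m * (a i : ℝ) ^ 2) +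
        ∑ x : X × X, (2 * l)⁻¹ * (if x.1 = x.2 then 0 else (a x.2 : ℝ) ^ 2 + (a x.1 : ℝ) ^ 2)) := by
    rw [mul_add, Finset.mul_sum, Finset.mul_sum]
  rw [e]
  refine mul_le_mul_of_nonneg_left ?_ hZ0
  have h7 := design_sum (fun i : X => (a i : ℝ) ^ 2) (fun i => sq_nonneg _) ((q : ℝ) ^ 2) m hm1 hlX
  rw [Finset.sum_coe_sort X (fun χ => (a χ : ℝ) ^ 2)] at h7
  exact h7

end Main

end Cfsg.Agent.Lib.Blocks.AbLat
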