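/-
Broué–Puig construction: the restriction of a class function to a `p`-subgroup, cut by an idempotent.
-/
import Mathlib
import Cfsg.Agent.Lib.Blocks.BP3
import Cfsg.Agent.Lib.Char.Complete
import Cfsg.Agent.Lib.Char.Virtual

set_option autoImplicit false

namespace Cfsg.Agent.Lib.Blocks.Nilp

open Cfsg Cfsg.Agent.Lib.Blocks.Local Cfsg.Agent.Lib.Blocks.Central Cfsg.Agent.Lib.Blocks.Osima
open Cfsg.Agent.Lib.Blocks.Covering Cfsg.Agent.Lib.Blocks.BlockHom Cfsg.Agent.Lib.Blocks.Pairs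
open Cfsg.Agent.Lib.Blocks.Twisted
open Polynomial
open scoped ComplexConjugate

universe u

section Gen

/-- Integer inner products give a generalized character. -/
theorem isGeneralized_of_int_classInner {Q : Type*} [Group Q] [Fintype Q] {t : Q → ℂ}
    (ht : IsClassFunction Q t) (hint : ∀ l : IrrCharacter Q, ∃ n : ℤ, classInner t (l : Q → ℂ) = n) :
    IsGeneralizedCharacter Q t := by
  classical
  haveI : Fintype (IrrCharacter Q) := Fintype.ofFinite _
  have h1 := Cfsg.Agent.Lib.Char.Complete.eq_sum_classInner t ht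
  rw [h1]
  refine Cfsg.Agent.Lib.Char.Virtual.isGeneralized_finset_sum _ fun l _ => ?_
  obtain ⟨c, hc⟩ := hint l
  rw [hc]
  exact Cfsg.Agent.Lib.Char.Virtual.isGeneralized_intCast_smul
    (Cfsg.Agent.Lib.Char.Virtual.isGeneralized_of_isIrr l.2) c

variable {G : Type u} [Group G] [Fintype G] {M : Ideal AlgInt} [hM : M.IsPrime]
variable {p : ℕ} [hp : Fact p.Prime]

/-- Conjugation on a normal subgroup. -/
def conjEquivOfNormalizer {Q' : Subgroup G} {s : G} (hs : s ∈ Subgroup.normalizer (Q' : Set G)) :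
    ↥Q' ≃ ↥Q' where
  toFun a := ⟨s * a * s⁻¹, (Subgroup.mem_normalizer_iff.mp hs a).mp a.2⟩
  invFun a := ⟨s⁻¹ * a * s, by
    have := (Subgroup.mem_normalizer_iff.mp ((Subgroup.normalizer (Q' : Set G)).inv_mem hs) a).mp a.2
    simpa using this⟩
  left_inv a := by
    ext
    simp only
    group
  right_inv a := by
    ext
    simp only
    group

/-- The function attached to the restriction. -/
theorem sum_twTrace_cj_eq {Q' : Subgroup G} [Fintype Q'] {t : G → ℂ} (ht : IsClassFunction G t)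
    {s : G} (hs : s ∈ Subgroup.normalizer (Q' : Set G)) (j₀ : MonoidAlgebra ℂ G) (ν : Q' → ℂ)
    (hν : ∀ a : Q', ν (conjEquivOfNormalizer hs a) = ν a) :
    ∑ a : Q', twTrace t (a : G) (cj s j₀) * conj (ν a) = ∑ a : Q', twTrace t (a : G) j₀ * conj (ν a) := by
  symm
  refine Fintype.sum_equiv (conjEquivOfNormalizer hs) _ _ fun a => ?_
  rw [hν]
  congr 1
  exact (twTrace_conj ht s a j₀).symm

/-- The step of the induction: a transfer from a subgroup of index `p`. -/
theorem isGeneralized_twTrace_of_transfer (hMp : IsPModular p M) {t : G → ℂ} (hcl : IsClassFunction G t)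
    (htl : ∀ g, MemLocalRing M (t g)) {Q Q' : Subgroup G} (hQ : IsPGroup p Q) (hQ' : Q' ≤ Q)
    (hN : Q ≤ Subgroup.normalizer (Q' : Set G)) (hidx : Nat.card (PQ Q Q') = p)
    {y b : MonoidAlgebra ℂ G} (hy : IsPrimIdem M Q y) (hb : Cor M Q' y b) (ht : tQ Q Q' b = y)
    (hIH : ∀ z : MonoidAlgebra ℂ G, IsPrimIdem M Q' z →
      IsGeneralizedCharacter Q' (fun a : Q' => twTrace t (a : G) z)) :
    IsGeneralizedCharacter Q (fun a : Q => twTrace t (a : G) y) := by
  classical
  letI : Fintype Q := Fintype.ofFinite _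
  letI : Fintype Q' := Fintype.ofFinite _
  have hcl₁ : IsClassFunction Q (fun a : Q => twTrace t (a : G) y) := by
    intro a s
    have h1 := twTrace_conj hcl (s : G) a y
    rw [cj_eq_of_invBy hy.inv s.2] at h1
    simpa using h1
  apply isGeneralized_of_int_classInner hcl₁
  intro ν
  obtain ⟨J, hJ⟩ := exists_dec (M := M) Q' hy.loc (hy.inv.mono hQ') hy.idem
  obtain ⟨j₀, hj₀, hequiv⟩ := exists_equiv_of_transfer hMp hQ' hN hy hJ hb ht
  obtain ⟨m, hm⟩ := Dec.dvd_card hMp hN (by rw [hidx]) hy.inv hJ hb ht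
  set νr : Q' → ℂ := fun a => (ν : Q → ℂ) (Subgroup.inclusion hQ' a) with hνr
  have hνc : IsCharacter Q (ν : Q → ℂ) := Cfsg.Agent.Lib.Char.Basic.isCharacter_of_isIrrCharacter ν.2
  have hνrc : IsCharacter Q' νr := Cfsg.Agent.Lib.Char.Basic.isCharacter_comp_hom hνc (Subgroup.inclusion hQ')
  obtain ⟨n₁, hn₁⟩ := Cfsg.Agent.Lib.Char.Virtual.exists_int_classInner (hIH j₀ (hJ.prim j₀ hj₀))
    (Cfsg.Agent.Lib.Char.Virtual.isGeneralized_of_isCharacter hνrc)
  have hνcl : IsClassFunction Q (ν : Q → ℂ) := Cfsg.Agent.Lib.Char.Basic.isClassFunction_of_isCharacter hνc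
  have hE : ∀ j ∈ J, ∑ a : Q', twTrace t (a : G) j * conj (νr a) = ∑ a : Q', twTrace t (a : G) j₀ * conj (νr a) := by
    intro j hj
    obtain ⟨q, α, β, -, -, -, hβi, hαβ, hβα⟩ := hequiv j hj
    have h1 : ∀ a : Q', twTrace t (a : G) j = twTrace t (a : G) (cj (sg q) j₀) := by
      intro a
      rw [← hαβ, ← hβα]
      exact twTrace_mul_comm hcl _ α β (fun g => hβi g a a.2)
    simp only [h1]
    refine sum_twTrace_cj_eq hcl (hN (sg_mem q)) j₀ νr fun a => ?_
    have h2 := hνcl (Subgroup.inclusion hQ' a) ⟨sg q, sg_mem q⟩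
    exact h2
  have hvan : ∀ a : Q, a ∉ Set.range (Subgroup.inclusion hQ') → twTrace t (a : G) y * conj ((ν : Q → ℂ) a) = 0 := by
    intro a ha
    have hnot : (a : G) ∉ Q' := fun h => ha ⟨⟨a, h⟩, rfl⟩
    rw [twTrace_eq_zero_of_tQ hMp hQ hN a.2 hnot hb.loc hb.inv ht hy.idem hy.loc hy.inv htl hcl, zero_mul]
  have hsum : ∑ a : Q, twTrace t (a : G) y * conj ((ν : Q → ℂ) a) =
      ∑ a : Q', twTrace t (a : G) y * conj (νr a) := by
    symm
    exact Fintype.sum_of_injective (Subgroup.inclusion hQ') (Subgroup.inclusion_injective hQ') _ _ hvan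
      (fun a => rfl)
  have hsum2 : ∑ a : Q', twTrace t (a : G) y * conj (νr a) =
      (J.card : ℂ) * ∑ a : Q', twTrace t (a : G) j₀ * conj (νr a) := by
    have h1 : ∀ a : Q', twTrace t (a : G) y * conj (νr a) = ∑ j ∈ J, twTrace t (a : G) j * conj (νr a) := by
      intro a
      conv_lhs => rw [← hJ.sum]
      rw [twTrace_sum, Finset.sum_mul]
    simp only [h1]
    rw [Finset.sum_comm, Finset.sum_congr rfl hE, Finset.sum_const, nsmul_eq_mul]
  have hcard : Nat.card Q = Nat.card Q' * p := by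
    have h1 := Subgroup.card_mul_index (Q'.subgroupOf Q)
    have h2 : Nat.card (Q'.subgroupOf Q) = Nat.card Q' := Nat.card_congr (Subgroup.subgroupOfEquivOfLe hQ').toEquiv
    have h3 : (Q'.subgroupOf Q).index = p := hidx
    rw [h2, h3] at h1
    exact h1.symm
  refine ⟨(m : ℤ) * n₁, ?_⟩
  rw [classInner, hsum, hsum2, hcard]
  rw [classInner] at hn₁
  have hQ'0 : (Nat.card Q' : ℂ) ≠ 0 := by exact_mod_cast Nat.card_pos.ne'
  have hp0 : (p : ℂ) ≠ 0 := by exact_mod_cast hp.out.ne_zero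
  have h5 : ∑ a : Q', twTrace t (a : G) j₀ * conj (νr a) = (Nat.card Q' : ℂ) * n₁ := by
    rw [← hn₁]
    field_simp
  rw [h5, hm]
  push_cast
  field_simp

/-- **Integrality on `p`-subgroups** from the primitive idempotents with nonzero truncation. -/
theorem isGeneralized_twTrace_of_primitive (hMp : IsPModular p M) {t : G → ℂ}
    (htl : ∀ g, MemLocalRing M (t g)) (hcl : IsClassFunction G t)
    (H1 : ∀ Q : Subgroup G, IsPGroup p Q → ∀ y : MonoidAlgebra ℂ G, IsPrimIdem M Q y →
      ¬ CoeffIn (localIdeal M) (tr (Subgroup.centralizer (Q : Set G)) y) →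
      IsGeneralizedCharacter Q (fun a : Q => twTrace t (a : G) y)) :
    ∀ (n : ℕ) (Q : Subgroup G), Nat.card Q = n → IsPGroup p Q → ∀ y : MonoidAlgebra ℂ G, LocCoeff M y →
      InvBy Q y → y * y = y → IsGeneralizedCharacter Q (fun a : Q => twTrace t (a : G) y) := by
  classical
  intro n
  induction n using Nat.strong_induction_on with
  | _ n ih =>
  intro Q hn hQ y hyl hyi hyy
  obtain ⟨J, hJ⟩ := exists_dec (M := M) Q hyl hyi hyy
  have hsum : (fun a : Q => twTrace t (a : G) y) = ∑ j ∈ J, (fun a : Q => twTrace t (a : G) j) := by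
    funext a
    rw [← hJ.sum, twTrace_sum, Finset.sum_apply]
  rw [hsum]
  refine Cfsg.Agent.Lib.Char.Virtual.isGeneralized_finset_sum _ fun j hj => ?_
  have hj' := hJ.prim j hj
  by_cases h0 : CoeffIn (localIdeal M) (tr (Subgroup.centralizer (Q : Set G)) j)
  · obtain ⟨Q', hQ', hN, hidx, b, hb, ht⟩ := exists_transfer_of_tr_eq_zero hMp hQ hj' h0
    refine isGeneralized_twTrace_of_transfer hMp hcl htl hQ hQ' hN hidx hj' hb ht fun z hz => ?_
    have hlt : Nat.card Q' < n := by
      have h1 := Subgroup.card_mul_index (Q'.subgroupOf Q)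
      have h2 : Nat.card (Q'.subgroupOf Q) = Nat.card Q' := Nat.card_congr (Subgroup.subgroupOfEquivOfLe hQ').toEquiv
      have h3 : (Q'.subgroupOf Q).index = p := hidx
      rw [h2, h3, hn] at h1
      rw [← h1]
      have hpos : 0 < Nat.card Q' := Nat.card_pos
      have h4 := hp.out.one_lt
      nlinarith
    exact ih _ hlt Q' rfl (hQ.to_le hQ') z hz.loc hz.inv hz.idem
  · exact H1 Q hQ j hj' h0

end Gen

end Cfsg.Agent.Lib.Blocks.Nilp
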