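/-
Broué–Puig construction: the twisted class function attached to a function on local pairs.
-/
import Mathlib
import Cfsg.Agent.Lib.Blocks.BP4
import Cfsg.Agent.Lib.Blocks.NilpDich
import Cfsg.Agent.Lib.Blocks.Pairs10

set_option autoImplicit false

namespace Cfsg.Agent.Lib.Blocks.Nilp

open Cfsg Cfsg.Agent.Lib.Blocks.Local Cfsg.Agent.Lib.Blocks.Central Cfsg.Agent.Lib.Blocks.Osima
open Cfsg.Agent.Lib.Blocks.Covering Cfsg.Agent.Lib.Blocks.BlockHom Cfsg.Agent.Lib.Blocks.Pairs
open Cfsg.Agent.Lib.Blocks.Twisted Cfsg.Agent.Lib.Blocks.Necklace Cfsg.Agent.Lib.Blocks.Sections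
open Cfsg.Agent.Lib.Blocks.Regular Cfsg.Agent.Lib.Blocks.BlockCount
open scoped ComplexConjugate

universe u

section Part

variable {G : Type u} [Group G] [Fintype G]
variable {p : ℕ} [hp : Fact p.Prime]

/-- The `p`-part of an element. -/
noncomputable def pPt (p : ℕ) [Fact p.Prime] (g : G) : G :=
  Classical.choose (Cfsg.Agent.Lib.Blocks.SecondMain.exists_isPPart p g)

lemma pPt_spec (g : G) : IsPPart p g (pPt p g) :=
  Classical.choose_spec (Cfsg.Agent.Lib.Blocks.SecondMain.exists_isPPart p g)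

lemma pPt_eq_of_isPPart {g x : G} (h : IsPPart p g x) : pPt p g = x :=
  isPPart_unique (pPt_spec g) h

lemma pPt_mul {u c : G} (hu : ∃ k, orderOf u = p ^ k) (hc : c ∈ regC p u) : pPt p (u * c) = u := by
  obtain ⟨hc1, hc2⟩ := mem_regC.mp hc
  exact pPt_eq_of_isPPart ⟨c, rfl, (mem_centralizer_zpowers_iff.mp hc1).symm, hu, hc2⟩

lemma exists_section (g : G) : ∃ c ∈ regC p (pPt p g), g = pPt p g * c := by
  obtain ⟨y, hy, hcomm, -, hreg⟩ := pPt_spec (p := p) g
  exact ⟨y, mem_regC.mpr ⟨mem_centralizer_zpowers_iff.mpr hcomm.symm, hreg⟩, hy.symm⟩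

lemma pPt_isP (g : G) : ∃ k, orderOf (pPt p g) = p ^ k := by
  obtain ⟨y, -, -, hk, -⟩ := pPt_spec (p := p) g
  exact hk

lemma pPt_conj (x g : G) : pPt p (x * g * x⁻¹) = x * pPt p g * x⁻¹ := by
  apply pPt_eq_of_isPPart
  obtain ⟨y, hy, hcomm, hk, hreg⟩ := pPt_spec (p := p) g
  refine ⟨x * y * x⁻¹, ?_, ?_, ?_, ?_⟩
  · calc x * pPt p g * x⁻¹ * (x * y * x⁻¹) = x * (pPt p g * y) * x⁻¹ := by group
      _ = _ := by rw [hy]
  · have := hcomm.map (MulAut.conj x).toMonoidHom
    simpa using this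
  · obtain ⟨k, hk⟩ := hk
    exact ⟨k, by rw [orderOf_conj', hk]⟩
  · rwa [orderOf_conj']

lemma pPt_one : pPt p (1 : G) = 1 :=
  pPt_eq_of_isPPart ⟨1, by simp, Commute.one_left _, ⟨0, by simp⟩, by
    rw [orderOf_one]
    exact hp.out.one_lt.ne' ∘ Nat.dvd_one.mp⟩

end Part

section BlkEquiv

variable {G : Type u} [Group G] [Fintype G] {M : Ideal AlgInt} [hM : M.IsPrime]

/-- Conjugation, on the blocks. -/
noncomputable def blkConj (x : G) {K K' : Subgroup G} (h : K.map (MulAut.conj x).toMonoidHom = K') :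
    Blk M K ≃ Blk M K' :=
  Equiv.ofBijective (fun f => ⟨conjB x h f.1, isPBlock_conjB f.2⟩) (by
    constructor
    · intro f g hfg
      have h1 : conjB x h f.1 = conjB x h g.1 := congrArg Subtype.val hfg
      have h2 : cj x (EE K f.1) = cj x (EE K g.1) := by
        rw [cj_EE_conjB h, cj_EE_conjB h, h1]
      have h3 : EE K f.1 = EE K g.1 := by
        have := congrArg (cj x⁻¹) h2
        rwa [← cj_cj, ← cj_cj, inv_mul_cancel, cj_one', cj_one'] at this
      exact Subtype.ext (eq_of_EE_eq f.2 g.2 h3)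
    · intro g
      have h' : K'.map (MulAut.conj x⁻¹).toMonoidHom = K := by
        subst h
        ext y
        simp only [Subgroup.mem_map, MulEquiv.coe_toMonoidHom, MulAut.conj_apply]
        constructor
        · rintro ⟨_, ⟨z, hz, rfl⟩, rfl⟩
          convert hz using 1
          group
        · intro hy
          exact ⟨x * y * x⁻¹, ⟨y, hy, rfl⟩, by group⟩
      refine ⟨⟨conjB x⁻¹ h' g.1, isPBlock_conjB g.2⟩, Subtype.ext ?_⟩
      apply eq_of_EE_eq (isPBlock_conjB (isPBlock_conjB g.2)) g.2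
      rw [← cj_EE_conjB h, ← cj_EE_conjB h', ← cj_cj, mul_inv_cancel, cj_one'])

lemma EE_blkConj (x : G) {K K' : Subgroup G} (h : K.map (MulAut.conj x).toMonoidHom = K') (f : Blk M K) :
    EE K' (blkConj x h f).1 = cj x (EE K f.1) := by
  rw [cj_EE_conjB h]
  rfl

end BlkEquiv

section Theta

variable {G : Type u} [Group G] [Fintype G] {M : Ideal AlgInt} [hM : M.IsPrime]
variable {p : ℕ} [hp : Fact p.Prime]

variable (M p) in
/-- The twist of a class function by a function on local pairs. -/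
noncomputable def thetaL (L : G → MonoidAlgebra ℂ G → ℂ) (t : G → ℂ) (g : G) : ℂ :=
  ∑ f : Blk M (Kz (pPt p g)), L (pPt p g) (EE (Kz (pPt p g)) f.1) * twTrace t g (EE (Kz (pPt p g)) f.1)

lemma thetaL_eq (L : G → MonoidAlgebra ℂ G → ℂ) (t : G → ℂ) {u c : G} (hu : ∃ k, orderOf u = p ^ k)
    (hc : c ∈ regC p u) :
    thetaL M p L t (u * c) = ∑ f : Blk M (Kz u), L u (EE (Kz u) f.1) * twTrace t (u * c) (EE (Kz u) f.1) := by
  have key : ∀ v, v = u → ∑ f : Blk M (Kz v), L v (EE (Kz v) f.1) * twTrace t (u * c) (EE (Kz v) f.1) =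
      ∑ f : Blk M (Kz u), L u (EE (Kz u) f.1) * twTrace t (u * c) (EE (Kz u) f.1) := by
    rintro v rfl
    rfl
  exact key _ (pPt_mul hu hc)

/-- Compatibility with conjugation. -/
def LConj (L : G → MonoidAlgebra ℂ G → ℂ) : Prop :=
  ∀ x u E, L (x * u * x⁻¹) (cj x E) = L u E

lemma isClassFunction_thetaL {L : G → MonoidAlgebra ℂ G → ℂ} (hL : LConj L) {t : G → ℂ}
    (ht : IsClassFunction G t) : IsClassFunction G (thetaL M p L t) := by
  intro g x
  have key : ∀ v w : G, v = pPt p g → w = pPt p (x * g * x⁻¹) → ∀ hw : w = x * v * x⁻¹,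
      ∑ f : Blk M (Kz w), L w (EE (Kz w) f.1) * twTrace t (x * g * x⁻¹) (EE (Kz w) f.1) =
      ∑ f : Blk M (Kz v), L v (EE (Kz v) f.1) * twTrace t g (EE (Kz v) f.1) := by
    rintro v w - - rfl
    symm
    refine Fintype.sum_equiv (blkConj x (hmapK x v)) _ _ fun f => ?_
    rw [EE_blkConj, hL, twTrace_conj ht]
  exact key _ _ rfl rfl (pPt_conj x g)

/-- Local values. -/
lemma memLocalRing_thetaL {L : G → MonoidAlgebra ℂ G → ℂ} (hLl : ∀ u E, MemLocalRing M (L u E)) {t : G → ℂ}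
    (htl : ∀ g, MemLocalRing M (t g)) (g : G) : MemLocalRing M (thetaL M p L t g) := by
  refine (localRing M).sum_mem fun f _ => memLocalRing_mul (hLl _ _) ?_
  exact (localRing M).sum_mem fun h _ => memLocalRing_mul (locCoeff_EE f.2 h) (htl _)

/-- **The twist acts on sections.** -/
theorem twTrace_thetaL (hMp : IsPModular p M) {L : G → MonoidAlgebra ℂ G → ℂ} (hL : LConj L) {t : G → ℂ}
    (ht : IsClassFunction G t) {u : G} (hu : ∃ k, orderOf u = p ^ k) {f : Set (IrrCharacter (Kz u))}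
    (hf : IsPBlock M f) {c : G} (hc : c ∈ regC p u) :
    twTrace (thetaL M p L t) (u * c) (EE (Kz u) f) = L u (EE (Kz u) f) * twTrace t (u * c) (EE (Kz u) f) := by
  classical
  have hθ := isClassFunction_thetaL (M := M) (p := p) hL ht
  set X : Blk M (Kz u) → G → ℂ := fun g c =>
    twTrace (fun x => thetaL M p L t x - L u (EE (Kz u) g.1) * t x) (u * c) (EE (Kz u) g.1) with hX
  have hXe : ∀ g c, X g c = twTrace (thetaL M p L t) (u * c) (EE (Kz u) g.1) -
      L u (EE (Kz u) g.1) * twTrace t (u * c) (EE (Kz u) g.1) := fun g c => twTrace_sub_smul _ _ _ _ _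
  have hcl : ∀ g : Blk M (Kz u), IsClassFunction G (fun x => thetaL M p L t x - L u (EE (Kz u) g.1) * t x) := by
    intro g a b
    show thetaL M p L t (b * a * b⁻¹) - L u (EE (Kz u) g.1) * t (b * a * b⁻¹) = _
    rw [hθ, ht]
  have hsum : ∀ c ∈ regC p u, ∑ g, X g c = 0 := by
    intro c hc
    simp only [hXe]
    rw [Finset.sum_sub_distrib, ← sum_twTrace_EE (M := M) (Kz u) (thetaL M p L t) (u * c), thetaL_eq L t hu hc,
      sub_self]
  set F : Blk M (Kz u) := ⟨f, hf⟩ with hF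
  have h0 : ∑ c ∈ regC p u, X F c * conj (X F c) = 0 := by
    have h1 : ∑ c ∈ regC p u, ∑ g, X g c * conj (X F c) = 0 := by
      refine Finset.sum_eq_zero fun c hc => ?_
      rw [← Finset.sum_mul, hsum c hc, zero_mul]
    rw [Finset.sum_comm, Finset.sum_eq_single F] at h1
    · exact h1
    · intro g _ hg
      refine sum_regC_twTrace_EE_eq_zero hMp (hcl g) (hcl F) g.2 F.2 ?_
      intro h
      exact hg (Subtype.ext h)
    · intro h
      exact absurd (Finset.mem_univ _) h
  have h2 : ∀ c ∈ regC p u, X F c = 0 := by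
    have h3 : ∑ c ∈ regC p u, Complex.normSq (X F c) = 0 := by
      have h4 : ((∑ c ∈ regC p u, Complex.normSq (X F c) : ℝ) : ℂ) = 0 := by
        rw [← h0]
        push_cast
        refine Finset.sum_congr rfl fun c _ => ?_
        rw [Complex.mul_conj]
      exact_mod_cast h4
    rw [Finset.sum_eq_zero_iff_of_nonneg (fun c _ => Complex.normSq_nonneg _)] at h3
    intro c hc
    exact Complex.normSq_eq_zero.mp (h3 c hc)
  have h5 := h2 c hc
  rw [hXe] at h5
  exact sub_eq_zero.mp h5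

/-- **The twist on idempotents.** -/
theorem twTrace_thetaL_of_idem (hMp : IsPModular p M) {L : G → MonoidAlgebra ℂ G → ℂ} (hL : LConj L)
    (hLl : ∀ u E, MemLocalRing M (L u E)) {t : G → ℂ} (ht : IsClassFunction G t) (htl : ∀ g, MemLocalRing M (t g))
    {u : G} {k : ℕ} (hk : orderOf u = p ^ k) {f : Set (IrrCharacter (Kz u))} (hf : IsPBlock M f)
    {w : MonoidAlgebra ℂ G} (hw : w * w = w) (hwl : LocCoeff M w) (hwi : IsInv u w)
    (hco : CoeffIn (localIdeal M) (tr (Kz u) w * (1 - EE (Kz u) f))) :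
    twTrace (thetaL M p L t) u w = L u (EE (Kz u) f) * twTrace t u w := by
  have hθ := isClassFunction_thetaL (M := M) (p := p) hL ht
  have hu : u ^ (p ^ k) = 1 := by
    rw [← hk]
    exact pow_orderOf_eq_one u
  have hcl : IsClassFunction G (fun x => thetaL M p L t x - L u (EE (Kz u) f) * t x) := by
    intro a b
    show thetaL M p L t (b * a * b⁻¹) - L u (EE (Kz u) f) * t (b * a * b⁻¹) = _
    rw [hθ, ht]
  have h1 := twTrace_eq_zero_of_section hMp hu hw hwl hwi (t := fun x => thetaL M p L t x - L u (EE (Kz u) f) * t x)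
    (fun g => memLocalRing_sub (memLocalRing_thetaL hLl htl g) (memLocalRing_mul (hLl _ _) (htl g))) hcl
    (EE_mul_self _ _) (locCoeff_EE hf) (invBy_EE_self _ _)
    (fun c hc hc' => by
      rw [twTrace_sub_smul, twTrace_thetaL hMp hL ht ⟨k, hk⟩ hf (mem_regC.mpr ⟨hc, hc'⟩), sub_self]) hco
  rw [twTrace_sub_smul] at h1
  exact sub_eq_zero.mp h1

/-- The norm form is preserved. -/
theorem sum_thetaL_conj (hMp : IsPModular p M) {L : G → MonoidAlgebra ℂ G → ℂ} (hL : LConj L)
    (hLn : ∀ u E, L u E * conj (L u E) = 1) {t : G → ℂ} (ht : IsClassFunction G t) :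
    ∑ g : G, thetaL M p L t g * conj (thetaL M p L t g) = ∑ g : G, t g * conj (t g) := by
  have hθ := isClassFunction_thetaL (M := M) (p := p) hL ht
  rw [sum_eq_sum_secF (M := M) (p := p) hMp hθ hθ, sum_eq_sum_secF (M := M) (p := p) hMp ht ht]
  refine Finset.sum_congr rfl fun u hu => Finset.sum_congr rfl fun f _ => ?_
  refine Finset.sum_congr rfl fun c hc => ?_
  rw [twTrace_thetaL hMp hL ht (mem_pElts.mp hu) f.2 hc, map_mul]
  calc _ = (L u (EE (Kz u) f.1) * conj (L u (EE (Kz u) f.1))) * (twTrace t (u * c) (EE (Kz u) f.1) *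
      conj (twTrace t (u * c) (EE (Kz u) f.1))) := by ring
    _ = _ := by rw [hLn, one_mul]

/-- Multiplicativity of the twist. -/
theorem thetaL_thetaL (hMp : IsPModular p M) {L₁ L₂ : G → MonoidAlgebra ℂ G → ℂ} (hL₂ : LConj L₂) {t : G → ℂ}
    (ht : IsClassFunction G t) :
    thetaL M p L₁ (thetaL M p L₂ t) = thetaL M p (fun u E => L₁ u E * L₂ u E) t := by
  funext g
  obtain ⟨c, hc, hg⟩ := exists_section (p := p) g
  have hk := pPt_isP (p := p) g
  set u := pPt p g with hu
  rw [hg, thetaL_eq _ _ hk hc, thetaL_eq _ _ hk hc]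
  refine Finset.sum_congr rfl fun f _ => ?_
  rw [twTrace_thetaL hMp hL₂ ht hk f.2 hc, mul_assoc]

/-- The trivial twist. -/
theorem thetaL_one (t : G → ℂ) : thetaL M p (fun _ _ => 1) t = t := by
  funext g
  simp only [thetaL, one_mul]
  rw [← sum_twTrace_EE]

end Theta

end Cfsg.Agent.Lib.Blocks.Nilp
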