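/-
Broué–Puig construction: the twist by a linear character trivial on the focal subgroup.
-/
import Mathlib
import Cfsg.Agent.Lib.Blocks.BP5
import Cfsg.Agent.Lib.Blocks.NilpCore
import Cfsg.Agent.Lib.Blocks.NilpY
import Cfsg.Agent.Lib.Blocks.Pairs18
import Cfsg.Agent.Lib.Char.LinearChars

set_option autoImplicit false

namespace Cfsg.Agent.Lib.Blocks.Nilp

open Cfsg Cfsg.Agent.Lib.Blocks.Local Cfsg.Agent.Lib.Blocks.Central Cfsg.Agent.Lib.Blocks.Osima
open Cfsg.Agent.Lib.Blocks.Covering Cfsg.Agent.Lib.Blocks.BlockHom Cfsg.Agent.Lib.Blocks.Pairs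
open Cfsg.Agent.Lib.Blocks.Twisted Cfsg.Agent.Lib.Blocks.Necklace Cfsg.Agent.Lib.Blocks.Sections
open Cfsg.Agent.Lib.Blocks.Regular Cfsg.Agent.Lib.Blocks.BlockCount
open scoped ComplexConjugate

universe u

section Lam

variable {G : Type u} [Group G] [Fintype G] {M : Ideal AlgInt} [hM : M.IsPrime]
variable {p : ℕ} [hp : Fact p.Prime]
variable {P : Subgroup G} {e : Set (IrrCharacter (Subgroup.centralizer (P : Set G)))}

variable (M p e) in
open Classical in
/-- The value of a linear character of `P` on a local pair: the pair is conjugate to a pair `(v, E_v)`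
below `(P, e)`. -/
noncomputable def lamAt (lam : P →* ℂˣ) (u : G) (E : MonoidAlgebra ℂ G) : ℂˣ :=
  if h : ∃ v : P, ∃ x : G, x * (v : G) * x⁻¹ = u ∧ cj x (Ev M p P e v) = E then lam h.choose else 1

/-- The conjugate of a pair `(v, E_v)` which is again of this form is below `(P, e)`. -/
lemma subpairLE_of_cj_Ev (hMp : IsPModular p M) (hPe : IsBrauerPair p M P e) {v v₀ x : G} (hv : v ∈ P) (hv₀ : v₀ ∈ P)
    (h1 : x * v * x⁻¹ = v₀) (h2 : cj x (Ev M p P e v) = Ev M p P e v₀) :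
    SubpairLE p M ((Subgroup.zpowers v).map (MulAut.conj x).toMonoidHom)
      (conjBlock (Subgroup.zpowers v) x (eBlk M p P e v)) P e := by
  have hb : eBlk M p P e (x * v * x⁻¹) = conjB x (hmapK x v) (eBlk M p P e v) := by
    subst h1
    apply eq_of_EE_eq (isPBlock_eBlk hMp hPe hv₀) (isPBlock_conjB (isPBlock_eBlk hMp hPe hv))
    rw [← cj_EE_conjB]
    exact h2.symm
  have key : ∀ (Y : Subgroup G) (hY : (Subgroup.zpowers v).map (MulAut.conj x).toMonoidHom = Y),
      SubpairLE p M Y (conjB x (map_conj_centralizer_gen x hY) (eBlk M p P e v)) P e →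
      SubpairLE p M ((Subgroup.zpowers v).map (MulAut.conj x).toMonoidHom)
        (conjBlock (Subgroup.zpowers v) x (eBlk M p P e v)) P e := by
    rintro Y rfl h
    rwa [conjBlock_eq_conjB]
  apply key _ (zpowers_map_conj x v)
  have h3 := eBlk_spec hMp hPe (show x * v * x⁻¹ ∈ P by rwa [h1])
  rwa [hb] at h3

variable {B : Set (IrrCharacter G)} {F : FusionSystem P} {lam lam' : P →* ℂˣ}

/-- A linear character trivial on the focal subgroup is constant on fusion. -/
lemma lam_eq_of_cj (hMp : IsPModular p M) (hF : IsBlockFusionSystemOn p M B P e F)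
    (hlam : ∀ x : P, (x : G) ∈ F.focalSubgroup → lam x = 1) {v v' : P} {g : G}
    (h1 : g * (v : G) * g⁻¹ = v') (h2 : cj g (Ev M p P e v) = Ev M p P e v') : lam v = lam v' := by
  have hPe := hF.1.1.1
  have hle := eBlk_spec hMp hPe v.2
  have hle' := subpairLE_of_cj_Ev hMp hPe v.2 v'.2 h1 h2
  have hmem := conjHom_mem_of_block hF ((Subgroup.zpowers_le).mpr v.2) hle g hle'
  have hfoc : ((v⁻¹ * v' : P) : G) ∈ F.focalSubgroup := by
    apply Subgroup.subset_closure
    refine ⟨_, _, ⟨(v : G), Subgroup.mem_zpowers _⟩, hmem, ?_⟩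
    simp [conjHom, h1]
  have h3 := hlam _ hfoc
  rw [map_mul, map_inv, inv_mul_eq_one] at h3
  exact h3

lemma lamAt_eq (hMp : IsPModular p M) (hF : IsBlockFusionSystemOn p M B P e F)
    (hlam : ∀ x : P, (x : G) ∈ F.focalSubgroup → lam x = 1) {v : P} {x u : G} {E : MonoidAlgebra ℂ G}
    (h1 : x * (v : G) * x⁻¹ = u) (h2 : cj x (Ev M p P e v) = E) : lamAt M p e lam u E = lam v := by
  have hex : ∃ v : P, ∃ x : G, x * (v : G) * x⁻¹ = u ∧ cj x (Ev M p P e v) = E := ⟨v, x, h1, h2⟩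
  unfold lamAt
  rw [dif_pos hex]
  obtain ⟨x', h1', h2'⟩ := hex.choose_spec
  symm
  refine lam_eq_of_cj hMp hF hlam (g := x'⁻¹ * x) ?_ ?_
  · rw [← h1'] at h1
    calc x'⁻¹ * x * (v : G) * (x'⁻¹ * x)⁻¹ = x'⁻¹ * (x * (v : G) * x⁻¹) * x' := by group
      _ = _ := by rw [h1]; group
  · have h3 : cj (x'⁻¹ * x) (Ev M p P e v) = cj x'⁻¹ (cj x' (Ev M p P e hex.choose)) := by
      rw [cj_cj, h2, h2']
    rw [h3, ← cj_cj, inv_mul_cancel, cj_one']

lemma lamAt_of_not {u : G} {E : MonoidAlgebra ℂ G}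
    (h : ¬ ∃ v : P, ∃ x : G, x * (v : G) * x⁻¹ = u ∧ cj x (Ev M p P e v) = E) : lamAt M p e lam u E = 1 := by
  unfold lamAt
  rw [dif_neg h]

lemma lamAt_conj (hMp : IsPModular p M) (hF : IsBlockFusionSystemOn p M B P e F)
    (hlam : ∀ x : P, (x : G) ∈ F.focalSubgroup → lam x = 1) (x u : G) (E : MonoidAlgebra ℂ G) :
    lamAt M p e lam (x * u * x⁻¹) (cj x E) = lamAt M p e lam u E := by
  by_cases h : ∃ v : P, ∃ y : G, y * (v : G) * y⁻¹ = u ∧ cj y (Ev M p P e v) = E
  · obtain ⟨v, y, h1, h2⟩ := h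
    rw [lamAt_eq hMp hF hlam h1 h2, lamAt_eq hMp hF hlam (v := v) (x := x * y)]
    · rw [← h1]
      group
    · rw [cj_cj, h2]
  · rw [lamAt_of_not h, lamAt_of_not]
    rintro ⟨v, y, h1, h2⟩
    apply h
    refine ⟨v, x⁻¹ * y, ?_, ?_⟩
    · calc x⁻¹ * y * (v : G) * (x⁻¹ * y)⁻¹ = x⁻¹ * (y * (v : G) * y⁻¹) * x := by group
        _ = u := by rw [h1]; group
    · rw [cj_cj, h2, ← cj_cj, inv_mul_cancel, cj_one']

lemma lamAt_mul (hMp : IsPModular p M) (hF : IsBlockFusionSystemOn p M B P e F)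
    (hlam : ∀ x : P, (x : G) ∈ F.focalSubgroup → lam x = 1)
    (hlam' : ∀ x : P, (x : G) ∈ F.focalSubgroup → lam' x = 1) (u : G) (E : MonoidAlgebra ℂ G) :
    lamAt M p e (lam * lam') u E = lamAt M p e lam u E * lamAt M p e lam' u E := by
  by_cases h : ∃ v : P, ∃ y : G, y * (v : G) * y⁻¹ = u ∧ cj y (Ev M p P e v) = E
  · obtain ⟨v, y, h1, h2⟩ := h
    rw [lamAt_eq hMp hF hlam h1 h2, lamAt_eq hMp hF hlam' h1 h2, lamAt_eq hMp hF (fun x hx => by
      rw [MonoidHom.mul_apply, hlam x hx, hlam' x hx, one_mul]) h1 h2]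
    rfl
  · rw [lamAt_of_not h, lamAt_of_not h, lamAt_of_not h, one_mul]

lemma lamAt_one (u : G) (E : MonoidAlgebra ℂ G) : lamAt M p e (1 : P →* ℂˣ) u E = 1 := by
  unfold lamAt
  split_ifs <;> rfl

lemma lamAt_pow (lam : P →* ℂˣ) (u : G) (E : MonoidAlgebra ℂ G) : lamAt M p e lam u E ^ Nat.card P = 1 := by
  unfold lamAt
  split_ifs
  · rw [← map_pow, pow_card_eq_one', map_one]
  · exact one_pow _

variable (M p e) in
/-- The complex-valued function on local pairs. -/
noncomputable def LL (lam : P →* ℂˣ) : G → MonoidAlgebra ℂ G → ℂ := fun u E => ((lamAt M p e lam u E : ℂˣ) : ℂ)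

lemma lConj_LL (hMp : IsPModular p M) (hF : IsBlockFusionSystemOn p M B P e F)
    (hlam : ∀ x : P, (x : G) ∈ F.focalSubgroup → lam x = 1) : LConj (LL M p e lam) := fun x u E => by
  simp only [LL]
  rw [lamAt_conj hMp hF hlam]

lemma pow_LL (lam : P →* ℂˣ) (u : G) (E : MonoidAlgebra ℂ G) : LL M p e lam u E ^ Nat.card P = 1 := by
  have := congrArg (fun z : ℂˣ => (z : ℂ)) (lamAt_pow (M := M) (p := p) (e := e) lam u E)
  simpa [LL] using this

lemma memLocalRing_LL (lam : P →* ℂˣ) (u : G) (E : MonoidAlgebra ℂ G) : MemLocalRing M (LL M p e lam u E) :=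
  HeightZero.memLocalRing_of_pow_eq_one Nat.card_pos (pow_LL lam u E)

lemma LL_mul_conj (lam : P →* ℂˣ) (u : G) (E : MonoidAlgebra ℂ G) :
    LL M p e lam u E * conj (LL M p e lam u E) = 1 := by
  have h1 := Complex.norm_eq_one_of_pow_eq_one (pow_LL (M := M) (p := p) (e := e) lam u E) Nat.card_pos.ne'
  rw [Complex.mul_conj, Complex.normSq_eq_norm_sq, h1]
  simp

variable (M p e) in
/-- The twist of a class function by a linear character. -/
noncomputable def twist (lam : P →* ℂˣ) (t : G → ℂ) : G → ℂ := thetaL M p (LL M p e lam) t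

lemma isClassFunction_twist (hMp : IsPModular p M) (hF : IsBlockFusionSystemOn p M B P e F)
    (hlam : ∀ x : P, (x : G) ∈ F.focalSubgroup → lam x = 1) {t : G → ℂ} (ht : IsClassFunction G t) :
    IsClassFunction G (twist M p e lam t) :=
  isClassFunction_thetaL (lConj_LL hMp hF hlam) ht

lemma orderOf_of_isPGroup {Q : Subgroup G} (hQ : IsPGroup p Q) {a : G} (ha : a ∈ Q) :
    ∃ k, orderOf a = p ^ k := by
  obtain ⟨k, hk⟩ := hQ ⟨a, ha⟩
  have hk' : a ^ (p ^ k) = 1 := by
    have := congrArg Subtype.val hk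
    simpa using this
  obtain ⟨j, -, hj⟩ := (Nat.dvd_prime_pow hp.out).mp (orderOf_dvd_of_pow_eq_one hk')
  exact ⟨j, hj⟩

/-- The twist on a primitive idempotent attached to a local block: the block below. -/
theorem twTrace_twist_Ev (hMp : IsPModular p M) (hF : IsBlockFusionSystemOn p M B P e F)
    (hlam : ∀ x : P, (x : G) ∈ F.focalSubgroup → lam x = 1) {t : G → ℂ} (ht : IsClassFunction G t)
    (htl : ∀ g, MemLocalRing M (t g)) {Q : Subgroup G} (hQ : IsPGroup p Q) {y : MonoidAlgebra ℂ G}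
    (hy : IsPrimIdem M Q y) (hne : ¬ CoeffIn (localIdeal M) (tr (Subgroup.centralizer (Q : Set G)) y))
    {e' : Set (IrrCharacter (Subgroup.centralizer (Q : Set G)))} (hQe : IsBrauerPair p M Q e')
    (h2 : CoeffIn (localIdeal M) (tr (Subgroup.centralizer (Q : Set G)) y * (1 - EE (Subgroup.centralizer (Q : Set G)) e')))
    {a : G} (ha : a ∈ Q) :
    twTrace (twist M p e lam t) a y = LL M p e lam a (Ev M p Q e' a) * twTrace t a y := by
  obtain ⟨k, hk⟩ := orderOf_of_isPGroup hQ ha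
  exact twTrace_thetaL_of_idem hMp (lConj_LL hMp hF hlam) (memLocalRing_LL lam) ht htl hk
    (isPBlock_eBlk hMp hQe ha) hy.idem hy.loc (fun g => hy.inv g a ha)
    (coeffIn_tr_mul_one_sub_Ev hMp hQ hy hne hQe h2 ha)

/-- The conjugate of the pair below a `B`-pair. -/
theorem cj_Ev_of_subpairLE (hMp : IsPModular p M) {Q : Subgroup G} (hPe : IsBrauerPair p M P e)
    {e' : Set (IrrCharacter (Subgroup.centralizer (Q : Set G)))} (hQe : IsBrauerPair p M Q e') {g : G}
    (hg : SubpairLE p M (Q.map (MulAut.conj g).toMonoidHom) (conjBlock Q g e') P e) {a : G} (ha : a ∈ Q) :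
    g * a * g⁻¹ ∈ P ∧ cj g (Ev M p Q e' a) = Ev M p P e (g * a * g⁻¹) := by
  have hle1 := eBlk_spec hMp hQe ha
  have h3 := subpairLE_conj_gen g (zpowers_map_conj g a) rfl (hmapK g a) (map_conj_centralizer Q g) hle1
  rw [← conjBlock_eq_conjB] at h3
  have h4 := SubpairLE.trans h3 hg
  refine ⟨SubpairLE.le h4 (Subgroup.mem_zpowers _), ?_⟩
  rw [Ev, Ev, cj_EE_conjB (hmapK g a), eq_eBlk hMp hPe h4]

/-- The linear character carried by a conjugation into `P`. -/
noncomputable def lamConj (lam : P →* ℂˣ) {Q : Subgroup G} (g : G) (h : ∀ a ∈ Q, g * a * g⁻¹ ∈ P) : Q →* ℂˣ :=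
  lam.comp (MonoidHom.codRestrict ((MulAut.conj g).toMonoidHom.comp Q.subtype) P (fun a => h a a.2))

lemma lamConj_apply (lam : P →* ℂˣ) {Q : Subgroup G} (g : G) (h : ∀ a ∈ Q, g * a * g⁻¹ ∈ P) (a : Q) :
    lamConj lam g h a = lam ⟨g * (a : G) * g⁻¹, h a a.2⟩ := rfl

/-- The local value on a pair below a `B`-pair. -/
theorem LL_Ev_of_subpairLE (hMp : IsPModular p M) (hF : IsBlockFusionSystemOn p M B P e F)
    (hlam : ∀ x : P, (x : G) ∈ F.focalSubgroup → lam x = 1) {Q : Subgroup G}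
    {e' : Set (IrrCharacter (Subgroup.centralizer (Q : Set G)))} (hQe : IsBrauerPair p M Q e') {g : G}
    (hg : SubpairLE p M (Q.map (MulAut.conj g).toMonoidHom) (conjBlock Q g e') P e) {a : G} (ha : a ∈ Q)
    (hP : g * a * g⁻¹ ∈ P) : LL M p e lam a (Ev M p Q e' a) = ((lam ⟨g * a * g⁻¹, hP⟩ : ℂˣ) : ℂ) := by
  obtain ⟨-, h2⟩ := cj_Ev_of_subpairLE hMp hF.1.1.1 hQe hg ha
  simp only [LL]
  congr 1
  refine lamAt_eq hMp hF hlam (v := ⟨g * a * g⁻¹, hP⟩) (x := g⁻¹) ?_ ?_
  · simp only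
    group
  · simp only
    rw [← h2, ← cj_cj, inv_mul_cancel, cj_one']

/-- **The twisted character on a primitive idempotent.** -/
theorem isGeneralized_twist_primitive (hMp : IsPModular p M) (hF : IsBlockFusionSystemOn p M B P e F)
    (hlam : ∀ x : P, (x : G) ∈ F.focalSubgroup → lam x = 1) {χ : IrrCharacter G} (hχ : χ ∈ B) {Q : Subgroup G}
    (hQ : IsPGroup p Q) {y : MonoidAlgebra ℂ G} (hy : IsPrimIdem M Q y)
    (hne : ¬ CoeffIn (localIdeal M) (tr (Subgroup.centralizer (Q : Set G)) y)) :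
    IsGeneralizedCharacter Q (fun a : Q => twTrace (twist M p e lam (χ : G → ℂ)) (a : G) y) := by
  classical
  letI : Fintype (Subgroup.centralizer (Q : Set G)) := Fintype.ofFinite _
  have hB := hF.1.1.2.1
  have hchar : IsCharacter G (χ : G → ℂ) := Cfsg.Agent.Lib.Char.Values.IsIrrCharacter.isCharacter χ.2
  have htl : ∀ g, MemLocalRing M ((χ : G → ℂ) g) := fun g => memLocalRing_of_isIntegral (isIntegral_irr χ.2 g)
  have ht : IsClassFunction G (χ : G → ℂ) := isClassFunction_of_irr χ.2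
  obtain ⟨e', he', he1, he2⟩ := exists_block_of_primIdem hMp hQ hy hne
  have hQe : IsBrauerPair p M Q e' := ⟨hQ, he'⟩
  have hF1 := fun {a : G} (ha : a ∈ Q) => twTrace_twist_Ev (lam := lam) hMp hF hlam ht htl hQ hy hne hQe he2 ha
  -- the idempotent lies in the block, or is orthogonal to it
  set ε := blockElt B with hε
  have hεd : BrDom M Q ε := brDom_blockElt hB
  have hεε : ε * ε = ε := blockElt_mul_self B
  have hεc : ∀ a : MonoidAlgebra ℂ G, Commute a ε := fun a =>
    commute_of_suppOn (K := ⊤) (fun g hg => absurd (Subgroup.mem_top g) hg)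
      (fun g x _ => isClassFunction_blockElt B g x)
  have hεl1 : LocCoeff M (1 - ε) := locCoeff_one.sub hεd.loc
  have hεi1 : InvBy Q (1 - ε) := (invBy_one _).sub hεd.invP
  have hyy := hy.idem
  have h11 : (y * ε) * (y * ε) = y * ε := by
    calc (y * ε) * (y * ε) = y * (ε * y) * ε := by noncomm_ring
      _ = y * (y * ε) * ε := by rw [(hεc y).eq]
      _ = (y * y) * (ε * ε) := by noncomm_ring
      _ = y * ε := by rw [hyy, hεε]
  have h22 : (y * (1 - ε)) * (y * (1 - ε)) = y * (1 - ε) := by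
    rw [mul_sub, mul_one, sub_mul, mul_sub, mul_sub, h11, hyy]
    have e1 : y * (y * ε) = y * ε := by rw [← mul_assoc, hyy]
    have e2 : y * ε * y = y * ε := by
      rw [mul_assoc, ← (hεc y).eq, ← mul_assoc, hyy]
    rw [e1, e2]
    abel
  have h12 : (y * ε) * (y * (1 - ε)) = 0 := by
    have e2 : y * ε * y = y * ε := by
      rw [mul_assoc, ← (hεc y).eq, ← mul_assoc, hyy]
    rw [mul_sub, mul_one, mul_sub, e2, h11, sub_self]
  have h21 : (y * (1 - ε)) * (y * ε) = 0 := by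
    have e1 : y * (y * ε) = y * ε := by rw [← mul_assoc, hyy]
    rw [mul_sub, mul_one, sub_mul, e1, h11, sub_self]
  have hsum : y * ε + y * (1 - ε) = y := by
    rw [mul_sub, mul_one]
    abel
  have hpr := hy.prim _ _ (hy.loc.mul hεd.loc) (hy.inv.mul hεd.invP) (hy.loc.mul hεl1) (hy.inv.mul hεi1)
    h11 h22 h12 h21 hsum
  rcases hpr with h0 | h0
  · -- orthogonal to the block
    have hz : (fun a : Q => twTrace (twist M p e lam (χ : G → ℂ)) (a : G) y) = 0 := by
      funext a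
      rw [hF1 a.2]
      have h3 := twTrace_blockElt_mul B hχ (a : G) y
      rw [← (hεc y).eq, h0] at h3
      have h4 : twTrace (χ : G → ℂ) (a : G) (0 : MonoidAlgebra ℂ G) = 0 := by
        simp [twTrace]
      rw [← h3, h4, mul_zero]
      rfl
    rw [hz]
    exact Cfsg.Agent.Lib.Char.Virtual.isGeneralized_zero
  · -- in the block: a pair of the block
    rw [h0, add_zero] at hsum
    have hyε : y * ε = y := hsum
    have hpair : IsBrauerPairOf p M B Q e' := by
      rw [isBrauerPairOf_iff]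
      refine ⟨hQe, hB, bv_sub_one_of_not_coeffIn hMp hQ (brDom_blockElt hB) (blockElt_mul_self B) he' ?_⟩
      intro hcon
      apply he1
      have h4 := (tr_mul_eqI hMp hQ hy.loc hy.inv hεd.loc hεd.invP).mul_right
        (locCoeff_EE (K := Subgroup.centralizer (Q : Set G)) he')
      rw [hyε] at h4
      refine coeffIn_of_eqI h4 ?_
      rw [mul_assoc]
      exact coeffIn_loc_mul (locCoeff_tr _ hy.loc) hcon
    obtain ⟨g, hg⟩ := exists_conj_subpairLE hMp hF.1 hpair
    have hP : ∀ a ∈ Q, g * a * g⁻¹ ∈ P := fun a ha => (cj_Ev_of_subpairLE hMp hF.1.1.1 hQe hg ha).1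
    have h5 : (fun a : Q => twTrace (twist M p e lam (χ : G → ℂ)) (a : G) y) =
        (fun a : Q => ((lamConj lam g hP a : ℂˣ) : ℂ)) * (fun a : Q => twTrace (χ : G → ℂ) (a : G) y) := by
      funext a
      rw [hF1 a.2, LL_Ev_of_subpairLE hMp hF hlam hQe hg a.2 (hP a a.2)]
      rfl
    rw [h5]
    apply Cfsg.Agent.Lib.Char.Virtual.isGeneralized_of_isCharacter
    exact Cfsg.Agent.Lib.Char.Basic.isCharacter_mul
      (Cfsg.Agent.Lib.Char.Basic.isCharacter_of_isIrrCharacter (Cfsg.Agent.Lib.Char.LinearChars.isIrr_of_hom _))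
      (isCharacter_nu hchar hyy hy.inv)

/-- **The twisted character on idempotents.** -/
theorem isGeneralized_twist_idem (hMp : IsPModular p M) (hF : IsBlockFusionSystemOn p M B P e F)
    (hlam : ∀ x : P, (x : G) ∈ F.focalSubgroup → lam x = 1) {χ : IrrCharacter G} (hχ : χ ∈ B) {Q : Subgroup G}
    (hQ : IsPGroup p Q) {y : MonoidAlgebra ℂ G} (hyl : LocCoeff M y) (hyi : InvBy Q y) (hy : y * y = y) :
    IsGeneralizedCharacter Q (fun a : Q => twTrace (twist M p e lam (χ : G → ℂ)) (a : G) y) := by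
  have ht : IsClassFunction G (χ : G → ℂ) := isClassFunction_of_irr χ.2
  have htl : ∀ g, MemLocalRing M ((χ : G → ℂ) g) := fun g => memLocalRing_of_isIntegral (isIntegral_irr χ.2 g)
  exact isGeneralized_twTrace_of_primitive hMp
    (memLocalRing_thetaL (memLocalRing_LL lam) htl) (isClassFunction_twist hMp hF hlam ht)
    (fun Q' hQ' y' hy' hne' => isGeneralized_twist_primitive hMp hF hlam hχ hQ' hy' hne')
    _ Q rfl hQ y hyl hyi hy

end Lam

end Cfsg.Agent.Lib.Blocks.Nilp
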