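/-
Broué–Puig construction: a class function which is a generalized character on all elementary subgroups.
-/
import Mathlib
import Cfsg.Agent.Lib.Blocks.BP6
import Cfsg.Agent.Lib.Blocks.NilpData
import Cfsg.Agent.Lib.Char.BrauerInd

set_option autoImplicit false

namespace Cfsg.Agent.Lib.Blocks.Nilp

open Cfsg Cfsg.Agent.Lib.Blocks.Local Cfsg.Agent.Lib.Blocks.Central Cfsg.Agent.Lib.Blocks.Osima
open Cfsg.Agent.Lib.Blocks.Covering Cfsg.Agent.Lib.Blocks.BlockHom Cfsg.Agent.Lib.Blocks.Pairs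
open Cfsg.Agent.Lib.Blocks.Twisted Cfsg.Agent.Lib.Blocks.Necklace Cfsg.Agent.Lib.Blocks.Sections
open Cfsg.Agent.Lib.Blocks.Regular Cfsg.Agent.Lib.Blocks.BlockCount
open scoped ComplexConjugate

universe u

section Shift

lemma isIntegral_conj_of_isCharacter {K : Type*} [Group K] [Fintype K] {ξ : K → ℂ} (hξ : IsCharacter K ξ) (k : K) :
    IsIntegral ℤ (conj (ξ k)) := by
  rw [Cfsg.Agent.Lib.Char.Ortho.conj_of_isCharacter hξ k]
  exact Cfsg.Agent.Lib.Char.Values.IsCharacter.isIntegral hξ _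

/-- The multiplicity of an irreducible character of a subgroup in the shift of a character by a central element
is an algebraic integer. -/
theorem isIntegral_classInner_shift {K R : Type*} [Group K] [Fintype K] [Group R] [Fintype R] (j : R →* K)
    {ξ : K → ℂ} (hξ : IsCharacter K ξ) {w : K} (hw : ∀ k, w * k = k * w) (ν : IrrCharacter R) :
    IsIntegral ℤ (classInner (fun s : R => ξ (w * j s)) (ν : R → ℂ)) := by
  classical
  obtain ⟨m, hm⟩ := Cfsg.Agent.Lib.Char.Ortho.exists_nat_decomp hξ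
  choose ζ hζ hζ2 using fun i : IrrCharacter K => exists_central_shift i hw
  have h1 : (fun s : R => ξ (w * j s)) =
      ∑ i : IrrCharacter K, ((m i : ℂ) * ζ i) • (fun s : R => (i : K → ℂ) (j s)) := by
    funext s
    rw [hm]
    simp only [Finset.sum_apply, Pi.smul_apply, smul_eq_mul]
    refine Finset.sum_congr rfl fun i _ => ?_
    rw [hζ2, nsmul_eq_mul, mul_assoc]
  rw [h1, Cfsg.Agent.Lib.Char.Virtual.classInner_finset_sum_left]
  refine IsIntegral.sum _ fun i _ => ?_
  rw [Cfsg.Agent.Lib.Char.Virtual.classInner_smul_left]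
  obtain ⟨n, hn⟩ := Cfsg.Agent.Lib.Char.Ortho.exists_nat_classInner
    (Cfsg.Agent.Lib.Char.Basic.isCharacter_comp_hom
      (Cfsg.Agent.Lib.Char.Basic.isCharacter_of_isIrrCharacter i.2) j) ν
  rw [hn]
  refine (IsIntegral.mul (isIntegral_natCast _) ?_).mul (isIntegral_natCast _)
  exact IsIntegral.of_pow (orderOf_pos w) (by rw [hζ i]; exact isIntegral_one)

end Shift

section Split

/-- The decomposition of an elementary group. -/
theorem exists_split {E : Type*} [Group E] [Finite E] {r p : ℕ} [hp : Fact p.Prime] (hr : r.Prime)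
    (hE : IsElementary r E) :
    ∃ Q R : Subgroup E, IsPGroup p Q ∧ ¬ p ∣ Nat.card R ∧ (∀ a ∈ Q, ∀ s ∈ R, a * s = s * a) ∧
      ∀ g, ∃ a ∈ Q, ∃ s ∈ R, a * s = g := by
  classical
  haveI : Fact r.Prime := ⟨hr⟩
  obtain ⟨x, hx, hcop, k, hk⟩ := hE
  obtain ⟨T⟩ : Nonempty (Sylow r E) := inferInstance
  have hcardN : Nat.card (Subgroup.zpowers x) = orderOf x := Nat.card_zpowers x
  have hE : Nat.card E = r ^ k * orderOf x := by
    rw [← Subgroup.index_mul_card (Subgroup.zpowers x), hk, hcardN]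
  have hnd : ¬ r ∣ orderOf x := fun h => by
    have := Nat.dvd_gcd h (dvd_refl r)
    rw [hcop] at this
    exact hr.one_lt.ne' (Nat.dvd_one.mp this)
  have hcardT : Nat.card T = r ^ k := by
    rw [Sylow.card_eq_multiplicity, hE, Nat.factorization_mul (pow_ne_zero _ hr.ne_zero) (orderOf_pos x).ne']
    simp only [Finsupp.add_apply, hr.factorization_pow, Finsupp.single_eq_same,
      Nat.factorization_eq_zero_of_not_dvd hnd, add_zero]
  have hc : Subgroup.IsComplement' (T : Subgroup E) (Subgroup.zpowers x) := by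
    apply Subgroup.isComplement'_of_coprime
    · rw [hcardT, hcardN, hE]
    · rw [hcardT, hcardN]
      exact Nat.Coprime.pow_left _ hcop.symm
  have hdec : ∀ g, ∃ t ∈ (T : Subgroup E), ∃ n : ℤ, t * x ^ n = g := by
    intro g
    obtain ⟨⟨t, n⟩, h1, -⟩ := hc.existsUnique g
    obtain ⟨m, hm⟩ := Subgroup.mem_zpowers_iff.mp n.2
    exact ⟨t, t.2, m, by rw [hm]; exact h1⟩
  have hcen : ∀ {z : E}, z ∈ Subgroup.center E → ∀ g, z * g = g * z := fun hz g =>
    (Subgroup.mem_center_iff.mp hz g).symm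
  by_cases hrp : r = p
  · subst hrp
    refine ⟨T, Subgroup.zpowers x, T.isPGroup', ?_, ?_, ?_⟩
    · rw [hcardN]
      exact hnd
    · intro a _ s hs
      obtain ⟨n, rfl⟩ := Subgroup.mem_zpowers_iff.mp hs
      exact (hcen (Subgroup.zpow_mem _ hx n) a).symm
    · intro g
      obtain ⟨t, ht, n, hg⟩ := hdec g
      exact ⟨t, ht, x ^ n, Subgroup.mem_zpowers_iff.mpr ⟨n, rfl⟩, hg⟩
  · obtain ⟨x₁, hpart⟩ := Cfsg.Agent.Lib.Blocks.SecondMain.exists_isPPart p x
    obtain ⟨s, hs⟩ := isPPart_exists_pow_eq hpart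
    obtain ⟨y, hxy, hcomm, ⟨j, hj⟩, hy⟩ := hpart
    have hx₁ : x₁ ∈ Subgroup.center E := by
      rw [← hs]
      exact Subgroup.pow_mem _ hx s
    have hyc : y ∈ Subgroup.center E := by
      have : y = x₁⁻¹ * x := by rw [← hxy]; group
      rw [this]
      exact Subgroup.mul_mem _ (Subgroup.inv_mem _ hx₁) hx
    refine ⟨Subgroup.zpowers x₁, T ⊔ Subgroup.zpowers y, ?_, ?_, ?_, ?_⟩
    · rw [IsPGroup.iff_card, Nat.card_zpowers]
      exact ⟨j, hj⟩
    · intro hdvd
      obtain ⟨g, hg⟩ := exists_prime_orderOf_dvd_card' p hdvd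
      haveI : (Subgroup.zpowers y).Normal := by
        refine ⟨fun n hn g => ?_⟩
        obtain ⟨m, rfl⟩ := Subgroup.mem_zpowers_iff.mp hn
        rw [← hcen (Subgroup.zpow_mem _ hyc m) g, mul_inv_cancel_right]
        exact hn
      have hmem : (g : E) ∈ ((T : Subgroup E) ⊔ Subgroup.zpowers y : Subgroup E) := g.2
      rw [← SetLike.mem_coe, Subgroup.mul_normal] at hmem
      obtain ⟨t, ht, n, hn, hgt⟩ := hmem
      have h1 : (g : E) ^ (r ^ k * orderOf y) = 1 := by
        have hc' : Commute t n := by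
          obtain ⟨m, rfl⟩ := Subgroup.mem_zpowers_iff.mp hn
          exact (hcen (Subgroup.zpow_mem _ hyc m) t).symm
        have ht1 : t ^ (r ^ k) = 1 := by
          have ht' : t ∈ (T : Subgroup E) := ht
          have h5 : orderOf (⟨t, ht'⟩ : (T : Subgroup E)) ∣ r ^ k := hcardT ▸ orderOf_dvd_natCard _
          have h2 := orderOf_dvd_iff_pow_eq_one.mp h5
          simpa using congrArg Subtype.val h2
        have hn1 : n ^ orderOf y = 1 := by
          obtain ⟨m, rfl⟩ := Subgroup.mem_zpowers_iff.mp hn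
          rw [← zpow_natCast, ← zpow_mul, mul_comm, zpow_mul, zpow_natCast, pow_orderOf_eq_one, one_zpow]
        rw [← hgt, hc'.mul_pow, pow_mul, ht1, one_pow, one_mul, mul_comm, pow_mul, hn1, one_pow]
      have h2 : p ∣ r ^ k * orderOf y := by
        have h3 := orderOf_dvd_of_pow_eq_one h1
        rw [Subgroup.orderOf_coe, hg] at h3
        exact h3
      rcases (Nat.Prime.dvd_mul hp.out).mp h2 with h3 | h3
      · exact hrp ((Nat.prime_dvd_prime_iff_eq hp.out hr).mp (hp.out.dvd_of_dvd_pow h3)).symm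
      · exact hy h3
    · intro a ha b _
      obtain ⟨n, rfl⟩ := Subgroup.mem_zpowers_iff.mp ha
      exact hcen (Subgroup.zpow_mem _ hx₁ n) b
    · intro g
      obtain ⟨t, ht, n, hg⟩ := hdec g
      refine ⟨x₁ ^ n, Subgroup.mem_zpowers_iff.mpr ⟨n, rfl⟩, t * y ^ n,
        Subgroup.mul_mem _ (Subgroup.mem_sup_left ht)
          (Subgroup.mem_sup_right (Subgroup.mem_zpowers_iff.mpr ⟨n, rfl⟩)), ?_⟩
      rw [← hg, ← hxy, hcomm.mul_zpow, ← mul_assoc, hcen (Subgroup.zpow_mem _ hx₁ n) t, mul_assoc]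

/-- The splitting as a homomorphism. -/
theorem exists_hom_prod {E : Type*} [Group E] [Finite E] {p : ℕ} [hp : Fact p.Prime] {Q R : Subgroup E}
    (hQ : IsPGroup p Q) (hreg : ¬ p ∣ Nat.card R) (hcomm : ∀ a ∈ Q, ∀ s ∈ R, a * s = s * a)
    (hsurj : ∀ g, ∃ a ∈ Q, ∃ s ∈ R, a * s = g) :
    ∃ ψ : E →* Q × R, ∀ g, ((ψ g).1 : E) * ((ψ g).2 : E) = g := by
  classical
  let f : Q × R →* E := MonoidHom.noncommCoprod Q.subtype R.subtype (fun a s => hcomm a a.2 s s.2)
  have hf : ∀ x, f x = (x.1 : E) * (x.2 : E) := fun x => rfl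
  have hinj : Function.Injective f := by
    rw [injective_iff_map_eq_one]
    rintro ⟨a, s⟩ h
    rw [hf] at h
    have h1 : (a : E) = (s : E)⁻¹ := eq_inv_of_mul_eq_one_left h
    have hamem : (a : E) ∈ R := by
      rw [h1]
      exact R.inv_mem s.2
    have ha1 : (a : E) = 1 := by
      obtain ⟨k, hk⟩ := hQ a
      have hk' : (a : E) ^ (p ^ k) = 1 := by
        simpa using congrArg Subtype.val hk
      have h3 : (a : E) ^ Nat.card R = 1 := by
        have : (⟨a, hamem⟩ : R) ^ Nat.card R = 1 := pow_card_eq_one'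
        simpa only [SubgroupClass.coe_pow, OneMemClass.coe_one] using congrArg Subtype.val this
      have h4 : Nat.Coprime (p ^ k) (Nat.card R) :=
        Nat.Coprime.pow_left _ ((Nat.Prime.coprime_iff_not_dvd hp.out).mpr hreg)
      have h5 := orderOf_dvd_of_pow_eq_one hk'
      have h6 := orderOf_dvd_of_pow_eq_one h3
      have h7 := Nat.eq_one_of_dvd_coprimes h4 h5 h6
      exact orderOf_eq_one_iff.mp h7
    have hs1 : (s : E) = 1 := by
      rw [ha1, one_mul] at h
      exact h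
    have e1 : a = 1 := Subtype.ext ha1
    have e2 : s = 1 := Subtype.ext hs1
    rw [e1, e2]
    rfl
  have hsur : Function.Surjective f := by
    intro g
    obtain ⟨a, ha, s, hs, h⟩ := hsurj g
    exact ⟨(⟨a, ha⟩, ⟨s, hs⟩), h⟩
  let e : Q × R ≃* E := MulEquiv.ofBijective f ⟨hinj, hsur⟩
  refine ⟨e.symm.toMonoidHom, fun g => ?_⟩
  have : f (e.symm g) = g := e.apply_symm_apply g
  exact this

end Split

section Prod

/-- A complex number with a multiple by an integer and an integral multiple by a coprime integer. -/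
lemma exists_int_of_coprime_mul {z : ℂ} {n N : ℕ} {m : ℤ} (hcop : Nat.Coprime n N) (hn0 : n ≠ 0)
    (h1 : (n : ℂ) * z = m) (hA : IsIntegral ℤ ((N : ℂ) * z)) : ∃ t : ℤ, z = t := by
  obtain ⟨c, d, hcd⟩ := Nat.isCoprime_iff_coprime.mpr hcop
  have hzint : IsIntegral ℤ z := by
    have h2 : z = (c : ℂ) * ((n : ℂ) * z) + (d : ℂ) * ((N : ℂ) * z) := by
      have h3 : ((c : ℂ) * (n : ℂ) + (d : ℂ) * (N : ℂ)) = 1 := by
        exact_mod_cast hcd
      calc z = ((c : ℂ) * (n : ℂ) + (d : ℂ) * (N : ℂ)) * z := by rw [h3, one_mul]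
        _ = _ := by ring
    rw [h2]
    refine ((isIntegral_intCast _).mul ?_).add ((isIntegral_intCast _).mul hA)
    rw [h1]
    exact isIntegral_intCast _
  have hn0' : (n : ℂ) ≠ 0 := by exact_mod_cast hn0
  have hzq : z = (algebraMap ℚ ℂ) ((m : ℚ) / (n : ℚ)) := by
    simp only [map_div₀, map_intCast, map_natCast]
    rw [← h1]
    field_simp
  rw [hzq] at hzint ⊢
  have hq := (isIntegral_algebraMap_iff (algebraMap ℚ ℂ).injective).1 hzint
  obtain ⟨t, ht⟩ := IsIntegrallyClosed.isIntegral_iff.1 hq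
  refine ⟨t, ?_⟩
  rw [← ht]
  simp

variable {G : Type u} [Group G] [Fintype G] {M : Ideal AlgInt} [hM : M.IsPrime]
variable {p : ℕ} [hp : Fact p.Prime]

/-- **Generalized characters on a direct product of a `p`-group and a `p'`-group.** -/
theorem isGeneralized_prod (hMp : IsPModular p M) {θ : G → ℂ} (hθ : IsClassFunction G θ)
    {Q R : Subgroup G} [Fintype Q] [Fintype R] (hQ : IsPGroup p Q) (hreg : ¬ p ∣ Nat.card R)
    (hcomm : ∀ a ∈ Q, ∀ s ∈ R, a * s = s * a)
    (hGen : ∀ y : MonoidAlgebra ℂ G, LocCoeff M y → InvBy Q y → y * y = y →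
      IsGeneralizedCharacter Q (fun a : Q => twTrace θ a y))
    (hInt : ∀ a ∈ Q, ∀ ν : IrrCharacter R, IsIntegral ℤ (classInner (fun s : R => θ (a * s)) (ν : R → ℂ))) :
    IsGeneralizedCharacter (Q × R) (fun x => θ ((x.1 : G) * (x.2 : G))) := by
  classical
  haveI : Fintype (IrrCharacter R) := Fintype.ofFinite _
  set b : IrrCharacter R → Q → ℂ := fun ν a => classInner (fun s : R => θ (a * s)) (ν : R → ℂ) with hb
  have hclR : ∀ a : Q, IsClassFunction R (fun s : R => θ (a * s)) := by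
    intro a s d
    show θ ((a : G) * ((d * s * d⁻¹ : R) : G)) = θ (a * s)
    have : (a : G) * ((d * s * d⁻¹ : R) : G) = (d : G) * (a * s) * (d : G)⁻¹ := by
      simp only [Subgroup.coe_mul, InvMemClass.coe_inv]
      rw [← mul_assoc, ← mul_assoc, hcomm a a.2 d d.2]
      group
    rw [this, hθ]
  have hclQ : ∀ ν, IsClassFunction Q (b ν) := by
    intro ν a d
    simp only [hb]
    congr 1
    funext s
    have : ((d * a * d⁻¹ : Q) : G) * (s : G) = (d : G) * (a * s) * (d : G)⁻¹ := by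
      simp only [Subgroup.coe_mul, InvMemClass.coe_inv]
      have := hcomm (d : G)⁻¹ (Q.inv_mem d.2) s s.2
      calc (d : G) * a * (d : G)⁻¹ * s = (d : G) * a * ((d : G)⁻¹ * s) := by group
        _ = (d : G) * a * (s * (d : G)⁻¹) := by rw [this]
        _ = _ := by group
    rw [this, hθ]
  have hstep : ∀ ν : IrrCharacter R, IsGeneralizedCharacter Q ((ν : R → ℂ) 1 • b ν) := by
    intro ν
    have hyl : LocCoeff M (EE R {ν}) := by
      intro g
      rw [coeff_EE]
      by_cases hg : g ∈ R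
      · rw [subgroupBlockCoeff_of_mem _ hg, blockCoeff_eq_sum]
        refine memLocalRing_mul (memLocalRing_inv_natCast hMp hreg) ?_
        refine (localRing M).sum_mem fun χ _ => memLocalRing_mul ?_ ?_
        · exact memLocalRing_of_isIntegral (isIntegral_irr χ.2 _)
        · exact memLocalRing_of_isIntegral (isIntegral_conj_of_isCharacter
            (Cfsg.Agent.Lib.Char.Basic.isCharacter_of_isIrrCharacter χ.2) _)
      · rw [subgroupBlockCoeff_of_notMem _ hg]
        exact memLocalRing_zero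
    have hinv : InvBy Q (EE R {ν}) := by
      apply invBy_of_suppOn
      intro g hg
      apply suppOn_EE R {ν} g
      intro hgR
      apply hg
      rw [Subgroup.mem_centralizer_iff]
      intro a ha
      exact hcomm a ha g hgR
    have h1 := hGen _ hyl hinv (EE_mul_self R {ν})
    convert h1 using 1
    funext a
    have hK : ∀ k ∈ R, k * (a : G) = (a : G) * k := fun k hk => (hcomm a a.2 k hk).symm
    have h2 := twTrace_EE_eq_blockPart hθ (v := (a : G)) hK {ν} 1
    rw [OneMemClass.coe_one, mul_one] at h2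
    rw [h2, blockPart_eq_sum, Finset.sum_eq_single ν]
    · simp only [Pi.smul_apply, smul_eq_mul, hb]
      ring
    · intro ξ hξ hne
      simp at hξ
      exact absurd hξ hne
    · intro h
      simp at h
  have hgen : ∀ ν, IsGeneralizedCharacter Q (b ν) := by
    intro ν
    refine isGeneralized_of_int_classInner (hclQ ν) fun μ => ?_
    obtain ⟨m, hm⟩ := Cfsg.Agent.Lib.Char.Virtual.exists_int_classInner (hstep ν)
      (Cfsg.Agent.Lib.Char.Virtual.isGeneralized_of_isIrr μ.2)
    rw [Cfsg.Agent.Lib.Char.Virtual.classInner_smul_left] at hm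
    set z := classInner (b ν) (μ : Q → ℂ) with hz
    have hdeg : ((charDegree (ν : R → ℂ) : ℕ) : ℂ) = (ν : R → ℂ) 1 :=
      Cfsg.Agent.Lib.Char.Values.IsCharacter.charDegree_cast
        (Cfsg.Agent.Lib.Char.Basic.isCharacter_of_isIrrCharacter ν.2)
    set n := charDegree (ν : R → ℂ) with hn
    rw [← hdeg] at hm
    have hndvd : n ∣ Nat.card R := HeightZero.charDegree_dvd_card ν.2
    have hn0 : n ≠ 0 := fun h => by
      rw [h, zero_dvd_iff] at hndvd
      exact Nat.card_pos.ne' hndvd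
    obtain ⟨k, hk⟩ := IsPGroup.iff_card.mp hQ
    have hcop : Nat.Coprime n (Nat.card Q) := by
      rw [hk]
      apply Nat.Coprime.pow_right
      apply Nat.Coprime.symm
      rw [Nat.Prime.coprime_iff_not_dvd hp.out]
      exact fun h => hreg (h.trans hndvd)
    have hA : IsIntegral ℤ ((Nat.card Q : ℂ) * z) := by
      rw [hz, classInner, mul_inv_cancel_left₀ (by exact_mod_cast Nat.card_pos.ne')]
      refine IsIntegral.sum _ fun a _ => (hInt a a.2 ν).mul ?_
      exact isIntegral_conj_of_isCharacter (Cfsg.Agent.Lib.Char.Basic.isCharacter_of_isIrrCharacter μ.2) a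
    obtain ⟨t, ht⟩ := exists_int_of_coprime_mul hcop hn0 hm hA
    exact ⟨t, ht⟩
  have hsum : (fun x : Q × R => θ ((x.1 : G) * (x.2 : G))) =
      ∑ ν : IrrCharacter R, (fun x : Q × R => b ν x.1 * (ν : R → ℂ) x.2) := by
    funext x
    have h1 := congrFun (Cfsg.Agent.Lib.Char.Complete.eq_sum_classInner _ (hclR x.1)) x.2
    simp only [Finset.sum_apply, Pi.smul_apply, smul_eq_mul] at h1 ⊢
    exact h1
  rw [hsum]
  refine Cfsg.Agent.Lib.Char.Virtual.isGeneralized_finset_sum _ fun ν _ => ?_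
  obtain ⟨χ₁, χ₂, h1, h2, he⟩ := hgen ν
  have hνc : IsCharacter (Q × R) (fun x : Q × R => (ν : R → ℂ) (MonoidHom.snd Q R x)) :=
    Cfsg.Agent.Lib.Char.Basic.isCharacter_comp_hom
      (Cfsg.Agent.Lib.Char.Basic.isCharacter_of_isIrrCharacter ν.2) _
  refine ⟨_, _, Cfsg.Agent.Lib.Char.Basic.isCharacter_mul
    (Cfsg.Agent.Lib.Char.Basic.isCharacter_comp_hom h1 (MonoidHom.fst Q R)) hνc,
    Cfsg.Agent.Lib.Char.Basic.isCharacter_mul
    (Cfsg.Agent.Lib.Char.Basic.isCharacter_comp_hom h2 (MonoidHom.fst Q R)) hνc, ?_⟩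
  funext x
  have h3 := congrFun he x.1
  simp only [Pi.sub_apply] at h3
  simp only [Pi.sub_apply, Pi.mul_apply, MonoidHom.coe_fst, MonoidHom.coe_snd]
  rw [h3]
  ring

/-- **The integrality and the idempotent property give a generalized character.** -/
theorem isGeneralized_of_sections (hMp : IsPModular p M) {θ : G → ℂ} (hθ : IsClassFunction G θ)
    (hGen : ∀ Q : Subgroup G, IsPGroup p Q → ∀ y : MonoidAlgebra ℂ G, LocCoeff M y → InvBy Q y → y * y = y →
      IsGeneralizedCharacter Q (fun a : Q => twTrace θ a y))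
    (hInt : ∀ u : G, (∃ k, orderOf u = p ^ k) → ∀ (R : Subgroup G) [Fintype R], R ≤ Kz u → ¬ p ∣ Nat.card R →
      ∀ ν : IrrCharacter R, IsIntegral ℤ (classInner (fun s : R => θ (u * s)) (ν : R → ℂ))) :
    IsGeneralizedCharacter G θ := by
  classical
  refine Cfsg.Agent.Lib.Char.BrauerInd.isGeneralized_of_restrict hθ fun E r hr hEl => ?_
  obtain ⟨Q₀, R₀, hQ₀, hR₀, hc₀, hs₀⟩ := exists_split (p := p) hr hEl
  obtain ⟨ψ, hψ⟩ := exists_hom_prod hQ₀ hR₀ hc₀ hs₀
  set Q := Q₀.map E.subtype with hQdef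
  set R := R₀.map E.subtype with hRdef
  letI : Fintype Q := Fintype.ofFinite _
  letI : Fintype R := Fintype.ofFinite _
  have hQ : IsPGroup p Q := hQ₀.map E.subtype
  have hcardR : Nat.card R = Nat.card R₀ :=
    Nat.card_congr (Subgroup.equivMapOfInjective R₀ E.subtype Subtype.val_injective).toEquiv.symm
  have hcomm : ∀ a ∈ Q, ∀ s ∈ R, a * s = s * a := by
    rintro _ ⟨a, ha, rfl⟩ _ ⟨s, hs, rfl⟩
    have := congrArg Subtype.val (hc₀ a ha s hs)
    simpa using this
  have hRK : ∀ a ∈ Q, R ≤ Kz a := fun a ha s hs =>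
    mem_centralizer_zpowers_iff.mpr (hcomm a ha s hs).symm
  have h1 := isGeneralized_prod hMp hθ hQ (by rwa [hcardR]) hcomm (hGen Q hQ)
    (fun a ha ν => hInt a (orderOf_of_isPGroup hQ ha) R (hRK a ha) (by rwa [hcardR]) ν)
  obtain ⟨χ₁, χ₂, h2, h3, he⟩ := h1
  let q : Q₀ →* Q := (Subgroup.equivMapOfInjective Q₀ E.subtype Subtype.val_injective).toMonoidHom
  let s : R₀ →* R := (Subgroup.equivMapOfInjective R₀ E.subtype Subtype.val_injective).toMonoidHom
  let ψ' : E →* Q × R := (MonoidHom.prodMap q s).comp ψ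
  refine ⟨_, _, Cfsg.Agent.Lib.Char.Basic.isCharacter_comp_hom h2 ψ',
    Cfsg.Agent.Lib.Char.Basic.isCharacter_comp_hom h3 ψ', ?_⟩
  funext e
  have h4 := congrFun he (ψ' e)
  simp only [Pi.sub_apply] at h4 ⊢
  rw [← h4]
  congr 1
  have h5 : (((ψ e).1 : E) : G) * (((ψ e).2 : E) : G) = (e : G) := congrArg Subtype.val (hψ e)
  exact h5.symm

/-- The multiplicities at a section are algebraic integers. -/
theorem isIntegral_classInner_thetaL {L : G → MonoidAlgebra ℂ G → ℂ} (hLi : ∀ u E, IsIntegral ℤ (L u E)) {χ : G → ℂ}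
    (hχ : IsCharacter G χ) {u : G} (hu : ∃ k, orderOf u = p ^ k) {R : Subgroup G} [Fintype R] (hR : R ≤ Kz u)
    (hreg : ¬ p ∣ Nat.card R) (ν : IrrCharacter R) :
    IsIntegral ℤ (classInner (fun s : R => thetaL M p L χ (u * s)) (ν : R → ℂ)) := by
  classical
  letI : Fintype (Kz u) := Fintype.ofFinite _
  have huK : u ∈ Kz u := mem_centralizer_zpowers_iff.mpr rfl
  have hcen : ∀ k : Kz u, (⟨u, huK⟩ : Kz u) * k = k * ⟨u, huK⟩ := fun k =>
    Subtype.ext (mem_centralizer_zpowers_iff.mp k.2).symm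
  have h1 : (fun s : R => thetaL M p L χ (u * s)) = ∑ f : Blk M (Kz u), (L u (EE (Kz u) f.1)) •
      (fun s : R => (fun k : Kz u => twTrace χ (k : G) (EE (Kz u) f.1))
        ((⟨u, huK⟩ : Kz u) * Subgroup.inclusion hR s)) := by
    funext s
    have hs : (s : G) ∈ regC p u := by
      refine mem_regC.mpr ⟨hR s.2, fun h => hreg ?_⟩
      rw [Subgroup.orderOf_coe] at h
      exact h.trans (orderOf_dvd_natCard s)
    rw [thetaL_eq L χ hu hs]
    simp only [Finset.sum_apply, Pi.smul_apply, smul_eq_mul]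
    rfl
  rw [h1, Cfsg.Agent.Lib.Char.Virtual.classInner_finset_sum_left]
  refine IsIntegral.sum _ fun f _ => ?_
  rw [Cfsg.Agent.Lib.Char.Virtual.classInner_smul_left]
  exact (hLi _ _).mul (isIntegral_classInner_shift (Subgroup.inclusion hR)
    (isCharacter_nu hχ (EE_mul_self _ _) (invBy_EE_self _ _)) hcen ν)

variable {P : Subgroup G} {e : Set (IrrCharacter (Subgroup.centralizer (P : Set G)))}
variable {B : Set (IrrCharacter G)} {F : FusionSystem P} {lam : P →* ℂˣ}

/-- **The twist of an irreducible character of the block is a generalized character.** -/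
theorem isGeneralized_twist (hMp : IsPModular p M) (hF : IsBlockFusionSystemOn p M B P e F)
    (hlam : ∀ x : P, (x : G) ∈ F.focalSubgroup → lam x = 1) {χ : IrrCharacter G} (hχ : χ ∈ B) :
    IsGeneralizedCharacter G (twist M p e lam (χ : G → ℂ)) := by
  have ht : IsClassFunction G (χ : G → ℂ) := isClassFunction_of_irr χ.2
  have hchar : IsCharacter G (χ : G → ℂ) := Cfsg.Agent.Lib.Char.Values.IsIrrCharacter.isCharacter χ.2
  refine isGeneralized_of_sections hMp (isClassFunction_twist hMp hF hlam ht)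
    (fun Q hQ y hyl hyi hy => isGeneralized_twist_idem hMp hF hlam hχ hQ hyl hyi hy) ?_
  intro u hu R _ hR hreg ν
  exact isIntegral_classInner_thetaL
    (fun u E => IsIntegral.of_pow (Nat.card_pos (α := P)) (by rw [pow_LL]; exact isIntegral_one)) hchar hu hR hreg ν

end Prod

end Cfsg.Agent.Lib.Blocks.Nilp
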