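/-
Broué–Puig construction: the twist of an irreducible character of the block is an irreducible character of the block.
-/
import Mathlib
import Cfsg.Agent.Lib.Blocks.BP7

set_option autoImplicit false

namespace Cfsg.Agent.Lib.Blocks.Nilp

open Cfsg Cfsg.Agent.Lib.Blocks.Local Cfsg.Agent.Lib.Blocks.Central Cfsg.Agent.Lib.Blocks.Osima
open Cfsg.Agent.Lib.Blocks.Covering Cfsg.Agent.Lib.Blocks.BlockHom Cfsg.Agent.Lib.Blocks.Pairs
open Cfsg.Agent.Lib.Blocks.Twisted Cfsg.Agent.Lib.Blocks.Necklace Cfsg.Agent.Lib.Blocks.Sections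
open Cfsg.Agent.Lib.Blocks.Regular Cfsg.Agent.Lib.Blocks.BlockCount
open scoped ComplexConjugate

universe u

section Irr

variable {G : Type u} [Group G] [Fintype G] {M : Ideal AlgInt} [hM : M.IsPrime]
variable {p : ℕ} [hp : Fact p.Prime]
variable {P : Subgroup G} {e : Set (IrrCharacter (Subgroup.centralizer (P : Set G)))}
variable {B : Set (IrrCharacter G)} {F : FusionSystem P} {lam lam' : P →* ℂˣ}

lemma LL_of_one_pair (hMp : IsPModular p M) (hF : IsBlockFusionSystemOn p M B P e F)
    (hlam : ∀ x : P, (x : G) ∈ F.focalSubgroup → lam x = 1) {f : Set (IrrCharacter (Kz (1 : G)))}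
    (hQf : IsBrauerPairOf p M B (Subgroup.zpowers (1 : G)) f) : LL M p e lam 1 (EE (Kz (1 : G)) f) = 1 := by
  have h1 := eq_eBlk_of_central hMp hF.1 P.one_mem (fun g => by simp) hQf
  have h2 : lamAt M p e lam 1 (EE (Kz (1 : G)) f) = lam 1 := by
    refine lamAt_eq hMp hF hlam (v := 1) (x := 1) (by simp) ?_
    rw [cj_one']
    show Ev M p P e 1 = _
    rw [h1]
    rfl
  simp only [LL]
  rw [h2, map_one]
  rfl

/-- The twist does not change the values on `p`-regular elements. -/
theorem twist_eq_of_regular (hMp : IsPModular p M) (hF : IsBlockFusionSystemOn p M B P e F)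
    (hlam : ∀ x : P, (x : G) ∈ F.focalSubgroup → lam x = 1) {χ : IrrCharacter G} (hχ : χ ∈ B) {c : G}
    (hc : ¬ p ∣ orderOf c) : twist M p e lam (χ : G → ℂ) c = (χ : G → ℂ) c := by
  classical
  have hu : ∃ k, orderOf (1 : G) = p ^ k := ⟨0, by simp⟩
  have hreg : c ∈ regC p (1 : G) := mem_regC.mpr ⟨mem_centralizer_zpowers_iff.mpr (by simp), hc⟩
  have h1 := thetaL_eq (M := M) (LL M p e lam) (χ : G → ℂ) hu hreg
  have h2 := sum_twTrace_EE (M := M) (Kz (1 : G)) (χ : G → ℂ) (1 * c)
  rw [one_mul] at h1 h2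
  rw [twist, h1, h2]
  refine Finset.sum_congr rfl fun f _ => ?_
  by_cases hpair : IsBrauerPairOf p M B (Subgroup.zpowers (1 : G)) f.1
  · rw [LL_of_one_pair hMp hF hlam hpair, one_mul]
  · have h3 := twTrace_EE_eq_zero_of_not_pair hMp hF.1.1.2.1 hχ (u := 1) (k := 0) (by simp) f.2 hpair hreg
    rw [one_mul] at h3
    rw [h3, mul_zero]

/-- The norm of the twist. -/
theorem classInner_twist_self (hMp : IsPModular p M) (hF : IsBlockFusionSystemOn p M B P e F)
    (hlam : ∀ x : P, (x : G) ∈ F.focalSubgroup → lam x = 1) {t : G → ℂ} (ht : IsClassFunction G t) :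
    classInner (twist M p e lam t) (twist M p e lam t) = classInner t t := by
  rw [classInner, classInner]
  congr 1
  exact sum_thetaL_conj hMp (lConj_LL hMp hF hlam) (LL_mul_conj lam) ht

/-- **The twist is an irreducible character of the block.** -/
theorem exists_irr_twist (hMp : IsPModular p M) (hF : IsBlockFusionSystemOn p M B P e F)
    (hlam : ∀ x : P, (x : G) ∈ F.focalSubgroup → lam x = 1) {χ : IrrCharacter G} (hχ : χ ∈ B) :
    ∃ ψ : IrrCharacter G, ψ ∈ B ∧ (ψ : G → ℂ) = twist M p e lam (χ : G → ℂ) := by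
  classical
  have ht : IsClassFunction G (χ : G → ℂ) := isClassFunction_of_irr χ.2
  have hG := isGeneralized_twist hMp hF hlam hχ
  have hN : classInner (twist M p e lam (χ : G → ℂ)) (twist M p e lam (χ : G → ℂ)) = 1 := by
    rw [classInner_twist_self hMp hF hlam ht, Cfsg.Agent.Lib.Char.Virtual.classInner_irr_self χ.2]
  have hone : twist M p e lam (χ : G → ℂ) 1 = (χ : G → ℂ) 1 := twist_eq_of_regular hMp hF hlam hχ (by
    rw [orderOf_one]
    exact hp.out.one_lt.ne' ∘ Nat.dvd_one.mp)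
  have hirr : IsIrrCharacter G (twist M p e lam (χ : G → ℂ)) := by
    rcases Cfsg.Agent.Lib.Char.Virtual.isSignedIrr_of_norm_one hG hN with h | h
    · exact h
    · exfalso
      obtain ⟨n, hn, h1⟩ := Cfsg.Agent.Lib.Char.Virtual.exists_degree_of_isIrr h
      obtain ⟨m, hm, h2⟩ := Cfsg.Agent.Lib.Char.Virtual.exists_degree_of_isIrr χ.2
      rw [Pi.neg_apply, hone, h2] at h1
      have h3 : ((m : ℤ) : ℂ) = ((-(n : ℤ) : ℤ) : ℂ) := by
        push_cast
        rw [← h1]
        ring
      have h4 : (m : ℤ) = -(n : ℤ) := by exact_mod_cast h3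
      omega
  refine ⟨⟨_, hirr⟩, ?_, rfl⟩
  by_contra hnot
  have hclosed := isClosed_of_isPBlock hF.1.1.2.1
  have h1 := classInner_reg_eq_zero_of_closed hMp hclosed hnot hχ
  have h2 : reg p ((⟨_, hirr⟩ : IrrCharacter G) : G → ℂ) = reg p (χ : G → ℂ) := by
    funext g
    by_cases hg : p ∣ orderOf g
    · rw [reg_of_dvd _ hg, reg_of_dvd _ hg]
    · rw [reg_of_not_dvd _ hg, reg_of_not_dvd _ hg]
      exact twist_eq_of_regular hMp hF hlam hχ hg
  rw [h2] at h1
  obtain ⟨r, hr, hr'⟩ := classInner_reg_self_pos (p := p) χ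
  rw [h1] at hr'
  have : (r : ℂ) = 0 := hr'.symm
  have : r = 0 := by exact_mod_cast this
  linarith

theorem twist_mul (hMp : IsPModular p M) (hF : IsBlockFusionSystemOn p M B P e F)
    (hlam : ∀ x : P, (x : G) ∈ F.focalSubgroup → lam x = 1)
    (hlam' : ∀ x : P, (x : G) ∈ F.focalSubgroup → lam' x = 1) {t : G → ℂ} (ht : IsClassFunction G t) :
    twist M p e (lam * lam') t = twist M p e lam (twist M p e lam' t) := by
  have h1 : LL M p e (lam * lam') = fun u E => LL M p e lam u E * LL M p e lam' u E := by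
    funext u E
    simp only [LL]
    rw [lamAt_mul hMp hF hlam hlam', Units.val_mul]
  rw [twist, twist, twist, thetaL_thetaL hMp (lConj_LL hMp hF hlam') ht, h1]

theorem twist_one (t : G → ℂ) : twist M p e (1 : P →* ℂˣ) t = t := by
  have h1 : LL M p e (1 : P →* ℂˣ) = fun _ _ => 1 := by
    funext u E
    simp only [LL]
    rw [lamAt_one, Units.val_one]
  rw [twist, h1, thetaL_one]

/-- The degree of the twist. -/
theorem charDegree_twist (hMp : IsPModular p M) (hF : IsBlockFusionSystemOn p M B P e F)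
    (hlam : ∀ x : P, (x : G) ∈ F.focalSubgroup → lam x = 1) {χ : IrrCharacter G} (hχ : χ ∈ B) :
    charDegree (twist M p e lam (χ : G → ℂ)) = charDegree (χ : G → ℂ) := by
  have hone : twist M p e lam (χ : G → ℂ) 1 = (χ : G → ℂ) 1 := twist_eq_of_regular hMp hF hlam hχ (by
    rw [orderOf_one]
    exact hp.out.one_lt.ne' ∘ Nat.dvd_one.mp)
  simp only [charDegree, hone]

/-- The height of the twist. -/
theorem blockHeight_twist (hMp : IsPModular p M) (hF : IsBlockFusionSystemOn p M B P e F)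
    (hlam : ∀ x : P, (x : G) ∈ F.focalSubgroup → lam x = 1) {χ : IrrCharacter G} (hχ : χ ∈ B) :
    blockHeight p B (twist M p e lam (χ : G → ℂ)) = blockHeight p B (χ : G → ℂ) := by
  simp only [blockHeight]
  rw [charDegree_twist hMp hF hlam hχ]

end Irr

end Cfsg.Agent.Lib.Blocks.Nilp
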