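/-
Broué–Puig construction: the source idempotent and the fixed points of the twist.
-/
import Mathlib
import Cfsg.Agent.Lib.Blocks.BP8

set_option autoImplicit false

namespace Cfsg.Agent.Lib.Blocks.Nilp

open Cfsg Cfsg.Agent.Lib.Blocks.Local Cfsg.Agent.Lib.Blocks.Central Cfsg.Agent.Lib.Blocks.Osima
open Cfsg.Agent.Lib.Blocks.Covering Cfsg.Agent.Lib.Blocks.BlockHom Cfsg.Agent.Lib.Blocks.Pairs
open Cfsg.Agent.Lib.Blocks.Twisted Cfsg.Agent.Lib.Blocks.Necklace Cfsg.Agent.Lib.Blocks.Sections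
open Cfsg.Agent.Lib.Blocks.Regular Cfsg.Agent.Lib.Blocks.BlockCount
open scoped ComplexConjugate

universe u

section Fix

variable {G : Type u} [Group G] [Fintype G] {M : Ideal AlgInt} [hM : M.IsPrime]
variable {p : ℕ} [hp : Fact p.Prime]
variable {P : Subgroup G} {e : Set (IrrCharacter (Subgroup.centralizer (P : Set G)))}
variable {B : Set (IrrCharacter G)} {F : FusionSystem P} {lam : P →* ℂˣ}

/-- A fixed point of the twist: the linear character is trivial where the character does not vanish on the source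
idempotent. -/
theorem lam_eq_one_of_fixed (hMp : IsPModular p M) (hF : IsBlockFusionSystemOn p M B P e F)
    (hlam : ∀ x : P, (x : G) ∈ F.focalSubgroup → lam x = 1) {χ : IrrCharacter G}
    (hfix : twist M p e lam (χ : G → ℂ) = (χ : G → ℂ)) {i : MonoidAlgebra ℂ G}
    {e' : Set (IrrCharacter (Subgroup.centralizer (P : Set G)))} (hi : IsPrimIdem M P i)
    (hne : ¬ CoeffIn (localIdeal M) (tr (Subgroup.centralizer (P : Set G)) i)) (hQe : IsBrauerPair p M P e')
    (h2 : CoeffIn (localIdeal M) (tr (Subgroup.centralizer (P : Set G)) i * (1 - EE (Subgroup.centralizer (P : Set G)) e')))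
    {g : G} (hg : SubpairLE p M (P.map (MulAut.conj g).toMonoidHom) (conjBlock P g e') P e) {u : G} (hu : u ∈ P)
    (hP : g * u * g⁻¹ ∈ P) (hne0 : twTrace (χ : G → ℂ) u i ≠ 0) : lam ⟨g * u * g⁻¹, hP⟩ = 1 := by
  have ht : IsClassFunction G (χ : G → ℂ) := isClassFunction_of_irr χ.2
  have htl : ∀ g, MemLocalRing M ((χ : G → ℂ) g) := fun g => memLocalRing_of_isIntegral (isIntegral_irr χ.2 g)
  have h1 := twTrace_twist_Ev (lam := lam) hMp hF hlam ht htl hF.1.1.1.1 hi hne hQe h2 hu
  rw [hfix, LL_Ev_of_subpairLE hMp hF hlam hQe hg hu hP] at h1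
  have h3 : ((lam ⟨g * u * g⁻¹, hP⟩ : ℂˣ) : ℂ) = 1 := by
    have h4 : (((lam ⟨g * u * g⁻¹, hP⟩ : ℂˣ) : ℂ) - 1) * twTrace (χ : G → ℂ) u i = 0 := by
      rw [sub_mul, ← h1, one_mul, sub_self]
    rcases mul_eq_zero.mp h4 with h5 | h5
    · exact sub_eq_zero.mp h5
    · exact absurd h5 hne0
  exact Units.ext h3

omit hM in
/-- A conjugation carrying `P` into `P` normalizes `P`. -/
lemma map_conj_eq_of_le {g : G} (h : P.map (MulAut.conj g).toMonoidHom ≤ P) :
    P.map (MulAut.conj g).toMonoidHom = P := by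
  apply Subgroup.eq_of_le_of_card_ge h
  have : Nat.card (P.map (MulAut.conj g).toMonoidHom) = Nat.card P :=
    Nat.card_congr (Subgroup.equivMapOfInjective P _ (MulAut.conj g).injective).toEquiv.symm
  rw [this]

/-- The source of a character of height zero. -/
theorem exists_source_of_height_zero (hMp : IsPModular p M) (hmax : IsMaximalBrauerPair p M B P e)
    {χ₀ : IrrCharacter G} (hχ₀ : χ₀ ∈ B) (h0 : blockHeight p B (χ₀ : G → ℂ) = 0) :
    ∃ (i : MonoidAlgebra ℂ G) (e' : Set (IrrCharacter (Subgroup.centralizer (P : Set G)))) (g : G),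
      IsPrimIdem M P i ∧ ¬ MemLocalIdeal M (twTrace (χ₀ : G → ℂ) 1 i) ∧
      ¬ CoeffIn (localIdeal M) (tr (Subgroup.centralizer (P : Set G)) i) ∧ IsBrauerPair p M P e' ∧
      CoeffIn (localIdeal M) (tr (Subgroup.centralizer (P : Set G)) i * (1 - EE (Subgroup.centralizer (P : Set G)) e')) ∧
      SubpairLE p M (P.map (MulAut.conj g).toMonoidHom) (conjBlock P g e') P e := by
  classical
  have hB := hmax.1.2.1
  have hPp := hmax.1.1.1
  obtain ⟨y₁, hdc, S, hS⟩ := isDefectGroup_of_maximal hMp hmax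
  have hPc : ∀ a ∈ P, a * y₁ = y₁ * a := by
    intro a ha
    rw [hS] at ha
    obtain ⟨c, -, rfl⟩ := ha
    exact Subgroup.mem_centralizer_singleton_iff.mp c.2
  have hc₀ : LocCoeff M (MonoidAlgebra.single y₁ (1 : ℂ)) := by
    intro g
    rw [MonoidAlgebra.coeff_single, Finsupp.single_apply]
    split_ifs
    · exact memLocalRing_one
    · exact memLocalRing_zero
  have hc₀i : InvBy P (MonoidAlgebra.single y₁ (1 : ℂ)) := by
    intro g a ha
    rw [MonoidAlgebra.coeff_single, Finsupp.single_apply, Finsupp.single_apply]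
    have : (y₁ = a * g * a⁻¹) ↔ (y₁ = g) := by
      constructor
      · intro h
        have h2 : a⁻¹ * y₁ * a = g := by rw [h]; group
        have h3 : a⁻¹ * y₁ * a = y₁ := by
          rw [mul_assoc, ← hPc a ha, ← mul_assoc, inv_mul_cancel, one_mul]
        rw [← h2, h3]
      · intro h
        rw [← h, hPc a ha, mul_inv_cancel_right]
    simp only [this]
  have hT : ¬ MemLocalIdeal M (twTrace (χ₀ : G → ℂ) 1 (MonoidAlgebra.single y₁ (1 : ℂ))) := by
    rw [twTrace_single, one_mul, mul_one]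
    have h1 := HeightZero.not_memLocalIdeal_of_defect_class hMp hB hdc hχ₀ h0 (x := 1) (Commute.one_left _)
      (k := 0) (by simp)
    rwa [one_mul] at h1
  obtain ⟨i, e', hi, hT1, hne, hpair, h1⟩ := exists_source hMp hB hPp hχ₀ hc₀ hc₀i hT
  obtain ⟨g, hg⟩ := exists_conj_subpairLE hMp hmax hpair
  exact ⟨i, e', g, hi, hT1, hne, hpair.1, h1, hg⟩

/-- **The twist acts freely on the characters of height zero.** -/
theorem lam_eq_one_of_height_zero (hMp : IsPModular p M) (hF : IsBlockFusionSystemOn p M B P e F)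
    (hlam : ∀ x : P, (x : G) ∈ F.focalSubgroup → lam x = 1) {χ : IrrCharacter G} (hχ : χ ∈ B)
    (h0 : blockHeight p B (χ : G → ℂ) = 0) (hfix : twist M p e lam (χ : G → ℂ) = (χ : G → ℂ)) : lam = 1 := by
  have hchar : IsCharacter G (χ : G → ℂ) := Cfsg.Agent.Lib.Char.Values.IsIrrCharacter.isCharacter χ.2
  have htl : ∀ g, MemLocalRing M ((χ : G → ℂ) g) := fun g => memLocalRing_of_isIntegral (isIntegral_irr χ.2 g)
  obtain ⟨i, e', g, hi, hT, hne, hQe, h2, hg⟩ := exists_source_of_height_zero hMp hF.1 hχ h0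
  have hPg := map_conj_eq_of_le (SubpairLE.le hg)
  ext v
  simp only [MonoidHom.one_apply, Units.val_one]
  have hv : (v : G) ∈ P.map (MulAut.conj g).toMonoidHom := by
    rw [hPg]
    exact v.2
  obtain ⟨u, hu, huv⟩ := hv
  have huv' : g * u * g⁻¹ = v := huv
  have hP : g * u * g⁻¹ ∈ P := by
    rw [huv']
    exact v.2
  have hne0 : twTrace (χ : G → ℂ) u i ≠ 0 :=
    ne_zero_of_not_memLocalIdeal (not_mem_nu hMp hF.1.1.1.1 hchar htl hi.loc hi.idem hi.inv hT hu)
  have h3 := lam_eq_one_of_fixed hMp hF hlam hfix hi hne hQe h2 hg hu hP hne0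
  have h4 : (⟨g * u * g⁻¹, hP⟩ : P) = v := Subtype.ext huv'
  rw [h4] at h3
  rw [h3]
  rfl

omit hM in
/-- The order of the quotient by a defect group and the degree of a character of height zero. -/
lemma factorization_index_defect {χ : IrrCharacter G} (hχ : χ ∈ B) (h0 : blockHeight p B (χ : G → ℂ) = 0)
    (hcard : Nat.card P = p ^ blockDefect p B) :
    (P.index).factorization p = (charDegree (χ : G → ℂ)).factorization p := by
  classical
  set m := sInf ((fun χ : IrrCharacter G => (charDegree (χ : G → ℂ)).factorization p) '' B) with hm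
  have hle : m ≤ (charDegree (χ : G → ℂ)).factorization p := Nat.sInf_le ⟨χ, hχ, rfl⟩
  have heq : (charDegree (χ : G → ℂ)).factorization p = m := by
    have : (charDegree (χ : G → ℂ)).factorization p - m = 0 := h0
    omega
  have hdvd := HeightZero.charDegree_dvd_card χ.2
  have hcard0 : Nat.card G ≠ 0 := Nat.card_pos.ne'
  have hma : m ≤ (Nat.card G).factorization p := by
    rw [← heq]
    exact (Nat.factorization_le_iff_dvd (fun h => by
      rw [h, zero_dvd_iff] at hdvd; exact hcard0 hdvd) hcard0).mpr hdvd p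
  have hdef : blockDefect p B = (Nat.card G).factorization p - m := rfl
  have hmul := Subgroup.index_mul_card P
  have hidx0 : P.index ≠ 0 := Subgroup.index_ne_zero_of_finite
  have hC0 : Nat.card P ≠ 0 := Nat.card_pos.ne'
  have h1 : (P.index * Nat.card P).factorization p = (Nat.card G).factorization p := by rw [hmul]
  rw [Nat.factorization_mul hidx0 hC0] at h1
  simp only [Finsupp.add_apply] at h1
  rw [hcard, hp.out.factorization_pow] at h1
  simp only [Finsupp.single_eq_same] at h1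
  rw [heq]
  omega

/-- A quotient of two natural numbers with the same `p`-part is a local unit. -/
lemma not_memLocalIdeal_div (hMp : IsPModular p M) {n d : ℕ} (hn : n ≠ 0) (hd : d ≠ 0)
    (h : n.factorization p = d.factorization p) :
    MemLocalRing M ((n : ℂ) / (d : ℂ)) ∧ ¬ MemLocalIdeal M ((n : ℂ) / (d : ℂ)) := by
  have h1 : (n : ℂ) / (d : ℂ) = ((ordCompl[p] n : ℕ) : ℂ) * ((ordCompl[p] d : ℕ) : ℂ)⁻¹ := by
    have e1 := Nat.ordProj_mul_ordCompl_eq_self n p
    have e2 := Nat.ordProj_mul_ordCompl_eq_self d p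
    have e3 : ((p ^ n.factorization p : ℕ) : ℂ) * ((ordCompl[p] n : ℕ) : ℂ) = (n : ℂ) := by exact_mod_cast e1
    have e4 : ((p ^ n.factorization p : ℕ) : ℂ) * ((ordCompl[p] d : ℕ) : ℂ) = (d : ℂ) := by
      rw [h]
      exact_mod_cast e2
    have hp0 : ((p ^ n.factorization p : ℕ) : ℂ) ≠ 0 := by
      exact_mod_cast pow_ne_zero _ hp.out.ne_zero
    rw [← e3, ← e4]
    field_simp
  have hn' : ¬ p ∣ ordCompl[p] n := Nat.not_dvd_ordCompl hp.out hn
  have hd' : ¬ p ∣ ordCompl[p] d := Nat.not_dvd_ordCompl hp.out hd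
  have h2 : MemLocalRing M (((ordCompl[p] d : ℕ) : ℂ)⁻¹) := memLocalRing_inv_natCast hMp hd'
  rw [h1]
  refine ⟨memLocalRing_mul (memLocalRing_natCast _) h2, not_memLocalIdeal_mul (memLocalRing_natCast _) h2 ?_ ?_⟩
  · rwa [memLocalIdeal_natCast_iff hMp]
  · apply not_memLocalIdeal_of_inv
    · rw [inv_inv]
      exact memLocalRing_natCast _
    · apply inv_ne_zero
      intro h0
      have : ordCompl[p] d = 0 := by exact_mod_cast h0
      rw [this] at hd'
      exact hd' (dvd_zero p)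

omit hM in
lemma omega_tQ {t : G → ℂ} (ht : IsClassFunction G t) (a : MonoidAlgebra ℂ G) :
    omega t (tQ ⊤ P a) = (P.index : ℂ) * twTrace t 1 a / t 1 := by
  classical
  have h1 : ∑ g, (tQ ⊤ P a).coeff g * t g = twTrace t 1 (tQ ⊤ P a) := by
    simp only [twTrace, mul_one]
  rw [omega, h1, tQ, twTrace_sum]
  congr 1
  have h2 : ∀ q : PQ (⊤ : Subgroup G) P, twTrace t 1 (cj (sg q) a) = twTrace t 1 a := by
    intro q
    have := twTrace_conj ht (sg q) 1 a
    rwa [mul_one, mul_inv_cancel] at this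
  simp only [h2, Finset.sum_const, Finset.card_univ, nsmul_eq_mul]
  congr 1
  have h3 : Fintype.card (PQ (⊤ : Subgroup G) P) = P.index := by
    rw [← Nat.card_eq_fintype_card, ← Subgroup.relIndex_top_right]
    rfl
  rw [h3]

/-- **The trace of the source idempotent at a central element does not vanish on any character of the block.** -/
theorem twTrace_ne_zero_of_center (hMp : IsPModular p M) (hmax : IsMaximalBrauerPair p M B P e)
    {χ χ₀ : IrrCharacter G} (hχ : χ ∈ B) (hχ₀ : χ₀ ∈ B) (h0 : blockHeight p B (χ₀ : G → ℂ) = 0)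
    {i : MonoidAlgebra ℂ G} (hi : IsPrimIdem M P i) (hT : ¬ MemLocalIdeal M (twTrace (χ₀ : G → ℂ) 1 i)) {u : G}
    (hu : u ∈ P) (huc : u ∈ Subgroup.centralizer (P : Set G)) : twTrace (χ : G → ℂ) u i ≠ 0 := by
  classical
  have hB := hmax.1.2.1
  have hPp := hmax.1.1.1
  have hchar₀ : IsCharacter G (χ₀ : G → ℂ) := Cfsg.Agent.Lib.Char.Values.IsIrrCharacter.isCharacter χ₀.2
  have htl₀ : ∀ g, MemLocalRing M ((χ₀ : G → ℂ) g) := fun g => memLocalRing_of_isIntegral (isIntegral_irr χ₀.2 g)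
  have ht : IsClassFunction G (χ : G → ℂ) := isClassFunction_of_irr χ.2
  have ht₀ : IsClassFunction G (χ₀ : G → ℂ) := isClassFunction_of_irr χ₀.2
  set a := MonoidAlgebra.single u (1 : ℂ) * i with ha
  have hul : LocCoeff M (MonoidAlgebra.single u (1 : ℂ)) := by
    intro g
    rw [MonoidAlgebra.coeff_single, Finsupp.single_apply]
    split_ifs
    · exact memLocalRing_one
    · exact memLocalRing_zero
  have hui : InvBy P (MonoidAlgebra.single u (1 : ℂ)) := by
    have hPc : ∀ b ∈ P, b * u = u * b := fun b hb => (Subgroup.mem_centralizer_iff.mp huc b hb)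
    intro g b hb
    rw [MonoidAlgebra.coeff_single, Finsupp.single_apply, Finsupp.single_apply]
    have : (u = b * g * b⁻¹) ↔ (u = g) := by
      constructor
      · intro h
        have h2 : b⁻¹ * u * b = g := by rw [h]; group
        have h3 : b⁻¹ * u * b = u := by
          rw [mul_assoc, (hPc b hb).symm, ← mul_assoc, inv_mul_cancel, one_mul]
        rw [← h2, h3]
      · intro h
        rw [← h, hPc b hb, mul_inv_cancel_right]
    simp only [this]
  have hal : LocCoeff M a := hul.mul hi.loc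
  have hai : InvBy P a := hui.mul hi.inv
  have hz : tQ ⊤ P a ∈ localCenter G M := by
    refine ⟨fun g x => ?_, locCoeff_tQ _ _ hal⟩
    exact invBy_tQ hai g x (Subgroup.mem_top x)
  have hsame : MemLocalIdeal M (omega (χ₀ : G → ℂ) (tQ ⊤ P a) - omega (χ : G → ℂ) (tQ ⊤ P a)) := by
    obtain ⟨χ₂, rfl⟩ := id hB
    exact memLocalIdeal_omega_sub χ₀.2 χ.2 (sameBlock_trans (sameBlock_symm hχ₀) hχ) hz
  rw [omega_tQ ht, omega_tQ ht₀] at hsame
  rw [ha, twTrace_single_mul ht, twTrace_single_mul ht₀] at hsame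
  intro h0'
  rw [h0', mul_zero, zero_div, sub_zero] at hsame
  -- the unit
  have hdeg₀ : ((charDegree (χ₀ : G → ℂ) : ℕ) : ℂ) = (χ₀ : G → ℂ) 1 :=
    Cfsg.Agent.Lib.Char.Values.IsCharacter.charDegree_cast hchar₀
  rw [← hdeg₀] at hsame
  have hdvd := HeightZero.charDegree_dvd_card χ₀.2
  have hd0 : charDegree (χ₀ : G → ℂ) ≠ 0 := fun h => by
    rw [h, zero_dvd_iff] at hdvd
    exact Nat.card_pos.ne' hdvd
  have hdp := isDefectGroup_of_maximal hMp hmax
  have hcard := Cfsg.Agent.S0908.result p M hMp B hB P hdp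
  obtain ⟨h1, h2⟩ := not_memLocalIdeal_div hMp (n := P.index) (d := charDegree (χ₀ : G → ℂ))
    Subgroup.index_ne_zero_of_finite hd0 (factorization_index_defect hχ₀ h0 hcard)
  have h3 : ¬ MemLocalIdeal M (twTrace (χ₀ : G → ℂ) u i) := not_mem_nu hMp hPp hchar₀ htl₀ hi.loc hi.idem hi.inv hT hu
  have h5 : MemLocalRing M (twTrace (χ₀ : G → ℂ) u i) :=
    (localRing M).sum_mem fun g _ => memLocalRing_mul (hi.loc g) (htl₀ _)
  have h4 := not_memLocalIdeal_mul h1 h5 h2 h3
  apply h4
  convert hsame using 1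
  ring

/-- **The twist acts on the central elements.** -/
theorem lam_eq_one_of_center (hMp : IsPModular p M) (hF : IsBlockFusionSystemOn p M B P e F)
    (hlam : ∀ x : P, (x : G) ∈ F.focalSubgroup → lam x = 1) {χ : IrrCharacter G} (hχ : χ ∈ B)
    (hfix : twist M p e lam (χ : G → ℂ) = (χ : G → ℂ)) {v : P} (hv : (v : G) ∈ Subgroup.centralizer (P : Set G)) :
    lam v = 1 := by
  have hB := hF.1.1.2.1
  obtain ⟨χ₀, hχ₀, h0⟩ := HeightZero.exists_height_zero (p := p) (HeightZero.nonempty_of_isPBlock hB)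
  obtain ⟨i, e', g, hi, hT, hne, hQe, h2, hg⟩ := exists_source_of_height_zero hMp hF.1 hχ₀ h0
  have hPg := map_conj_eq_of_le (SubpairLE.le hg)
  have hv' : (v : G) ∈ P.map (MulAut.conj g).toMonoidHom := by
    rw [hPg]
    exact v.2
  obtain ⟨u, hu, huv⟩ := hv'
  have huv' : g * u * g⁻¹ = v := huv
  have hP : g * u * g⁻¹ ∈ P := by
    rw [huv']
    exact v.2
  have huc : u ∈ Subgroup.centralizer (P : Set G) := by
    rw [Subgroup.mem_centralizer_iff]
    intro w hw
    have hw' : g * w * g⁻¹ ∈ P := by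
      rw [← hPg]
      exact ⟨w, hw, rfl⟩
    have h3 := Subgroup.mem_centralizer_iff.mp hv _ hw'
    rw [← huv'] at h3
    have h4 : g * (w * u) * g⁻¹ = g * (u * w) * g⁻¹ := by
      calc g * (w * u) * g⁻¹ = g * w * g⁻¹ * (g * u * g⁻¹) := by group
        _ = g * u * g⁻¹ * (g * w * g⁻¹) := h3
        _ = _ := by group
    exact conj_inj' h4
  have hne0 := twTrace_ne_zero_of_center hMp hF.1 hχ hχ₀ h0 hi hT hu huc
  have h3 := lam_eq_one_of_fixed hMp hF hlam hfix hi hne hQe h2 hg hu hP hne0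
  have h4 : (⟨g * u * g⁻¹, hP⟩ : P) = v := Subtype.ext huv'
  rwa [h4] at h3

end Fix

end Cfsg.Agent.Lib.Blocks.Nilp
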