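/-
Broué–Puig construction: the action of the dual of the focal quotient on the characters of the block, and the count.
-/
import Mathlib
import Cfsg.Agent.Lib.Blocks.BP9

set_option autoImplicit false

namespace Cfsg.Agent.Lib.Blocks.Nilp

open Cfsg Cfsg.Agent.Lib.Blocks.Local Cfsg.Agent.Lib.Blocks.Central Cfsg.Agent.Lib.Blocks.Osima
open Cfsg.Agent.Lib.Blocks.Covering Cfsg.Agent.Lib.Blocks.BlockHom Cfsg.Agent.Lib.Blocks.Pairs
open Cfsg.Agent.Lib.Blocks.Twisted Cfsg.Agent.Lib.Blocks.Necklace Cfsg.Agent.Lib.Blocks.Sections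
open Cfsg.Agent.Lib.Blocks.Regular Cfsg.Agent.Lib.Blocks.BlockCount
open scoped ComplexConjugate

universe u

section Abstract

/-- Divisibility through stabilizers. -/
theorem index_dvd_card_of_stabilizer_le {Γ X : Type*} [Group Γ] [Finite Γ] [MulAction Γ X] [Finite X]
    (Γ₀ : Subgroup Γ) (h : ∀ x : X, MulAction.stabilizer Γ x ≤ Γ₀) : Γ₀.index ∣ Nat.card X := by
  classical
  letI : Fintype Γ := Fintype.ofFinite _
  letI : Fintype X := Fintype.ofFinite _
  letI : Fintype (MulAction.orbitRel.Quotient Γ X) := Fintype.ofFinite _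
  letI : ∀ b : X, Fintype (MulAction.stabilizer Γ b) := fun _ => Fintype.ofFinite _
  rw [Nat.card_eq_fintype_card, MulAction.card_eq_sum_card_group_div_card_stabilizer Γ X]
  refine Finset.dvd_sum fun ω _ => ?_
  have h1 := Subgroup.card_mul_index (MulAction.stabilizer Γ (Quotient.out ω))
  have h2 : Fintype.card Γ / Fintype.card (MulAction.stabilizer Γ (Quotient.out ω)) =
      (MulAction.stabilizer Γ (Quotient.out ω)).index := by
    rw [← Nat.card_eq_fintype_card, ← Nat.card_eq_fintype_card, ← h1]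
    exact Nat.mul_div_cancel_left _ Nat.card_pos
  rw [h2]
  exact Subgroup.index_dvd_of_le (h _)

lemma card_monoidHom_units {A : Type*} [CommGroup A] [Finite A] : Nat.card (A →* ℂˣ) = Nat.card A := by
  haveI : NeZero (Monoid.exponent A) := ⟨Monoid.exponent_ne_zero_of_finite⟩
  exact CommGroup.card_monoidHom_of_hasEnoughRootsOfUnity A ℂ

/-- The annihilator of a subgroup has index the order of the subgroup. -/
lemma index_ker_domRestrictHom {A : Type*} [CommGroup A] [Finite A] (W : Subgroup A) :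
    (MonoidHom.domRestrictHom W ℂˣ).ker.index = Nat.card W := by
  haveI : NeZero (Monoid.exponent A) := ⟨Monoid.exponent_ne_zero_of_finite⟩
  rw [Subgroup.index_ker, MonoidHom.range_eq_top.mpr (MonoidHom.domRestrict_surjective ℂ W)]
  rw [Nat.card_congr (Subgroup.topEquiv).toEquiv, card_monoidHom_units]

end Abstract

section Act

variable {G : Type u} [Group G] [Fintype G] {M : Ideal AlgInt} [hM : M.IsPrime]
variable {p : ℕ} [hp : Fact p.Prime]
variable {P : Subgroup G} {e : Set (IrrCharacter (Subgroup.centralizer (P : Set G)))}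
variable {B : Set (IrrCharacter G)} {F : FusionSystem P}

/-- The commutators of `P` lie in the focal subgroup. -/
lemma comm_mem_focal (hMp : IsPModular p M) (hF : IsBlockFusionSystemOn p M B P e F) (a b : P) :
    ((a * b * a⁻¹ * b⁻¹ : P) : G) ∈ F.focalSubgroup := by
  have hPe := hF.1.1.1
  have hv : ((a⁻¹ : P) : G) ∈ P := (a⁻¹ : P).2
  have hle := eBlk_spec hMp hPe hv
  have hv₀ : (b : G) * ((a⁻¹ : P) : G) * (b : G)⁻¹ ∈ P := (b * a⁻¹ * b⁻¹ : P).2
  have hle' := subpairLE_of_cj_Ev hMp hPe hv hv₀ rfl (cj_Ev_of_mem hMp hPe hv b.2)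
  have hmem := conjHom_mem_of_block hF ((Subgroup.zpowers_le).mpr hv) hle (b : G) hle'
  apply Subgroup.subset_closure
  refine ⟨_, _, ⟨((a⁻¹ : P) : G), Subgroup.mem_zpowers _⟩, hmem, ?_⟩
  simp [conjHom, mul_assoc]

/-- The characters of a given height. -/
abbrev XH (p : ℕ) (B : Set (IrrCharacter G)) (h : ℕ) : Type u :=
  {χ : IrrCharacter G // χ ∈ B ∧ blockHeight p B (χ : G → ℂ) = h}

variable {A : Type*} [CommGroup A]

/-- The twist on characters of a given height. -/
noncomputable def twistX (hMp : IsPModular p M) (hF : IsBlockFusionSystemOn p M B P e F) (π : P →* A)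
    (hπ : ∀ x : P, (x : G) ∈ F.focalSubgroup → π x = 1) (h : ℕ) (γ : A →* ℂˣ) (χ : XH p B h) : XH p B h :=
  have hlam : ∀ x : P, (x : G) ∈ F.focalSubgroup → (γ.comp π) x = 1 := fun x hx => by
    rw [MonoidHom.comp_apply, hπ x hx, map_one]
  have hs := exists_irr_twist hMp hF hlam χ.2.1
  ⟨hs.choose, hs.choose_spec.1, by
    rw [hs.choose_spec.2, blockHeight_twist hMp hF hlam χ.2.1]
    exact χ.2.2⟩

lemma coe_twistX (hMp : IsPModular p M) (hF : IsBlockFusionSystemOn p M B P e F) (π : P →* A)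
    (hπ : ∀ x : P, (x : G) ∈ F.focalSubgroup → π x = 1) (h : ℕ) (γ : A →* ℂˣ) (χ : XH p B h) :
    (((twistX hMp hF π hπ h γ χ).1 : IrrCharacter G) : G → ℂ) = twist M p e (γ.comp π) ((χ.1 : IrrCharacter G) : G → ℂ) := by
  have hlam : ∀ x : P, (x : G) ∈ F.focalSubgroup → (γ.comp π) x = 1 := fun x hx => by
    rw [MonoidHom.comp_apply, hπ x hx, map_one]
  exact (exists_irr_twist hMp hF hlam χ.2.1).choose_spec.2

/-- The action. -/
noncomputable def actX (hMp : IsPModular p M) (hF : IsBlockFusionSystemOn p M B P e F) (π : P →* A)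
    (hπ : ∀ x : P, (x : G) ∈ F.focalSubgroup → π x = 1) (h : ℕ) : MulAction (A →* ℂˣ) (XH p B h) where
  smul γ χ := twistX hMp hF π hπ h γ χ
  one_smul χ := by
    apply Subtype.ext
    apply Subtype.ext
    show (((twistX hMp hF π hπ h 1 χ).1 : IrrCharacter G) : G → ℂ) = _
    rw [coe_twistX]
    have : (1 : A →* ℂˣ).comp π = 1 := by
      ext x
      rfl
    rw [this, twist_one]
  mul_smul γ γ' χ := by
    apply Subtype.ext
    apply Subtype.ext
    show (((twistX hMp hF π hπ h (γ * γ') χ).1 : IrrCharacter G) : G → ℂ) =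
      (((twistX hMp hF π hπ h γ (twistX hMp hF π hπ h γ' χ)).1 : IrrCharacter G) : G → ℂ)
    rw [coe_twistX, coe_twistX, coe_twistX]
    have : (γ * γ').comp π = γ.comp π * γ'.comp π := by
      ext x
      rfl
    rw [this]
    refine twist_mul hMp hF ?_ ?_ (isClassFunction_of_irr χ.1.2)
    · intro x hx
      rw [MonoidHom.comp_apply, hπ x hx, map_one]
    · intro x hx
      rw [MonoidHom.comp_apply, hπ x hx, map_one]

/-- **The count.** -/
theorem card_dvd_card_XH (hMp : IsPModular p M) (hF : IsBlockFusionSystemOn p M B P e F) [Finite A] (π : P →* A)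
    (hπ : ∀ x : P, (x : G) ∈ F.focalSubgroup → π x = 1) (hs : Function.Surjective π) (h : ℕ) (W : Subgroup A)
    (hW : ∀ χ : IrrCharacter G, χ ∈ B → blockHeight p B (χ : G → ℂ) = h → ∀ lam : P →* ℂˣ,
      (∀ x : P, (x : G) ∈ F.focalSubgroup → lam x = 1) → twist M p e lam (χ : G → ℂ) = (χ : G → ℂ) →
      ∀ x : P, π x ∈ W → lam x = 1) :
    Nat.card W ∣ Nat.card (XH p B h) := by
  classical
  letI := actX hMp hF π hπ h
  rw [← index_ker_domRestrictHom W]
  haveI : Finite (A →* ℂˣ) := by
    haveI : NeZero (Monoid.exponent A) := ⟨Monoid.exponent_ne_zero_of_finite⟩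
    exact Nat.finite_of_card_ne_zero (by rw [card_monoidHom_units]; exact Nat.card_pos.ne')
  refine index_dvd_card_of_stabilizer_le _ fun χ γ hγ => ?_
  rw [MonoidHom.mem_ker]
  ext a
  obtain ⟨x, hx⟩ := hs a.1
  have hfix : twistX hMp hF π hπ h γ χ = χ := hγ
  have h1 := coe_twistX hMp hF π hπ h γ χ
  rw [hfix] at h1
  have hlam : ∀ x : P, (x : G) ∈ F.focalSubgroup → (γ.comp π) x = 1 := fun x hx => by
    rw [MonoidHom.comp_apply, hπ x hx, map_one]
  have h2 := hW χ.1 χ.2.1 χ.2.2 _ hlam h1.symm x (by rw [hx]; exact a.2)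
  rw [MonoidHom.comp_apply, hx] at h2
  have h3 : γ (a : A) = 1 := h2
  show ((γ (a : A) : ℂˣ) : ℂ) = 1
  rw [h3]
  rfl

/-- The focal subgroup in `P` is normal with abelian quotient. -/
lemma focal_normal (hMp : IsPModular p M) (hF : IsBlockFusionSystemOn p M B P e F) :
    (F.focalSubgroup.subgroupOf P).Normal := by
  refine ⟨fun n hn a => ?_⟩
  rw [Subgroup.mem_subgroupOf] at hn ⊢
  have h1 := comm_mem_focal hMp hF a n
  have h2 := F.focalSubgroup.mul_mem h1 hn
  simpa using h2

lemma focal_comm (hMp : IsPModular p M) (hF : IsBlockFusionSystemOn p M B P e F)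
    [(F.focalSubgroup.subgroupOf P).Normal] (x y : P ⧸ F.focalSubgroup.subgroupOf P) : x * y = y * x := by
  induction x using QuotientGroup.induction_on with
  | H a =>
    induction y using QuotientGroup.induction_on with
    | H b =>
      rw [← QuotientGroup.mk_mul, ← QuotientGroup.mk_mul, QuotientGroup.eq, Subgroup.mem_subgroupOf]
      have h1 := comm_mem_focal hMp hF b⁻¹ a⁻¹
      simpa [mul_assoc] using h1

/-- **S4684.** -/
theorem focal_index_dvd_height_zero (hMp : IsPModular p M) (hF : IsBlockFusionSystemOn p M B P e F) :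
    (F.focalSubgroup.subgroupOf P).index ∣ Nat.card (XH p B 0) := by
  classical
  haveI := focal_normal hMp hF
  letI : CommGroup (P ⧸ F.focalSubgroup.subgroupOf P) :=
    { (inferInstance : Group (P ⧸ F.focalSubgroup.subgroupOf P)) with mul_comm := focal_comm hMp hF }
  have h1 := card_dvd_card_XH hMp hF (A := P ⧸ F.focalSubgroup.subgroupOf P)
    (QuotientGroup.mk' (F.focalSubgroup.subgroupOf P))
    (fun x hx => (QuotientGroup.eq_one_iff x).mpr (Subgroup.mem_subgroupOf.mpr hx))
    (QuotientGroup.mk'_surjective _) 0 ⊤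
    (fun χ hχ h0 lam hlam hfix x _ => by
      rw [lam_eq_one_of_height_zero hMp hF hlam hχ h0 hfix]
      rfl)
  rwa [Subgroup.card_top] at h1

/-- **S4685.** -/
theorem center_focal_index_dvd_height (hMp : IsPModular p M) (hF : IsBlockFusionSystemOn p M B P e F) (h : ℕ) :
    ((P ⊓ Subgroup.centralizer (P : Set G) ⊓ F.focalSubgroup).subgroupOf
      (P ⊓ Subgroup.centralizer (P : Set G))).index ∣ Nat.card (XH p B h) := by
  classical
  haveI := focal_normal hMp hF
  letI : CommGroup (P ⧸ F.focalSubgroup.subgroupOf P) :=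
    { (inferInstance : Group (P ⧸ F.focalSubgroup.subgroupOf P)) with mul_comm := focal_comm hMp hF }
  let π : P →* (P ⧸ F.focalSubgroup.subgroupOf P) := QuotientGroup.mk' (F.focalSubgroup.subgroupOf P)
  let φ : ↥(P ⊓ Subgroup.centralizer (P : Set G)) →* (P ⧸ F.focalSubgroup.subgroupOf P) :=
    π.comp (Subgroup.inclusion inf_le_left)
  have hker : φ.ker = (P ⊓ Subgroup.centralizer (P : Set G) ⊓ F.focalSubgroup).subgroupOf
      (P ⊓ Subgroup.centralizer (P : Set G)) := by
    ext z
    rw [MonoidHom.mem_ker, Subgroup.mem_subgroupOf]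
    constructor
    · intro hz
      refine ⟨z.2, ?_⟩
      have h1 := (QuotientGroup.eq_one_iff _).mp hz
      exact Subgroup.mem_subgroupOf.mp h1
    · intro hz
      exact (QuotientGroup.eq_one_iff _).mpr (Subgroup.mem_subgroupOf.mpr hz.2)
  rw [← hker, Subgroup.index_ker]
  refine card_dvd_card_XH hMp hF π
    (fun x hx => (QuotientGroup.eq_one_iff x).mpr (Subgroup.mem_subgroupOf.mpr hx))
    (QuotientGroup.mk'_surjective _) h φ.range ?_
  rintro χ hχ - lam hlam hfix x ⟨z, hz⟩
  have h1 : lam (Subgroup.inclusion inf_le_left z) = 1 :=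
    lam_eq_one_of_center hMp hF hlam hχ hfix z.2.2
  have h2 : (Subgroup.inclusion inf_le_left z)⁻¹ * x ∈ F.focalSubgroup.subgroupOf P :=
    QuotientGroup.eq.mp hz
  have h3 := hlam _ (Subgroup.mem_subgroupOf.mp h2)
  rw [map_mul, map_inv, h1, inv_one, one_mul] at h3
  exact h3

end Act

end Cfsg.Agent.Lib.Blocks.Nilp
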