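/-
Watanabe's theorem on blocks with abelian defect group: the sum formula for the Broué–Puig twists.
`∑_{χ ∈ B} ⟨χ^λ, χ⟩ = ∑_{y ∈ P/T} λ(y) l(b_y)`.
-/
import Mathlib
import Cfsg.Agent.Lib.Blocks.BP10
import Cfsg.Agent.Lib.Blocks.AbelianCount

set_option autoImplicit false
set_option linter.style.haveILetI false

namespace Cfsg.Agent.Lib.Blocks.AbWat

open Cfsg Cfsg.Agent.Lib.Blocks.Local Cfsg.Agent.Lib.Blocks.Central Cfsg.Agent.Lib.Blocks.Osima
open Cfsg.Agent.Lib.Blocks.Covering Cfsg.Agent.Lib.Blocks.BlockHom Cfsg.Agent.Lib.Blocks.Pairs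
open Cfsg.Agent.Lib.Blocks.Twisted Cfsg.Agent.Lib.Blocks.Necklace Cfsg.Agent.Lib.Blocks.Sections
open Cfsg.Agent.Lib.Blocks.Regular Cfsg.Agent.Lib.Blocks.BlockCount
open Cfsg.Agent.Lib.Blocks.Nilp Cfsg.Agent.Lib.Blocks.AbelianCount Cfsg.Agent.Lib.Blocks.Transport
open scoped ComplexConjugate

universe u

section Norm

variable {G : Type u} [Group G] [Fintype G] {M : Ideal AlgInt} [hMI : M.IsPrime]
variable {p : ℕ} [hp : Fact p.Prime]

lemma sum_subsection_norm_of_eq (hMp : IsPModular p M) (χ₀ : IrrCharacter G) {u : G} {k : ℕ} (hk : orderOf u = p ^ k)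
    (C : Subgroup G) (hC : C = Cen u) [Fintype C] {f : Set (IrrCharacter C)} (he : IsPBlock M f)
    (hind : ∀ ξ ∈ f, ξ ∈ inducers C M (χ₀ : G → ℂ)) [DecidablePred (· ∈ blockOf M (χ₀ : G → ℂ))] :
    ∑ χ ∈ Finset.univ.filter (· ∈ blockOf M (χ₀ : G → ℂ)), ∑ s : C,
      reg p (blockPart f (fun c : C => (χ : G → ℂ) (u * c))) s *
        blockPart f (fun c : C => (χ : G → ℂ) (u⁻¹ * c)) s⁻¹ =
      (Nat.card C : ℂ) * (blockRank p f : ℂ) := by
  subst hC
  exact Cfsg.Agent.Lib.Blocks.SubsectionNorm.sum_subsection_norm hMp χ₀ hk he hind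

lemma blockPart_shift_inv_of_eq {u : G} (C : Subgroup G) (hC : C = Cen u) [Fintype C] (f : Set (IrrCharacter C))
    {χ : G → ℂ} (hχ : IsIrrCharacter G χ) (s : C) :
    blockPart f (fun c : C => χ (u⁻¹ * c)) s⁻¹ = conj (blockPart f (fun c : C => χ (u * c)) s) := by
  subst hC
  exact Cfsg.Agent.Lib.Blocks.SubsectionNorm.blockPart_shift_inv f hχ s

/-- The norm of a section of the block, over a Brauer element. -/
theorem sum_secF_of_pair (hMp : IsPModular p M) (χ₀ : IrrCharacter G) {u : G} (hu : ∃ k, orderOf u = p ^ k)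
    {f : Set (IrrCharacter (Kz u))} (hpair : IsBrauerPairOf p M (blockOf M (χ₀ : G → ℂ)) (Subgroup.zpowers u) f)
    [DecidablePred (· ∈ blockOf M (χ₀ : G → ℂ))] :
    ∑ χ ∈ Finset.univ.filter (· ∈ blockOf M (χ₀ : G → ℂ)), secF p (χ : G → ℂ) (χ : G → ℂ) u (EE (Kz u) f) =
      (Nat.card (Kz u) : ℂ) * (blockRank p f : ℂ) := by
  classical
  letI : Fintype (Kz u) := Fintype.ofFinite _
  obtain ⟨k, hk⟩ := hu
  have hK : ∀ k ∈ Kz u, k * u = u * k := fun k hk => mem_centralizer_zpowers_iff.mp hk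
  have hC := cz_eq_cen u
  have hind : ∀ ξ ∈ f, ξ ∈ inducers (Kz u) M (χ₀ : G → ℂ) := by
    intro ξ hξ
    rw [inducers_eq_biUnion]
    simp only [Set.mem_iUnion, exists_prop, Set.mem_setOf_eq]
    exact ⟨f, isInducedBlock_of_brauerPair hMp hpair, hξ⟩
  rw [← sum_subsection_norm_of_eq hMp χ₀ hk (Kz u) hC hpair.1.2 hind]
  refine Finset.sum_congr rfl fun χ _ => ?_
  rw [secF, sum_regC_eq]
  refine Finset.sum_congr rfl fun c _ => ?_
  rw [blockPart_shift_inv_of_eq (Kz u) hC f χ.2 c, twTrace_EE_eq_blockPart (isClassFunction_of_irr χ.2) hK]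
  by_cases hc : p ∣ orderOf c
  · rw [if_pos hc, reg_of_dvd _ hc, zero_mul]
  · rw [if_neg hc, reg_of_not_dvd _ hc]

end Norm

section PairsAt

variable {G : Type u} [Group G] [Fintype G] {M : Ideal AlgInt} [hMI : M.IsPrime]
variable {p : ℕ} [hp : Fact p.Prime]

open Classical in
/-- **The pairs of the block at a `p`-element `x`** are the conjugates of the pairs below `(P, e)`, one for each
`T`-orbit of elements of `P` conjugate to `x`. -/
theorem sum_pairs_at (hM : IsPModular p M) {B : Set (IrrCharacter G)} {P : Subgroup G}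
    {e : Set (IrrCharacter (Subgroup.centralizer (P : Set G)))}
    (hmax : IsMaximalBrauerPair p M B P e) (hab : ∀ x ∈ P, ∀ y ∈ P, x * y = y * x)
    {T : Subgroup G}
    (hT : ∀ g : G, g ∈ T ↔ g ∈ Subgroup.normalizer (P : Set G) ∧ StabilizesBlock (Subgroup.centralizer (P : Set G)) e g)
    (R : Finset G) (hR : ∀ y ∈ R, y ∈ P) (hR' : ∀ y ∈ P, ∃! r, r ∈ R ∧ ∃ t ∈ T, t * y * t⁻¹ = r)
    {L : G → MonoidAlgebra ℂ G → ℂ} (hL : LConj L)
    {x : G} (hx : ∃ k : ℕ, orderOf x = p ^ k) :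
    (∑ f : Blk M (Kz x), if IsBrauerPairOf p M B (Subgroup.zpowers x) f.1 then
        L x (EE (Kz x) f.1) * (blockRank p f.1 : ℂ) else 0) =
      ∑ y ∈ R.filter (fun y => IsConj y x), L y (Ev M p P e y) * (blockRank p (eBlk M p P e y) : ℂ) := by
  classical
  have hPe := hmax.1.1
  set Rx := R.filter (fun y => IsConj y x) with hRx
  let F : ∀ y : G, Set (IrrCharacter (CZ y)) := fun y => eBlk M p P e y
  have hFb : ∀ y ∈ R, IsPBlock M (F y) := fun y hy => isPBlock_eBlk hM hPe (hR y hy)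
  have hFs : ∀ y ∈ R, SubpairLE p M (Subgroup.zpowers y) (F y) P e := fun y hy => eBlk_spec hM hPe (hR y hy)
  let gOf : G → G := fun y => if h : IsConj y x then Classical.choose (isConj_iff.mp h) else 1
  have hgOf : ∀ y ∈ Rx, gOf y * y * (gOf y)⁻¹ = x := by
    intro y hy
    have h := (Finset.mem_filter.mp hy).2
    simp only [gOf, dif_pos h]
    exact Classical.choose_spec (isConj_iff.mp h)
  let mv : G → Set (IrrCharacter (CZ x)) := fun y =>
    if h : gOf y * y * (gOf y)⁻¹ = x then conjB (gOf y) (map_conj_cz' h) (F y) else ∅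
  have hmv : ∀ y ∈ Rx, ∀ (g : G) (hg : g * y * g⁻¹ = x), mv y = conjB g (map_conj_cz' hg) (F y) := by
    intro y hy g hg
    simp only [mv, dif_pos (hgOf y hy)]
    exact conjB_eq_of_mul_mem _ _ (mul_inv_mem_cz (hgOf y hy) hg) _
  have hmvB : ∀ y ∈ Rx, IsPBlock M (mv y) := by
    intro y hy
    rw [hmv y hy _ (hgOf y hy)]
    exact isPBlock_conjB (hFb y (Finset.mem_filter.mp hy).1)
  have hpair : ∀ y ∈ R, IsBrauerPairOf p M B (Subgroup.zpowers y) (F y) := by
    intro y hy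
    have hQf : IsBrauerPair p M (Subgroup.zpowers y) (F y) :=
      ⟨isPGroup_zpowers_of_mem hPe.1 (hR y hy), hFb y hy⟩
    exact (isBrauerPairOf_iff_of_subpairLE hM hQf (hFs y hy)).mp hmax.1
  have hQx : IsPGroup p (Subgroup.zpowers x) := by
    obtain ⟨k, hk⟩ := hx
    rw [IsPGroup.iff_card, Nat.card_zpowers]
    exact ⟨k, hk⟩
  rw [← Finset.sum_filter]
  symm
  refine Finset.sum_bij (fun y hy => (⟨mv y, hmvB y hy⟩ : Blk M (Kz x))) ?_ ?_ ?_ ?_
  · -- maps to
    intro y hy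
    refine Finset.mem_filter.mpr ⟨Finset.mem_univ _, ?_⟩
    show IsBrauerPairOf p M B (Subgroup.zpowers x) (mv y)
    rw [hmv y hy _ (hgOf y hy)]
    exact isBrauerPairOf_conj (gOf y) (map_conj_zpowers' (hgOf y hy)) (map_conj_cz' (hgOf y hy))
      (hpair y (Finset.mem_filter.mp hy).1)
  · -- injective
    intro y hyRx y' hyRx' hmm'
    have hmm : mv y = mv y' := congrArg Subtype.val hmm'
    have hyR := (Finset.mem_filter.mp hyRx).1
    have hyR' := (Finset.mem_filter.mp hyRx').1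
    have hg₀ := hgOf y hyRx
    have hg₁ := hgOf y' hyRx'
    have hg₂ : ((gOf y')⁻¹ * gOf y) * y * ((gOf y')⁻¹ * gOf y)⁻¹ = y' := by
      calc ((gOf y')⁻¹ * gOf y) * y * ((gOf y')⁻¹ * gOf y)⁻¹ = (gOf y')⁻¹ * (gOf y * y * (gOf y)⁻¹) * gOf y' := by group
        _ = (gOf y')⁻¹ * (gOf y' * y' * (gOf y')⁻¹) * gOf y' := by rw [hg₀, hg₁]
        _ = y' := by group
    have hinv : (gOf y')⁻¹ * x * ((gOf y')⁻¹)⁻¹ = y' := by
      rw [← hg₁]
      group
    have hmul : conjB ((gOf y')⁻¹ * gOf y) (map_conj_cz' hg₂) (F y) = F y' := by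
      rw [conjB_mul (map_conj_cz' hinv) (map_conj_cz' hg₀) (map_conj_cz' hg₂), ← hmv y hyRx _ hg₀, hmm,
        hmv y' hyRx' _ hg₁, ← conjB_mul (map_conj_cz' hinv) (map_conj_cz' hg₁)
          (by rw [inv_mul_cancel]; exact map_conj_of_mem_normalizer (Subgroup.one_mem _))]
      exact conjB_of_mem (by rw [inv_mul_cancel]; exact Subgroup.one_mem _) _ _
    have hle' : SubpairLE p M (Subgroup.zpowers y') (conjB ((gOf y')⁻¹ * gOf y) (map_conj_cz' hg₂) (F y)) P e := by
      rw [hmul]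
      exact hFs y' hyR'
    obtain ⟨t, htN, hts, c, hc, hgc⟩ := exists_mul_of_conj hM hmax hab
      (Subgroup.zpowers_le.mpr (hR y hyR)) (hFb y hyR) (hFs y hyR) (map_conj_zpowers' hg₂) (map_conj_cz' hg₂) hle'
    have hcy : c * y = y * c := by
      have hc' : c ∈ Cen y := by
        rw [← cz_eq_cen]
        exact hc
      rw [Subgroup.mem_centralizer_singleton_iff] at hc'
      exact hc'
    have hty : t * y * t⁻¹ = y' := by
      rw [← hg₂, hgc]
      calc t * y * t⁻¹ = t * (y * c) * c⁻¹ * t⁻¹ := by group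
        _ = t * (c * y) * c⁻¹ * t⁻¹ := by rw [hcy]
        _ = _ := by group
    obtain ⟨r, -, hruniq⟩ := hR' y (hR y hyR)
    have e1 := hruniq y ⟨hyR, 1, T.one_mem, by simp⟩
    have e2 := hruniq y' ⟨hyR', t, (hT t).mpr ⟨htN, hts⟩, hty⟩
    rw [e1, e2]
  · -- surjective
    intro b hb0
    have hbp : IsBrauerPairOf p M B (Subgroup.zpowers x) b.1 := (Finset.mem_filter.mp hb0).2
    obtain ⟨g, hg⟩ := exists_conj_subpairLE hM hmax hbp
    have hy₁P : g * x * g⁻¹ ∈ P := SubpairLE.le hg ⟨x, Subgroup.mem_zpowers x, rfl⟩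
    obtain ⟨r, ⟨hrR, t, htT, htr⟩, -⟩ := hR' _ hy₁P
    obtain ⟨htN, hts⟩ := (hT t).mp htT
    have hw : (t * g) * x * (t * g)⁻¹ = r := by
      rw [← htr]
      group
    have htK := normalizer_le_normalizer_centralizer P htN
    obtain ⟨htK', hte⟩ := stabilizesBlock_iff.mp hts
    have hQ1 : ((Subgroup.zpowers x).map (MulAut.conj g).toMonoidHom).map (MulAut.conj t).toMonoidHom =
        Subgroup.zpowers r := by
      rw [← map_conj_mul, map_conj_zpowers' hw]
    have hc1 : (Subgroup.centralizer (((Subgroup.zpowers x).map (MulAut.conj g).toMonoidHom : Subgroup G) : Set G)).map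
        (MulAut.conj t).toMonoidHom = CZ r := by
      rw [map_conj_centralizer, hQ1]
    have h1 := subpairLE_conj_gen t hQ1 (map_conj_of_mem_normalizer htN) hc1
      (map_conj_of_mem_normalizer htK) hg
    rw [hte, conjBlock_eq_conjB, ← conjB_mul hc1 (map_conj_centralizer _ g) (map_conj_cz' hw)] at h1
    have hFr := eq_of_subpairLE hM hPe (hFs r hrR) h1
    have hrx : IsConj r x := by
      rw [isConj_iff]
      refine ⟨(t * g)⁻¹, ?_⟩
      rw [← hw]
      group
    have hrRx : r ∈ Rx := Finset.mem_filter.mpr ⟨hrR, hrx⟩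
    refine ⟨r, hrRx, Subtype.ext ?_⟩
    show mv r = b.1
    rw [hmv r hrRx _ (hgOf r hrRx), hFr]
    have hgw : (gOf r * (t * g)) * x * (gOf r * (t * g))⁻¹ = x := by
      have h2 := hgOf r hrRx
      calc (gOf r * (t * g)) * x * (gOf r * (t * g))⁻¹ = gOf r * ((t * g) * x * (t * g)⁻¹) * (gOf r)⁻¹ := by group
        _ = x := by rw [hw, h2]
    have hmemw : gOf r * (t * g) ∈ CZ x := mem_cz_of_conj hgw
    have hmapw : (CZ x).map (MulAut.conj (gOf r * (t * g))).toMonoidHom = CZ x := map_conj_cz' hgw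
    rw [← conjB_mul (map_conj_cz' (hgOf r hrRx)) (map_conj_cz' hw) hmapw]
    exact conjB_of_mem hmemw hmapw b.1
  · -- the values
    intro y hy
    have hgy := hgOf y hy
    have key : ∀ (x' : G) (h : gOf y * y * (gOf y)⁻¹ = x'),
        L x' (EE (Kz x') (conjB (gOf y) (map_conj_cz' h) (F y))) = L y (Ev M p P e y) := by
      rintro _ rfl
      rw [← cj_EE_conjB]
      exact hL (gOf y) y _
    show L y (Ev M p P e y) * (blockRank p (eBlk M p P e y) : ℂ) =
      L x (EE (Kz x) (mv y)) * (blockRank p (mv y) : ℂ)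
    rw [hmv y hy _ hgy, key x hgy]
    congr 2
    exact (blockRank_blockMap _ _).symm

/-- The class equation, weighted: `∑_{u ~ y} |C_G(u)| = |G|`. -/
lemma sum_card_Kz_conj (y : G) [DecidablePred (fun u => IsConj y u)] :
    ∑ u ∈ Finset.univ.filter (fun u => IsConj y u), (Nat.card (Kz u) : ℂ) = (Nat.card G : ℂ) := by
  classical
  have h1 : Fintype.card G = ∑ u ∈ Finset.univ.filter (fun u => IsConj y u),
      (Finset.univ.filter (fun g : G => g * y * g⁻¹ = u)).card := by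
    rw [← Finset.card_univ]
    apply Finset.card_eq_sum_card_fiberwise
    intro g _
    simp only [Finset.coe_filter, Finset.mem_univ, true_and, Set.mem_setOf_eq]
    exact isConj_iff.mpr ⟨g, rfl⟩
  rw [Nat.card_eq_fintype_card, h1]
  push_cast
  refine Finset.sum_congr rfl fun u hu => ?_
  have hu' : IsConj y u := (Finset.mem_filter.mp hu).2
  obtain ⟨g₀, hg₀⟩ := isConj_iff.mp hu'
  congr 1
  letI : Fintype (Kz u) := Fintype.ofFinite _
  rw [Nat.card_eq_fintype_card, ← Finset.card_univ]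
  refine Finset.card_bij (fun c _ => (c : G) * g₀) ?_ ?_ ?_
  · intro c _
    refine Finset.mem_filter.mpr ⟨Finset.mem_univ _, ?_⟩
    have h2 : (c : G) * u = u * c := mem_centralizer_zpowers_iff.mp c.2
    calc (c : G) * g₀ * y * ((c : G) * g₀)⁻¹ = (c : G) * (g₀ * y * g₀⁻¹) * (c : G)⁻¹ := by group
      _ = (c : G) * u * (c : G)⁻¹ := by rw [hg₀]
      _ = u := by rw [h2]; group
  · intro c _ c' _ h
    exact Subtype.ext (mul_right_cancel h)
  · intro g hg
    have h2 : g * y * g⁻¹ = u := (Finset.mem_filter.mp hg).2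
    exact ⟨⟨g * g₀⁻¹, mul_inv_mem_cz h2 hg₀⟩, Finset.mem_univ _, by simp⟩

variable {P : Subgroup G} {e : Set (IrrCharacter (Subgroup.centralizer (P : Set G)))}
variable {F : FusionSystem P} {lam : P →* ℂˣ}

open Classical in
/-- **The sum formula.** -/
theorem sum_classInner_twist (hM : IsPModular p M) (χ₀ : IrrCharacter G)
    (hF : IsBlockFusionSystemOn p M (blockOf M (χ₀ : G → ℂ)) P e F)
    (hlam : ∀ x : P, (x : G) ∈ F.focalSubgroup → lam x = 1)
    (hab : ∀ x ∈ P, ∀ y ∈ P, x * y = y * x) {T : Subgroup G}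
    (hT : ∀ g : G, g ∈ T ↔ g ∈ Subgroup.normalizer (P : Set G) ∧ StabilizesBlock (Subgroup.centralizer (P : Set G)) e g)
    (R : Finset G) (hR : ∀ y ∈ R, y ∈ P) (hR' : ∀ y ∈ P, ∃! r, r ∈ R ∧ ∃ t ∈ T, t * y * t⁻¹ = r) :
    ∑ χ ∈ Finset.univ.filter (· ∈ blockOf M (χ₀ : G → ℂ)), classInner (twist M p e lam (χ : G → ℂ)) (χ : G → ℂ) =
      ∑ y ∈ R, LL M p e lam y (Ev M p P e y) * (blockRank p (eBlk M p P e y) : ℂ) := by
  classical
  set B := blockOf M (χ₀ : G → ℂ) with hBdef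
  have hmax := hF.1
  have hPe := hmax.1.1
  have hL := lConj_LL (M := M) (p := p) hM hF hlam
  set L := LL M p e lam with hLdef
  have hcard : (Nat.card G : ℂ) ≠ 0 := Nat.cast_ne_zero.mpr Nat.card_pos.ne'
  -- expand the inner products
  have h1 : ∀ χ : IrrCharacter G, ∑ g : G, twist M p e lam (χ : G → ℂ) g * conj ((χ : G → ℂ) g) =
      ∑ u ∈ pElts (G := G) p, ∑ f : Blk M (Kz u), L u (EE (Kz u) f.1) *
        secF p (χ : G → ℂ) (χ : G → ℂ) u (EE (Kz u) f.1) := by
    intro χ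
    have ht : IsClassFunction G (χ : G → ℂ) := isClassFunction_of_irr χ.2
    rw [sum_eq_sum_secF hM (isClassFunction_twist hM hF hlam ht) ht]
    refine Finset.sum_congr rfl fun u hu => Finset.sum_congr rfl fun f _ => ?_
    simp only [secF]
    rw [Finset.mul_sum]
    refine Finset.sum_congr rfl fun c hc => ?_
    rw [twist, twTrace_thetaL hM hL ht (mem_pElts.mp hu) f.2 hc, mul_assoc]
  have h2 : ∀ u ∈ pElts (G := G) p, ∀ f : Blk M (Kz u),
      ∑ χ ∈ Finset.univ.filter (· ∈ B), secF p (χ : G → ℂ) (χ : G → ℂ) u (EE (Kz u) f.1) =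
      if IsBrauerPairOf p M B (Subgroup.zpowers u) f.1 then (Nat.card (Kz u) : ℂ) * (blockRank p f.1 : ℂ) else 0 := by
    intro u hu f
    by_cases hp' : IsBrauerPairOf p M B (Subgroup.zpowers u) f.1
    · rw [if_pos hp']
      exact sum_secF_of_pair hM χ₀ (mem_pElts.mp hu) hp'
    · rw [if_neg hp']
      refine Finset.sum_eq_zero fun χ hχ => ?_
      simp only [secF]
      refine Finset.sum_eq_zero fun c hc => ?_
      obtain ⟨k, hk⟩ := mem_pElts.mp hu
      rw [twTrace_EE_eq_zero_of_not_pair hM hmax.1.2.1 (Finset.mem_filter.mp hχ).2 (k := k)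
        (by rw [← hk]; exact pow_orderOf_eq_one u) f.2 hp' hc, zero_mul]
  have h3 : ∑ χ ∈ Finset.univ.filter (· ∈ B), ∑ g : G, twist M p e lam (χ : G → ℂ) g * conj ((χ : G → ℂ) g) =
      (Nat.card G : ℂ) * ∑ y ∈ R, L y (Ev M p P e y) * (blockRank p (eBlk M p P e y) : ℂ) := by
    simp only [h1]
    rw [Finset.sum_comm]
    have h4 : ∀ u ∈ pElts (G := G) p, ∑ χ ∈ Finset.univ.filter (· ∈ B), ∑ f : Blk M (Kz u), L u (EE (Kz u) f.1) *
        secF p (χ : G → ℂ) (χ : G → ℂ) u (EE (Kz u) f.1) =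
        (Nat.card (Kz u) : ℂ) * ∑ y ∈ R.filter (fun y => IsConj y u), L y (Ev M p P e y) * (blockRank p (eBlk M p P e y) : ℂ) := by
      intro u hu
      rw [Finset.sum_comm, ← sum_pairs_at hM hmax hab hT R hR hR' hL (mem_pElts.mp hu), Finset.mul_sum]
      refine Finset.sum_congr rfl fun f _ => ?_
      rw [← Finset.mul_sum, h2 u hu f]
      split_ifs
      · ring
      · simp
    rw [Finset.sum_congr rfl h4]
    simp only [Finset.mul_sum]
    rw [Finset.sum_comm' (s' := fun y => Finset.univ.filter (fun u => IsConj y u)) (t' := R)]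
    · refine Finset.sum_congr rfl fun y _ => ?_
      rw [← Finset.sum_mul, sum_card_Kz_conj]
    · intro u y
      simp only [Finset.mem_filter, Finset.mem_univ, true_and]
      constructor
      · rintro ⟨hu, hy, hc⟩
        exact ⟨hc, hy⟩
      · rintro ⟨hc, hy⟩
        refine ⟨?_, hy, hc⟩
        obtain ⟨g, hg⟩ := isConj_iff.mp hc
        obtain ⟨k, hk⟩ := exists_orderOf_eq_of_mem hPe.1 (hR y hy)
        exact mem_pElts.mpr ⟨k, by rw [← hg, Nilp.orderOf_conj', hk]⟩
  calc _ = (Nat.card G : ℂ)⁻¹ * ∑ χ ∈ Finset.univ.filter (· ∈ B), ∑ g : G,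
        twist M p e lam (χ : G → ℂ) g * conj ((χ : G → ℂ) g) := by
        rw [Finset.mul_sum]
        rfl
    _ = _ := by
        rw [h3, ← mul_assoc, inv_mul_cancel₀ hcard, one_mul]

end PairsAt

end Cfsg.Agent.Lib.Blocks.AbWat
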