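/-
Watanabe's theorem on blocks with abelian defect group: the consequences of the sum formula in one group.
-/
import Mathlib
import Cfsg.Agent.Lib.Blocks.AbWat1

set_option autoImplicit false
set_option linter.style.haveILetI false

namespace Cfsg.Agent.Lib.Blocks.AbWat

open Cfsg Cfsg.Agent.Lib.Blocks.Local Cfsg.Agent.Lib.Blocks.Central Cfsg.Agent.Lib.Blocks.Osima
open Cfsg.Agent.Lib.Blocks.Covering Cfsg.Agent.Lib.Blocks.BlockHom Cfsg.Agent.Lib.Blocks.Pairs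
open Cfsg.Agent.Lib.Blocks.Twisted Cfsg.Agent.Lib.Blocks.Necklace Cfsg.Agent.Lib.Blocks.Sections
open Cfsg.Agent.Lib.Blocks.Regular Cfsg.Agent.Lib.Blocks.BlockCount
open Cfsg.Agent.Lib.Blocks.Nilp Cfsg.Agent.Lib.Blocks.AbelianCount Cfsg.Agent.Lib.Blocks.Transport
open scoped ComplexConjugate

universe u

section One

variable {G : Type u} [Group G] [Fintype G] {M : Ideal AlgInt} [hMI : M.IsPrime]
variable {p : ℕ} [hp : Fact p.Prime]
variable {P : Subgroup G} {e : Set (IrrCharacter (Subgroup.centralizer (P : Set G)))}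
variable {F : FusionSystem P} {lam : P →* ℂˣ} {B : Set (IrrCharacter G)}

/-- The value on a pair below `(P, e)`. -/
lemma LL_Ev (hM : IsPModular p M) (hF : IsBlockFusionSystemOn p M B P e F)
    (hlam : ∀ x : P, (x : G) ∈ F.focalSubgroup → lam x = 1) {y : G} (hy : y ∈ P) :
    LL M p e lam y (Ev M p P e y) = ((lam ⟨y, hy⟩ : ℂˣ) : ℂ) := by
  simp only [LL]
  rw [lamAt_eq hM hF hlam (v := ⟨y, hy⟩) (x := 1) (by simp) (cj_one' _)]

/-- A linear character stable under the inertial group is trivial on the focal subgroup. -/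
lemma lam_focal (hM : IsPModular p M) (hF : IsBlockFusionSystemOn p M B P e F)
    (hab : ∀ x ∈ P, ∀ y ∈ P, x * y = y * x) {T : Subgroup G}
    (hT : ∀ g : G, g ∈ T ↔ g ∈ Subgroup.normalizer (P : Set G) ∧ StabilizesBlock (Subgroup.centralizer (P : Set G)) e g)
    (hst : ∀ t ∈ T, ∀ (x : G) (hx : x ∈ P) (hx' : t * x * t⁻¹ ∈ P), lam ⟨t * x * t⁻¹, hx'⟩ = lam ⟨x, hx⟩) :
    ∀ x : P, (x : G) ∈ F.focalSubgroup → lam x = 1 := by
  classical
  have hmax := hF.1
  have hPe := hmax.1.1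
  have hle : F.focalSubgroup ≤ (lam.ker).map P.subtype := by
    refine (Subgroup.closure_le _).mpr ?_
    rintro _ ⟨Q, φ, a, hφ, rfl⟩
    obtain ⟨hQP, g, hφg, hgP, f, hf, hf'⟩ := (hF.2 Q φ).1 hφ
    have hfb := (isBrauerPair_of_subpairLE hPe hf).2
    have haP : (a : G) ∈ P := hQP a.2
    have hga : g * (a : G) * g⁻¹ ∈ P := hgP ⟨a, a.2, rfl⟩
    rw [conjBlock_eq_conjB] at hf'
    obtain ⟨t, htN, hts, c, hc, hgc⟩ := exists_mul_of_conj hM hmax hab hQP hfb hf rfl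
      (map_conj_centralizer Q g) hf'
    have hca : c * (a : G) * c⁻¹ = a := by
      have := Subgroup.mem_centralizer_iff.mp hc a a.2
      rw [← this]
      group
    have htg : t * (a : G) * t⁻¹ = g * (a : G) * g⁻¹ := by
      rw [hgc]
      calc t * (a : G) * t⁻¹ = t * (c * (a : G) * c⁻¹) * t⁻¹ := by rw [hca]
        _ = _ := by group
    have hta : t * (a : G) * t⁻¹ ∈ P := by rwa [htg]
    have h1 := hst t ((hT t).mpr ⟨htN, hts⟩) a haP hta
    refine ⟨(⟨a, haP⟩ : P)⁻¹ * ⟨t * (a : G) * t⁻¹, hta⟩, ?_, ?_⟩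
    · rw [SetLike.mem_coe, MonoidHom.mem_ker, map_mul, map_inv, h1, inv_mul_cancel]
    · simp only [Subgroup.coe_subtype, Subgroup.coe_mul, InvMemClass.coe_inv]
      rw [hφg, htg]
  intro x hx
  obtain ⟨k, hk, hkx⟩ := hle hx
  have : k = x := Subtype.ext hkx
  rw [← this]
  exact hk

open Classical in
/-- For a nontrivial linear character, the twist moves every character of the block. -/
lemma sum_classInner_twist_eq_zero (hM : IsPModular p M) (hF : IsBlockFusionSystemOn p M B P e F)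
    (hlam : ∀ x : P, (x : G) ∈ F.focalSubgroup → lam x = 1)
    (hab : ∀ x ∈ P, ∀ y ∈ P, x * y = y * x) (hne : lam ≠ 1) :
    ∑ χ ∈ Finset.univ.filter (· ∈ B), classInner (twist M p e lam (χ : G → ℂ)) (χ : G → ℂ) = 0 := by
  classical
  refine Finset.sum_eq_zero fun χ hχ => ?_
  have hχB := (Finset.mem_filter.mp hχ).2
  obtain ⟨ψ, hψ, hψe⟩ := exists_irr_twist hM hF hlam hχB
  rw [← hψe]
  refine Cfsg.Agent.Lib.Char.Virtual.classInner_irr_of_ne ψ.2 χ.2 ?_
  intro heq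
  apply hne
  ext v
  have h1 := lam_eq_one_of_center hM hF hlam hχB (by rw [← hψe, heq]) (v := v)
    (Subgroup.mem_centralizer_iff.mpr fun q hq => hab q hq v v.2)
  rw [h1]
  rfl

open Classical in
/-- **First relation**: for a nontrivial `T`-stable linear character `λ` of `P`, `∑_{y ∈ P/T} λ(y) l(b_y) = 0`. -/
theorem sum_lam_rank_eq_zero (hM : IsPModular p M) (χ₀ : IrrCharacter G)
    (hmax : IsMaximalBrauerPair p M (blockOf M (χ₀ : G → ℂ)) P e)
    (hab : ∀ x ∈ P, ∀ y ∈ P, x * y = y * x) {T : Subgroup G}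
    (hT : ∀ g : G, g ∈ T ↔ g ∈ Subgroup.normalizer (P : Set G) ∧ StabilizesBlock (Subgroup.centralizer (P : Set G)) e g)
    (R : Finset G) (hR : ∀ y ∈ R, y ∈ P) (hR' : ∀ y ∈ P, ∃! r, r ∈ R ∧ ∃ t ∈ T, t * y * t⁻¹ = r)
    (hst : ∀ t ∈ T, ∀ (x : G) (hx : x ∈ P) (hx' : t * x * t⁻¹ ∈ P), lam ⟨t * x * t⁻¹, hx'⟩ = lam ⟨x, hx⟩)
    (hne : lam ≠ 1) (a : G → ℂ) (ha : ∀ (y : G) (hy : y ∈ P), a y = ((lam ⟨y, hy⟩ : ℂˣ) : ℂ)) :
    ∑ y ∈ R, a y * (blockRank p (eBlk M p P e y) : ℂ) = 0 := by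
  classical
  obtain ⟨F, hF, -⟩ := Cfsg.Agent.Lib.Blocks.Pairs.exists_saturated_block_fusion hM hmax
  have hlam := lam_focal (lam := lam) hM hF hab hT hst
  have h1 := sum_classInner_twist hM χ₀ hF hlam hab hT R hR hR'
  rw [sum_classInner_twist_eq_zero hM hF hlam hab hne] at h1
  rw [h1]
  refine Finset.sum_congr rfl fun y hy => ?_
  rw [ha y (hR y hy), LL_Ev hM hF hlam (hR y hy)]

open Classical in
/-- **Second relation**: `k(B) = ∑_{y ∈ P/T} l(b_y)`. -/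
theorem card_eq_sum_rank (hM : IsPModular p M) (χ₀ : IrrCharacter G)
    (hmax : IsMaximalBrauerPair p M (blockOf M (χ₀ : G → ℂ)) P e)
    (hab : ∀ x ∈ P, ∀ y ∈ P, x * y = y * x) {T : Subgroup G}
    (hT : ∀ g : G, g ∈ T ↔ g ∈ Subgroup.normalizer (P : Set G) ∧ StabilizesBlock (Subgroup.centralizer (P : Set G)) e g)
    (R : Finset G) (hR : ∀ y ∈ R, y ∈ P) (hR' : ∀ y ∈ P, ∃! r, r ∈ R ∧ ∃ t ∈ T, t * y * t⁻¹ = r) :
    Nat.card (blockOf M (χ₀ : G → ℂ)) = ∑ y ∈ R, blockRank p (eBlk M p P e y) := by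
  classical
  obtain ⟨F, hF, -⟩ := Cfsg.Agent.Lib.Blocks.Pairs.exists_saturated_block_fusion hM hmax
  have hlam : ∀ x : P, (x : G) ∈ F.focalSubgroup → (1 : P →* ℂˣ) x = 1 := fun _ _ => rfl
  have h1 := sum_classInner_twist hM χ₀ hF hlam hab hT R hR hR'
  have h2 : ∀ χ ∈ Finset.univ.filter (· ∈ blockOf M (χ₀ : G → ℂ)),
      classInner (twist M p e (1 : P →* ℂˣ) (χ : G → ℂ)) (χ : G → ℂ) = 1 := by
    intro χ _
    rw [twist_one, Cfsg.Agent.Lib.Char.Virtual.classInner_irr_self χ.2]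
  rw [Finset.sum_congr rfl h2] at h1
  have h3 : ∀ y ∈ R, LL M p e (1 : P →* ℂˣ) y (Ev M p P e y) * (blockRank p (eBlk M p P e y) : ℂ) =
      (blockRank p (eBlk M p P e y) : ℂ) := by
    intro y _
    simp only [LL]
    rw [lamAt_one, Units.val_one, one_mul]
  rw [Finset.sum_congr rfl h3] at h1
  have h4 : (Nat.card (blockOf M (χ₀ : G → ℂ)) : ℂ) = ((∑ y ∈ R, blockRank p (eBlk M p P e y) : ℕ) : ℂ) := by
    push_cast
    rw [← h1]
    simp only [Finset.sum_const, nsmul_eq_mul, mul_one]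
    congr 1
    rw [Nat.card_eq_fintype_card, Fintype.card_subtype]
  exact_mod_cast h4

end One

end Cfsg.Agent.Lib.Blocks.AbWat
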