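/-
Watanabe's theorem on blocks with abelian defect group: transport of induced blocks between the group
and a subgroup.
-/
import Mathlib
import Cfsg.Agent.Lib.Blocks.AbWat2

set_option autoImplicit false
set_option linter.style.haveILetI false

namespace Cfsg.Agent.Lib.Blocks.AbWat

open Cfsg Cfsg.Agent.Lib.Blocks.Local Cfsg.Agent.Lib.Blocks.Central Cfsg.Agent.Lib.Blocks.Osima
open Cfsg.Agent.Lib.Blocks.Covering Cfsg.Agent.Lib.Blocks.BlockHom Cfsg.Agent.Lib.Blocks.Pairs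
open Cfsg.Agent.Lib.Blocks.Twisted Cfsg.Agent.Lib.Blocks.Necklace Cfsg.Agent.Lib.Blocks.Sections
open Cfsg.Agent.Lib.Blocks.Regular Cfsg.Agent.Lib.Blocks.BlockCount
open Cfsg.Agent.Lib.Blocks.Nilp Cfsg.Agent.Lib.Blocks.AbelianCount Cfsg.Agent.Lib.Blocks.Transport
open scoped ComplexConjugate

universe u

section Trans

variable {G : Type u} [Group G] {M : Ideal AlgInt}

/-- Subgroups of `Y` and of `G` with the same elements. -/
def transIso {Y : Subgroup G} (W₁ : Subgroup Y) (W₂ : Subgroup G) (hle : W₂ ≤ Y)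
    (h : ∀ a : Y, a ∈ W₁ ↔ (a : G) ∈ W₂) : W₁ ≃* W₂ where
  toFun z := ⟨((z : Y) : G), (h z).mp z.2⟩
  invFun c := ⟨⟨c, hle c.2⟩, (h ⟨c, hle c.2⟩).mpr c.2⟩
  left_inv _ := Subtype.ext (Subtype.ext rfl)
  right_inv _ := Subtype.ext rfl
  map_mul' _ _ := Subtype.ext rfl

@[simp] lemma coe_transIso {Y : Subgroup G} (W₁ : Subgroup Y) (W₂ : Subgroup G) (hle : W₂ ≤ Y)
    (h : ∀ a : Y, a ∈ W₁ ↔ (a : G) ∈ W₂) (z : W₁) : ((transIso W₁ W₂ hle h z : W₂) : G) = ((z : Y) : G) := rfl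

variable {Y : Subgroup G} {W₁ K₁ : Subgroup Y} {W₂ K₂ : Subgroup G}

lemma inducedCentralCharIn_transport (ιW : W₁ ≃* W₂) (ιK : K₁ ≃* K₂) (hW : ∀ a : W₁, ((ιW a : W₂) : G) = ((a : Y) : G))
    (hK : ∀ a : K₁, ((ιK a : K₂) : G) = ((a : Y) : G)) (ξ : K₂ → ℂ) (h : W₁) :
    inducedCentralCharIn W₁ K₁ (fun k => ξ (ιK k)) (h : Y) = inducedCentralCharIn W₂ K₂ ξ ((h : Y) : G) := by
  classical
  unfold inducedCentralCharIn
  rw [← finsum_comp_equiv ιK.toEquiv]
  refine finsum_congr fun z => ?_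
  refine finsum_congr_Prop (propext ?_) ?_
  · show (∃ x : W₁, ((x : Y) : Y) * ((z : K₁) : Y) * ((x : Y) : Y)⁻¹ = (h : Y)) ↔
      ∃ x : W₂, (x : G) * ((ιK z : K₂) : G) * (x : G)⁻¹ = ((h : Y) : G)
    constructor
    · rintro ⟨x, hx⟩
      refine ⟨ιW x, ?_⟩
      have h1 := congrArg (Subtype.val : Y → G) hx
      rw [hW, hK]
      exact h1
    · rintro ⟨x, hx⟩
      refine ⟨ιW.symm x, Subtype.ext ?_⟩
      have h2 : (((ιW.symm x : W₁) : Y) : G) = x := by
        rw [← hW, MulEquiv.apply_symm_apply]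
      rw [hK] at hx
      show (((ιW.symm x : W₁) : Y) : G) * (((z : K₁) : Y) : G) * (((ιW.symm x : W₁) : Y) : G)⁻¹ = _
      rw [h2]
      exact hx
  · intro _
    simp only [map_one]
    rfl

/-- Induced blocks in `Y` and in `G`. -/
theorem isInducedBlockIn_transport (ιW : W₁ ≃* W₂) (ιK : K₁ ≃* K₂) (hW : ∀ a : W₁, ((ιW a : W₂) : G) = ((a : Y) : G))
    (hK : ∀ a : K₁, ((ιK a : K₂) : G) = ((a : Y) : G)) {e : Set (IrrCharacter K₂)} {f : Set (IrrCharacter W₂)} :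
    IsInducedBlockIn M W₁ K₁ (blockMap ιK e) (blockMap ιW f) ↔ IsInducedBlockIn M W₂ K₂ e f := by
  classical
  constructor
  · rintro ⟨h1, h2, h3⟩
    have hc : IsPBlock M e := by
      have := isPBlock_blockMap ιK.symm h1
      rwa [blockMap_symm_blockMap] at this
    have hf : IsPBlock M f := by
      have := isPBlock_blockMap ιW.symm h2
      rwa [blockMap_symm_blockMap] at this
    refine ⟨hc, hf, fun ξ hξ χ hχ g => ?_⟩
    have h4 := h3 _ (irrComap_mem_blockMap ιK hξ) _ (irrComap_mem_blockMap ιW hχ) (ιW.symm g)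
    have h5 := inducedCentralCharIn_transport ιW ιK hW hK (ξ : K₂ → ℂ) (ιW.symm g)
    have h6 : ((irrComap ιK ξ : IrrCharacter _) : _ → ℂ) = fun z => (ξ : K₂ → ℂ) (ιK z) := rfl
    have h7 : ((irrComap ιW χ : IrrCharacter _) : _ → ℂ) = fun z => (χ : W₂ → ℂ) (ιW z) := rfl
    rw [h6, h7, h5, centralChar_comap, MulEquiv.apply_symm_apply, ← hW, MulEquiv.apply_symm_apply] at h4
    exact h4
  · rintro ⟨h1, h2, h3⟩
    refine ⟨isPBlock_blockMap _ h1, isPBlock_blockMap _ h2, fun ξ hξ χ hχ g => ?_⟩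
    rw [mem_blockMap_iff] at hξ hχ
    have h4 := h3 _ hξ _ hχ (ιW g)
    have h5 := inducedCentralCharIn_transport ιW ιK hW hK ((irrComap ιK.symm ξ : IrrCharacter _) : K₂ → ℂ) g
    have h6 : (fun k => ((irrComap ιK.symm ξ : IrrCharacter _) : K₂ → ℂ) (ιK k)) = (ξ : K₁ → ℂ) := by
      funext k
      simp
    have h7 := centralChar_comap ιW.symm (χ : W₁ → ℂ) (ιW g)
    rw [MulEquiv.symm_apply_apply] at h7
    have h8 : ((irrComap ιW.symm χ : IrrCharacter _) : _ → ℂ) = fun z => (χ : W₁ → ℂ) (ιW.symm z) := rfl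
    rw [hW, ← h5, h6, h8, h7] at h4
    exact h4

/-- Uniqueness of the induced block. -/
theorem isInducedBlockIn_unique [M.IsPrime] [Finite G] {X K : Subgroup G} {e : Set (IrrCharacter K)} {f f' : Set (IrrCharacter X)}
    (h : IsInducedBlockIn M X K e f) (h' : IsInducedBlockIn M X K e f') : f = f' := by
  classical
  letI : Fintype K := Fintype.ofFinite _
  letI : Fintype X := Fintype.ofFinite _
  obtain ⟨ξ, hξ⟩ := isPBlock_nonempty h.1
  obtain ⟨χ, hχ⟩ := isPBlock_nonempty h.2.1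
  obtain ⟨χ', hχ'⟩ := isPBlock_nonempty h'.2.1
  rw [isPBlock_eq_blockOf h.2.1 hχ, isPBlock_eq_blockOf h'.2.1 hχ']
  refine (blockOf_eq_of_mem ?_).symm
  intro g
  have h1 := h.2.2 ξ hξ χ hχ g
  have h2 := h'.2.2 ξ hξ χ' hχ' g
  have h3 := memLocalIdeal_sub h2 h1
  convert h3 using 1
  ring

end Trans

end Cfsg.Agent.Lib.Blocks.AbWat
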