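/-
Watanabe's theorem on blocks with abelian defect group: the relations for the centralizers of subgroups of `P`.
-/
import Mathlib
import Cfsg.Agent.Lib.Blocks.AbWat3

set_option autoImplicit false
set_option linter.style.haveILetI false

namespace Cfsg.Agent.Lib.Blocks.AbWat

open Cfsg Cfsg.Agent.Lib.Blocks.Local Cfsg.Agent.Lib.Blocks.Central Cfsg.Agent.Lib.Blocks.Osima
open Cfsg.Agent.Lib.Blocks.Covering Cfsg.Agent.Lib.Blocks.BlockHom Cfsg.Agent.Lib.Blocks.Pairs
open Cfsg.Agent.Lib.Blocks.Twisted Cfsg.Agent.Lib.Blocks.Necklace Cfsg.Agent.Lib.Blocks.Sections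
open Cfsg.Agent.Lib.Blocks.Regular Cfsg.Agent.Lib.Blocks.BlockCount Cfsg.Agent.Lib.Blocks.Dominate
open Cfsg.Agent.Lib.Blocks.Nilp Cfsg.Agent.Lib.Blocks.AbelianCount Cfsg.Agent.Lib.Blocks.Transport
open scoped ComplexConjugate

universe u

section Rel

variable {G : Type u} [Group G] [Fintype G] {M : Ideal AlgInt} [hMI : M.IsPrime]
variable {p : ℕ} [hp : Fact p.Prime]
variable {P : Subgroup G} {e : Set (IrrCharacter (Subgroup.centralizer (P : Set G)))}

variable (M P e) in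
open Classical in
/-- The block of a subgroup above `e`. -/
noncomputable def blkAb (X : Subgroup G) : Set (IrrCharacter X) :=
  if h : ∃ f, IsInducedBlockIn M X (Subgroup.centralizer (P : Set G)) e f then h.choose else ∅

lemma blkAb_eq {X : Subgroup G} {f : Set (IrrCharacter X)}
    (h : IsInducedBlockIn M X (Subgroup.centralizer (P : Set G)) e f) : blkAb M P e X = f := by
  have hex : ∃ f, IsInducedBlockIn M X (Subgroup.centralizer (P : Set G)) e f := ⟨f, h⟩
  unfold blkAb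
  rw [dif_pos hex]
  exact isInducedBlockIn_unique hex.choose_spec h

lemma exists_above (hM : IsPModular p M) (hPe : IsBrauerPair p M P e) (hab : ∀ x ∈ P, ∀ y ∈ P, x * y = y * x)
    {Q : Subgroup G} (hQP : Q ≤ P) :
    ∃ f, IsInducedBlockIn M (Subgroup.centralizer (Q : Set G)) (Subgroup.centralizer (P : Set G)) e f := by
  have hPK : P ≤ Subgroup.centralizer (Q : Set G) := fun u hu =>
    Subgroup.mem_centralizer_iff.mpr fun q hq => hab q (hQP hq) u hu
  obtain ⟨f, -, hf⟩ := exists_subpairLE hM hPe hQP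
  have hPN := hPK.trans (Cfsg.Agent.Lib.Blocks.FirstMain.centralizer_le_normalizer' Q)
  exact ⟨f, isInducedBlockIn_of_normal hM hQP hPK (isNormalSubpair_of_subpairLE hM hPe hf hPN)⟩

/-- The inertial group in a subgroup. -/
lemma mem_inertial_iff {W Q : Subgroup G} (hCW : Subgroup.centralizer (Q : Set G) ≤ W) (hQP : Q ≤ P) (hPW : P ≤ W)
    (g : W) : (g : G) ∈ Subgroup.normalizer (P : Set G) ∧ StabilizesBlock (Subgroup.centralizer (P : Set G)) e (g : G) ↔
      g ∈ Subgroup.normalizer ((P.subgroupOf W : Subgroup W) : Set W) ∧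
        StabilizesBlock (Subgroup.centralizer ((P.subgroupOf W : Subgroup W) : Set W)) (blockMap (cD hCW hQP hPW) e) g := by
  letI : Fintype W := Fintype.ofFinite _
  have hN : (g : G) ∈ Subgroup.normalizer (P : Set G) ↔ g ∈ Subgroup.normalizer ((P.subgroupOf W : Subgroup W) : Set W) := by
    rw [Subgroup.mem_normalizer_iff, Subgroup.mem_normalizer_iff]
    constructor
    · intro h a
      rw [Subgroup.mem_subgroupOf, Subgroup.mem_subgroupOf]
      exact h (a : G)
    · intro h a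
      by_cases ha : a ∈ W
      · have := h ⟨a, ha⟩
        rw [Subgroup.mem_subgroupOf, Subgroup.mem_subgroupOf] at this
        exact this
      · have h1 : a ∉ P := fun h2 => ha (hPW h2)
        have h2 : (g : G) * a * (g : G)⁻¹ ∉ P := by
          intro h3
          apply ha
          have h4 := hPW h3
          have h5 : a = (g : G)⁻¹ * ((g : G) * a * (g : G)⁻¹) * (g : G) := by group
          rw [h5]
          exact W.mul_mem (W.mul_mem (W.inv_mem g.2) h4) g.2
        exact iff_of_false h1 h2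
  rw [← hN]
  refine and_congr_right fun hgN => ?_
  have hgN' := hN.mp hgN
  constructor
  · rintro ⟨-, hs⟩
    refine ⟨normalizer_le_normalizer_centralizer _ hgN', ?_⟩
    rintro χ hχ
    rw [mem_blockMap_iff] at hχ
    obtain ⟨χ', hχ', hcc⟩ := hs _ hχ
    refine ⟨irrComap (cD hCW hQP hPW) χ', irrComap_mem_blockMap _ hχ', ?_⟩
    intro k k' hk
    have hk2 := hcc (cD hCW hQP hPW k) (cD hCW hQP hPW k') (by
      have h3 := congrArg (Subtype.val : W → G) hk
      exact h3)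
    show (χ' : _ → ℂ) (cD hCW hQP hPW k') = _
    rw [hk2]
    show (χ : _ → ℂ) ((cD hCW hQP hPW).symm (cD hCW hQP hPW k)) = _
    rw [MulEquiv.symm_apply_apply]
  · rintro ⟨-, hs⟩
    refine ⟨normalizer_le_normalizer_centralizer _ hgN, ?_⟩
    rintro χ hχ
    obtain ⟨χ', hχ', hcc⟩ := hs _ (irrComap_mem_blockMap (cD hCW hQP hPW) hχ)
    rw [mem_blockMap_iff] at hχ'
    refine ⟨_, hχ', ?_⟩
    intro k k' hk
    have hk2 := hcc ((cD hCW hQP hPW).symm k) ((cD hCW hQP hPW).symm k') (by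
      exact Subtype.ext hk)
    show (χ' : _ → ℂ) ((cD hCW hQP hPW).symm k') = _
    rw [hk2]
    show (χ : _ → ℂ) ((cD hCW hQP hPW) ((cD hCW hQP hPW).symm k)) = _
    rw [MulEquiv.apply_symm_apply]

/-- The rank of the block below `(P_W, e_W)` is that of the block above `e`. -/
lemma rank_eBlk_eq (hM : IsPModular p M) (hPe : IsBrauerPair p M P e) (hab : ∀ x ∈ P, ∀ y ∈ P, x * y = y * x)
    {Q W : Subgroup G} (hCW : Subgroup.centralizer (Q : Set G) ≤ W) (hQP : Q ≤ P) (hPK : P ≤ W)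
    [Fintype W] (v : W) (hv : (v : G) ∈ P) :
    blockRank p (eBlk M p (P.subgroupOf W) (blockMap (cD hCW hQP hPK) e) v) =
      blockRank p (blkAb M P e (W ⊓ Kz (v : G))) := by
  classical
  have hPeW : IsBrauerPair p M (P.subgroupOf W) (blockMap (cD hCW hQP hPK) e) :=
    ⟨hPe.1.comap_of_injective _ (Subgroup.subtype_injective _), isPBlock_blockMap _ hPe.2⟩
  have hvP : v ∈ P.subgroupOf W := Subgroup.mem_subgroupOf.mpr hv
  have hle := eBlk_spec hM hPeW hvP
  have hQv : Subgroup.zpowers v ≤ P.subgroupOf W := Subgroup.zpowers_le.mpr hvP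
  have hPK' : P.subgroupOf W ≤ Subgroup.centralizer ((Subgroup.zpowers v : Subgroup W) : Set W) := by
    intro u hu
    refine mem_centralizer_zpowers_iff.mpr (Subtype.ext ?_)
    exact hab _ (Subgroup.mem_subgroupOf.mp hu) _ hv
  have hPN := hPK'.trans (Cfsg.Agent.Lib.Blocks.FirstMain.centralizer_le_normalizer' _)
  have hn := isNormalSubpair_of_subpairLE hM hPeW hle hPN
  have hi := isInducedBlockIn_of_normal hM hQv hPK' hn
  have hmem : ∀ a : W, a ∈ Kz v ↔ (a : G) ∈ W ⊓ Kz (v : G) := by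
    intro a
    constructor
    · intro ha
      refine ⟨a.2, mem_centralizer_zpowers_iff.mpr ?_⟩
      exact congrArg Subtype.val (mem_centralizer_zpowers_iff.mp ha)
    · rintro ⟨-, ha⟩
      refine mem_centralizer_zpowers_iff.mpr (Subtype.ext ?_)
      exact mem_centralizer_zpowers_iff.mp ha
  let ιW : Kz v ≃* ↥(W ⊓ Kz (v : G)) := transIso (Kz v) (W ⊓ Kz (v : G)) inf_le_left hmem
  let ιK := cD hCW hQP hPK
  set b₂ := blockMap ιW.symm (eBlk M p (P.subgroupOf W) (blockMap ιK e) v) with hb₂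
  have hb : eBlk M p (P.subgroupOf W) (blockMap ιK e) v = blockMap ιW b₂ := by
    rw [hb₂, blockMap_blockMap_symm]
  rw [hb] at hi
  have h2 := (isInducedBlockIn_transport ιW ιK (fun _ => rfl) (fun _ => rfl)).mp hi
  rw [blkAb_eq h2, hb, blockRank_blockMap]

/-- The pair in the centralizer is maximal. -/
lemma isMaximal_in {B : Set (IrrCharacter G)} (hM : IsPModular p M) (hmax : IsMaximalBrauerPair p M B P e)
    (hab : ∀ x ∈ P, ∀ y ∈ P, x * y = y * x) {Q W : Subgroup G} (hW : W = Subgroup.centralizer (Q : Set G))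
    (hCW : Subgroup.centralizer (Q : Set G) ≤ W) (hQP : Q ≤ P) (hPK : P ≤ W) [Fintype W] {f : Set (IrrCharacter W)}
    (hf : IsInducedBlockIn M W (Subgroup.centralizer (P : Set G)) e f) :
    IsMaximalBrauerPair p M f (P.subgroupOf W) (blockMap (cD hCW hQP hPK) e) := by
  subst hW
  have hPp := hmax.1.1.1
  have h1 := (isInducedBlock_iff_in hCW hQP hPK).mpr hf
  have hP' : IsPGroup p (P.subgroupOf (Subgroup.centralizer (Q : Set G))) :=
    hPp.comap_of_injective _ (Subgroup.subtype_injective _)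
  have h2 := isBrauerPairOf_of_induced hP' h1
  have hle : SubpairLE p M Q f P e :=
    Relation.ReflTransGen.single (isNormalSubpair_of_inducedIn hQP hPK hPp hf)
  exact isMaximal_of_isDefectGroup hM h2 (isDefectGroup_of_abelian hM hmax hab hQP hf.2.1 hle)

/-- **The relations for the centralizer of a subgroup of `P`.** -/
theorem rel_main {B : Set (IrrCharacter G)} (hM : IsPModular p M) (hmax : IsMaximalBrauerPair p M B P e)
    (hab : ∀ x ∈ P, ∀ y ∈ P, x * y = y * x) {T : Subgroup G}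
    (hT : ∀ g : G, g ∈ T ↔ g ∈ Subgroup.normalizer (P : Set G) ∧ StabilizesBlock (Subgroup.centralizer (P : Set G)) e g)
    {Q W : Subgroup G} (hW : W = Subgroup.centralizer (Q : Set G)) (hQP : Q ≤ P)
    (R : Finset G) (hR : ∀ y ∈ R, y ∈ P) (hR' : ∀ y ∈ P, ∃! r, r ∈ R ∧ ∃ t ∈ T, t ∈ W ∧ t * y * t⁻¹ = r) :
    Nat.card (blkAb M P e W) = ∑ y ∈ R, blockRank p (blkAb M P e (W ⊓ Kz y)) ∧
    ∀ lam : P →* ℂˣ, (∀ t ∈ T, t ∈ W → ∀ (x : G) (hx : x ∈ P) (hx' : t * x * t⁻¹ ∈ P), lam ⟨t * x * t⁻¹, hx'⟩ = lam ⟨x, hx⟩) →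
      lam ≠ 1 → ∀ a : G → ℂ, (∀ (y : G) (hy : y ∈ P), a y = ((lam ⟨y, hy⟩ : ℂˣ) : ℂ)) →
      ∑ y ∈ R, a y * (blockRank p (blkAb M P e (W ⊓ Kz y)) : ℂ) = 0 := by
  classical
  letI : Fintype W := Fintype.ofFinite _
  have hPe := hmax.1.1
  have hCW : Subgroup.centralizer (Q : Set G) ≤ W := hW.ge
  have hPK : P ≤ W := by
    rw [hW]
    exact fun u hu => Subgroup.mem_centralizer_iff.mpr fun q hq => hab q (hQP hq) u hu
  obtain ⟨f, hf⟩ : ∃ f, IsInducedBlockIn M W (Subgroup.centralizer (P : Set G)) e f := by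
    rw [hW]
    exact exists_above hM hPe hab hQP
  rw [blkAb_eq hf]
  have hmaxW := isMaximal_in hM hmax hab hW hCW hQP hPK hf
  obtain ⟨χ₀, rfl⟩ := hf.2.1
  have habW : ∀ x ∈ P.subgroupOf W, ∀ y ∈ P.subgroupOf W, x * y = y * x := fun x hx y hy =>
    Subtype.ext (hab _ (Subgroup.mem_subgroupOf.mp hx) _ (Subgroup.mem_subgroupOf.mp hy))
  have hTW : ∀ g : W, g ∈ T.subgroupOf W ↔ g ∈ Subgroup.normalizer ((P.subgroupOf W : Subgroup W) : Set W) ∧
      StabilizesBlock (Subgroup.centralizer ((P.subgroupOf W : Subgroup W) : Set W)) (blockMap (cD hCW hQP hPK) e) g := by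
    intro g
    rw [Subgroup.mem_subgroupOf, hT]
    exact mem_inertial_iff hCW hQP hPK g
  have hRW : ∀ y ∈ R.subtype (· ∈ W), y ∈ P.subgroupOf W := fun y hy =>
    Subgroup.mem_subgroupOf.mpr (hR _ (Finset.mem_subtype.mp hy))
  have hRW' : ∀ y ∈ P.subgroupOf W, ∃! r, r ∈ R.subtype (· ∈ W) ∧ ∃ t ∈ T.subgroupOf W, t * y * t⁻¹ = r := by
    intro y hy
    obtain ⟨r, ⟨hr, t, ht, htW, htr⟩, hu⟩ := hR' y (Subgroup.mem_subgroupOf.mp hy)
    refine ⟨⟨r, hPK (hR r hr)⟩, ⟨Finset.mem_subtype.mpr hr, ⟨t, htW⟩, Subgroup.mem_subgroupOf.mpr ht, Subtype.ext htr⟩, ?_⟩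
    rintro r' ⟨hr', t', ht', htr'⟩
    refine Subtype.ext (hu _ ⟨Finset.mem_subtype.mp hr', (t' : G), Subgroup.mem_subgroupOf.mp ht', t'.2, ?_⟩)
    exact congrArg Subtype.val htr'
  have hkey : ∀ v ∈ R.subtype (· ∈ W), blockRank p (eBlk M p (P.subgroupOf W) (blockMap (cD hCW hQP hPK) e) v) =
      blockRank p (blkAb M P e (W ⊓ Kz (v : G))) := fun v hv =>
    rank_eBlk_eq hM hPe hab hCW hQP hPK v (hR _ (Finset.mem_subtype.mp hv))
  have hsub : ∀ y ∈ R, y ∈ W := fun y hy => hPK (hR y hy)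
  constructor
  · have h1 := card_eq_sum_rank hM χ₀ hmaxW habW hTW _ hRW hRW'
    rw [h1, Finset.sum_congr rfl hkey]
    exact Finset.sum_subtype_of_mem (fun y => blockRank p (blkAb M P e (W ⊓ Kz y))) hsub
  · intro lam hst hne a ha
    let lamW : (P.subgroupOf W) →* ℂˣ := lam.comp (Subgroup.subgroupOfEquivOfLe hPK).toMonoidHom
    have hlamW : ∀ (y : W) (hy : y ∈ P.subgroupOf W), lamW ⟨y, hy⟩ = lam ⟨(y : G), Subgroup.mem_subgroupOf.mp hy⟩ :=
      fun _ _ => rfl
    have hstW : ∀ t ∈ T.subgroupOf W, ∀ (x : W) (hx : x ∈ P.subgroupOf W) (hx' : t * x * t⁻¹ ∈ P.subgroupOf W),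
        lamW ⟨t * x * t⁻¹, hx'⟩ = lamW ⟨x, hx⟩ := by
      intro t ht x hx hx'
      rw [hlamW, hlamW]
      exact hst t (Subgroup.mem_subgroupOf.mp ht) t.2 x (Subgroup.mem_subgroupOf.mp hx) (Subgroup.mem_subgroupOf.mp hx')
    have hneW : lamW ≠ 1 := by
      intro h
      apply hne
      ext y
      have h2 := hlamW ⟨y, hPK y.2⟩ (Subgroup.mem_subgroupOf.mpr y.2)
      rw [h] at h2
      have h3 : lam y = 1 := h2.symm
      rw [h3]
      rfl
    have h1 := sum_lam_rank_eq_zero hM χ₀ hmaxW habW hTW _ hRW hRW' hstW hneW (fun y => a (y : G))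
      (fun y hy => by rw [ha _ (Subgroup.mem_subgroupOf.mp hy)]; rfl)
    have h2 : ∀ v ∈ R.subtype (· ∈ W), a (v : G) * (blockRank p (eBlk M p (P.subgroupOf W) (blockMap (cD hCW hQP hPK) e) v) : ℂ) =
        a (v : G) * (blockRank p (blkAb M P e (W ⊓ Kz (v : G))) : ℂ) := fun v hv => by rw [hkey v hv]
    rw [Finset.sum_congr rfl h2] at h1
    rw [← h1]
    exact (Finset.sum_subtype_of_mem (fun y => a y * (blockRank p (blkAb M P e (W ⊓ Kz y)) : ℂ)) hsub).symm

end Rel

end Cfsg.Agent.Lib.Blocks.AbWat
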