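/-
Watanabe's theorem on blocks with abelian defect group: linear characters stable under the inertial group.
-/
import Mathlib
import Cfsg.Agent.Lib.Blocks.AbWat4

set_option autoImplicit false
set_option linter.style.haveILetI false

namespace Cfsg.Agent.Lib.Blocks.AbWat

universe u

section Avg

variable {G : Type u} [Group G] [Finite G] {p : ℕ} [hp : Fact p.Prime]

/-- A linear character of an abelian group, trivial on a subgroup and nontrivial at an element outside. -/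
lemma exists_char_ne {P : Subgroup G} (hab : ∀ x ∈ P, ∀ y ∈ P, x * y = y * x) {Z : Subgroup G} {u : G} (hu : u ∈ P)
    (huZ : u ∉ Z) : ∃ μ : P →* ℂˣ, (∀ (z : G) (hz : z ∈ P), z ∈ Z → μ ⟨z, hz⟩ = 1) ∧ μ ⟨u, hu⟩ ≠ 1 := by
  classical
  have hcomm : ∀ a b : P, a * b = b * a := fun a b => Subtype.ext (hab _ a.2 _ b.2)
  haveI hnorm : (Z.subgroupOf P).Normal := by
    refine ⟨fun n hn g => ?_⟩
    rw [hcomm, inv_mul_cancel_left]
    exact hn
  have hcommA : ∀ a b : P ⧸ Z.subgroupOf P, a * b = b * a := by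
    intro a b
    induction a using QuotientGroup.induction_on with
    | H a =>
      induction b using QuotientGroup.induction_on with
      | H b =>
        rw [← QuotientGroup.mk_mul, ← QuotientGroup.mk_mul, hcomm]
  have hne : ((⟨u, hu⟩ : P) : P ⧸ Z.subgroupOf P) ≠ 1 := by
    intro h
    exact huZ (Subgroup.mem_subgroupOf.mp ((QuotientGroup.eq_one_iff _).mp h))
  letI : CommGroup (P ⧸ Z.subgroupOf P) := { (inferInstance : Group (P ⧸ Z.subgroupOf P)) with mul_comm := hcommA }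
  have hexp : NeZero ((Monoid.exponent (P ⧸ Z.subgroupOf P) : ℕ) : ℂ) :=
    ⟨Nat.cast_ne_zero.2 Monoid.exponent_ne_zero_of_finite⟩
  have hroots : HasEnoughRootsOfUnity ℂ (Monoid.exponent (P ⧸ Z.subgroupOf P)) := inferInstance
  obtain ⟨φ, hφ⟩ := CommGroup.exists_apply_ne_one_of_hasEnoughRootsOfUnity (P ⧸ Z.subgroupOf P) ℂ hne
  refine ⟨φ.comp (QuotientGroup.mk' (Z.subgroupOf P)), fun z hz hzZ => ?_, hφ⟩
  rw [MonoidHom.comp_apply]
  have : QuotientGroup.mk' (Z.subgroupOf P) ⟨z, hz⟩ = 1 :=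
    (QuotientGroup.eq_one_iff _).mpr (Subgroup.mem_subgroupOf.mpr hzZ)
  rw [this, map_one]

/-- **Averaging a linear character**: a linear character stable under a group acting through a `p'`-group,
trivial on a subgroup of fixed points and nontrivial at a given fixed point outside. -/
theorem exists_stable_char {P : Subgroup G} (hab : ∀ x ∈ P, ∀ y ∈ P, x * y = y * x) (hPp : IsPGroup p P) {E : Subgroup G}
    (hEN : E ≤ Subgroup.normalizer (P : Set G))
    (hE : ∀ a ∈ E, (∃ k : ℕ, orderOf a = p ^ k) → a ∈ Subgroup.centralizer (P : Set G))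
    (Z : Subgroup G) (hZfix : ∀ z ∈ Z, ∀ t ∈ E, t * z * t⁻¹ = z) {u : G} (hu : u ∈ P)
    (huE : ∀ t ∈ E, t * u * t⁻¹ = u) (huZ : u ∉ Z) :
    ∃ lam : P →* ℂˣ, (∀ t ∈ E, ∀ (x : G) (hx : x ∈ P) (hx' : t * x * t⁻¹ ∈ P), lam ⟨t * x * t⁻¹, hx'⟩ = lam ⟨x, hx⟩) ∧
      (∀ (z : G) (hz : z ∈ P), z ∈ Z → lam ⟨z, hz⟩ = 1) ∧ lam ⟨u, hu⟩ ≠ 1 := by
  classical
  obtain ⟨μ, hμ, hμu⟩ := exists_char_ne hab hu huZ
  let φ : E →* MulAut P := P.normalizerMonoidHom.comp (Subgroup.inclusion hEN)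
  have hφ : ∀ (t : E) (x : P), ((φ t x : P) : G) = (t : G) * x * (t : G)⁻¹ := fun _ _ => rfl
  letI : Fintype φ.range := Fintype.ofFinite _
  -- the order of the image is prime to `p`
  have hm : ¬ p ∣ Nat.card φ.range := by
    intro hd
    obtain ⟨γ, hγ⟩ := exists_prime_orderOf_dvd_card' p hd
    obtain ⟨t, ht⟩ := γ.2
    obtain ⟨a, b, hab', -, ha, hb, hap, hbp⟩ := Cfsg.Agent.Lib.Transfer.Basic.exists_pPart_decomp (p := p) (t : G)
    have hzE : Subgroup.zpowers (t : G) ≤ E := Subgroup.zpowers_le.mpr t.2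
    have haE := hzE ha
    have hbE := hzE hb
    have haC := hE a haE hap
    have hφa : φ ⟨a, haE⟩ = 1 := by
      ext x
      rw [hφ]
      have := Subgroup.mem_centralizer_iff.mp haC x x.2
      simp only [MulAut.one_apply]
      rw [← this]
      group
    have ht' : t = ⟨a, haE⟩ * ⟨b, hbE⟩ := Subtype.ext hab'.symm
    have h1 : φ t = φ ⟨b, hbE⟩ := by
      rw [ht', map_mul, hφa, one_mul]
    have h2 : orderOf (φ t) = p := by
      rw [ht, ← hγ]
      exact Subgroup.orderOf_coe γ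
    have h3 : orderOf (φ ⟨b, hbE⟩) ∣ orderOf (⟨b, hbE⟩ : E) := orderOf_map_dvd _ _
    rw [← h1, h2, Subgroup.orderOf_mk] at h3
    have h4 := Nat.Coprime.eq_one_of_dvd hbp.symm h3
    exact hp.out.one_lt.ne' h4
  -- the average
  let lam : P →* ℂˣ := ∏ γ : φ.range, μ.comp ((γ : MulAut P) : P →* P)
  have hlam : ∀ x : P, lam x = ∏ γ : φ.range, μ ((γ : MulAut P) x) := by
    intro x
    simp only [lam]
    rw [MonoidHom.finsetProd_apply]
    rfl
  -- the fixed points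
  have hfix : ∀ (x : G) (hx : x ∈ P), (∀ t ∈ E, t * x * t⁻¹ = x) → lam ⟨x, hx⟩ = μ ⟨x, hx⟩ ^ Nat.card φ.range := by
    intro x hx hxE
    rw [hlam]
    have h1 : ∀ γ : φ.range, μ ((γ : MulAut P) ⟨x, hx⟩) = μ ⟨x, hx⟩ := by
      rintro ⟨_, t, rfl⟩
      congr 1
      exact Subtype.ext (hxE t t.2)
    simp only [h1, Finset.prod_const, Finset.card_univ, Nat.card_eq_fintype_card]
  refine ⟨lam, ?_, ?_, ?_⟩
  · intro t ht x hx hx'
    let δ : φ.range := ⟨φ ⟨t, ht⟩, ⟨t, ht⟩, rfl⟩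
    have h1 : (⟨t * x * t⁻¹, hx'⟩ : P) = (δ : MulAut P) ⟨x, hx⟩ := Subtype.ext rfl
    rw [hlam, hlam, h1]
    refine Fintype.prod_equiv (Equiv.mulRight δ) _ _ fun γ => ?_
    rfl
  · intro z hz hzZ
    rw [hfix z hz (fun t ht => hZfix z hzZ t ht), hμ z hz hzZ, one_pow]
  · rw [hfix u hu huE]
    intro hpow
    apply hμu
    obtain ⟨k, hk⟩ := hPp ⟨u, hu⟩
    have h1 : μ ⟨u, hu⟩ ^ (p ^ k) = 1 := by
      rw [← map_pow, hk, map_one]
    have h2 : orderOf (μ ⟨u, hu⟩) ∣ Nat.gcd (p ^ k) (Nat.card φ.range) :=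
      Nat.dvd_gcd (orderOf_dvd_of_pow_eq_one h1) (orderOf_dvd_of_pow_eq_one hpow)
    have h3 : Nat.Coprime (p ^ k) (Nat.card φ.range) :=
      Nat.Coprime.pow_left k ((Nat.Prime.coprime_iff_not_dvd hp.out).mpr hm)
    rw [h3] at h2
    exact orderOf_eq_one_iff.mp (Nat.dvd_one.mp h2)

end Avg

end Cfsg.Agent.Lib.Blocks.AbWat
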