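/-
Watanabe's theorem on blocks with abelian defect group: the induction.
-/
import Mathlib
import Cfsg.Agent.Lib.Blocks.AbWat5

set_option autoImplicit false
set_option linter.style.haveILetI false

namespace Cfsg.Agent.Lib.Blocks.AbWat

open Cfsg Cfsg.Agent.Lib.Blocks.Local Cfsg.Agent.Lib.Blocks.Central Cfsg.Agent.Lib.Blocks.Osima
open Cfsg.Agent.Lib.Blocks.Covering Cfsg.Agent.Lib.Blocks.BlockHom Cfsg.Agent.Lib.Blocks.Pairs
open Cfsg.Agent.Lib.Blocks.Twisted Cfsg.Agent.Lib.Blocks.Necklace Cfsg.Agent.Lib.Blocks.Sections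
open Cfsg.Agent.Lib.Blocks.Regular Cfsg.Agent.Lib.Blocks.BlockCount Cfsg.Agent.Lib.Blocks.Dominate
open Cfsg.Agent.Lib.Blocks.Nilp Cfsg.Agent.Lib.Blocks.AbelianCount Cfsg.Agent.Lib.Blocks.Transport
open scoped ComplexConjugate

universe u

section Ind

variable {G : Type u} [Group G] [Fintype G] {M : Ideal AlgInt} [hMI : M.IsPrime]
variable {p : ℕ} [hp : Fact p.Prime]
variable {P : Subgroup G} {e : Set (IrrCharacter (Subgroup.centralizer (P : Set G)))}

omit [Fintype G] in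
/-- The centralizer of a larger subgroup. -/
lemma centralizer_sup_zpowers {Q W : Subgroup G} (hW : W = Subgroup.centralizer (Q : Set G)) (y : G) :
    W ⊓ Kz y = Subgroup.centralizer ((Q ⊔ Subgroup.zpowers y : Subgroup G) : Set G) := by
  subst hW
  ext g
  simp only [Subgroup.mem_inf, Subgroup.mem_centralizer_iff]
  constructor
  · rintro ⟨h1, h2⟩ a ha
    have hle : (Q ⊔ Subgroup.zpowers y : Subgroup G) ≤ Subgroup.centralizer ({g} : Set G) := by
      refine sup_le (fun q hq => ?_) (fun q hq => ?_)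
      · exact Subgroup.mem_centralizer_singleton_iff.mpr (h1 q hq)
      · exact Subgroup.mem_centralizer_singleton_iff.mpr (h2 q hq)
    exact Subgroup.mem_centralizer_singleton_iff.mp (hle ha)
  · intro h
    exact ⟨fun a ha => h a (le_sup_left (a := Q) ha), fun a ha => h a (le_sup_right (a := Q) ha)⟩

omit [Fintype G] in
lemma sup_zpowers_le {Q : Subgroup G} (hQP : Q ≤ P) {y : G} (hy : y ∈ P) : Q ⊔ Subgroup.zpowers y ≤ P :=
  sup_le hQP (Subgroup.zpowers_le.mpr hy)

open Classical in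
/-- Representatives of orbits. -/
lemma exists_reps {T W : Subgroup G} (hTN : T ≤ Subgroup.normalizer (P : Set G)) :
    ∃ R : Finset G, (∀ y ∈ R, y ∈ P) ∧ ∀ y ∈ P, ∃! r, r ∈ R ∧ ∃ t ∈ T, t ∈ W ∧ t * y * t⁻¹ = r := by
  classical
  have hmem : ∀ (t : G), t ∈ T → ∀ y ∈ P, t * y * t⁻¹ ∈ P := fun t ht y hy =>
    (Subgroup.mem_normalizer_iff.mp (hTN ht) y).mp hy
  let s : Setoid P :=
    { r := fun x y => ∃ t ∈ T ⊓ W, t * (x : G) * t⁻¹ = y
      iseqv :=
        { refl := fun x => ⟨1, (T ⊓ W).one_mem, by simp⟩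
          symm := by
            rintro x y ⟨t, ht, h⟩
            refine ⟨t⁻¹, (T ⊓ W).inv_mem ht, ?_⟩
            rw [← h]
            group
          trans := by
            rintro x y z ⟨t, ht, h⟩ ⟨t', ht', h'⟩
            refine ⟨t' * t, (T ⊓ W).mul_mem ht' ht, ?_⟩
            rw [← h', ← h]
            group } }
  letI : Fintype (Quotient s) := Fintype.ofFinite _
  refine ⟨Finset.univ.image (fun q : Quotient s => ((Quotient.out q : P) : G)), ?_, ?_⟩
  · intro y hy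
    obtain ⟨q, -, rfl⟩ := Finset.mem_image.mp hy
    exact (Quotient.out q).2
  · intro y hy
    have h1 : s.r (Quotient.out (Quotient.mk s ⟨y, hy⟩)) ⟨y, hy⟩ := Quotient.mk_out (s := s) (⟨y, hy⟩ : P)
    obtain ⟨t, ht, htr⟩ := s.symm h1
    refine ⟨_, ⟨Finset.mem_image.mpr ⟨Quotient.mk s ⟨y, hy⟩, Finset.mem_univ _, rfl⟩, t, ht.1, ht.2, htr⟩, ?_⟩
    rintro r ⟨hr, t', ht', ht'W, htr'⟩
    obtain ⟨q, -, rfl⟩ := Finset.mem_image.mp hr
    have h2 : Quotient.mk s ⟨y, hy⟩ = q := by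
      have h3 : s.r ⟨y, hy⟩ (Quotient.out q) := ⟨t', ⟨ht', ht'W⟩, htr'⟩
      rw [← Quotient.out_eq q]
      exact Quotient.sound h3
    rw [h2]

variable {B : Set (IrrCharacter G)}

/-- Elements of the inertial group of `p`-power order centralize `P`. -/
lemma mem_centralizer_of_mem_inertial (hM : IsPModular p M) (hmax : IsMaximalBrauerPair p M B P e)
    (hab : ∀ x ∈ P, ∀ y ∈ P, x * y = y * x) {T : Subgroup G}
    (hT : ∀ g : G, g ∈ T ↔ g ∈ Subgroup.normalizer (P : Set G) ∧ StabilizesBlock (Subgroup.centralizer (P : Set G)) e g)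
    {a : G} (ha : a ∈ T) (hk : ∃ k : ℕ, orderOf a = p ^ k) : a ∈ Subgroup.centralizer (P : Set G) := by
  obtain ⟨h1, h2⟩ := (hT a).mp ha
  have h3 := mem_sup_of_isMaximal hM hmax h1 h2 hk
  have hPP : P ≤ Subgroup.centralizer (P : Set G) := fun u hu =>
    Subgroup.mem_centralizer_iff.mpr fun q hq => hab q hq u hu
  rwa [sup_eq_right.mpr hPP] at h3

/-- **The induction step**: the ranks. -/
theorem rank_inf_eq (hM : IsPModular p M) (hmax : IsMaximalBrauerPair p M B P e)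
    (hab : ∀ x ∈ P, ∀ y ∈ P, x * y = y * x) {T : Subgroup G}
    (hT : ∀ g : G, g ∈ T ↔ g ∈ Subgroup.normalizer (P : Set G) ∧ StabilizesBlock (Subgroup.centralizer (P : Set G)) e g)
    {u : G} (hu : u ∈ P) :
    ∀ (n : ℕ) (Q W : Subgroup G), Nat.card W = n → W = Subgroup.centralizer (Q : Set G) → Q ≤ P →
      (∀ t ∈ T, t ∈ W → t * u * t⁻¹ = u) →
      blockRank p (blkAb M P e (W ⊓ Kz u)) = blockRank p (blkAb M P e W) := by
  classical
  intro n
  induction n using Nat.strong_induction_on with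
  | _ n ih =>
    intro Q W hcard hW hQP huT
    by_cases hWu : W ≤ Kz u
    · rw [inf_eq_left.mpr hWu]
    have hTN : T ≤ Subgroup.normalizer (P : Set G) := fun t ht => ((hT t).mp ht).1
    set W' := W ⊓ Kz u with hW'
    have hW'c : W' = Subgroup.centralizer ((Q ⊔ Subgroup.zpowers u : Subgroup G) : Set G) :=
      centralizer_sup_zpowers hW u
    -- the central part
    let Z : Subgroup G := P ⊓ Subgroup.centralizer (W : Set G)
    have hZW : ∀ z ∈ Z, W ≤ Kz z := by
      intro z hz w hw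
      refine mem_centralizer_zpowers_iff.mpr ?_
      exact (Subgroup.mem_centralizer_iff.mp hz.2 w hw)
    have hZmem : ∀ z, z ∈ P → W ≤ Kz z → z ∈ Z := by
      intro z hz hzW
      refine ⟨hz, Subgroup.mem_centralizer_iff.mpr fun w hw => ?_⟩
      exact (mem_centralizer_zpowers_iff.mp (hzW hw))
    have huZ : u ∉ Z := fun h => hWu (hZW u h)
    have hE : T ⊓ W ≤ Subgroup.normalizer (P : Set G) := inf_le_left.trans hTN
    have hEp : ∀ a ∈ T ⊓ W, (∃ k : ℕ, orderOf a = p ^ k) → a ∈ Subgroup.centralizer (P : Set G) :=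
      fun a ha hk => mem_centralizer_of_mem_inertial hM hmax hab hT ha.1 hk
    have hZfix : ∀ z ∈ Z, ∀ t ∈ T ⊓ W, t * z * t⁻¹ = z := by
      intro z hz t ht
      have := mem_centralizer_zpowers_iff.mp (hZW z hz ht.2)
      rw [this]
      group
    obtain ⟨lam, hst, hlZ, hlu⟩ := exists_stable_char hab hmax.1.1.1 hE hEp Z hZfix hu
      (fun t ht => huT t ht.1 ht.2) huZ
    have hne : lam ≠ 1 := by
      rintro rfl
      exact hlu rfl
    obtain ⟨R, hR, hR'⟩ := exists_reps (P := P) (T := T) (W := W) hTN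
    -- same orbits in `W'`
    have hTW' : ∀ t ∈ T, t ∈ W' ↔ t ∈ W := by
      intro t ht
      refine ⟨fun h => h.1, fun h => ⟨h, ?_⟩⟩
      exact mem_cz_of_conj (huT t ht h)
    have hR'' : ∀ y ∈ P, ∃! r, r ∈ R ∧ ∃ t ∈ T, t ∈ W' ∧ t * y * t⁻¹ = r := by
      intro y hy
      obtain ⟨r, ⟨hr, t, ht, htW, htr⟩, hun⟩ := hR' y hy
      refine ⟨r, ⟨hr, t, ht, (hTW' t ht).mpr htW, htr⟩, ?_⟩
      rintro r' ⟨hr', t', ht', htW', htr'⟩
      exact hun r' ⟨hr', t', ht', (hTW' t' ht').mp htW', htr'⟩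
    let a : G → ℂ := fun y => if h : y ∈ P then ((lam ⟨y, h⟩ : ℂˣ) : ℂ) else 0
    have ha : ∀ (y : G) (hy : y ∈ P), a y = ((lam ⟨y, hy⟩ : ℂˣ) : ℂ) := fun y hy => by
      simp only [a, dif_pos hy]
    have h1 := (rel_main hM hmax hab hT hW hQP R hR hR').2 lam
      (fun t ht htW x hx hx' => hst t ⟨ht, htW⟩ x hx hx') hne a ha
    have h2 := (rel_main hM hmax hab hT hW'c (sup_zpowers_le hQP hu) R hR hR'').2 lam
      (fun t ht htW x hx hx' => hst t ⟨ht, (hTW' t ht).mp htW⟩ x hx hx') hne a ha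
    have h3 := congrArg₂ (· - ·) h1 h2
    simp only [sub_zero] at h3
    rw [← Finset.sum_sub_distrib] at h3
    -- the terms
    have hterm : ∀ y ∈ R, a y * (blockRank p (blkAb M P e (W ⊓ Kz y)) : ℂ) - a y * (blockRank p (blkAb M P e (W' ⊓ Kz y)) : ℂ) =
        if y ∈ Z then ((blockRank p (blkAb M P e W) : ℂ) - (blockRank p (blkAb M P e W') : ℂ)) else 0 := by
      intro y hy
      have hyP := hR y hy
      by_cases hyZ : y ∈ Z
      · rw [if_pos hyZ, ha y hyP, hlZ y hyP hyZ, inf_eq_left.mpr (hZW y hyZ),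
          inf_eq_left.mpr ((inf_le_left : W' ≤ W).trans (hZW y hyZ))]
        simp only [Units.val_one, one_mul]
        rfl
      · rw [if_neg hyZ]
        have hlt : W ⊓ Kz y < W := by
          refine lt_of_le_of_ne inf_le_left fun h => hyZ (hZmem y hyP (inf_eq_left.mp h))
        have hcard' : Nat.card ↥(W ⊓ Kz y) < n := by
          rw [← hcard]
          exact lt_of_le_of_ne (Subgroup.card_le_of_le inf_le_left)
            (fun h => hlt.ne (Subgroup.eq_of_le_of_card_ge inf_le_left h.ge))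
        have h4 := ih _ hcard' (Q ⊔ Subgroup.zpowers y) (W ⊓ Kz y) rfl (centralizer_sup_zpowers hW y)
          (sup_zpowers_le hQP hyP) (fun t ht htW => huT t ht htW.1)
        have h5 : W ⊓ Kz y ⊓ Kz u = W' ⊓ Kz y := inf_right_comm _ _ _
        rw [h5] at h4
        rw [h4, sub_self]
    rw [Finset.sum_congr rfl hterm, ← Finset.sum_filter, Finset.sum_const, nsmul_eq_mul] at h3
    have h1R : (1 : G) ∈ R := by
      obtain ⟨r, ⟨hr, t, -, -, htr⟩, -⟩ := hR' 1 P.one_mem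
      have : r = 1 := by
        rw [← htr]
        group
      rwa [this] at hr
    have hpos : ((R.filter (· ∈ Z)).card : ℂ) ≠ 0 := by
      rw [Nat.cast_ne_zero]
      exact Finset.card_ne_zero.mpr ⟨1, Finset.mem_filter.mpr ⟨h1R, Z.one_mem⟩⟩
    have h6 := (mul_eq_zero.mp h3).resolve_left hpos
    have h7 : (blockRank p (blkAb M P e W) : ℂ) = (blockRank p (blkAb M P e W') : ℂ) := sub_eq_zero.mp h6
    exact_mod_cast h7.symm

/-- **The induction step**: the number of characters. -/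
theorem card_inf_eq (hM : IsPModular p M) (hmax : IsMaximalBrauerPair p M B P e)
    (hab : ∀ x ∈ P, ∀ y ∈ P, x * y = y * x) {T : Subgroup G}
    (hT : ∀ g : G, g ∈ T ↔ g ∈ Subgroup.normalizer (P : Set G) ∧ StabilizesBlock (Subgroup.centralizer (P : Set G)) e g)
    {u : G} (hu : u ∈ P) {Q W : Subgroup G} (hW : W = Subgroup.centralizer (Q : Set G)) (hQP : Q ≤ P)
    (huT : ∀ t ∈ T, t ∈ W → t * u * t⁻¹ = u) :
    Nat.card (blkAb M P e (W ⊓ Kz u)) = Nat.card (blkAb M P e W) := by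
  classical
  have hTN : T ≤ Subgroup.normalizer (P : Set G) := fun t ht => ((hT t).mp ht).1
  have hW'c := centralizer_sup_zpowers hW u
  obtain ⟨R, hR, hR'⟩ := exists_reps (P := P) (T := T) (W := W) hTN
  have hTW' : ∀ t ∈ T, t ∈ W ⊓ Kz u ↔ t ∈ W := by
    intro t ht
    refine ⟨fun h => h.1, fun h => ⟨h, ?_⟩⟩
    exact mem_cz_of_conj (huT t ht h)
  have hR'' : ∀ y ∈ P, ∃! r, r ∈ R ∧ ∃ t ∈ T, t ∈ W ⊓ Kz u ∧ t * y * t⁻¹ = r := by
    intro y hy
    obtain ⟨r, ⟨hr, t, ht, htW, htr⟩, hun⟩ := hR' y hy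
    refine ⟨r, ⟨hr, t, ht, (hTW' t ht).mpr htW, htr⟩, ?_⟩
    rintro r' ⟨hr', t', ht', htW', htr'⟩
    exact hun r' ⟨hr', t', ht', (hTW' t' ht').mp htW', htr'⟩
  rw [(rel_main hM hmax hab hT hW hQP R hR hR').1, (rel_main hM hmax hab hT hW'c (sup_zpowers_le hQP hu) R hR hR'').1]
  refine Finset.sum_congr rfl fun y hy => ?_
  have hyP := hR y hy
  have h4 := rank_inf_eq hM hmax hab hT hu _ (Q ⊔ Subgroup.zpowers y) (W ⊓ Kz y) rfl (centralizer_sup_zpowers hW y)
    (sup_zpowers_le hQP hyP) (fun t ht htW => huT t ht htW.1)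
  rw [inf_right_comm] at h4
  exact h4

end Ind

end Cfsg.Agent.Lib.Blocks.AbWat
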