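import Mathlib
import Cfsg.Prelude.Def_Blocks
import Cfsg.Agent.Lib.Blocks.PiKer
import Cfsg.Agent.Lib.Blocks.Pairs16

/-!
# Blocks of subgroups containing the centralizer of a defect group

Let `b` be a block of `H` with defect group `D₀`, and suppose `C_G(D₀) ≤ H`.  Then `b` induces a block `B`, and `D₀`
lies in a defect group `D` of `B` with `Z(D) ≤ Z(D₀)`.
-/

set_option autoImplicit false
set_option linter.style.haveILetI false
set_option linter.unusedSectionVars false

namespace Cfsg.Agent.Lib.Blocks.CentBlock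

open Cfsg Cfsg.Agent.Lib.Blocks.Local Cfsg.Agent.Lib.Blocks.Central Cfsg.Agent.Lib.Blocks.Osima
  Cfsg.Agent.Lib.Blocks.Covering Cfsg.Agent.Lib.Blocks.BrauerMap Cfsg.Agent.Lib.Blocks.Transport
  Cfsg.Agent.Lib.Blocks.BlockHom Cfsg.Agent.Lib.Blocks.Pairs Cfsg.Agent.Lib.Blocks.PiKer

universe u

variable {G : Type u} [Group G] [Fintype G] {M : Ideal AlgInt} [hMp : M.IsPrime] {p : ℕ} [hp : Fact p.Prime]

/-- The Brauer value of a push of a truncation. -/
lemma bv_push_restr {H S : Subgroup G} [Fintype H] [Fintype (Subgroup.centralizer (S : Set G))]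
    (hCH : Subgroup.centralizer (S : Set G) ≤ H) (ξ : Subgroup.centralizer (S : Set G) → ℂ) (z : MonoidAlgebra ℂ G) :
    bv S ξ (push H (Cfsg.Agent.Lib.Blocks.SecondMain.restr H z)) = bv S ξ z := by
  unfold bv
  congr 1
  apply ext_coeff
  intro c
  rw [coeff_res, coeff_res]
  have := coeff_push_coe H (Cfsg.Agent.Lib.Blocks.SecondMain.restr H z) ⟨c, hCH c.2⟩
  simp only at this
  rw [this, Cfsg.Agent.Lib.Blocks.SecondMain.coeff_restr]

/-- Block induction is defined for subgroups containing the centralizer of a `p`-subgroup `S`, on the blocks whose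
idempotent does not vanish on `C_G(S)`. -/
theorem exists_isInducedBlock (hM : IsPModular p M) {H S : Subgroup G} (hS : IsPGroup p S) (hSH : S ≤ H)
    (hCH : Subgroup.centralizer (S : Set G) ≤ H) {b : Set (IrrCharacter H)} (hb : IsPBlock M b) {k : H}
    (hk : (k : G) ∈ Subgroup.centralizer (S : Set G)) (hk' : ¬ MemLocalIdeal M (blockCoeff b k)) :
    ∃ B : Set (IrrCharacter G), IsInducedBlock M H b B := by
  classical
  haveI : Fintype H := Fintype.ofFinite H
  haveI : Fintype (Subgroup.centralizer (S : Set G)) := Fintype.ofFinite _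
  obtain ⟨f, hf, hval⟩ := exists_bv_one_of_block hM hS hSH hCH hb hk hk'
  obtain ⟨ξ, hξ⟩ := isPBlock_nonempty hf
  obtain ⟨χ, hχ⟩ := exists_irr_of_brauer hM hS (le_refl (Subgroup.centralizer (S : Set G)))
    (Cfsg.Agent.Lib.Blocks.FirstMain.centralizer_le_normalizer' S) ξ.2
  refine ⟨blockOf M (χ : G → ℂ), hb, ⟨χ, rfl⟩, fun θ hθ χ' hχ' g => ?_⟩
  have hz : classSum g ∈ localCenter G M := classSum_mem_localCenter g
  have hz' := Cfsg.Agent.Lib.Blocks.SecondMain.restr_mem_localCenter (H := H) hz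
  have h1 := bv_push_sub_omega hM hS hSH hCH hb (hval ξ hξ) hz' hθ
  rw [bv_push_restr hCH, Cfsg.Agent.Lib.Blocks.SecondMain.restr_classSum,
    ← Cfsg.Agent.Lib.Blocks.Induced.inducedCentralChar_eq_omega] at h1
  have h2 := hχ ⟨classSum g, hz⟩
  simp only at h2
  have h3 : brauer S (Subgroup.centralizer (S : Set G)) (classSum g) =
      res (Subgroup.centralizer (S : Set G)) (classSum g) := by
    apply ext_coeff
    intro c
    rw [coeff_brauer, if_pos c.2, coeff_res]
  rw [h3, ← bv] at h2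
  have h4 := memLocalIdeal_omega_sub χ'.2 χ.2 (sameBlock_symm hχ') hz
  rw [omega_classSum (isClassFunction_of_irr χ'.2), omega_classSum (isClassFunction_of_irr χ.2)] at h4
  rw [omega_classSum (isClassFunction_of_irr χ.2)] at h2
  have h5 := memLocalIdeal_add (memLocalIdeal_add (memLocalIdeal_neg h1) h2) (memLocalIdeal_neg h4)
  convert h5 using 1
  ring

/-- The centre of a defect group of the induced block lies in the defect group of the block of the subgroup. -/
theorem center_le_of_maximal (hM : IsPModular p M) {H D₀ P : Subgroup G}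
    [Fintype (Subgroup.centralizer (D₀ : Set G))] (hD₀p : IsPGroup p D₀) (hD₀H : D₀ ≤ H)
    (hCH : Subgroup.centralizer (D₀ : Set G) ≤ H) {b : Set (IrrCharacter H)} (hb : IsPBlock M b)
    (hdef : IsDefectGroup p M b (D₀.subgroupOf H))
    {f : Set (IrrCharacter (Subgroup.centralizer (D₀ : Set G)))}
    (hval : ∀ ξ ∈ f, MemLocalIdeal M (bv D₀ (ξ : _ → ℂ) (EE H b) - 1))
    {e : Set (IrrCharacter (Subgroup.centralizer (P : Set G)))} (hPe : IsBrauerPair p M P e)
    (hle : SubpairLE p M D₀ f P e) {z : G} (hzP : z ∈ P) (hz : ∀ x ∈ P, z * x = x * z) : z ∈ D₀ := by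
  classical
  haveI : Fintype H := Fintype.ofFinite H
  set Q : Subgroup G := D₀ ⊔ Subgroup.zpowers z with hQ
  have hD₀P : D₀ ≤ P := SubpairLE.le hle
  have hzC : z ∈ Subgroup.centralizer (D₀ : Set G) := by
    rw [Subgroup.mem_centralizer_iff]
    intro d hd
    exact (hz d (hD₀P hd)).symm
  have hzpC : Subgroup.zpowers z ≤ Subgroup.centralizer (D₀ : Set G) := by
    rw [Subgroup.zpowers_le]
    exact hzC
  have hQP : Q ≤ P := sup_le hD₀P (by rw [Subgroup.zpowers_le]; exact hzP)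
  have hQN : Q ≤ Subgroup.normalizer (D₀ : Set G) :=
    sup_le Subgroup.le_normalizer (hzpC.trans (Cfsg.Agent.Lib.Blocks.FirstMain.centralizer_le_normalizer' D₀))
  have hQp : IsPGroup p Q := hPe.1.to_le hQP
  haveI : Fintype (Subgroup.centralizer (Q : Set G)) := Fintype.ofFinite _
  have hCQ : Subgroup.centralizer (Q : Set G) ≤ Subgroup.centralizer (D₀ : Set G) :=
    Subgroup.centralizer_le (le_sup_left : D₀ ≤ Q)
  have hQH : Q ≤ H := sup_le hD₀H (hzpC.trans hCH)
  -- the chain through `Q`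
  obtain ⟨g, hg, hgle⟩ := exists_subpairLE hM hPe hQP
  have hQg : IsBrauerPair p M Q g := ⟨hQp, hg⟩
  obtain ⟨f', hf', hf'le⟩ := exists_subpairLE hM hQg (le_sup_left : D₀ ≤ Q)
  have hff : f' = f := eq_of_subpairLE hM hPe (SubpairLE.trans hf'le hgle) hle
  subst hff
  have hn := isNormalSubpair_of_subpairLE hM hQg hf'le hQN
  have hn' := isNormalSubpair_iff.mp hn
  obtain ⟨ξ, hξ⟩ := isPBlock_nonempty hg
  have hdom : BrDom M Q (EE H b) :=
    ⟨locCoeff_EE hb, (invBy_EE_self H b).mono hQH, (invBy_EE_self H b).mono (hCQ.trans hCH)⟩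
  have h1 : MemLocalIdeal M (bv Q (ξ : _ → ℂ) (EE H b) - 1) :=
    memLocalIdeal_bv_sub_of_subpair hM hQp (le_sup_left : D₀ ≤ Q) hQN hf' hn'.2.2.2.2.1 ξ.2
      (hn'.2.2.2.2.2 ξ hξ) hdom ((invBy_EE_self H b).mono hCH) memLocalRing_one hval
  -- a unit coefficient on `C_G(Q)`
  have hex : ∃ x ∈ Subgroup.centralizer (Q : Set G), ¬ MemLocalIdeal M ((EE H b).coeff x) := by
    by_contra hcon
    push Not at hcon
    have h2 := memLocalIdeal_bv_of_coeff ξ.2 hdom.invC hcon
    apply not_memLocalIdeal_one (M := M)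
    simpa using memLocalIdeal_sub h2 h1
  obtain ⟨x, hxQ, hx⟩ := hex
  have hxH : x ∈ H := hCH (hCQ hxQ)
  rw [coeff_EE, subgroupBlockCoeff_of_mem _ hxH] at hx
  have hR : IsPGroup p (Q.subgroupOf H) := hQp.comap_of_injective _ H.subtype_injective
  have hRx : Q.subgroupOf H ≤ Subgroup.centralizer ({(⟨x, hxH⟩ : H)} : Set H) := by
    intro d hd
    rw [Subgroup.mem_centralizer_iff]
    intro u hu
    rw [Set.mem_singleton_iff.mp hu]
    apply Subtype.ext
    exact ((Subgroup.mem_centralizer_iff.mp hxQ) _ (Subgroup.mem_subgroupOf.mp hd)).symm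
  obtain ⟨y, hy⟩ := exists_le_conj_of_coeff hM hb hdef hx hR hRx
  have h3 : Nat.card Q ≤ Nat.card D₀ := by
    calc Nat.card Q = Nat.card (Q.subgroupOf H) := (Cfsg.Agent.Lib.Blocks.PiKer.card_subgroupOf_of_le hQH).symm
      _ ≤ Nat.card ((D₀.subgroupOf H).map (MulAut.conj y).toMonoidHom) := Subgroup.card_le_of_le hy
      _ = Nat.card (D₀.subgroupOf H) := Cfsg.Agent.S0916.card_map_conj y _
      _ = Nat.card D₀ := Cfsg.Agent.Lib.Blocks.PiKer.card_subgroupOf_of_le hD₀H
  have h4 : D₀ = Q := Subgroup.eq_of_le_of_card_ge le_sup_left h3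
  rw [h4]
  exact (le_sup_right : Subgroup.zpowers z ≤ Q) (Subgroup.mem_zpowers z)

/-- The main theorem, for the subgroup `D₀` of `G`. -/
theorem exists_defect_above (hM : IsPModular p M) {H D₀ : Subgroup G} (hD₀p : IsPGroup p D₀) (hD₀H : D₀ ≤ H)
    (hCH : Subgroup.centralizer (D₀ : Set G) ≤ H) {b : Set (IrrCharacter H)} {B : Set (IrrCharacter G)}
    (hind : IsInducedBlock M H b B) (hdef : IsDefectGroup p M b (D₀.subgroupOf H)) {k : H}
    (hk : (k : G) ∈ Subgroup.centralizer (D₀ : Set G)) (hk' : ¬ MemLocalIdeal M (blockCoeff b k)) :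
    ∃ P : Subgroup G, IsDefectGroup p M B P ∧ D₀ ≤ P ∧ ∀ z ∈ P, (∀ x ∈ P, z * x = x * z) → z ∈ D₀ := by
  classical
  haveI : Fintype (Subgroup.centralizer (D₀ : Set G)) := Fintype.ofFinite _
  obtain ⟨f, hf, hval⟩ := exists_bv_one_of_block hM hD₀p hD₀H hCH hind.1 hk hk'
  have hpair := isBrauerPairOf_of_block hM hD₀p hD₀H hCH hind hf hval
  obtain ⟨P, e, hmax, hle⟩ := exists_maximal_above hpair
  refine ⟨P, isDefectGroup_of_maximal hM hmax, SubpairLE.le hle, fun z hzP hz => ?_⟩
  exact center_le_of_maximal hM hD₀p hD₀H hCH hind.1 hdef hval hmax.1.1 hle hzP hz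

end Cfsg.Agent.Lib.Blocks.CentBlock
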