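/-
Brauer's count of the irreducible characters of a block, in the form of a sum over all `p`-elements, for subgroups: if
`H ≤ G` and `b` is a block of `G`, the number of irreducible characters of `H` in blocks inducing `b`, times `|H|`, is
the sum over the `p`-elements `u` of `H` of `|C_H(u)|` times the rank of the blocks of `C_H(u)` inducing `b`.
-/
import Mathlib
import Cfsg.Prelude.Def_BlockRank
import Cfsg.Agent.Lib.Blocks.BlockCount
import Cfsg.Agent.Lib.Blocks.Transport
import Cfsg.Agent.Lib.Blocks.ChainSum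

set_option autoImplicit false

namespace Cfsg.Agent.Lib.Blocks.ChainBlock

open Cfsg Cfsg.Agent.Lib.Blocks.Local Cfsg.Agent.Lib.Blocks.Central Cfsg.Agent.Lib.Blocks.Osima
  Cfsg.Agent.Lib.Blocks.Sections Cfsg.Agent.Lib.Blocks.BlockCount Cfsg.Agent.Lib.Blocks.SecondMain
  Cfsg.Agent.Lib.Blocks.Transport Cfsg.Agent.Lib.Blocks.Induced

universe u

section One

variable {G : Type u} [Group G]

/-- `p`-elements. -/
def IsPElt (p : ℕ) (g : G) : Prop := ∃ k : ℕ, orderOf g = p ^ k

lemma IsPElt.conj {p : ℕ} {g : G} (h : IsPElt p g) (c : G) : IsPElt p (c * g * c⁻¹) := by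
  obtain ⟨k, hk⟩ := h
  exact ⟨k, by rw [Cfsg.Agent.Lib.Blocks.Regular.orderOf_conj', hk]⟩

lemma IsPElt.of_isConj {p : ℕ} {g g' : G} (h : IsPElt p g) (hc : IsConj g g') : IsPElt p g' := by
  obtain ⟨c, rfl⟩ := isConj_iff.mp hc
  exact h.conj c

variable [Fintype G]

/-- A system of representatives of the classes of `p`-elements. -/
lemma exists_reps (p : ℕ) : ∃ X : Finset G, (∀ x ∈ X, IsPElt p x) ∧ ∀ g, IsPElt p g → ∃! x, x ∈ X ∧ IsConj g x := by
  classical
  let X : Finset G := (Finset.univ.filter (fun c : ConjClasses G => IsPElt p (Quotient.out c))).image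
    (fun c : ConjClasses G => (Quotient.out c : G))
  have hout : ∀ c : ConjClasses G, ConjClasses.mk (Quotient.out c) = c := fun c => Quotient.out_eq c
  refine ⟨X, ?_, ?_⟩
  · intro x hx
    obtain ⟨c, hc, rfl⟩ := Finset.mem_image.mp hx
    exact (Finset.mem_filter.mp hc).2
  · intro g hg
    have h1 : IsConj g (Quotient.out (ConjClasses.mk g)) := by
      rw [← ConjClasses.mk_eq_mk_iff_isConj, hout]
    refine ⟨Quotient.out (ConjClasses.mk g), ⟨Finset.mem_image.mpr ⟨ConjClasses.mk g, Finset.mem_filter.mpr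
      ⟨Finset.mem_univ _, hg.of_isConj h1⟩, rfl⟩, h1⟩, ?_⟩
    rintro y ⟨hy, hgy⟩
    obtain ⟨c, hc, rfl⟩ := Finset.mem_image.mp hy
    have h2 : ConjClasses.mk g = c := by
      rw [ConjClasses.mk_eq_mk_iff_isConj.mpr hgy, hout]
    rw [h2]

open Classical in
/-- The number of conjugators of `x` onto `u`. -/
lemma card_conjugators (x u : G) (h : IsConj x u) :
    (Finset.univ.filter (fun g : G => g * x * g⁻¹ = u)).card = Nat.card (Subgroup.centralizer ({u} : Set G)) := by
  classical
  obtain ⟨g₀, rfl⟩ := isConj_iff.mp h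
  rw [Nat.card_eq_fintype_card, Fintype.card_subtype]
  refine Finset.card_bij' (fun g _ => g * g₀⁻¹) (fun c _ => c * g₀) ?_ ?_ (fun g _ => by simp) (fun c _ => by simp)
  · intro g hg
    have h1 : g * x * g⁻¹ = g₀ * x * g₀⁻¹ := (Finset.mem_filter.mp hg).2
    refine Finset.mem_filter.mpr ⟨Finset.mem_univ _, ?_⟩
    rw [Subgroup.mem_centralizer_singleton_iff]
    calc g * g₀⁻¹ * (g₀ * x * g₀⁻¹) = g * x * g⁻¹ * (g * g₀⁻¹) := by group
      _ = g₀ * x * g₀⁻¹ * (g * g₀⁻¹) := by rw [h1]
  · intro c hc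
    have h1 := (Finset.mem_filter.mp hc).2
    rw [Subgroup.mem_centralizer_singleton_iff] at h1
    refine Finset.mem_filter.mpr ⟨Finset.mem_univ _, ?_⟩
    calc c * g₀ * x * (c * g₀)⁻¹ = c * (g₀ * x * g₀⁻¹) * c⁻¹ := by group
      _ = (g₀ * x * g₀⁻¹) * c * c⁻¹ := by rw [h1]
      _ = g₀ * x * g₀⁻¹ := by group

open Classical in
/-- Averaging over the conjugates of a system of representatives. -/
theorem sum_over_pelts {A : Type*} [AddCommMonoid A] (p : ℕ) (F : G → A) (n : A)
    (hF : ∀ X : Finset G, (∀ x ∈ X, IsPElt p x) → (∀ g, IsPElt p g → ∃! x, x ∈ X ∧ IsConj g x) → ∑ x ∈ X, F x = n) :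
    Nat.card G • n = ∑ u ∈ (Finset.univ.filter (IsPElt p) : Finset G), Nat.card (Subgroup.centralizer ({u} : Set G)) • F u := by
  classical
  obtain ⟨X, hX, hXrep⟩ := exists_reps (G := G) p
  have h1 : ∀ g : G, ∑ x ∈ X, F (g * x * g⁻¹) = n := by
    intro g
    have hinj : Function.Injective (fun x : G => g * x * g⁻¹) := fun x y h => by simpa using h
    rw [← hF (X.image fun x => g * x * g⁻¹)]
    · rw [Finset.sum_image fun x _ y _ h => hinj h]
    · intro x hx
      obtain ⟨y, hy, rfl⟩ := Finset.mem_image.mp hx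
      exact (hX y hy).conj g
    · intro w hw
      obtain ⟨x, ⟨hx1, hx2⟩, hx3⟩ := hXrep (g⁻¹ * w * g) (by simpa using hw.conj g⁻¹)
      have hw' : IsConj (g⁻¹ * w * g) w := isConj_iff.mpr ⟨g, by group⟩
      have hg : IsConj w x := hw'.symm.trans hx2
      have hgx : IsConj x (g * x * g⁻¹) := isConj_iff.mpr ⟨g, rfl⟩
      refine ⟨g * x * g⁻¹, ⟨Finset.mem_image_of_mem _ hx1, hg.trans hgx⟩, ?_⟩
      rintro y ⟨hy1, hy2⟩
      obtain ⟨y', hy', rfl⟩ := Finset.mem_image.mp hy1
      have hy'2 : IsConj y' (g * y' * g⁻¹) := isConj_iff.mpr ⟨g, rfl⟩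
      rw [hx3 y' ⟨hy', hw'.trans (hy2.trans hy'2.symm)⟩]
  have h2 : Nat.card G • n = ∑ g : G, ∑ x ∈ X, F (g * x * g⁻¹) := by
    simp only [h1, Finset.sum_const, Finset.card_univ, Nat.card_eq_fintype_card]
  rw [h2, Finset.sum_comm]
  have h3 : ∀ x ∈ X, ∑ g : G, F (g * x * g⁻¹) = ∑ u ∈ Finset.univ.filter (fun u => IsConj u x),
      Nat.card (Subgroup.centralizer ({u} : Set G)) • F u := by
    intro x _
    rw [← Finset.sum_fiberwise_of_maps_to (s := Finset.univ) (t := Finset.univ.filter (fun u => IsConj u x))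
      (g := fun g : G => g * x * g⁻¹) (fun g _ => Finset.mem_filter.mpr ⟨Finset.mem_univ _,
        (isConj_iff.mpr ⟨g, rfl⟩ : IsConj x (g * x * g⁻¹)).symm⟩)]
    refine Finset.sum_congr rfl fun u hu => ?_
    have hu' : IsConj x u := (Finset.mem_filter.mp hu).2.symm
    rw [← card_conjugators x u hu', ← Finset.sum_const]
    exact Finset.sum_congr rfl fun g hg => by rw [(Finset.mem_filter.mp hg).2]
  rw [Finset.sum_congr rfl h3]
  simp only [Finset.sum_filter]
  rw [Finset.sum_comm]
  refine Finset.sum_congr rfl fun u _ => ?_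
  by_cases hu : IsPElt p u
  · rw [if_pos hu]
    obtain ⟨x, ⟨hx1, hx2⟩, hx3⟩ := hXrep u hu
    rw [Finset.sum_eq_single x]
    · rw [if_pos hx2]
    · intro y hy hne
      rw [if_neg]
      intro h
      exact hne (hx3 y ⟨hy, h⟩)
    · intro h
      exact absurd hx1 h
  · rw [if_neg hu]
    refine Finset.sum_eq_zero fun x hx => ?_
    rw [if_neg]
    intro h
    exact hu ((hX x hx).of_isConj h.symm)

variable {M : Ideal AlgInt} [hMp : M.IsPrime] {p : ℕ} [hp : Fact p.Prime]

open Classical in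
/-- **Brauer's count** as a sum over all `p`-elements. -/
theorem card_mul_eq_sum (hM : IsPModular p M) (χ₀ : IrrCharacter G) :
    Nat.card G * Nat.card (blockOf M (χ₀ : G → ℂ)) = ∑ u ∈ (Finset.univ.filter (IsPElt p) : Finset G),
      Nat.card (Subgroup.centralizer ({u} : Set G)) * blockRank p (inducers (Cen u) M (χ₀ : G → ℂ)) := by
  have := sum_over_pelts (G := G) p (fun u => blockRank p (inducers (Cen u) M (χ₀ : G → ℂ)))
    (Nat.card (blockOf M (χ₀ : G → ℂ))) (fun X hX hXrep => (card_eq_sum_blockRank hM χ₀ X hX hXrep).symm)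
  simpa only [smul_eq_mul] using this

end One

section Transport

variable {A B : Type u} [Group A] [Group B]

lemma pRegularPart_comp (p : ℕ) (φ : A ≃* B) (f : B → ℂ) :
    pRegularPart p (fun a => f (φ a)) = fun a => pRegularPart p f (φ a) := by
  classical
  funext a
  simp only [pRegularPart, IsPRegular, MulEquiv.orderOf_eq]
  by_cases h : p ∣ orderOf a <;> simp [h]

/-- The `p`-regular rank is preserved by isomorphisms. -/
theorem blockRank_blockMap (p : ℕ) (φ : A ≃* B) (S : Set (IrrCharacter B)) :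
    blockRank p (blockMap φ S) = blockRank p S := by
  let L : (B → ℂ) ≃ₗ[ℂ] (A → ℂ) := LinearEquiv.funCongrLeft ℂ ℂ φ.toEquiv
  have hL : ∀ (f : B → ℂ) (a : A), L f a = f (φ a) := fun f a => rfl
  have h1 : (fun χ : IrrCharacter A => pRegularPart p (χ : A → ℂ)) '' blockMap φ S =
      L '' ((fun χ : IrrCharacter B => pRegularPart p (χ : B → ℂ)) '' S) := by
    ext f
    simp only [Set.mem_image]
    constructor
    · rintro ⟨_, ⟨χ, hχ, rfl⟩, rfl⟩
      refine ⟨_, ⟨χ, hχ, rfl⟩, ?_⟩
      funext a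
      rw [hL]
      exact (congrFun (pRegularPart_comp p φ (χ : B → ℂ)) a).symm
    · rintro ⟨_, ⟨χ, hχ, rfl⟩, rfl⟩
      refine ⟨_, ⟨χ, hχ, rfl⟩, ?_⟩
      funext a
      rw [hL]
      exact congrFun (pRegularPart_comp p φ (χ : B → ℂ)) a
  unfold blockRank
  rw [h1]
  have h2 := Submodule.map_span (L : (B → ℂ) →ₗ[ℂ] (A → ℂ)) ((fun χ : IrrCharacter B => pRegularPart p (χ : B → ℂ)) '' S)
  have h3 : Submodule.span ℂ (L '' ((fun χ : IrrCharacter B => pRegularPart p (χ : B → ℂ)) '' S)) =
      (Submodule.span ℂ ((fun χ : IrrCharacter B => pRegularPart p (χ : B → ℂ)) '' S)).map (L : (B → ℂ) →ₗ[ℂ] (A → ℂ)) := h2.symm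
  rw [h3]
  exact LinearEquiv.finrank_map_eq L _

end Transport

section Sub

variable {G : Type u} [Group G] [Fintype G] {M : Ideal AlgInt} [hMp : M.IsPrime] {p : ℕ} [hp : Fact p.Prime]

/-- The identification of `C_H(u)` with `H ⊓ C_G(u)`. -/
def cenEquiv (H : Subgroup G) (u : H) :
    Subgroup.centralizer ({u} : Set H) ≃* ↥(H ⊓ Subgroup.centralizer ({(u : G)} : Set G)) where
  toFun c := ⟨c.1.1, Subgroup.mem_inf.mpr ⟨c.1.2, Subgroup.mem_centralizer_singleton_iff.mpr
    (congrArg Subtype.val (Subgroup.mem_centralizer_singleton_iff.mp c.2))⟩⟩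
  invFun k := ⟨⟨k.1, (Subgroup.mem_inf.mp k.2).1⟩, Subgroup.mem_centralizer_singleton_iff.mpr
    (Subtype.ext (Subgroup.mem_centralizer_singleton_iff.mp (Subgroup.mem_inf.mp k.2).2))⟩
  left_inv _ := rfl
  right_inv _ := rfl
  map_mul' _ _ := rfl

/-- The induced central character computed through the intermediate subgroup. -/
lemma inducedCentralChar_cenEquiv (H : Subgroup G) [Fintype H] (u : H) [Fintype (Subgroup.centralizer ({u} : Set H))]
    (ψ : IrrCharacter (Subgroup.centralizer ({u} : Set H))) (g : G) :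
    inducedCentralChar (H ⊓ Subgroup.centralizer ({(u : G)} : Set G)) (irrComap (cenEquiv H u).symm ψ).1 g =
      omega ψ.1 (restr (Subgroup.centralizer ({u} : Set H)) (traceClassSum H g)) := by
  classical
  letI : Fintype ↥(H ⊓ Subgroup.centralizer ({(u : G)} : Set G)) := Fintype.ofFinite _
  rw [inducedCentralChar_eq_omega, omega, omega]
  have h1 : (irrComap (cenEquiv H u).symm ψ).1 1 = ψ.1 1 := by
    rw [coe_irrComap, map_one]
  rw [h1]
  congr 1
  rw [← Equiv.sum_comp (cenEquiv H u).toEquiv]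
  refine Finset.sum_congr rfl fun c _ => ?_
  rw [coeff_restr]
  simp only [traceClassSum, coeff_ofFun, coe_irrComap]
  have h2 : ((cenEquiv H u).symm ((cenEquiv H u).toEquiv c)) = c := (cenEquiv H u).symm_apply_apply c
  rw [h2]
  rfl

/-- Transitivity of induction of central characters through `H`. -/
theorem memLocalIdeal_induced_trans (H : Subgroup G) [Fintype H] (u : H) [Fintype (Subgroup.centralizer ({u} : Set H))]
    {ψ : IrrCharacter (Subgroup.centralizer ({u} : Set H))} {η : IrrCharacter H}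
    (hψ : ψ ∈ inducers (Subgroup.centralizer ({u} : Set H)) M (η : H → ℂ)) (g : G) :
    MemLocalIdeal M (inducedCentralChar (H ⊓ Subgroup.centralizer ({(u : G)} : Set G))
      (irrComap (cenEquiv H u).symm ψ).1 g - inducedCentralChar H (η : H → ℂ) g) := by
  rw [inducedCentralChar_cenEquiv, inducedCentralChar_eq_omega H (η : H → ℂ) g]
  exact memLocalIdeal_omega_restr_sub (isClassFunction_of_irr η.2) (traceClassSum_mem_localCenter H g) hψ

/-- Additivity of the rank over a finite family of closed sets. -/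
theorem blockRank_biUnion' (hM : IsPModular p M) {ι : Type*} [DecidableEq ι] (S : Finset ι)
    (A : ι → Set (IrrCharacter G)) (hcl : ∀ i ∈ S, IsClosed M (A i))
    (hd : ∀ i ∈ S, ∀ j ∈ S, i ≠ j → Disjoint (A i) (A j)) :
    blockRank p (⋃ i ∈ S, A i) = ∑ i ∈ S, blockRank p (A i) := by
  induction S using Finset.induction_on with
  | empty =>
    have h0 : (⋃ i ∈ (∅ : Finset ι), A i) = ∅ := by simp
    rw [Finset.sum_empty, h0, blockRank_eq, regSpan, Set.image_empty, Submodule.span_empty, finrank_bot]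
  | insert a S ha ih =>
    rw [Finset.sum_insert ha, Finset.set_biUnion_insert,
      blockRank_union hM (hcl a (Finset.mem_insert_self a S)),
      ih (fun i hi => hcl i (Finset.mem_insert_of_mem hi))
        (fun i hi j hj => hd i (Finset.mem_insert_of_mem hi) j (Finset.mem_insert_of_mem hj))]
    rw [Set.disjoint_iUnion₂_right]
    intro b hb
    refine hd a (Finset.mem_insert_self a S) b (Finset.mem_insert_of_mem hb) ?_
    rintro rfl
    exact ha hb

/-- The cardinality of a finite disjoint union. -/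
lemma natCard_biUnion {X : Type*} [Finite X] {ι : Type*} [DecidableEq ι] (S : Finset ι) (A : ι → Set X)
    (hd : ∀ i ∈ S, ∀ j ∈ S, i ≠ j → Disjoint (A i) (A j)) :
    Nat.card ↥(⋃ i ∈ S, A i) = ∑ i ∈ S, Nat.card ↥(A i) := by
  induction S using Finset.induction_on with
  | empty =>
    have h0 : (⋃ i ∈ (∅ : Finset ι), A i) = ∅ := by simp
    rw [Finset.sum_empty, h0]
    simp
  | insert a S ha ih =>
    rw [Finset.sum_insert ha, Finset.set_biUnion_insert, Nat.card_coe_set_eq, Set.ncard_union_eq,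
      ← Nat.card_coe_set_eq, ← Nat.card_coe_set_eq,
      ih (fun i hi j hj => hd i (Finset.mem_insert_of_mem hi) j (Finset.mem_insert_of_mem hj))]
    · rw [Set.disjoint_iUnion₂_right]
      intro b hb
      refine hd a (Finset.mem_insert_self a S) b (Finset.mem_insert_of_mem hb) ?_
      rintro rfl
      exact ha hb

open Classical in
/-- **Brauer's count** over a subgroup `H`. -/
theorem card_mul_sub (hM : IsPModular p M) (χ₀ : IrrCharacter G) (H : Subgroup G) :
    Nat.card H * Nat.card (inducers H M (χ₀ : G → ℂ)) = ∑ u ∈ Finset.univ.filter (fun u : G => u ∈ H ∧ IsPElt p u),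
      Nat.card ↥(H ⊓ Subgroup.centralizer ({u} : Set G)) *
        blockRank p (inducers (H ⊓ Subgroup.centralizer ({u} : Set G)) M (χ₀ : G → ℂ)) := by
  letI : Fintype H := Fintype.ofFinite _
  letI hcen : ∀ u : H, Fintype (Subgroup.centralizer ({u} : Set H)) := fun _ => Fintype.ofFinite _
  set Bl : Finset (Set (IrrCharacter H)) :=
    (Set.toFinite {β : Set (IrrCharacter H) | IsInducedBlock M H β (blockOf M (χ₀ : G → ℂ))}).toFinset with hBl
  have hmemBl : ∀ β, β ∈ Bl ↔ IsInducedBlock M H β (blockOf M (χ₀ : G → ℂ)) := fun β => by simp [hBl]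
  have hU : inducers H M (χ₀ : G → ℂ) = ⋃ β ∈ Bl, β := by
    rw [inducers_eq_biUnion]
    ext ξ
    simp only [Set.mem_iUnion, exists_prop, Set.mem_setOf_eq, hmemBl]
  have hdisj : ∀ i ∈ Bl, ∀ j ∈ Bl, i ≠ j → Disjoint i j := fun i hi j hj hij =>
    disjoint_of_isPBlock ((hmemBl i).mp hi).1 ((hmemBl j).mp hj).1 hij
  have hcard : Nat.card (inducers H M (χ₀ : G → ℂ)) = ∑ β ∈ Bl, Nat.card β := by
    rw [hU]
    exact natCard_biUnion Bl (fun β => β) hdisj
  let A' : Set (IrrCharacter H) → ∀ u : H, Set (IrrCharacter (Subgroup.centralizer ({u} : Set H))) :=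
    fun β u => {ψ | ∃ η ∈ β, ψ ∈ inducers (Subgroup.centralizer ({u} : Set H)) M (η : H → ℂ)}
  have hA' : ∀ β ∈ Bl, ∀ η ∈ β, ∀ u : H, A' β u = inducers (Subgroup.centralizer ({u} : Set H)) M (η : H → ℂ) := by
    intro β hβ η hη u
    ext ψ
    constructor
    · rintro ⟨η', hη', hψ⟩
      have hsame : SameBlock M (η' : H → ℂ) (η : H → ℂ) := by
        obtain ⟨ζ, rfl⟩ := ((hmemBl β).mp hβ).1
        exact sameBlock_trans (sameBlock_symm hη') hη
      rwa [← inducers_congr _ hsame]
    · intro hψ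
      exact ⟨η, hη, hψ⟩
  have h1 : ∀ β ∈ Bl, Nat.card H * Nat.card β = ∑ u ∈ (Finset.univ.filter (IsPElt p) : Finset H),
      Nat.card (Subgroup.centralizer ({u} : Set H)) * blockRank p (A' β u) := by
    intro β hβ
    obtain ⟨η, hη⟩ := ((hmemBl β).mp hβ).1
    subst hη
    rw [card_mul_eq_sum hM η]
    refine Finset.sum_congr rfl fun u _ => ?_
    rw [hA' _ hβ η (mem_blockOf_self η) u]
  rw [hcard, Finset.mul_sum, Finset.sum_congr rfl h1, Finset.sum_comm]
  have h2 : ∀ u : H, IsPElt p u → ∑ β ∈ Bl, Nat.card (Subgroup.centralizer ({u} : Set H)) * blockRank p (A' β u) =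
      Nat.card ↥(H ⊓ Subgroup.centralizer ({(u : G)} : Set G)) *
        blockRank p (inducers (H ⊓ Subgroup.centralizer ({(u : G)} : Set G)) M (χ₀ : G → ℂ)) := by
    intro u hu
    have hcl : ∀ β ∈ Bl, IsClosed M (A' β u) := by
      intro β hβ
      obtain ⟨ζ, hζ⟩ := ((hmemBl β).mp hβ).1
      subst hζ
      rw [hA' _ hβ ζ (mem_blockOf_self ζ) u]
      exact inducers_closed _ _
    have hd : ∀ β ∈ Bl, ∀ β' ∈ Bl, β ≠ β' → Disjoint (A' β u) (A' β' u) := by
      intro β hβ β' hβ' hne
      rw [Set.disjoint_left]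
      rintro ψ ⟨η, hη, hψ⟩ ⟨η', hη', hψ'⟩
      apply hne
      obtain ⟨ζ, hζ⟩ := ((hmemBl β).mp hβ).1
      obtain ⟨ζ', hζ'⟩ := ((hmemBl β').mp hβ').1
      subst hζ
      subst hζ'
      have hsame : η' ∈ blockOf M (η : H → ℂ) := fun h => by
        have := memLocalIdeal_sub (hψ' h) (hψ h)
        convert this using 1
        ring
      rw [← blockOf_eq_of_mem hη, ← blockOf_eq_of_mem hη']
      exact (blockOf_eq_of_mem hsame).symm
    rw [← Finset.mul_sum, ← blockRank_biUnion' hM Bl (fun β => A' β u) hcl hd]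
    have hcardE : Nat.card (Subgroup.centralizer ({u} : Set H)) =
        Nat.card ↥(H ⊓ Subgroup.centralizer ({(u : G)} : Set G)) := Nat.card_congr (cenEquiv H u).toEquiv
    rw [hcardE]
    congr 1
    have hset : (⋃ β ∈ Bl, A' β u) =
        blockMap (cenEquiv H u) (inducers (H ⊓ Subgroup.centralizer ({(u : G)} : Set G)) M (χ₀ : G → ℂ)) := by
      ext ψ
      simp only [Set.mem_iUnion, exists_prop, mem_blockMap_iff]
      constructor
      · rintro ⟨β, hβ, η, hη, hψ⟩ g
        have h3 := memLocalIdeal_induced_trans H u hψ g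
        have h4 := ((hmemBl β).mp hβ).2.2 η hη χ₀ (mem_blockOf_self χ₀) g
        have := memLocalIdeal_add h3 h4
        convert this using 1
        ring
      · intro hψ
        obtain ⟨k, hk⟩ := hu
        obtain ⟨χ₁, hχ₁⟩ := exists_inducer hM hk ψ
        have h5 : χ₁ ∈ inducers H M (χ₀ : G → ℂ) := fun g => by
          have h3 := memLocalIdeal_induced_trans H u hχ₁ g
          have := memLocalIdeal_sub (hψ g) h3
          convert this using 1
          ring
        rw [hU] at h5
        simp only [Set.mem_iUnion, exists_prop] at h5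
        obtain ⟨β, hβ, hχ₁β⟩ := h5
        exact ⟨β, hβ, χ₁, hχ₁β, hχ₁⟩
    rw [hset, blockRank_blockMap]
  rw [Finset.sum_congr rfl (fun u hu => h2 u (Finset.mem_filter.mp hu).2)]
  refine Finset.sum_nbij (fun u : H => (u : G)) ?_ ?_ ?_ ?_
  · intro u hu
    obtain ⟨k, hk⟩ := (Finset.mem_filter.mp hu).2
    exact Finset.mem_filter.mpr ⟨Finset.mem_univ _, u.2, k, by rw [Subgroup.orderOf_coe, hk]⟩
  · intro a _ b _ h
    exact Subtype.ext h
  · intro y hy
    obtain ⟨-, hy1, k, hk⟩ := Finset.mem_filter.mp hy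
    exact ⟨⟨y, hy1⟩, Finset.mem_filter.mpr ⟨Finset.mem_univ _, k, by rw [← Subgroup.orderOf_coe]; exact hk⟩, rfl⟩
  · intro _ _
    rfl

/-- The characters in the blocks inducing a given block. -/
lemma setOf_eq_inducers (χ₀ : IrrCharacter G) (K : Subgroup G) :
    {ψ : IrrCharacter K | ∃ β : Set (IrrCharacter K), ψ ∈ β ∧ IsInducedBlock M K β (blockOf M (χ₀ : G → ℂ))} =
      inducers K M (χ₀ : G → ℂ) := by
  letI : Fintype K := Fintype.ofFinite _
  rw [inducers_eq_biUnion]
  ext ξ
  simp only [Set.mem_iUnion, exists_prop, Set.mem_setOf_eq]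
  constructor
  · rintro ⟨β, h1, h2⟩
    exact ⟨β, h2, h1⟩
  · rintro ⟨β, h1, h2⟩
    exact ⟨β, h2, h1⟩

/-- The case of the whole group. -/
lemma blockRank_inducers_top (χ₀ : IrrCharacter G) :
    blockRank p (inducers (⊤ : Subgroup G) M (χ₀ : G → ℂ)) = blockRank p (blockOf M (χ₀ : G → ℂ)) := by
  classical
  letI : Fintype (⊤ : Subgroup G) := Fintype.ofFinite _
  have hset : inducers (⊤ : Subgroup G) M (χ₀ : G → ℂ) = blockMap (Subgroup.topEquiv (G := G)) (blockOf M (χ₀ : G → ℂ)) := by
    ext ψ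
    rw [mem_blockMap_iff]
    have key : ∀ g : G, inducedCentralChar (⊤ : Subgroup G) (ψ : (⊤ : Subgroup G) → ℂ) g =
        centralChar (irrComap (Subgroup.topEquiv (G := G)).symm ψ).1 g := by
      intro g
      rw [← omega_classSum (isClassFunction_of_irr (irrComap (Subgroup.topEquiv (G := G)).symm ψ).2),
        inducedCentralChar_eq_omega, omega, omega]
      have h1 : (irrComap (Subgroup.topEquiv (G := G)).symm ψ).1 1 = ψ.1 1 := by
        rw [coe_irrComap, map_one]
      rw [h1]
      congr 1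
      rw [← Equiv.sum_comp (Subgroup.topEquiv (G := G)).toEquiv]
      refine Finset.sum_congr rfl fun c _ => ?_
      have h2 : (Subgroup.topEquiv (G := G)).symm ((Subgroup.topEquiv (G := G)).toEquiv c) = c :=
        (Subgroup.topEquiv (G := G)).symm_apply_apply c
      simp only [traceClassSum, coeff_ofFun, coe_irrComap, h2]
      by_cases h : IsConj g (c : G)
      · rw [if_pos h]
        have h3 : ((Subgroup.topEquiv (G := G)).toEquiv c) = (c : G) := rfl
        rw [h3, coeff_classSum_of_isConj h]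
      · rw [if_neg h]
        have h3 : ((Subgroup.topEquiv (G := G)).toEquiv c) = (c : G) := rfl
        rw [h3, coeff_classSum_of_not_isConj h]
    constructor
    · intro hψ g
      have := hψ g
      rw [key] at this
      have h4 := (memLocalIdeal_neg this)
      convert h4 using 1
      ring
    · intro hψ g
      rw [key]
      have h4 := memLocalIdeal_neg (hψ g)
      convert h4 using 1
      ring
  rw [hset, blockRank_blockMap]

/-- The weight function. -/
noncomputable def wt (p : ℕ) (M : Ideal AlgInt) (χ₀ : G → ℂ) (K : Subgroup G) : ℤ :=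
  (Nat.card K : ℤ) * (blockRank p (inducers K M χ₀) : ℤ)

open Classical in
/-- The difference `k - l` for subgroups. -/
theorem diff_sub (hM : IsPModular p M) (χ₀ : IrrCharacter G) (H : Subgroup G) :
    (Nat.card H : ℤ) * ((Nat.card (inducers H M (χ₀ : G → ℂ)) : ℤ) - (blockRank p (inducers H M (χ₀ : G → ℂ)) : ℤ)) =
      ∑ u ∈ Finset.univ.filter (fun u : G => u ∈ H ∧ IsPElt p u ∧ u ≠ 1),
        wt p M (χ₀ : G → ℂ) (H ⊓ Subgroup.centralizer ({u} : Set G)) := by
  have h1 := card_mul_sub hM χ₀ H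
  have h2 : (Finset.univ.filter (fun u : G => u ∈ H ∧ IsPElt p u)) =
      insert 1 (Finset.univ.filter (fun u : G => u ∈ H ∧ IsPElt p u ∧ u ≠ 1)) := by
    ext u
    simp only [Finset.mem_filter, Finset.mem_univ, true_and, Finset.mem_insert]
    constructor
    · rintro ⟨h3, h4⟩
      by_cases h5 : u = 1
      · exact Or.inl h5
      · exact Or.inr ⟨h3, h4, h5⟩
    · rintro (rfl | ⟨h3, h4, -⟩)
      · exact ⟨H.one_mem, 0, by simp⟩
      · exact ⟨h3, h4⟩
  rw [h2, Finset.sum_insert (by simp)] at h1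
  have h3 : H ⊓ Subgroup.centralizer ({(1 : G)} : Set G) = H := by
    apply inf_eq_left.mpr
    intro x _
    rw [Subgroup.mem_centralizer_singleton_iff]
    simp
  rw [h3] at h1
  have h4 := congrArg (Nat.cast : ℕ → ℤ) h1
  push_cast at h4
  rw [mul_sub, h4]
  simp only [wt]
  ring

open Classical in
/-- The difference `k - l` for the whole group. -/
theorem diff_top (hM : IsPModular p M) (χ₀ : IrrCharacter G) :
    (Nat.card G : ℤ) * ((Nat.card (blockOf M (χ₀ : G → ℂ)) : ℤ) - (blockRank p (blockOf M (χ₀ : G → ℂ)) : ℤ)) =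
      ∑ u ∈ Finset.univ.filter (fun u : G => IsPElt p u ∧ u ≠ 1),
        wt p M (χ₀ : G → ℂ) (Subgroup.centralizer ({u} : Set G)) := by
  have h1 := card_mul_eq_sum hM χ₀
  have h2 : (Finset.univ.filter (IsPElt p : G → Prop)) =
      insert 1 (Finset.univ.filter (fun u : G => IsPElt p u ∧ u ≠ 1)) := by
    ext u
    simp only [Finset.mem_filter, Finset.mem_univ, true_and, Finset.mem_insert]
    constructor
    · intro h4
      by_cases h5 : u = 1
      · exact Or.inl h5
      · exact Or.inr ⟨h4, h5⟩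
    · rintro (rfl | ⟨h4, -⟩)
      · exact ⟨0, by simp⟩
      · exact h4
  rw [h2, Finset.sum_insert (by simp)] at h1
  have h3 : Subgroup.centralizer ({(1 : G)} : Set G) = ⊤ := by
    rw [eq_top_iff]
    intro x _
    rw [Subgroup.mem_centralizer_singleton_iff]
    simp
  have h5 : Cen (1 : G) = ⊤ := h3
  rw [h5, h3, blockRank_inducers_top, Nat.card_congr (Subgroup.topEquiv (G := G)).toEquiv] at h1
  have h4 := congrArg (Nat.cast : ℕ → ℤ) h1
  push_cast at h4
  rw [mul_sub, h4]
  simp only [wt]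
  ring

open Cfsg.Agent.Lib.Blocks.ChainSum in
open Classical in
/-- **The alternating sum** over the normal chains. -/
theorem alternating [Fintype (Subgroup G)] (hM : IsPModular p M) (χ₀ : IrrCharacter G) :
    (Nat.card G : ℤ) * ((Nat.card (blockOf M (χ₀ : G → ℂ)) : ℤ) - (blockRank p (blockOf M (χ₀ : G → ℂ)) : ℤ)) =
      ∑ s ∈ Finset.univ.filter (IsNChain p (⊥ : Subgroup G)), (-1 : ℤ) ^ (s.card - 1) * (Nat.card (chainNorm s) : ℤ) *
        ((Nat.card (inducers (chainNorm s) M (χ₀ : G → ℂ)) : ℤ) - (blockRank p (inducers (chainNorm s) M (χ₀ : G → ℂ)) : ℤ)) := by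
  rw [diff_top hM]
  simp only [mul_assoc, diff_sub hM χ₀ (chainNorm _), Finset.mul_sum]
  rw [Finset.sum_comm' (t' := Finset.univ.filter (fun u : G => IsPElt p u ∧ u ≠ 1))
    (s' := fun u => Finset.univ.filter (fun s => IsNChain p (⊥ : Subgroup G) s ∧ u ∈ chainNorm s))]
  · refine Finset.sum_congr rfl fun u hu => ?_
    obtain ⟨-, ⟨k, hk⟩, hu1⟩ := Finset.mem_filter.mp hu
    exact (sum_nchain_weighted (p := p) (wt p M (χ₀ : G → ℂ)) hk hu1).symm
  · intro s u
    simp only [Finset.mem_filter, Finset.mem_univ, true_and]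
    tauto

end Sub

end Cfsg.Agent.Lib.Blocks.ChainBlock
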