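/-
Coprime action on a `p`-group stabilizing a chain of subgroups: an element of order prime to `p`
that normalizes a chain of subgroups of the `p`-group `Q` and centralizes the normalizer in `Q` of the
chain centralizes `Q`.
-/
import Mathlib

set_option autoImplicit false

namespace Cfsg.Agent.Lib.Blocks.ChainNorm

variable {G : Type*} [Group G] {p : ℕ} [Fact p.Prime]

lemma eq_one_of_pow_eq_one_of_isPGroup {Q : Subgroup G} (hQ : IsPGroup p Q) {t : G} (ht : t ∈ Q) {k : ℕ}
    (hk : ¬ p ∣ k) (h : t ^ k = 1) : t = 1 := by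
  obtain ⟨m, hm⟩ := hQ ⟨t, ht⟩
  have h1 : t ^ (p ^ m) = 1 := by
    have := congrArg Subtype.val hm
    simpa using this
  have hcop : Nat.Coprime k (p ^ m) :=
    Nat.Coprime.pow_right m ((Nat.Prime.coprime_iff_not_dvd Fact.out).2 hk).symm
  have := Nat.dvd_gcd (orderOf_dvd_of_pow_eq_one h) (orderOf_dvd_of_pow_eq_one h1)
  rw [Nat.Coprime.gcd_eq_one hcop] at this
  exact orderOf_eq_one_iff.1 (Nat.dvd_one.1 this)

lemma pow_mul_conj {n y t : G} (hc : n * t = t * n) (h : n * y * n⁻¹ = y * t) (k : ℕ) :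
    n ^ k * y * (n ^ k)⁻¹ = y * t ^ k := by
  have hc' : Commute n t := hc
  induction k with
  | zero => simp
  | succ k ih =>
    have h1 : n ^ (k + 1) * y * (n ^ (k + 1))⁻¹ = n * (n ^ k * y * (n ^ k)⁻¹) * n⁻¹ := by
      rw [pow_succ']; group
    rw [h1, ih]
    have h2 : n * (y * t ^ k) * n⁻¹ = (n * y * n⁻¹) * (n * t ^ k * n⁻¹) := by group
    rw [h2, h]
    have h3 : n * t ^ k * n⁻¹ = t ^ k := by
      rw [(hc'.pow_right k).eq]; group
    rw [h3, pow_succ']
    group

lemma comm_of_conj_eq_mul {Q : Subgroup G} (hQ : IsPGroup p Q) {n y t : G} (hn : ¬ p ∣ orderOf n)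
    (ht : t ∈ Q) (hc : n * t = t * n) (h : n * y * n⁻¹ = y * t) : n * y = y * n := by
  have h1 := pow_mul_conj hc h (orderOf n)
  rw [pow_orderOf_eq_one] at h1
  have h2 : t ^ orderOf n = 1 := by
    have : y * t ^ orderOf n = y := by rw [← h1]; simp
    simpa using this
  have h3 := eq_one_of_pow_eq_one_of_isPGroup hQ ht hn h2
  rw [h3, mul_one] at h
  calc n * y = n * y * n⁻¹ * n := by group
    _ = y * n := by rw [h]

lemma conj_mem_of_mem_normalizer {Q : Subgroup G} {n y : G} (hn : n ∈ Subgroup.normalizer (Q : Set G))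
    (hy : y ∈ Q) : n * y * n⁻¹ ∈ Q :=
  (Subgroup.mem_normalizer_iff.1 hn y).1 hy

variable [Finite G]

/-- The basic step: `n` of order prime to `p` normalizes `R ≤ Q`, with `Q` a `p`-group. If `n` centralizes
`N_Q(R)`, it centralizes `Q`. -/
theorem comm_of_comm_normalizer {Q R : Subgroup G} (hQ : IsPGroup p Q) (hRQ : R ≤ Q) {n : G}
    (hn : ¬ p ∣ orderOf n) (hnR : n ∈ Subgroup.normalizer (R : Set G))
    (hnQ : n ∈ Subgroup.normalizer (Q : Set G))
    (h : ∀ y ∈ Q, y ∈ Subgroup.normalizer (R : Set G) → n * y = y * n) :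
    ∀ y ∈ Q, n * y = y * n := by
  classical
  -- all subgroups `T` of `Q` containing `N_Q(R)` and centralized by `n`
  have key : ∀ T : Subgroup G, T ≤ Q → Q ⊓ Subgroup.normalizer (R : Set G) ≤ T →
      (∀ y ∈ T, n * y = y * n) → ∀ y ∈ Q, n * y = y * n := by
    intro T
    induction T using WellFoundedGT.induction with
    | ind T ih =>
      intro hTQ hT hTc
      by_cases hTe : T = Q
      · subst hTe; exact hTc
      -- the normalizer grows
      have hS : IsPGroup p Q := hQ
      have hnil : Group.IsNilpotent Q := hS.isNilpotent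
      have hcond : NormalizerCondition Q := Group.normalizerCondition_of_isNilpotent
      have hlt : T.subgroupOf Q < ⊤ := by
        refine lt_top_iff_ne_top.2 fun h => hTe ?_
        rw [Subgroup.subgroupOf_eq_top] at h
        exact le_antisymm hTQ h
      obtain ⟨-, x, hx, hxn⟩ := SetLike.lt_iff_le_and_exists.1 (hcond _ hlt)
      have hxT : (x : G) ∉ T := fun h => hxn (by simpa [Subgroup.mem_subgroupOf] using h)
      have hxN : (x : G) ∈ Subgroup.normalizer (T : Set G) := by
        rw [Subgroup.mem_normalizer_iff]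
        intro y
        constructor
        · intro hy
          have hyQ : y ∈ Q := hTQ hy
          have := (Subgroup.mem_normalizer_iff.1 hx ⟨y, hyQ⟩).1 (by simpa [Subgroup.mem_subgroupOf] using hy)
          simpa [Subgroup.mem_subgroupOf] using this
        · intro hy
          have hyQ : (x : G) * y * (x : G)⁻¹ ∈ Q := hTQ hy
          have hyQ' : y ∈ Q := by
            have h1 : (x : G)⁻¹ * ((x : G) * y * (x : G)⁻¹) * (x : G) = y := by group
            rw [← h1]
            exact Q.mul_mem (Q.mul_mem (Q.inv_mem x.2) hyQ) x.2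
          have := (Subgroup.mem_normalizer_iff.1 hx ⟨y, hyQ'⟩).2 (by simpa [Subgroup.mem_subgroupOf] using hy)
          simpa [Subgroup.mem_subgroupOf] using this
      set T' : Subgroup G := Q ⊓ Subgroup.normalizer (T : Set G) with hT'
      have hRT : R ≤ T := fun r hr => hT ⟨hRQ hr, Subgroup.le_normalizer hr⟩
      have hTT' : T < T' := by
        refine lt_of_le_of_ne (fun y hy => ⟨hTQ hy, Subgroup.le_normalizer hy⟩) fun h => hxT ?_
        · rw [h]
          exact ⟨x.2, hxN⟩
      refine ih T' hTT' inf_le_left (le_trans hT hTT'.le) ?_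
      -- `n` centralizes `T'`
      intro y hy
      obtain ⟨hyQ, hyN⟩ := hy
      set y' := n * y * n⁻¹ with hy'
      have hy'Q : y' ∈ Q := conj_mem_of_mem_normalizer hnQ hyQ
      set t := y⁻¹ * y' with ht
      have htQ : t ∈ Q := Q.mul_mem (Q.inv_mem hyQ) hy'Q
      -- `t` centralizes `R`
      have htR : ∀ r ∈ R, t * r = r * t := by
        intro r hr
        have hrT : r ∈ T := hRT hr
        have h1 : y * r * y⁻¹ ∈ T := conj_mem_of_mem_normalizer hyN hrT
        have h2 := hTc _ h1
        have h3 := hTc _ hrT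
        have h4 : n * (y * r * y⁻¹) * n⁻¹ = y * r * y⁻¹ := by
          rw [h2]; group
        have h5 : n * r * n⁻¹ = r := by
          rw [h3]; group
        have h6 : y' * r * y'⁻¹ = y * r * y⁻¹ := by
          calc y' * r * y'⁻¹ = y' * (n * r * n⁻¹) * y'⁻¹ := by rw [h5]
            _ = n * (y * r * y⁻¹) * n⁻¹ := by rw [hy']; group
            _ = y * r * y⁻¹ := h4
        have h7 : t * r * t⁻¹ = r := by
          calc t * r * t⁻¹ = y⁻¹ * (y' * r * y'⁻¹) * y := by rw [ht]; group
            _ = r := by rw [h6]; group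
        calc t * r = t * r * t⁻¹ * t := by group
          _ = r * t := by rw [h7]
      have htN : t ∈ Subgroup.normalizer (R : Set G) := by
        rw [Subgroup.mem_normalizer_iff]
        intro z
        constructor
        · intro hz
          have h1 : t * z * t⁻¹ = z := by
            rw [htR z hz]; group
          rw [h1]; exact hz
        · intro hz
          have h1 := htR (t * z * t⁻¹) hz
          have h3 : t⁻¹ * (t * z * t⁻¹) * t = z := by group
          have h4 : t⁻¹ * (t * z * t⁻¹) * t = t * z * t⁻¹ := by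
            rw [mul_assoc, ← h1]; group
          have h2 : z = t * z * t⁻¹ := h3.symm.trans h4
          rw [h2]; exact hz
      have htT : t ∈ T := hT ⟨htQ, htN⟩
      exact comm_of_conj_eq_mul hQ hn htQ (hTc t htT) (by simp [ht, hy'])
  exact key _ inf_le_left le_rfl (fun y hy => h y hy.1 hy.2)

/-- The chain version. -/
theorem comm_of_comm_chain {n : G} (hn : ¬ p ∣ orderOf n) (R : ℕ → Subgroup G) :
    ∀ (k : ℕ) (Q : Subgroup G), IsPGroup p Q → (∀ i j, i ≤ j → j ≤ k → R i ≤ R j) → R k ≤ Q →
      (∀ i ≤ k, n ∈ Subgroup.normalizer (R i : Set G)) → n ∈ Subgroup.normalizer (Q : Set G) →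
      (∀ y ∈ Q, (∀ i ≤ k, y ∈ Subgroup.normalizer (R i : Set G)) → n * y = y * n) →
      ∀ y ∈ Q, n * y = y * n := by
  intro k
  induction k with
  | zero =>
    intro Q hQ _ hRQ hnR hnQ h
    refine comm_of_comm_normalizer hQ hRQ hn (hnR 0 le_rfl) hnQ fun y hy hyN => h y hy ?_
    intro i hi
    obtain rfl : i = 0 := by omega
    exact hyN
  | succ k ih =>
    intro Q hQ hmono hRQ hnR hnQ h
    refine comm_of_comm_normalizer hQ hRQ hn (hnR _ le_rfl) hnQ ?_
    intro y hy hyN
    set Q' : Subgroup G := Q ⊓ Subgroup.normalizer (R (k + 1) : Set G) with hQ'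
    have hRself : R (k + 1) ≤ Subgroup.normalizer (R (k + 1) : Set G) := Subgroup.le_normalizer
    have hRkQ' : R k ≤ Q' := fun r hr =>
      have hr' : r ∈ R (k + 1) := hmono k (k + 1) (by omega) le_rfl hr
      ⟨hRQ hr', hRself hr'⟩
    have hnQ' : n ∈ Subgroup.normalizer (Q' : Set G) := by
      have hn1 := hnR (k + 1) le_rfl
      have hcon : ∀ z ∈ Subgroup.normalizer (R (k + 1) : Set G),
          n * z * n⁻¹ ∈ Subgroup.normalizer (R (k + 1) : Set G) := fun z hz =>
        (Subgroup.normalizer (R (k + 1) : Set G)).mul_mem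
          ((Subgroup.normalizer (R (k + 1) : Set G)).mul_mem hn1 hz)
          ((Subgroup.normalizer (R (k + 1) : Set G)).inv_mem hn1)
      rw [Subgroup.mem_normalizer_iff]
      intro z
      constructor
      · rintro ⟨hz1, hz2⟩
        exact ⟨conj_mem_of_mem_normalizer hnQ hz1, hcon z hz2⟩
      · rintro ⟨hz1, hz2⟩
        refine ⟨(Subgroup.mem_normalizer_iff.1 hnQ z).2 hz1, ?_⟩
        have h1 : n⁻¹ * (n * z * n⁻¹) * n = z := by group
        rw [← h1]
        exact (Subgroup.normalizer (R (k + 1) : Set G)).mul_mem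
          ((Subgroup.normalizer (R (k + 1) : Set G)).mul_mem
            ((Subgroup.normalizer (R (k + 1) : Set G)).inv_mem hn1) hz2) hn1
    refine ih Q' (hQ.to_le inf_le_left) (fun i j hij hj => hmono i j hij (by omega)) hRkQ'
      (fun i hi => hnR i (by omega)) hnQ' ?_ y ⟨hy, hyN⟩
    rintro z ⟨hz1, hz2⟩ hz3
    refine h z hz1 fun i hi => ?_
    by_cases hik : i ≤ k
    · exact hz3 i hik
    · obtain rfl : i = k + 1 := by omega
      exact hz2

end Cfsg.Agent.Lib.Blocks.ChainNorm
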