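/-
Euler characteristic computations for normal chains of `p`-subgroups: a sign reversing involution on the chains of a
poset with a cone point, and the resulting alternating sums over chains stable under a subgroup having a central
element of order `p`.
-/
import Mathlib

set_option autoImplicit false

namespace Cfsg.Agent.Lib.Blocks.ChainSum

section Cone

variable {L : Type*} [Lattice L] [OrderBot L]

/-- The chains of a lattice, as finite subsets. -/
def IsChainF (c : Finset L) : Prop := ∀ x ∈ c, ∀ y ∈ c, x ≤ y ∨ y ≤ x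

lemma exists_top_of_chain {c : Finset L} (hc : IsChainF c) (h : c.Nonempty) : ∃ m ∈ c, ∀ x ∈ c, x ≤ m := by
  obtain ⟨m, hm⟩ := c.exists_maximal h
  refine ⟨m, hm.1, fun x hx => ?_⟩
  rcases hc x hx m hm.1 with h1 | h1
  · exact h1
  · exact hm.2 hx h1

lemma sup_eq_of_top {c : Finset L} {m : L} (hm : m ∈ c) (hmax : ∀ x ∈ c, x ≤ m) : c.sup id = m :=
  le_antisymm (Finset.sup_le fun x hx => hmax x hx) (Finset.le_sup (f := id) hm)

open Classical in
/-- The toggled element: the join of `a` and of the elements of the chain not above `a`. -/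
noncomputable def yElt (a : L) (c : Finset L) : L := (c.filter (fun x => ¬ a ≤ x)).sup id ⊔ a

lemma le_yElt (a : L) (c : Finset L) : a ≤ yElt a c := le_sup_right

lemma le_yElt_of_mem {a : L} {c : Finset L} {x : L} (hx : x ∈ c) (hax : ¬ a ≤ x) : x ≤ yElt a c := by
  classical
  refine le_trans ?_ (le_sup_left : _ ≤ yElt a c)
  exact Finset.le_sup (f := id) (Finset.mem_filter.mpr ⟨hx, hax⟩)

lemma yElt_le_of_mem {a : L} {c : Finset L} (hc : IsChainF c) {x : L} (hx : x ∈ c) (hax : a ≤ x) : yElt a c ≤ x := by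
  classical
  refine sup_le (Finset.sup_le fun b hb => ?_) hax
  obtain ⟨hb1, hb2⟩ := Finset.mem_filter.mp hb
  rcases hc b hb1 x hx with h | h
  · exact h
  · exact absurd (le_trans hax h) hb2

lemma yElt_mem {a : L} {P c : Finset L} (ha : a ∈ P) (hP : ∀ x ∈ P, x ⊔ a ∈ P) (hcP : c ⊆ P) (hc : IsChainF c) :
    yElt a c ∈ P := by
  classical
  rcases (c.filter (fun x => ¬ a ≤ x)).eq_empty_or_nonempty with h | h
  · simp only [yElt, h, Finset.sup_empty, bot_sup_eq]
    exact ha
  · have hc' : IsChainF (c.filter (fun x => ¬ a ≤ x)) := fun x hx y hy =>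
      hc x (Finset.mem_of_mem_filter x hx) y (Finset.mem_of_mem_filter y hy)
    obtain ⟨m, hm, hmax⟩ := exists_top_of_chain hc' h
    rw [yElt, sup_eq_of_top hm hmax]
    exact hP m (hcP (Finset.mem_of_mem_filter m hm))

open Classical in
/-- The toggling of the chain at `yElt`. -/
noncomputable def togg (a : L) (c : Finset L) : Finset L :=
  if yElt a c ∈ c then c.erase (yElt a c) else insert (yElt a c) c

open Classical in
lemma filter_togg (a : L) (c : Finset L) :
    (togg a c).filter (fun x => ¬ a ≤ x) = c.filter (fun x => ¬ a ≤ x) := by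
  ext x
  simp only [togg, Finset.mem_filter]
  split_ifs with h
  · simp only [Finset.mem_erase]
    constructor
    · rintro ⟨⟨_, h2⟩, h3⟩
      exact ⟨h2, h3⟩
    · rintro ⟨h2, h3⟩
      refine ⟨⟨?_, h2⟩, h3⟩
      rintro rfl
      exact h3 (le_yElt a c)
  · simp only [Finset.mem_insert]
    constructor
    · rintro ⟨h2 | h2, h3⟩
      · subst h2
        exact absurd (le_yElt a c) h3
      · exact ⟨h2, h3⟩
    · rintro ⟨h2, h3⟩
      exact ⟨Or.inr h2, h3⟩

lemma yElt_togg (a : L) (c : Finset L) : yElt a (togg a c) = yElt a c := by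
  classical
  unfold yElt
  rw [filter_togg]

lemma togg_togg (a : L) (c : Finset L) : togg a (togg a c) = c := by
  classical
  rw [togg, yElt_togg]
  by_cases h : yElt a c ∈ c
  · have h1 : togg a c = c.erase (yElt a c) := if_pos h
    rw [h1, if_neg (Finset.notMem_erase _ _), Finset.insert_erase h]
  · have h1 : togg a c = insert (yElt a c) c := if_neg h
    rw [h1, if_pos (Finset.mem_insert_self _ _), Finset.erase_insert h]

lemma isChainF_togg {a : L} {c : Finset L} (hc : IsChainF c) : IsChainF (togg a c) := by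
  classical
  by_cases h : yElt a c ∈ c
  · have h1 : togg a c = c.erase (yElt a c) := if_pos h
    rw [h1]
    exact fun x hx y hy => hc x (Finset.mem_of_mem_erase hx) y (Finset.mem_of_mem_erase hy)
  · have h1 : togg a c = insert (yElt a c) c := if_neg h
    rw [h1]
    have key : ∀ x ∈ c, x ≤ yElt a c ∨ yElt a c ≤ x := fun x hx => by
      by_cases hax : a ≤ x
      · exact Or.inr (yElt_le_of_mem hc hx hax)
      · exact Or.inl (le_yElt_of_mem hx hax)
    intro x hx y hy
    rcases Finset.mem_insert.mp hx with rfl | hx <;> rcases Finset.mem_insert.mp hy with rfl | hy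
    · exact Or.inl le_rfl
    · exact (key y hy).symm
    · exact key x hx
    · exact hc x hx y hy

lemma togg_subset {a : L} {P c : Finset L} (ha : a ∈ P) (hP : ∀ x ∈ P, x ⊔ a ∈ P) (hcP : c ⊆ P) (hc : IsChainF c) :
    togg a c ⊆ P := by
  classical
  by_cases h : yElt a c ∈ c
  · have h1 : togg a c = c.erase (yElt a c) := if_pos h
    rw [h1]
    exact (Finset.erase_subset _ _).trans hcP
  · have h1 : togg a c = insert (yElt a c) c := if_neg h
    rw [h1]
    exact Finset.insert_subset (yElt_mem ha hP hcP hc) hcP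

lemma sign_togg (a : L) (c : Finset L) : (-1 : ℤ) ^ c.card + (-1 : ℤ) ^ (togg a c).card = 0 := by
  classical
  by_cases h : yElt a c ∈ c
  · have h1 : togg a c = c.erase (yElt a c) := if_pos h
    have h2 : c.card = (c.erase (yElt a c)).card + 1 := (Finset.card_erase_add_one h).symm
    rw [h1, h2, pow_succ]
    ring
  · have h1 : togg a c = insert (yElt a c) c := if_neg h
    rw [h1, Finset.card_insert_of_notMem h, pow_succ]
    ring

lemma togg_ne (a : L) (c : Finset L) : togg a c ≠ c := by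
  intro h
  have := sign_togg a c
  rw [h] at this
  rcases neg_one_pow_eq_or ℤ c.card with h1 | h1 <;> rw [h1] at this <;> omega

open Classical in
/-- **Cone lemma**: the alternating sum over all chains (including the empty one) of a finite poset closed under
`x ↦ x ⊔ a`, where `a` belongs to the poset, vanishes. -/
theorem sum_chains_eq_zero (P : Finset L) (a : L) (ha : a ∈ P) (hP : ∀ x ∈ P, x ⊔ a ∈ P) :
    ∑ c ∈ P.powerset.filter IsChainF, (-1 : ℤ) ^ c.card = 0 := by
  refine Finset.sum_involution (fun c _ => togg a c) (fun c _ => sign_togg a c) (fun c _ _ => togg_ne a c) ?_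
    (fun c _ => togg_togg a c)
  intro c hc
  obtain ⟨h1, h2⟩ := Finset.mem_filter.mp hc
  rw [Finset.mem_powerset] at h1
  exact Finset.mem_filter.mpr ⟨Finset.mem_powerset.mpr (togg_subset ha hP h1 h2), isChainF_togg h2⟩

end Cone

section Group

variable {G : Type*} [Group G] [Finite G] {p : ℕ}

lemma mem_norm {Q : Subgroup G} {g : G} :
    g ∈ Subgroup.normalizer (Q : Set G) ↔ ∀ h, h ∈ Q ↔ g * h * g⁻¹ ∈ Q := by
  rw [Subgroup.mem_normalizer_iff]

lemma conj_mem_of_norm {Q : Subgroup G} {g : G} (hg : g ∈ Subgroup.normalizer (Q : Set G)) {h : G} (hh : h ∈ Q) :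
    g * h * g⁻¹ ∈ Q := (mem_norm.mp hg h).mp hh

lemma norm_sup {A B : Subgroup G} {g : G} (hA : g ∈ Subgroup.normalizer (A : Set G))
    (hB : g ∈ Subgroup.normalizer (B : Set G)) : g ∈ Subgroup.normalizer ((A ⊔ B : Subgroup G) : Set G) := by
  have key : ∀ g : G, g ∈ Subgroup.normalizer (A : Set G) → g ∈ Subgroup.normalizer (B : Set G) →
      ∀ h ∈ A ⊔ B, g * h * g⁻¹ ∈ A ⊔ B := by
    intro g hA hB h hh
    have h1 : (A ⊔ B).map (MulAut.conj g).toMonoidHom ≤ A ⊔ B := by
      rw [Subgroup.map_sup]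
      refine sup_le_sup ?_ ?_
      · rintro _ ⟨x, hx, rfl⟩
        exact conj_mem_of_norm hA hx
      · rintro _ ⟨x, hx, rfl⟩
        exact conj_mem_of_norm hB hx
    exact h1 ⟨h, hh, rfl⟩
  rw [mem_norm]
  intro h
  refine ⟨key g hA hB h, fun hh => ?_⟩
  have := key g⁻¹ (Subgroup.inv_mem _ hA) (Subgroup.inv_mem _ hB) _ hh
  simpa [mul_assoc] using this

lemma norm_inf {A B : Subgroup G} {g : G} (hA : g ∈ Subgroup.normalizer (A : Set G))
    (hB : g ∈ Subgroup.normalizer (B : Set G)) : g ∈ Subgroup.normalizer ((A ⊓ B : Subgroup G) : Set G) := by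
  rw [mem_norm]
  intro h
  rw [Subgroup.mem_inf, Subgroup.mem_inf, ← mem_norm.mp hA h, ← mem_norm.mp hB h]

/-- A subgroup inside `T`, normalized by `K` and by `T`. -/
def Stab (K T Q : Subgroup G) : Prop :=
  Q ≤ T ∧ K ≤ Subgroup.normalizer (Q : Set G) ∧ T ≤ Subgroup.normalizer (Q : Set G)

lemma stab_bot (K T : Subgroup G) : Stab K T ⊥ := by
  have key : ∀ g : G, g ∈ Subgroup.normalizer ((⊥ : Subgroup G) : Set G) := fun g => by
    rw [mem_norm]
    intro h
    simp only [Subgroup.mem_bot]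
    constructor
    · rintro rfl
      simp
    · intro h1
      have h2 : g * h = g := by
        have := congrArg (· * g) h1
        simpa using this
      simpa using h2
  exact ⟨bot_le, fun g _ => key g, fun g _ => key g⟩

lemma stab_self {K T : Subgroup G} (hK : K ≤ Subgroup.normalizer (T : Set G)) : Stab K T T :=
  ⟨le_rfl, hK, Subgroup.le_normalizer⟩

lemma Stab.sup {K T A B : Subgroup G} (hA : Stab K T A) (hB : Stab K T B) : Stab K T (A ⊔ B) :=
  ⟨sup_le hA.1 hB.1, fun _ hg => norm_sup (hA.2.1 hg) (hB.2.1 hg), fun _ hg => norm_sup (hA.2.2 hg) (hB.2.2 hg)⟩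

lemma Stab.inf {K T A B : Subgroup G} (hA : Stab K T A) (hB : Stab K T B) : Stab K T (A ⊓ B) :=
  ⟨inf_le_left.trans hA.1, fun _ hg => norm_inf (hA.2.1 hg) (hB.2.1 hg), fun _ hg => norm_inf (hA.2.2 hg) (hB.2.2 hg)⟩

/-- The maximal proper stable subgroups. -/
def IsMaxS (K T M : Subgroup G) : Prop :=
  Stab K T M ∧ M ≠ T ∧ ∀ M', Stab K T M' → M ≤ M' → M' = M ∨ M' = T

lemma exists_isMaxS_le {K T Q : Subgroup G} (hQ : Stab K T Q) (hne : Q ≠ T) : ∃ M, IsMaxS K T M ∧ Q ≤ M := by
  obtain ⟨m, hle, hm⟩ := Finite.exists_le_maximal (α := Subgroup G) (p := fun X => Stab K T X ∧ X ≠ T) ⟨hQ, hne⟩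
  refine ⟨m, ⟨hm.1.1, hm.1.2, fun M' hM' hle' => ?_⟩, hle⟩
  by_cases h : M' = T
  · exact Or.inr h
  · exact Or.inl (le_antisymm (hm.2 ⟨hM', h⟩ hle') hle')

/-- The radical: the intersection of the maximal proper stable subgroups. -/
noncomputable def rad (K T : Subgroup G) : Subgroup G := ⨅ (M : Subgroup G) (_ : IsMaxS K T M), M

lemma rad_le {K T M : Subgroup G} (hM : IsMaxS K T M) : rad K T ≤ M := iInf₂_le M hM

lemma stab_rad {K T : Subgroup G} (hT : T ≠ ⊥) : Stab K T (rad K T) := by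
  have hex : ∃ M, IsMaxS K T M := by
    obtain ⟨M, hM, -⟩ := exists_isMaxS_le (stab_bot K T) hT.symm
    exact ⟨M, hM⟩
  obtain ⟨M₀, hM₀⟩ := hex
  have hnorm : ∀ g : G, (∀ M, IsMaxS K T M → g ∈ Subgroup.normalizer (M : Set G)) →
      g ∈ Subgroup.normalizer ((rad K T : Subgroup G) : Set G) := by
    intro g hg
    rw [mem_norm]
    intro h
    simp only [rad, Subgroup.mem_iInf]
    constructor
    · intro h1 M hM
      exact (mem_norm.mp (hg M hM) h).mp (h1 M hM)
    · intro h1 M hM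
      exact (mem_norm.mp (hg M hM) h).mpr (h1 M hM)
  exact ⟨(rad_le hM₀).trans hM₀.1.1, fun g hg => hnorm g fun M hM => hM.1.2.1 hg,
    fun g hg => hnorm g fun M hM => hM.1.2.2 hg⟩

lemma lt_of_isMaxS {K T M : Subgroup G} (hM : IsMaxS K T M) : M < T := lt_of_le_of_ne hM.1.1 hM.2.1

lemma sup_rad_ne {K T Q : Subgroup G} (hQ : Stab K T Q) (hne : Q ≠ T) : Q ⊔ rad K T ≠ T := by
  obtain ⟨M, hM, hQM⟩ := exists_isMaxS_le hQ hne
  intro h
  have : T ≤ M := by
    rw [← h]
    exact sup_le hQM (rad_le hM)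
  exact (lt_of_isMaxS hM).not_ge this

/-- All stable subgroups are complemented by stable ones. -/
def Compl (K T : Subgroup G) : Prop :=
  ∀ Q, Stab K T Q → ∃ R, Stab K T R ∧ Q ⊓ R = ⊥ ∧ Q ⊔ R = T

lemma exists_mul_of_mem_sup {A B T : Subgroup G} (hA : A ≤ T) (hT : T ≤ Subgroup.normalizer (B : Set G)) {x : G}
    (hx : x ∈ A ⊔ B) : ∃ a ∈ A, ∃ b ∈ B, x = a * b := by
  have h1 := Subgroup.coe_mul_of_left_le_normalizer_right A B (hA.trans hT)
  have h2 : x ∈ ((A ⊔ B : Subgroup G) : Set G) := hx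
  rw [h1, Set.mem_mul] at h2
  obtain ⟨a, ha, b, hb, rfl⟩ := h2
  exact ⟨a, ha, b, hb, rfl⟩

theorem compl_of_rad {K T : Subgroup G} (hK : K ≤ Subgroup.normalizer (T : Set G)) (hr : rad K T = ⊥) : Compl K T := by
  intro Q hQ
  obtain ⟨R, hle, hR⟩ := Finite.exists_le_minimal (α := Subgroup G) (p := fun R => Stab K T R ∧ Q ⊔ R = T)
    (a := T) ⟨stab_self hK, sup_eq_right.mpr hQ.1⟩
  refine ⟨R, hR.1.1, ?_, hR.1.2⟩
  by_contra hW
  have hWs : Stab K T (Q ⊓ R) := hQ.inf hR.1.1
  have hex : ∃ M, IsMaxS K T M ∧ ¬ Q ⊓ R ≤ M := by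
    by_contra hno
    push Not at hno
    apply hW
    rw [eq_bot_iff, ← hr]
    exact le_iInf₂ fun M hM => hno M hM
  obtain ⟨M, hM, hWM⟩ := hex
  have hsup : M ⊔ (Q ⊓ R) = T := by
    rcases hM.2.2 _ (hM.1.sup hWs) le_sup_left with h | h
    · exact absurd (sup_eq_left.mp h) hWM
    · exact h
  have hR' : Stab K T (R ⊓ M) := hR.1.1.inf hM.1
  have hQR' : Q ⊔ (R ⊓ M) = T := by
    apply le_antisymm (sup_le hQ.1 (inf_le_left.trans hR.1.1.1))
    rw [← hR.1.2]
    refine sup_le le_sup_left ?_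
    intro r hr'
    have hrT : r ∈ M ⊔ (Q ⊓ R) := by
      rw [hsup]
      exact hR.1.1.1 hr'
    obtain ⟨m, hm, w, hw, rfl⟩ := exists_mul_of_mem_sup hM.1.1 hWs.2.2 hrT
    have hmR : m ∈ R := by
      have := R.mul_mem hr' (R.inv_mem hw.2)
      simpa using this
    exact Subgroup.mul_mem _ ((le_sup_right : _ ≤ Q ⊔ (R ⊓ M)) ⟨hmR, hm⟩)
      ((le_sup_left : _ ≤ Q ⊔ (R ⊓ M)) hw.1)
  have hRM : R ≤ M := by
    have := hR.2 (y := R ⊓ M) ⟨hR', hQR'⟩ inf_le_left
    exact this.trans inf_le_right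
  exact hWM (inf_le_right.trans hRM)

variable [hp : Fact p.Prime]

/-- A `p`-group acting on a nontrivial `p`-group has a nontrivial fixed point. -/
lemma exists_fixed {A R : Subgroup G} (hA : IsPGroup p A) (hR : IsPGroup p R)
    (hAR : A ≤ Subgroup.normalizer (R : Set G)) (hne : R ≠ ⊥) : ∃ r ∈ R, r ≠ 1 ∧ ∀ a ∈ A, a * r * a⁻¹ = r := by
  classical
  letI act : MulAction A R :=
    { smul := fun a r => ⟨(a : G) * r * (a : G)⁻¹, conj_mem_of_norm (hAR a.2) r.2⟩
      one_smul := fun r => by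
        apply Subtype.ext
        change ((1 : A) : G) * r * ((1 : A) : G)⁻¹ = r
        simp
      mul_smul := fun a b r => by
        apply Subtype.ext
        change ((a * b : A) : G) * r * ((a * b : A) : G)⁻¹ = (a : G) * ((b : G) * r * (b : G)⁻¹) * (a : G)⁻¹
        simp [mul_assoc] }
  have hdvd : p ∣ Nat.card R := by
    haveI : Nontrivial R := (Subgroup.nontrivial_iff_ne_bot R).mpr hne
    obtain ⟨n, hn0, hn⟩ := hR.nontrivial_iff_card.mp inferInstance
    rw [hn]
    exact dvd_pow_self _ hn0.ne'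
  have h1 : (1 : R) ∈ MulAction.fixedPoints A R := by
    intro a
    apply Subtype.ext
    change (a : G) * ((1 : R) : G) * (a : G)⁻¹ = ((1 : R) : G)
    simp
  obtain ⟨r, hr, hne'⟩ := hA.exists_fixed_point_of_prime_dvd_card_of_fixed_point R hdvd h1
  refine ⟨r, r.2, fun h => hne' (Subtype.ext h.symm), fun a ha => ?_⟩
  have := hr ⟨a, ha⟩
  exact congrArg Subtype.val this

lemma commute_of_compl {K T : Subgroup G} (hK : K ≤ Subgroup.normalizer (T : Set G)) (hT : IsPGroup p T)
    (hc : Compl K T) : ∀ x ∈ T, ∀ y ∈ T, x * y = y * x := by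
  classical
  -- the center of `T`
  let Z : Subgroup G := T ⊓ Subgroup.centralizer (T : Set G)
  have hmemZ : ∀ x, x ∈ Z ↔ x ∈ T ∧ ∀ y ∈ T, y * x = x * y := fun x => by
    simp only [Z, Subgroup.mem_inf, Subgroup.mem_centralizer_iff, SetLike.mem_coe]
  have hZ : Stab K T Z := by
    have hnorm : ∀ g ∈ Subgroup.normalizer (T : Set G), g ∈ Subgroup.normalizer (Z : Set G) := by
      intro g hg
      have hconj : ∀ g ∈ Subgroup.normalizer (T : Set G), ∀ x ∈ Z, g * x * g⁻¹ ∈ Z := by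
        intro g hg x hx
        obtain ⟨hx1, hx2⟩ := (hmemZ x).mp hx
        refine (hmemZ _).mpr ⟨conj_mem_of_norm hg hx1, fun y hy => ?_⟩
        have hy' : g⁻¹ * y * g⁻¹⁻¹ ∈ T := conj_mem_of_norm (Subgroup.inv_mem _ hg) hy
        have h3 := hx2 _ hy'
        simp only [inv_inv] at h3
        calc y * (g * x * g⁻¹) = g * ((g⁻¹ * y * g) * x) * g⁻¹ := by group
          _ = g * (x * (g⁻¹ * y * g)) * g⁻¹ := by rw [h3]
          _ = g * x * g⁻¹ * y := by group
      rw [mem_norm]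
      intro h
      refine ⟨hconj g hg h, fun h1 => ?_⟩
      have := hconj g⁻¹ (Subgroup.inv_mem _ hg) _ h1
      simpa [mul_assoc] using this
    refine ⟨inf_le_left, fun g hg => hnorm g (hK hg), fun g hg => hnorm g (Subgroup.le_normalizer hg)⟩
  obtain ⟨R, hR, hinf, hsup⟩ := hc Z hZ
  have hRbot : R = ⊥ := by
    by_contra hne
    obtain ⟨r, hr, hr1, hfix⟩ := exists_fixed hT (hT.to_le hR.1) hR.2.2 hne
    have hrZ : r ∈ Z := (hmemZ r).mpr ⟨hR.1 hr, fun y hy => by
      exact mul_inv_eq_iff_eq_mul.mp (hfix y hy)⟩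
    have : r ∈ Z ⊓ R := ⟨hrZ, hr⟩
    rw [hinf] at this
    exact hr1 (Subgroup.mem_bot.mp this)
  rw [hRbot, sup_bot_eq] at hsup
  intro x hx y hy
  rw [← hsup] at hx hy
  exact ((hmemZ y).mp hy).2 x ((hmemZ x).mp hx).1


/-- In an abelian `T`, every subgroup normalized by `K` is stable. -/
lemma stab_of_commute {K T Q : Subgroup G} (hab : ∀ x ∈ T, ∀ y ∈ T, x * y = y * x) (hQT : Q ≤ T)
    (hQK : K ≤ Subgroup.normalizer (Q : Set G)) : Stab K T Q := by
  refine ⟨hQT, hQK, fun g hg => ?_⟩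
  rw [mem_norm]
  intro h
  constructor
  · intro hh
    have : g * h * g⁻¹ = h := by
      rw [hab g hg h (hQT hh)]
      group
    rwa [this]
  · intro hh
    have h1 : h = g⁻¹ * (g * h * g⁻¹) * g := by group
    rw [h1]
    have hh' : g * h * g⁻¹ ∈ T := hQT hh
    have : g⁻¹ * (g * h * g⁻¹) * g = g * h * g⁻¹ := by
      rw [mul_assoc, hab _ hh' g hg]
      group
    rwa [this]

/-- The complement property passes to stable subgroups of an abelian group. -/
lemma compl_sub {K T Q : Subgroup G} (hab : ∀ x ∈ T, ∀ y ∈ T, x * y = y * x) (hc : Compl K T) (hQT : Q ≤ T)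
    (hQK : K ≤ Subgroup.normalizer (Q : Set G)) : Compl K Q := by
  intro Q' hQ'
  have hab' : ∀ x ∈ Q, ∀ y ∈ Q, x * y = y * x := fun x hx y hy => hab x (hQT hx) y (hQT hy)
  obtain ⟨R, hR, hinf, hsup⟩ := hc Q' (stab_of_commute hab (hQ'.1.trans hQT) hQ'.2.1)
  refine ⟨R ⊓ Q, stab_of_commute hab' inf_le_right (fun g hg => norm_inf (hR.2.1 hg) (hQK hg)), ?_, ?_⟩
  · rw [eq_bot_iff, ← hinf]
    exact inf_le_inf_left _ inf_le_left
  · apply le_antisymm (sup_le hQ'.1 inf_le_right)
    intro x hx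
    have hxT : x ∈ Q' ⊔ R := by
      rw [hsup]
      exact hQT hx
    obtain ⟨a, ha, b, hb, rfl⟩ := exists_mul_of_mem_sup (hQ'.1.trans hQT) hR.2.2 hxT
    have hbQ : b ∈ Q := by
      have := Q.mul_mem (Q.inv_mem (hQ'.1 ha)) hx
      simpa using this
    exact Subgroup.mul_mem _ ((le_sup_left : _ ≤ Q' ⊔ R ⊓ Q) ha) ((le_sup_right : _ ≤ Q' ⊔ R ⊓ Q) ⟨hb, hbQ⟩)

/-- A central element of `K` of `p`-power order centralizes `T` when `T` has the complement property. -/
lemma commute_z_of_compl {K T : Subgroup G} {z : G} (hzK : z ∈ K) (hz : ∀ k ∈ K, k * z = z * k)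
    (hzp : IsPGroup p (Subgroup.zpowers z)) (hK : K ≤ Subgroup.normalizer (T : Set G)) (hT : IsPGroup p T)
    (hc : Compl K T) : ∀ x ∈ T, z * x = x * z := by
  classical
  have hab := commute_of_compl hK hT hc
  let C : Subgroup G := T ⊓ Subgroup.centralizer ({z} : Set G)
  have hmemC : ∀ x, x ∈ C ↔ x ∈ T ∧ z * x = x * z := fun x => by
    simp only [C, Subgroup.mem_inf, Subgroup.mem_centralizer_singleton_iff]
    constructor
    · rintro ⟨h1, h2⟩
      exact ⟨h1, h2.symm⟩
    · rintro ⟨h1, h2⟩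
      exact ⟨h1, h2.symm⟩
  have hCs : Stab K T C := by
    refine stab_of_commute hab inf_le_left ?_
    intro g hg
    have hconj : ∀ g ∈ K, ∀ x ∈ C, g * x * g⁻¹ ∈ C := by
      intro g hg x hx
      obtain ⟨h1, h2⟩ := (hmemC x).mp hx
      refine (hmemC _).mpr ⟨conj_mem_of_norm (hK hg) h1, ?_⟩
      have h3 : g⁻¹ * z = z * g⁻¹ := by
        have := hz g⁻¹ (K.inv_mem hg)
        exact this
      calc z * (g * x * g⁻¹) = (z * g) * x * g⁻¹ := by group
        _ = g * z * x * g⁻¹ := by rw [hz g hg]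
        _ = g * (z * x) * g⁻¹ := by group
        _ = g * (x * z) * g⁻¹ := by rw [h2]
        _ = g * x * (z * g⁻¹) := by group
        _ = g * x * (g⁻¹ * z) := by rw [h3]
        _ = g * x * g⁻¹ * z := by group
    rw [mem_norm]
    intro h
    refine ⟨hconj g hg h, fun h1 => ?_⟩
    have := hconj g⁻¹ (K.inv_mem hg) _ h1
    simpa [mul_assoc] using this
  obtain ⟨R, hR, hinf, hsup⟩ := hc C hCs
  have hRbot : R = ⊥ := by
    by_contra hne
    have hzR : Subgroup.zpowers z ≤ Subgroup.normalizer (R : Set G) := by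
      rw [Subgroup.zpowers_le]
      exact hR.2.1 hzK
    obtain ⟨r, hr, hr1, hfix⟩ := exists_fixed hzp (hT.to_le hR.1) hzR hne
    have hrC : r ∈ C := (hmemC r).mpr ⟨hR.1 hr, mul_inv_eq_iff_eq_mul.mp (hfix z (Subgroup.mem_zpowers z))⟩
    have : r ∈ C ⊓ R := ⟨hrC, hr⟩
    rw [hinf] at this
    exact hr1 (Subgroup.mem_bot.mp this)
  rw [hRbot, sup_bot_eq] at hsup
  intro x hx
  rw [← hsup] at hx
  exact ((hmemC x).mp hx).2

/-- A power of `z` of prime order lying in `Q` and nontrivial forces `z ∈ Q`. -/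
lemma mem_of_zpow_mem {Q : Subgroup G} {z : G} (hzp : orderOf z = p) {i : ℤ} (hi : z ^ i ∈ Q) (hne : z ^ i ≠ 1) :
    z ∈ Q := by
  have hpi : IsCoprime (p : ℤ) i := by
    rw [(Nat.prime_iff_prime_int.mp hp.out).coprime_iff_not_dvd]
    intro hd
    apply hne
    rw [← hzp] at hd
    exact orderOf_dvd_iff_zpow_eq_one.mp hd
  obtain ⟨a, b, hab⟩ := hpi
  have h1 : z = (z ^ i) ^ b := by
    have h2 : z ^ (a * (p : ℤ) + b * i) = z := by rw [hab, zpow_one]
    rw [zpow_add, zpow_mul', zpow_natCast, ← hzp, pow_orderOf_eq_one, one_zpow, one_mul, mul_comm, zpow_mul] at h2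
    exact h2.symm
  rw [h1]
  exact Q.zpow_mem hi b

lemma norm_zpowers {K : Subgroup G} {z : G} (hz : ∀ k ∈ K, k * z = z * k) :
    K ≤ Subgroup.normalizer ((Subgroup.zpowers z : Subgroup G) : Set G) := by
  have hcomm : ∀ k ∈ K, ∀ n : ℤ, k * z ^ n * k⁻¹ = z ^ n := by
    intro k hk n
    have h1 : Commute k z := hz k hk
    rw [(h1.zpow_right n).eq]
    group
  intro k hk
  rw [mem_norm]
  intro h
  constructor
  · rintro ⟨n, rfl⟩
    exact ⟨n, by simp only [hcomm k hk n]⟩
  · rintro ⟨n, hn⟩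
    refine ⟨n, ?_⟩
    have h2 : k * h * k⁻¹ = k * z ^ n * k⁻¹ := by
      rw [hcomm k hk n]
      exact hn.symm
    simp only [mul_left_inj, mul_right_inj] at h2
    exact h2.symm

/-- Adjoining `z` preserves the complement property. -/
lemma compl_sup_zpowers {K T : Subgroup G} {z : G} (hzK : z ∈ K) (hz : ∀ k ∈ K, k * z = z * k)
    (hzp : orderOf z = p) (hK : K ≤ Subgroup.normalizer (T : Set G)) (hT : IsPGroup p T) (hc : Compl K T) :
    Compl K (T ⊔ Subgroup.zpowers z) := by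
  classical
  have hzP : IsPGroup p (Subgroup.zpowers z) := by
    rw [IsPGroup.iff_card, Nat.card_zpowers, hzp]
    exact ⟨1, (pow_one p).symm⟩
  have habT := commute_of_compl hK hT hc
  have hzT := commute_z_of_compl hzK hz hzP hK hT hc
  have hN : K ≤ Subgroup.normalizer ((Subgroup.zpowers z : Subgroup G) : Set G) := norm_zpowers hz
  have hcz : Subgroup.centralizer ({z} : Set G) ≥ T ⊔ Subgroup.zpowers z := by
    refine sup_le ?_ ?_
    · intro x hx
      rw [Subgroup.mem_centralizer_singleton_iff]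
      exact (hzT x hx).symm
    · rintro _ ⟨n, rfl⟩
      rw [Subgroup.mem_centralizer_singleton_iff]
      exact ((Commute.refl z).zpow_left n).eq
  -- abelian
  have hTle : T ≤ Subgroup.centralizer (T : Set G) := by
    intro x hx
    rw [Subgroup.mem_centralizer_iff]
    exact fun y hy => habT y hy x hx
  have hab : ∀ x ∈ T ⊔ Subgroup.zpowers z, ∀ y ∈ T ⊔ Subgroup.zpowers z, x * y = y * x := by
    intro x hx y hy
    have hTN : T ≤ Subgroup.normalizer ((Subgroup.zpowers z : Subgroup G) : Set G) := by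
      intro t ht
      exact norm_zpowers (K := Subgroup.zpowers t) (z := z) (by
        rintro _ ⟨n, rfl⟩
        exact ((Commute.symm (hzT t ht)).zpow_left n).eq) (Subgroup.mem_zpowers t)
    obtain ⟨a, ha, _, ⟨m, rfl⟩, rfl⟩ := exists_mul_of_mem_sup (T := T) le_rfl hTN hx
    obtain ⟨b, hb, _, ⟨n, rfl⟩, rfl⟩ := exists_mul_of_mem_sup (T := T) le_rfl hTN hy
    have h1 : Commute a b := habT a ha b hb
    have h2 : Commute (z ^ m) b := (Commute.zpow_left (hzT b hb) m)
    have h3 : Commute a (z ^ n) := (Commute.zpow_left (hzT a ha) n).symm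
    have h4 : Commute (z ^ m) (z ^ n) := ((Commute.refl z).zpow_left m).zpow_right n
    exact (Commute.mul_left (Commute.mul_right h1 h3) (Commute.mul_right h2 h4)).eq
  have hcase : ∀ Q, Stab K (T ⊔ Subgroup.zpowers z) Q → z ∈ Q →
      ∃ R, Stab K (T ⊔ Subgroup.zpowers z) R ∧ Q ⊓ R = ⊥ ∧ Q ⊔ R = T ⊔ Subgroup.zpowers z := by
    intro Q hQ hzQ
    have hQ0 : Stab K T (Q ⊓ T) := stab_of_commute habT inf_le_right (fun g hg => norm_inf (hQ.2.1 hg) (hK hg))
    obtain ⟨R, hR, hinf, hsup⟩ := hc _ hQ0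
    refine ⟨R, stab_of_commute hab (hR.1.trans le_sup_left) hR.2.1, ?_, ?_⟩
    · rw [eq_bot_iff, ← hinf]
      exact le_inf (le_inf inf_le_left (inf_le_right.trans hR.1)) inf_le_right
    · apply le_antisymm (sup_le hQ.1 (hR.1.trans le_sup_left))
      refine sup_le ?_ ?_
      · rw [← hsup]
        exact sup_le_sup inf_le_left le_rfl
      · rw [Subgroup.zpowers_le]
        exact (le_sup_left : Q ≤ Q ⊔ R) hzQ
  intro Q hQ
  by_cases hzQ : z ∈ Q
  · exact hcase Q hQ hzQ
  · have hzs : Stab K (T ⊔ Subgroup.zpowers z) (Subgroup.zpowers z) := stab_of_commute hab le_sup_right hN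
    have hQz : Stab K (T ⊔ Subgroup.zpowers z) (Q ⊔ Subgroup.zpowers z) := hQ.sup hzs
    obtain ⟨R, hR, hinf, hsup⟩ := hcase _ hQz ((le_sup_right : _ ≤ Q ⊔ Subgroup.zpowers z) (Subgroup.mem_zpowers z))
    refine ⟨R ⊔ Subgroup.zpowers z, hR.sup hzs, ?_, ?_⟩
    · rw [eq_bot_iff]
      rintro x ⟨hxQ, hxR⟩
      obtain ⟨r, hr, _, ⟨i, rfl⟩, rfl⟩ := exists_mul_of_mem_sup (T := T ⊔ Subgroup.zpowers z) hR.1 hzs.2.2 hxR
      have hr1 : r ∈ (Q ⊔ Subgroup.zpowers z) ⊓ R := by
        refine ⟨?_, hr⟩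
        have h5 : r = (r * (fun x => z ^ x) i) * ((fun x => z ^ x) i)⁻¹ := by simp
        rw [h5]
        exact Subgroup.mul_mem _ ((le_sup_left : Q ≤ Q ⊔ Subgroup.zpowers z) hxQ)
          ((le_sup_right : _ ≤ Q ⊔ Subgroup.zpowers z) (Subgroup.inv_mem _ ⟨i, rfl⟩))
      rw [hinf] at hr1
      have hr2 : r = 1 := Subgroup.mem_bot.mp hr1
      subst hr2
      simp only [one_mul] at hxQ ⊢
      rw [Subgroup.mem_bot]
      by_contra hne
      exact hzQ (mem_of_zpow_mem hzp hxQ hne)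
    · rw [← hsup]
      ac_rfl

/-- The semisimple stable `p`-subgroups. -/
def IsS (p : ℕ) (K T : Subgroup G) : Prop :=
  T ≠ ⊥ ∧ IsPGroup p T ∧ K ≤ Subgroup.normalizer (T : Set G) ∧ Compl K T

/-- The normal chains of nontrivial `p`-subgroups stable under `K`. -/
def IsNChain (p : ℕ) (K : Subgroup G) (s : Finset (Subgroup G)) : Prop :=
  s.Nonempty ∧ (∀ Q ∈ s, ∀ R ∈ s, Q ≤ R ∨ R ≤ Q) ∧ (∀ Q ∈ s, Q ≠ ⊥ ∧ IsPGroup p Q) ∧
    (∃ T ∈ s, ∀ Q ∈ s, Q ≤ T ∧ T ≤ Subgroup.normalizer ((Q : Subgroup G) : Set G)) ∧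
    ∀ Q ∈ s, K ≤ Subgroup.normalizer ((Q : Subgroup G) : Set G)

lemma IsNChain.sup_mem {K : Subgroup G} {s : Finset (Subgroup G)} (hs : IsNChain p K s) :
    s.sup id ∈ s ∧ ∀ Q ∈ s, Q ≤ s.sup id ∧ s.sup id ≤ Subgroup.normalizer ((Q : Subgroup G) : Set G) := by
  obtain ⟨T, hT, hmax⟩ := hs.2.2.2.1
  rw [sup_eq_of_top hT fun Q hQ => (hmax Q hQ).1]
  exact ⟨hT, hmax⟩

variable [Fintype (Subgroup G)]

open Classical in
/-- The fibre over a non semisimple top has vanishing alternating sum. -/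
lemma sum_fiber_eq_zero {K T : Subgroup G} (hT : ¬ IsS p K T) :
    ∑ s ∈ Finset.univ.filter (fun s : Finset (Subgroup G) => IsNChain p K s ∧ s.sup id = T),
      (-1 : ℤ) ^ (s.card - 1) = 0 := by
  by_cases hP : T ≠ ⊥ ∧ IsPGroup p T ∧ K ≤ Subgroup.normalizer (T : Set G)
  · obtain ⟨hT1, hT2, hT3⟩ := hP
    have hrad : rad K T ≠ ⊥ := fun h => hT ⟨hT1, hT2, hT3, compl_of_rad hT3 h⟩
    set A : Finset (Subgroup G) := Finset.univ.filter (fun Q => Q ≠ ⊥ ∧ Stab K T Q ∧ Q ≠ T) with hA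
    have hmemA : ∀ Q, Q ∈ A ↔ Q ≠ ⊥ ∧ Stab K T Q ∧ Q ≠ T := fun Q => by simp [hA]
    have hcone := sum_chains_eq_zero A (rad K T)
      ((hmemA _).mpr ⟨hrad, stab_rad hT1, by
        obtain ⟨M, hM, -⟩ := exists_isMaxS_le (stab_bot K T) hT1.symm
        exact fun h => (lt_of_isMaxS hM).not_ge (h ▸ rad_le hM)⟩)
      (fun x hx => by
        obtain ⟨h1, h2, h3⟩ := (hmemA x).mp hx
        refine (hmemA _).mpr ⟨?_, h2.sup (stab_rad hT1), sup_rad_ne h2 h3⟩
        intro h
        exact h1 (le_bot_iff.mp (h ▸ le_sup_left)))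
    rw [← hcone]
    symm
    refine Finset.sum_nbij' (fun c => insert T c) (fun s => s.erase T) ?_ ?_ ?_ ?_ ?_
    · intro c hc
      obtain ⟨h1, h2⟩ := Finset.mem_filter.mp hc
      rw [Finset.mem_powerset] at h1
      have hcA : ∀ Q ∈ c, Q ≠ ⊥ ∧ Stab K T Q ∧ Q ≠ T := fun Q hQ => (hmemA Q).mp (h1 hQ)
      refine Finset.mem_filter.mpr ⟨Finset.mem_univ _, ⟨Finset.insert_nonempty _ _, ?_, ?_, ⟨T, Finset.mem_insert_self _ _, ?_⟩, ?_⟩, ?_⟩
      · intro Q hQ R hR
        rcases Finset.mem_insert.mp hQ with h5 | h5 <;> rcases Finset.mem_insert.mp hR with h6 | h6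
        · exact Or.inl (h5.trans h6.symm).le
        · exact Or.inr (h5 ▸ (hcA R h6).2.1.1)
        · exact Or.inl (h6 ▸ (hcA Q h5).2.1.1)
        · exact h2 Q h5 R h6
      · intro Q hQ
        rcases Finset.mem_insert.mp hQ with rfl | hQ
        · exact ⟨hT1, hT2⟩
        · exact ⟨(hcA Q hQ).1, hT2.to_le (hcA Q hQ).2.1.1⟩
      · intro Q hQ
        rcases Finset.mem_insert.mp hQ with rfl | hQ
        · exact ⟨le_rfl, Subgroup.le_normalizer⟩
        · exact ⟨(hcA Q hQ).2.1.1, (hcA Q hQ).2.1.2.2⟩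
      · intro Q hQ
        rcases Finset.mem_insert.mp hQ with rfl | hQ
        · exact hT3
        · exact (hcA Q hQ).2.1.2.1
      · apply sup_eq_of_top (Finset.mem_insert_self _ _)
        intro Q hQ
        rcases Finset.mem_insert.mp hQ with rfl | hQ
        · exact le_rfl
        · exact (hcA Q hQ).2.1.1
    · intro s hs
      obtain ⟨-, hs1, hs2⟩ := Finset.mem_filter.mp hs
      obtain ⟨hT', hmax⟩ := hs1.sup_mem
      rw [hs2] at hT' hmax
      refine Finset.mem_filter.mpr ⟨Finset.mem_powerset.mpr fun Q hQ => ?_, fun Q hQ R hR => ?_⟩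
      · obtain ⟨h1, h2⟩ := Finset.mem_erase.mp hQ
        refine (hmemA Q).mpr ⟨(hs1.2.2.1 Q h2).1, ⟨(hmax Q h2).1, hs1.2.2.2.2 Q h2, (hmax Q h2).2⟩, h1⟩
      · exact hs1.2.1 Q (Finset.mem_of_mem_erase hQ) R (Finset.mem_of_mem_erase hR)
    · intro c hc
      obtain ⟨h1, -⟩ := Finset.mem_filter.mp hc
      rw [Finset.mem_powerset] at h1
      exact Finset.erase_insert fun h => ((hmemA T).mp (h1 h)).2.2 rfl
    · intro s hs
      obtain ⟨-, hs1, hs2⟩ := Finset.mem_filter.mp hs
      obtain ⟨hT', -⟩ := hs1.sup_mem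
      rw [hs2] at hT'
      exact Finset.insert_erase hT'
    · intro c hc
      obtain ⟨h1, -⟩ := Finset.mem_filter.mp hc
      rw [Finset.mem_powerset] at h1
      have hnot : T ∉ c := fun h => ((hmemA T).mp (h1 h)).2.2 rfl
      rw [Finset.card_insert_of_notMem hnot, Nat.add_sub_cancel]
  · rw [Finset.filter_false_of_mem, Finset.sum_empty]
    rintro s - ⟨hs1, hs2⟩
    obtain ⟨hT', -⟩ := hs1.sup_mem
    rw [hs2] at hT'
    exact hP ⟨(hs1.2.2.1 T hT').1, (hs1.2.2.1 T hT').2, hs1.2.2.2.2 T hT'⟩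

lemma isS_zpowers {K : Subgroup G} {z : G} (hz : ∀ k ∈ K, k * z = z * k) (hzp : orderOf z = p) :
    IsS p K (Subgroup.zpowers z) := by
  have hz1 : z ≠ 1 := by
    rintro rfl
    rw [orderOf_one] at hzp
    exact hp.out.one_lt.ne hzp
  refine ⟨?_, ?_, norm_zpowers hz, ?_⟩
  · rw [Ne, Subgroup.zpowers_eq_bot]
    exact hz1
  · rw [IsPGroup.iff_card, Nat.card_zpowers, hzp]
    exact ⟨1, (pow_one p).symm⟩
  · intro Q hQ
    by_cases hQb : Q = ⊥
    · subst hQb
      exact ⟨Subgroup.zpowers z, ⟨le_rfl, norm_zpowers hz, Subgroup.le_normalizer⟩, bot_inf_eq _, bot_sup_eq _⟩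
    · have hzQ : z ∈ Q := by
        obtain ⟨x, hx, hx1⟩ := Q.bot_or_exists_ne_one.resolve_left hQb
        obtain ⟨i, rfl⟩ := hQ.1 hx
        exact mem_of_zpow_mem hzp hx hx1
      have hQe : Q = Subgroup.zpowers z := le_antisymm hQ.1 (by rwa [Subgroup.zpowers_le])
      exact ⟨⊥, stab_bot _ _, inf_bot_eq _, by rw [sup_bot_eq, hQe]⟩

open Classical in
/-- **The alternating sum** over the normal chains of nontrivial `p`-subgroups stable under a subgroup with a central
element of order `p` is one. -/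
theorem sum_nchain_eq_one (K : Subgroup G) {z : G} (hzK : z ∈ K) (hz : ∀ k ∈ K, k * z = z * k) (hzp : orderOf z = p) :
    ∑ s ∈ Finset.univ.filter (IsNChain p K), (-1 : ℤ) ^ (s.card - 1) = 1 := by
  have hzP : IsPGroup p (Subgroup.zpowers z) := (isS_zpowers hz hzp).2.1
  set S : Finset (Subgroup G) := Finset.univ.filter (IsS p K) with hS
  have hmemS : ∀ T, T ∈ S ↔ IsS p K T := fun T => by simp [hS]
  have hSsup : ∀ x ∈ S, x ⊔ Subgroup.zpowers z ∈ S := by
    intro T hT
    obtain ⟨h1, h2, h3, h4⟩ := (hmemS T).mp hT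
    refine (hmemS _).mpr ⟨fun h => h1 (le_bot_iff.mp (h ▸ le_sup_left)), ?_, fun g hg => norm_sup (h3 hg) (norm_zpowers hz hg),
      compl_sup_zpowers hzK hz hzp h3 h2 h4⟩
    refine h2.to_sup_of_normal_right' hzP ?_
    intro t ht
    have h5 := commute_z_of_compl hzK hz hzP h3 h2 h4 t ht
    exact norm_zpowers (K := Subgroup.zpowers t) (z := z) (by
      rintro _ ⟨n, rfl⟩
      exact ((Commute.symm h5).zpow_left n).eq) (Subgroup.mem_zpowers t)
  have hcone := sum_chains_eq_zero S (Subgroup.zpowers z) ((hmemS _).mpr (isS_zpowers hz hzp)) hSsup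
  -- the semisimple part
  have h1 : ∑ s ∈ (Finset.univ.filter (IsNChain p K)).filter (fun s => IsS p K (s.sup id)), (-1 : ℤ) ^ (s.card - 1) = 1 := by
    have hset : (Finset.univ.filter (IsNChain p K)).filter (fun s => IsS p K (s.sup id)) =
        (S.powerset.filter IsChainF).filter (fun s => s.Nonempty) := by
      ext s
      simp only [Finset.mem_filter, Finset.mem_univ, true_and, Finset.mem_powerset]
      constructor
      · rintro ⟨hs, hst⟩
        obtain ⟨h2, hmax⟩ := hs.sup_mem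
        obtain ⟨a1, a2, a3, a4⟩ := hst
        have hab := commute_of_compl a3 a2 a4
        refine ⟨⟨fun Q hQ => (hmemS Q).mpr ⟨(hs.2.2.1 Q hQ).1, (hs.2.2.1 Q hQ).2, hs.2.2.2.2 Q hQ, ?_⟩, hs.2.1⟩, hs.1⟩
        exact compl_sub hab a4 (hmax Q hQ).1 (hs.2.2.2.2 Q hQ)
      · rintro ⟨⟨hsS, hch⟩, hne⟩
        obtain ⟨m, hm, hmax⟩ := exists_top_of_chain hch hne
        have hmS := (hmemS m).mp (hsS hm)
        have hab := commute_of_compl hmS.2.2.1 hmS.2.1 hmS.2.2.2
        refine ⟨⟨hne, hch, fun Q hQ => ⟨((hmemS Q).mp (hsS hQ)).1, ((hmemS Q).mp (hsS hQ)).2.1⟩,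
          ⟨m, hm, fun Q hQ => ⟨hmax Q hQ, ?_⟩⟩, fun Q hQ => ((hmemS Q).mp (hsS hQ)).2.2.1⟩, ?_⟩
        · exact (stab_of_commute hab (hmax Q hQ) ((hmemS Q).mp (hsS hQ)).2.2.1).2.2
        · rw [sup_eq_of_top hm hmax]
          exact hmS
    rw [hset]
    rw [← Finset.sum_filter_add_sum_filter_not (S.powerset.filter IsChainF) (fun s => s.Nonempty)] at hcone
    have hempty : (S.powerset.filter IsChainF).filter (fun s => ¬ s.Nonempty) = {∅} := by
      ext s
      simp only [Finset.mem_filter, Finset.mem_powerset, Finset.mem_singleton, Finset.not_nonempty_iff_eq_empty]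
      constructor
      · rintro ⟨-, h⟩
        exact h
      · rintro rfl
        exact ⟨⟨Finset.empty_subset _, fun x hx => absurd hx (Finset.notMem_empty x)⟩, rfl⟩
    rw [hempty, Finset.sum_singleton, Finset.card_empty, pow_zero] at hcone
    have hflip : ∑ s ∈ (S.powerset.filter IsChainF).filter (fun s => s.Nonempty), (-1 : ℤ) ^ s.card =
        - ∑ s ∈ (S.powerset.filter IsChainF).filter (fun s => s.Nonempty), (-1 : ℤ) ^ (s.card - 1) := by
      rw [← Finset.sum_neg_distrib]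
      refine Finset.sum_congr rfl fun s hs => ?_
      have hne : s.Nonempty := (Finset.mem_filter.mp hs).2
      have hc : s.card = (s.card - 1) + 1 := (Nat.sub_add_cancel (Finset.card_pos.mpr hne)).symm
      conv_lhs => rw [hc, pow_succ]
      ring
    rw [hflip] at hcone
    linarith
  -- the rest
  have h2 : ∑ s ∈ (Finset.univ.filter (IsNChain p K)).filter (fun s => ¬ IsS p K (s.sup id)), (-1 : ℤ) ^ (s.card - 1) = 0 := by
    rw [← Finset.sum_fiberwise _ (fun s : Finset (Subgroup G) => s.sup id)]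
    refine Finset.sum_eq_zero fun T _ => ?_
    by_cases hT : IsS p K T
    · rw [Finset.filter_false_of_mem, Finset.sum_empty]
      intro s hs hs2
      exact (Finset.mem_filter.mp hs).2 (hs2 ▸ hT)
    · rw [← sum_fiber_eq_zero (p := p) (K := K) hT]
      congr 1
      ext s
      simp only [Finset.mem_filter, Finset.mem_univ, true_and]
      constructor
      · rintro ⟨⟨h3, -⟩, h4⟩
        exact ⟨h3, h4⟩
      · rintro ⟨h3, h4⟩
        exact ⟨⟨h3, h4 ▸ hT⟩, h4⟩
  rw [← Finset.sum_filter_add_sum_filter_not _ (fun s => IsS p K (s.sup id)), h1, h2, add_zero]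

/-- The stabilizer of a chain. -/
def chainNorm (s : Finset (Subgroup G)) : Subgroup G := ⨅ Q ∈ s, Subgroup.normalizer ((Q : Subgroup G) : Set G)

lemma le_chainNorm_iff {K : Subgroup G} {s : Finset (Subgroup G)} :
    K ≤ chainNorm s ↔ ∀ Q ∈ s, K ≤ Subgroup.normalizer ((Q : Subgroup G) : Set G) := by
  simp only [chainNorm, le_iInf_iff]

lemma isNChain_iff {K : Subgroup G} {s : Finset (Subgroup G)} :
    IsNChain p K s ↔ IsNChain p ⊥ s ∧ K ≤ chainNorm s := by
  rw [le_chainNorm_iff]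
  constructor
  · intro h
    exact ⟨⟨h.1, h.2.1, h.2.2.1, h.2.2.2.1, fun Q _ => bot_le⟩, h.2.2.2.2⟩
  · rintro ⟨h, h1⟩
    exact ⟨h.1, h.2.1, h.2.2.1, h.2.2.2.1, h1⟩

open Classical in
/-- The weighted form of the alternating sum. -/
theorem sum_nchain_weighted (f : Subgroup G → ℤ) {u : G} {k : ℕ} (hk : orderOf u = p ^ k) (hu : u ≠ 1) :
    ∑ s ∈ Finset.univ.filter (fun s => IsNChain p ⊥ s ∧ u ∈ chainNorm s),
      (-1 : ℤ) ^ (s.card - 1) * f (chainNorm s ⊓ Subgroup.centralizer ({u} : Set G)) =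
    f (Subgroup.centralizer ({u} : Set G)) := by
  set C := Subgroup.centralizer ({u} : Set G) with hC
  set F := Finset.univ.filter (fun s : Finset (Subgroup G) => IsNChain p ⊥ s ∧ u ∈ chainNorm s) with hF
  have hk0 : k ≠ 0 := by
    rintro rfl
    rw [pow_zero, orderOf_eq_one_iff] at hk
    exact hu hk
  have hord : orderOf u ≠ 0 := by
    rw [hk]
    exact pow_ne_zero _ hp.out.ne_zero
  have hdvd : p ∣ orderOf u := by
    rw [hk]
    exact dvd_pow_self _ hk0
  set z := u ^ (orderOf u / p) with hzdef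
  have hzp : orderOf z = p := orderOf_pow_orderOf_div hord hdvd
  -- the key identity
  have key : ∀ H ≤ C, ∑ s ∈ F.filter (fun s => H ≤ chainNorm s), (-1 : ℤ) ^ (s.card - 1) = 1 := by
    intro H hH
    have hcomm : H ⊔ Subgroup.zpowers u ≤ Subgroup.centralizer ({z} : Set G) := by
      refine sup_le ?_ ?_
      · intro x hx
        have h1 := hH hx
        rw [hC, Subgroup.mem_centralizer_singleton_iff] at h1
        rw [Subgroup.mem_centralizer_singleton_iff]
        exact (Commute.pow_right (show Commute x u from h1) _).eq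
      · rintro _ ⟨n, rfl⟩
        rw [Subgroup.mem_centralizer_singleton_iff]
        exact (((Commute.refl u).zpow_left n).pow_right _).eq
    have h1 := sum_nchain_eq_one (p := p) (H ⊔ Subgroup.zpowers u) (z := z)
      ((le_sup_right : _ ≤ H ⊔ Subgroup.zpowers u) (Subgroup.npow_mem_zpowers u _))
      (fun k hk => by
        have := hcomm hk
        rwa [Subgroup.mem_centralizer_singleton_iff] at this) hzp
    refine Eq.trans (Finset.sum_congr ?_ fun _ _ => rfl) h1
    ext s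
    simp only [hF, Finset.mem_filter, Finset.mem_univ, true_and]
    rw [isNChain_iff (K := H ⊔ Subgroup.zpowers u), sup_le_iff, Subgroup.zpowers_le]
    tauto
  -- the fibres
  let a : Subgroup G → ℤ := fun H => ∑ s ∈ F.filter (fun s => chainNorm s ⊓ C = H), (-1 : ℤ) ^ (s.card - 1)
  have hsum : ∀ H ≤ C, ∑ H' ∈ Finset.univ.filter (fun H' => H ≤ H' ∧ H' ≤ C), a H' = 1 := by
    intro H hH
    rw [← key H hH, ← Finset.sum_fiberwise (F.filter (fun s => H ≤ chainNorm s)) (fun s => chainNorm s ⊓ C)]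
    rw [← Finset.sum_filter_add_sum_filter_not Finset.univ (fun H' => H ≤ H' ∧ H' ≤ C)
      (fun H' => ∑ s ∈ (F.filter (fun s => H ≤ chainNorm s)).filter (fun s => chainNorm s ⊓ C = H'), (-1 : ℤ) ^ (s.card - 1))]
    have h2 : ∑ H' ∈ Finset.univ.filter (fun H' => ¬ (H ≤ H' ∧ H' ≤ C)),
        ∑ s ∈ (F.filter (fun s => H ≤ chainNorm s)).filter (fun s => chainNorm s ⊓ C = H'), (-1 : ℤ) ^ (s.card - 1) = 0 := by
      refine Finset.sum_eq_zero fun H' hH' => ?_
      rw [Finset.filter_false_of_mem, Finset.sum_empty]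
      intro s hs hs2
      obtain ⟨-, h4⟩ := Finset.mem_filter.mp hs
      exact (Finset.mem_filter.mp hH').2 ⟨hs2 ▸ le_inf h4 hH, hs2 ▸ inf_le_right⟩
    rw [h2, add_zero]
    refine Finset.sum_congr rfl fun H' hH' => ?_
    obtain ⟨h3, h4⟩ := (Finset.mem_filter.mp hH').2
    refine Finset.sum_congr ?_ fun _ _ => rfl
    ext s
    simp only [Finset.mem_filter]
    constructor
    · rintro ⟨h5, h6⟩
      exact ⟨⟨h5, le_trans h3 (h6 ▸ inf_le_left)⟩, h6⟩
    · rintro ⟨⟨h5, -⟩, h6⟩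
      exact ⟨h5, h6⟩
  have haval : ∀ H, H ≤ C → a H = if H = C then 1 else 0 := by
    intro H
    induction H using WellFoundedGT.induction with
    | ind H ih =>
      intro hH
      have h3 := hsum H hH
      rw [← Finset.add_sum_erase _ _ (Finset.mem_filter.mpr ⟨Finset.mem_univ H, le_rfl, hH⟩)] at h3
      by_cases hHC : H = C
      · have h4 : (Finset.univ.filter (fun H' => H ≤ H' ∧ H' ≤ C)).erase H = ∅ := by
          ext H'
          simp only [Finset.mem_erase, Finset.mem_filter, Finset.mem_univ, true_and, Finset.notMem_empty, iff_false]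
          rintro ⟨h5, h6, h7⟩
          exact h5 (le_antisymm (h7.trans hHC.ge) h6)
        rw [h4, Finset.sum_empty, add_zero] at h3
        rw [if_pos hHC, h3]
      · have h4 : ∑ H' ∈ (Finset.univ.filter (fun H' => H ≤ H' ∧ H' ≤ C)).erase H, a H' = 1 := by
          have h5 : ∀ H' ∈ (Finset.univ.filter (fun H' => H ≤ H' ∧ H' ≤ C)).erase H, a H' = if H' = C then 1 else 0 := by
            intro H' hH'
            obtain ⟨h6, h7⟩ := Finset.mem_erase.mp hH'
            obtain ⟨h8, h9⟩ := (Finset.mem_filter.mp h7).2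
            exact ih H' (lt_of_le_of_ne h8 (Ne.symm h6)) h9
          rw [Finset.sum_congr rfl h5, Finset.sum_ite_eq']
          rw [if_pos]
          exact Finset.mem_erase.mpr ⟨Ne.symm hHC, Finset.mem_filter.mpr ⟨Finset.mem_univ C, hH, le_rfl⟩⟩
        rw [if_neg hHC]
        linarith
  have haval' : ∀ H, a H = if H = C then 1 else 0 := by
    intro H
    by_cases hH : H ≤ C
    · exact haval H hH
    · rw [if_neg (fun h => hH h.le)]
      have h1 : F.filter (fun s => chainNorm s ⊓ C = H) = ∅ :=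
        Finset.filter_false_of_mem fun s _ hs => hH (hs ▸ inf_le_right)
      simp only [a, h1, Finset.sum_empty]
  rw [← Finset.sum_fiberwise F (fun s => chainNorm s ⊓ C)]
  have h1 : ∀ H : Subgroup G, ∑ s ∈ F.filter (fun s => chainNorm s ⊓ C = H),
      (-1 : ℤ) ^ (s.card - 1) * f (chainNorm s ⊓ C) = a H * f H := by
    intro H
    simp only [a]
    rw [Finset.sum_mul]
    refine Finset.sum_congr rfl fun s hs => ?_
    rw [(Finset.mem_filter.mp hs).2]
  simp only [h1, haval', ite_mul, one_mul, zero_mul]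
  rw [Finset.sum_ite_eq']
  simp

end Group

end Cfsg.Agent.Lib.Blocks.ChainSum
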