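import Mathlib
import Cfsg.Agent.S4633
import Cfsg.Agent.Lib.Blocks.Pairs21

set_option autoImplicit false
set_option linter.style.haveILetI false

namespace Cfsg.Agent.Lib.Blocks.CyclicLocal

open Cfsg Cfsg.Agent.Lib.Blocks.Pairs

/-- The statement S4645 without the rank. -/
theorem local_facts {G : Type*} [Group G] [Finite G] (p : ℕ) [Fact p.Prime] (M : Ideal Cfsg.AlgInt) (hM : Cfsg.IsPModular p M) (B : Set (Cfsg.IrrCharacter G)) (hB : Cfsg.IsPBlock M B) (P : Subgroup G) (hPD : Cfsg.IsDefectGroup p M B P) (hP1 : P ≠ ⊥) (hcyc : IsCyclic P) (c : Set (Cfsg.IrrCharacter (Subgroup.centralizer (P : Set G)))) (hc : Cfsg.IsInducedBlock M (Subgroup.centralizer (P : Set G)) c B) (T : Subgroup G) (hT : ∀ g : G, g ∈ T ↔ (g ∈ Subgroup.normalizer (P : Set G) ∧ Cfsg.StabilizesBlock (Subgroup.centralizer (P : Set G)) c g)) (Q : Subgroup G) (hQP : Q ≤ P) (hQ1 : Q ≠ ⊥) (f : Set (Cfsg.IrrCharacter (Subgroup.centralizer (Q : Set G)))) (hf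 : Cfsg.IsInducedBlockIn M (Subgroup.centralizer (Q : Set G)) (Subgroup.centralizer (P : Set G)) c f) (T' : Subgroup G) (hT' : ∀ g : G, g ∈ T' ↔ (g ∈ Subgroup.normalizer (Q : Set G) ∧ Cfsg.StabilizesBlock (Subgroup.centralizer (Q : Set G)) f g)) : T' = T ⊔ Subgroup.centralizer (Q : Set G) ∧ (Subgroup.centralizer (Q : Set G)).relIndex T' = (Subgroup.centralizer (P : Set G)).relIndex T ∧ Cfsg.IsNilpotentBlock p M f := by
  classical
  cases nonempty_fintype G
  haveI : M.IsPrime := hM.2.1.isPrime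
  have hPp : IsPGroup p P := by
    obtain ⟨g, -, S, rfl⟩ := hPD
    exact Cfsg.Agent.Lib.Blocks.Defect.isPGroup_sylow_map S
  obtain ⟨u₀, hu₀⟩ := IsCyclic.exists_generator (α := P)
  have hab : ∀ x ∈ P, ∀ y ∈ P, x * y = y * x := by
    intro x hx y hy
    obtain ⟨i, hi⟩ := Subgroup.mem_zpowers_iff.mp (hu₀ ⟨x, hx⟩)
    obtain ⟨j, hj⟩ := Subgroup.mem_zpowers_iff.mp (hu₀ ⟨y, hy⟩)
    have hi' : ((u₀ : G)) ^ i = x := congrArg Subtype.val hi
    have hj' : ((u₀ : G)) ^ j = y := congrArg Subtype.val hj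
    rw [← hi', ← hj', ← zpow_add, ← zpow_add, add_comm]
  have hPc := isBrauerPairOf_of_induced hPp hc
  have hmax := isMaximal_of_isDefectGroup hM hPc hPD
  have hPe := hmax.1.1
  have hPK : P ≤ Subgroup.centralizer (Q : Set G) := fun u hu =>
    Subgroup.mem_centralizer_iff.mpr fun q hq => hab q (hQP hq) u hu
  have hn := isNormalSubpair_of_inducedIn hQP hPK hPp hf
  have hle : SubpairLE p M Q f P c := Relation.ReflTransGen.single hn
  obtain ⟨h1, h2, h3, h4, h5⟩ := stabilizer_facts hT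
  haveI hnT : ((Subgroup.centralizer (P : Set G)).subgroupOf T).Normal :=
    (Subgroup.normal_subgroupOf_iff_le_normalizer h2).mpr h4
  have hfree := (Cfsg.Agent.S4633.result p M hM B hB P hPD hP1 hcyc c hc T hT).2.2
  -- elements of `T` normalize `Q`
  have hpowmap : ∀ t : G, t ∈ Subgroup.normalizer (P : Set G) → ∃ k : ℤ, ∀ x ∈ P, t * x * t⁻¹ = x ^ k := by
    intro t ht
    have h6 : t * (u₀ : G) * t⁻¹ ∈ P := (Subgroup.mem_normalizer_iff.mp ht _).mp u₀.2
    obtain ⟨k, hk⟩ := Subgroup.mem_zpowers_iff.mp (hu₀ ⟨_, h6⟩)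
    refine ⟨k, ?_⟩
    intro x hx
    obtain ⟨j, hj⟩ := Subgroup.mem_zpowers_iff.mp (hu₀ ⟨x, hx⟩)
    have hj' : ((u₀ : G)) ^ j = x := congrArg Subtype.val hj
    have hk' : ((u₀ : G)) ^ k = t * (u₀ : G) * t⁻¹ := congrArg Subtype.val hk
    rw [← hj', ← conj_zpow, ← hk', ← zpow_mul, ← zpow_mul, mul_comm]
  have hTN : ∀ t ∈ T, t ∈ Subgroup.normalizer (Q : Set G) := by
    intro t ht
    have hone : ∀ s ∈ T, ∀ x ∈ Q, s * x * s⁻¹ ∈ Q := by
      intro s hs x hx
      obtain ⟨k, hk⟩ := hpowmap s ((hT s).mp hs).1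
      rw [hk x (hQP hx)]
      exact Q.zpow_mem hx k
    rw [Subgroup.mem_normalizer_iff]
    intro x
    refine ⟨hone t ht x, fun h => ?_⟩
    have := hone t⁻¹ (T.inv_mem ht) _ h
    simpa [mul_assoc] using this
  have hTT' : T ≤ T' := fun y hy => by
    obtain ⟨hy3, hy4⟩ := (hT y).mp hy
    exact (hT' y).mpr ⟨hTN y hy, stabilizesBlock_of_subpair hM hPe hle (hTN y hy) hy3 hy4⟩
  obtain ⟨h1', h2', h3', h4', h5'⟩ := stabilizer_facts hT'
  obtain ⟨hfac, hindex⟩ := abelian_factorization hM hmax hab hQP hf.2.1 hle hT' hT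
  have heq : T' = T ⊔ Subgroup.centralizer (Q : Set G) := by
    apply le_antisymm
    · intro x hx
      obtain ⟨y, hy, k, hk, rfl⟩ := hfac x hx
      exact Subgroup.mul_mem_sup hy hk
    · exact sup_le hTT' h2'
  refine ⟨heq, ?_, (free_iff_local_nilpotent hM hPD hab hPp hc hT).mp hfree Q hQP hQ1 f hf⟩
  have h6 : T ⊓ Subgroup.normalizer (Q : Set G) = T := inf_eq_left.mpr hTN
  have h7 : T ⊓ Subgroup.centralizer (Q : Set G) = Subgroup.centralizer (P : Set G) := by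
    apply le_antisymm
    · rintro g ⟨hg1, hg2⟩
      obtain ⟨x, hx, hx1⟩ := (Subgroup.ne_bot_iff_exists_ne_one.mp hQ1 |>.imp fun x h => h) |> fun ⟨x, h⟩ => (⟨x.1, x.2, fun h0 => h (Subtype.ext h0)⟩ : ∃ x ∈ Q, x ≠ 1)
      have := Subgroup.mem_centralizer_iff.mp hg2 x hx
      exact hfree g hg1 x (hQP hx) hx1 (by rw [← this]; group)
    · intro g hg
      refine ⟨h2 hg, ?_⟩
      exact Subgroup.mem_centralizer_iff.mpr fun x hx => Subgroup.mem_centralizer_iff.mp hg x (hQP hx)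
  change (Subgroup.centralizer (Q : Set G)).relIndex T' = _
  have h8 : (Subgroup.centralizer (Q : Set G)).relIndex T' =
      (T ⊓ Subgroup.centralizer (Q : Set G)).relIndex (T ⊓ Subgroup.normalizer (Q : Set G)) := hindex
  rw [h8, h6, h7]

end Cfsg.Agent.Lib.Blocks.CyclicLocal
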