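import Mathlib
import Cfsg.Agent.Lib.Blocks.Knorr3
import Cfsg.Agent.Lib.Blocks.Induced
import Cfsg.Agent.Lib.Blocks.Covering2

set_option autoImplicit false
set_option linter.style.haveILetI false
set_option linter.unusedSectionVars false

/-!
# Fong's theorem on covering blocks of maximal defect
-/

namespace Cfsg.Agent.Lib.Blocks.FongCover

open Cfsg Cfsg.Agent.Lib.Blocks.Local Cfsg.Agent.Lib.Blocks.Central Cfsg.Agent.Lib.Blocks.Osima
  Cfsg.Agent.Lib.Blocks.Covering Cfsg.Agent.Lib.Blocks.Covering2 Cfsg.Agent.Lib.Blocks.Defect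
  Cfsg.Agent.Lib.Blocks.Induced Cfsg.Agent.Lib.Blocks.HeightZero Cfsg.Agent.Lib.Blocks.Knorr

universe u

variable {G : Type u} [Group G] [Fintype G] {N : Subgroup G} [hN : N.Normal] [Fintype N]
  {M : Ideal AlgInt} {p : ℕ} [hp : Fact p.Prime]

open Classical in
/-- The number of classes of `N` in the class of `n` in `G`. -/
noncomputable def rr (n : N) : ℕ :=
  (Finset.univ.filter fun C : ConjClasses N => IsConj (n : G) ((C.out : N) : G)).card

lemma exists_conjNormal {n m : N} (h : IsConj (n : G) (m : G)) : ∃ g : G, MulAut.conjNormal g n = m := by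
  obtain ⟨c, hc⟩ := isConj_iff.mp h
  refine ⟨c, Subtype.ext ?_⟩
  simpa [MulAut.conjNormal_apply] using hc

open Classical in
/-- The expansion of the trace class sum over the classes of `N`. -/
lemma omega_traceClassSum {χ : N → ℂ} (hχ : IsClassFunction N χ) (n : N) :
    omega χ (traceClassSum N (n : G)) =
      ∑ C ∈ (Finset.univ.filter fun C : ConjClasses N => IsConj (n : G) ((C.out : N) : G)),
        centralChar χ C.out := by
  classical
  rw [omega_eq_sum_centralChar hχ (isClassFunction_traceClassSum N _), Finset.sum_filter]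
  refine Finset.sum_congr rfl fun C _ => ?_
  simp only [traceClassSum, coeff_ofFun]
  split_ifs <;> simp

/-- The index formula. -/
theorem index_eq_rr_mul (n : N) :
    (Subgroup.centralizer ({(n : G)} : Set G)).index = rr n * (Subgroup.centralizer ({n} : Set N)).index := by
  classical
  have h1 := omega_traceClassSum (N := N) (χ := fun _ => (1 : ℂ)) (fun _ _ => rfl) n
  have h2 : ∀ C ∈ (Finset.univ.filter fun C : ConjClasses N => IsConj (n : G) ((C.out : N) : G)),
      centralChar (fun _ : N => (1 : ℂ)) C.out = ((Subgroup.centralizer ({n} : Set N)).index : ℂ) := by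
    intro C hC
    obtain ⟨g, hg⟩ := exists_conjNormal (Finset.mem_filter.1 hC).2
    simp only [centralChar]
    rw [← hg, index_centralizer_conjNormal]
    simp
  rw [Finset.sum_congr rfl h2, Finset.sum_const, nsmul_eq_mul] at h1
  have h3 : omega (fun _ : N => (1 : ℂ)) (traceClassSum N (n : G)) =
      (((Finset.univ.filter fun m : N => IsConj (n : G) (m : G))).card : ℂ) := by
    rw [omega, traceClassSum]
    simp only [coeff_ofFun, mul_one, div_one]
    rw [Finset.card_filter]
    push_cast
    refine Finset.sum_congr rfl fun m _ => ?_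
    split_ifs <;> simp
  have h4 : (Finset.univ.filter fun m : N => IsConj (n : G) (m : G)).card =
      (Subgroup.centralizer ({(n : G)} : Set G)).index := by
    rw [← Cfsg.Agent.Lib.Char.Integrality.card_classFinset]
    refine Finset.card_bij (fun m _ => (m : G)) ?_ ?_ ?_
    · intro m hm
      rw [Cfsg.Agent.Lib.Char.Integrality.mem_classFinset]
      exact (Finset.mem_filter.1 hm).2
    · intro a _ b _ h
      exact Subtype.ext h
    · intro y hy
      rw [Cfsg.Agent.Lib.Char.Integrality.mem_classFinset] at hy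
      obtain ⟨c, rfl⟩ := isConj_iff.mp hy
      refine ⟨⟨c * n * c⁻¹, hN.conj_mem _ n.2 c⟩, ?_, rfl⟩
      rw [Finset.mem_filter]
      exact ⟨Finset.mem_univ _, hy⟩
  rw [h3, h4] at h1
  have h5 : (Subgroup.centralizer ({(n : G)} : Set G)).index =
      (Finset.univ.filter fun C : ConjClasses N => IsConj (n : G) ((C.out : N) : G)).card *
        (Subgroup.centralizer ({n} : Set N)).index := by
    exact_mod_cast h1
  rw [h5]
  rfl

/-- The congruence for a character whose conjugates lie in its block. -/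
theorem memLocalIdeal_induced_sub [M.IsPrime] {θ : IrrCharacter N}
    (hθ : ∀ g : G, SameBlock M (θ : N → ℂ) (conjIrr g θ : N → ℂ)) (n : N) :
    MemLocalIdeal M (inducedCentralChar N (θ : N → ℂ) (n : G) - (rr n : ℂ) * centralChar (θ : N → ℂ) n) := by
  classical
  rw [inducedCentralChar_eq_omega,
    omega_traceClassSum (Cfsg.Agent.Lib.Char.Basic.isClassFunction_of_isCharacter
      (Cfsg.Agent.Lib.Char.Basic.isCharacter_of_isIrrCharacter θ.2)) n]
  have h1 : (rr n : ℂ) * centralChar (θ : N → ℂ) n =
      ∑ _C ∈ (Finset.univ.filter fun C : ConjClasses N => IsConj (n : G) ((C.out : N) : G)),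
        centralChar (θ : N → ℂ) n := by
    rw [Finset.sum_const, nsmul_eq_mul]
    rfl
  rw [h1, ← Finset.sum_sub_distrib]
  refine memLocalIdeal_sum _ _ fun C hC => ?_
  obtain ⟨g, hg⟩ := exists_conjNormal (Finset.mem_filter.1 hC).2
  have h2 := hθ g n
  rw [centralChar_conjIrr, hg] at h2
  have := memLocalIdeal_neg h2
  simpa using this

/-- The defect of a block is at most the defect of a class on which its central characters do not vanish. -/
theorem blockDefect_le_of_centralChar {X : Type*} [Group X] [Fintype X] [M.IsPrime] (hM : IsPModular p M)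
    {B : Set (IrrCharacter X)} (hB : IsPBlock M B) {χ : IrrCharacter X} (hχ : χ ∈ B) {x : X}
    (hx : ¬ MemLocalIdeal M (centralChar (χ : X → ℂ) x)) :
    blockDefect p B ≤ (Nat.card (Subgroup.centralizer ({x} : Set X))).factorization p := by
  classical
  obtain ⟨g₀, hg₀⟩ := exists_isDefectClass hB
  obtain ⟨D⟩ : Nonempty (Sylow p (Subgroup.centralizer ({g₀} : Set X))) := inferInstance
  obtain ⟨t, Q, hle⟩ := (min_max hM B hB g₀ hg₀ D x).2 ⟨χ, hχ, hx⟩
  have h1 := Nat.card_le_card_of_injective _ (Subgroup.inclusion_injective hle)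
  have h2 : Nat.card ((Q : Subgroup (Subgroup.centralizer ({x} : Set X))).map
      (Subgroup.centralizer ({x} : Set X)).subtype) =
      p ^ (Nat.card (Subgroup.centralizer ({x} : Set X))).factorization p := by
    rw [← Sylow.card_eq_multiplicity Q]
    exact Nat.card_congr (Subgroup.equivMapOfInjective _ _ Subtype.val_injective).toEquiv.symm
  have h3 : Nat.card (((D : Subgroup (Subgroup.centralizer ({g₀} : Set X))).map
      (Subgroup.centralizer ({g₀} : Set X)).subtype).map (MulAut.conj t).toMonoidHom) =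
      p ^ blockDefect p B := by
    rw [← factorization_card_centralizer hM hB hg₀, ← Sylow.card_eq_multiplicity D]
    refine (Nat.card_congr (Subgroup.equivMapOfInjective _ _ (MulAut.conj t).injective).toEquiv.symm).trans ?_
    exact Nat.card_congr (Subgroup.equivMapOfInjective _ _ Subtype.val_injective).toEquiv.symm
  rw [h2, h3] at h1
  exact (Nat.pow_le_pow_iff_right hp.out.one_lt).mp h1

/-- **Fong's theorem.** -/
theorem fong (hM : IsPModular p M) {b : Set (IrrCharacter N)} (hb : IsPBlock M b)
    (hstable : IsConjStable (G := G) b) {B : Set (IrrCharacter G)} (hB : IsPBlock M B)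
    (hcov : ∃ χ ∈ B, ∃ θ ∈ b, classInner (fun n : N => (χ : G → ℂ) n) (θ : N → ℂ) ≠ 0)
    (hmax : ∀ B' : Set (IrrCharacter G), IsPBlock M B' →
      (∃ χ ∈ B', ∃ θ ∈ b, classInner (fun n : N => (χ : G → ℂ) n) (θ : N → ℂ) ≠ 0) →
      blockDefect p B' ≤ blockDefect p B) (P : Subgroup G) (hP : IsDefectGroup p M B P) :
    ¬ p ∣ (P ⊔ N).index ∧ IsDefectGroup p M b ((P ⊓ N).subgroupOf N) ∧
      blockDefect p B = blockDefect p b + N.index.factorization p := by
  classical
  haveI hMp : M.IsPrime := isPrime_of_isPModular hM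
  have hsameb : ∀ θ ∈ b, ∀ θ' ∈ b, SameBlock M (θ : N → ℂ) (θ' : N → ℂ) := by
    intro θ hθ θ' hθ'
    obtain ⟨ξ, rfl⟩ := hb
    exact sameBlock_trans (sameBlock_symm hθ) hθ'
  have hconj : ∀ θ ∈ b, ∀ g : G, SameBlock M (θ : N → ℂ) (conjIrr g θ : N → ℂ) :=
    fun θ hθ g => hsameb θ hθ _ (hstable g θ hθ)
  obtain ⟨χ₁, hχ₁, θ₁, hθ₁, hc₁⟩ := hcov
  -- the class
  have hbloc := blockElt_mem_localCenter hb
  have hcl : IsClassFunction G (push N (blockElt b)).coeff := isClassFunction_pushBlock hstable
  have hω : omega (θ₁ : N → ℂ) (blockElt b) = 1 := omega_blockElt_of_mem hθ₁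
  rw [omega_eq_sum_inducedCentralChar (θ₁ : N → ℂ) hcl] at hω
  have hex : ∃ K : ConjClasses G, ¬ MemLocalIdeal M ((push N (blockElt b)).coeff K.out) ∧
      ¬ MemLocalIdeal M (inducedCentralChar N (θ₁ : N → ℂ) K.out) := by
    by_contra hno
    push Not at hno
    apply not_memLocalIdeal_one (M := M)
    rw [← hω]
    refine memLocalIdeal_sum _ _ fun K _ => ?_
    by_cases hK : MemLocalIdeal M ((push N (blockElt b)).coeff K.out)
    · exact memLocalIdeal_mul_right hK (by
        rw [inducedCentralChar_eq_omega]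
        exact memLocalRing_omega θ₁.2 (traceClassSum_mem_localCenter N _))
    · refine memLocalIdeal_mul_left ?_ (hno K hK)
      by_cases hKN : K.out ∈ N
      · have := coeff_push_coe N (blockElt b) ⟨K.out, hKN⟩
        simp only at this
        rw [this]
        exact hbloc.2 _
      · rw [coeff_push_of_notMem N _ hKN]
        exact memLocalRing_zero
  obtain ⟨K, hK1, hK2⟩ := hex
  have hKN : K.out ∈ N := by
    by_contra h
    apply hK1
    rw [coeff_push_of_notMem N _ h]
    exact memLocalIdeal_zero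
  set n₀ : N := ⟨K.out, hKN⟩ with hn₀
  have hcoeff : ¬ MemLocalIdeal M (blockCoeff b n₀) := by
    have := coeff_push_coe N (blockElt b) n₀
    rw [coeff_blockElt] at this
    rw [← this]
    exact hK1
  have hind : ¬ MemLocalIdeal M (inducedCentralChar N (θ₁ : N → ℂ) (n₀ : G)) := hK2
  have hcong := memLocalIdeal_induced_sub (hconj θ₁ hθ₁) n₀
  have hrF : ¬ MemLocalIdeal M ((rr n₀ : ℂ) * centralChar (θ₁ : N → ℂ) n₀) := by
    intro h
    apply hind
    have := memLocalIdeal_add hcong h
    simpa using this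
  have hr : ¬ p ∣ rr n₀ := by
    intro h
    apply hrF
    exact memLocalIdeal_mul_right ((memLocalIdeal_natCast_iff hM).2 h) (memLocalRing_centralChar θ₁.2 _)
  have hF : ¬ MemLocalIdeal M (centralChar (θ₁ : N → ℂ) n₀) := fun h =>
    hrF (memLocalIdeal_mul_left (memLocalRing_natCast _) h)
  have hFb : ∀ θ ∈ b, ¬ MemLocalIdeal M (centralChar (θ : N → ℂ) n₀) := by
    intro θ hθ h
    apply hF
    have h1 := hsameb θ₁ hθ₁ θ hθ n₀
    have := memLocalIdeal_add h1 h
    simpa using this
  have hdc : IsDefectClass M b n₀ := ⟨memLocalRing_blockCoeff hb n₀, hcoeff, hFb⟩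
  have hνN := factorization_card_centralizer hM hb hdc
  -- the `p`-part of the centralizer in `G`
  have hνG : (Nat.card (Subgroup.centralizer ({(n₀ : G)} : Set G))).factorization p =
      blockDefect p b + N.index.factorization p := by
    have h1 := index_eq_rr_mul n₀
    have hr0 : rr n₀ ≠ 0 := fun h => hr (by rw [h]; exact dvd_zero p)
    have h2 : ((Subgroup.centralizer ({(n₀ : G)} : Set G)).index).factorization p =
        ((Subgroup.centralizer ({n₀} : Set N)).index).factorization p := by
      rw [h1, Nat.factorization_mul hr0 Subgroup.index_ne_zero_of_finite, Finsupp.add_apply,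
        Nat.factorization_eq_zero_of_not_dvd hr, zero_add]
    have h3 : (Nat.card G).factorization p =
        ((Subgroup.centralizer ({(n₀ : G)} : Set G)).index).factorization p +
          (Nat.card (Subgroup.centralizer ({(n₀ : G)} : Set G))).factorization p := by
      rw [← Subgroup.index_mul_card (Subgroup.centralizer ({(n₀ : G)} : Set G)),
        Nat.factorization_mul Subgroup.index_ne_zero_of_finite Nat.card_pos.ne', Finsupp.add_apply]
    have h4 : (Nat.card N).factorization p =
        ((Subgroup.centralizer ({n₀} : Set N)).index).factorization p +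
          (Nat.card (Subgroup.centralizer ({n₀} : Set N))).factorization p := by
      rw [← Subgroup.index_mul_card (Subgroup.centralizer ({n₀} : Set N)),
        Nat.factorization_mul Subgroup.index_ne_zero_of_finite Nat.card_pos.ne', Finsupp.add_apply]
    have h5 : (Nat.card G).factorization p = N.index.factorization p + (Nat.card N).factorization p := by
      rw [← Subgroup.index_mul_card N, Nat.factorization_mul Subgroup.index_ne_zero_of_finite Nat.card_pos.ne',
        Finsupp.add_apply]
    omega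
  -- central characters of characters over `b`
  have hcc : ∀ χ : IrrCharacter G, (∃ θ ∈ b, classInner (fun n : N => (χ : G → ℂ) n) (θ : N → ℂ) ≠ 0) →
      ¬ MemLocalIdeal M (centralChar (χ : G → ℂ) n₀) := by
    rintro χ ⟨θ, hθ, hc⟩ h
    rw [centralChar_eq_inducedCentralChar χ.2 θ.2 hc n₀] at h
    have h2 := memLocalIdeal_induced_sub (hconj θ hθ) n₀
    have h3 : MemLocalIdeal M ((rr n₀ : ℂ) * centralChar (θ : N → ℂ) n₀) := by
      have := memLocalIdeal_sub h h2
      simpa using this
    have h4 := (memLocalIdeal_of_mul_right (memLocalRing_natCast (rr n₀)) (memLocalRing_centralChar θ.2 n₀) h3)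
    exact hr ((memLocalIdeal_natCast_iff hM).1 (h4 (hFb θ hθ)))
  -- the set of characters over `b`
  set U : Set (IrrCharacter G) := {χ | ∃ θ ∈ b, classInner (fun n : N => (χ : G → ℂ) n) (θ : N → ℂ) ≠ 0} with hU
  have hUb : ∀ χ ∈ U, blockOf M (χ : G → ℂ) ⊆ U := by
    rintro χ ⟨θ, hθ, hc⟩ ψ hψ
    obtain ⟨ψ₀, hψ₀⟩ := exists_constituent (N := N) ψ.2
    refine ⟨ψ₀, ?_, hψ₀⟩
    exact mem_of_sameBlock_of_constituent hstable (fun n => hbloc.2 n) χ.2 ψ.2 hψ hc hθ hψ₀
  have hEU : blockElt U = push N (blockElt b) := by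
    apply eq_of_omega_eq' (isClassFunction_blockElt U) hcl
    intro χ
    by_cases hχU : χ ∈ U
    · rw [omega_blockElt_of_mem hχU]
      obtain ⟨θ, hθ, hc⟩ := hχU
      exact (omega_pushBlock_of_mem hstable χ.2 hc hθ).symm
    · rw [omega_blockElt_of_notMem hχU]
      obtain ⟨ψ₀, hψ₀⟩ := exists_constituent (N := N) χ.2
      have hψ₀b : ψ₀ ∉ b := fun h => hχU ⟨ψ₀, h, hψ₀⟩
      exact (omega_pushBlock_of_notMem hstable χ.2 hψ₀ hψ₀b).symm
  have hcoeffU : ¬ MemLocalIdeal M (blockCoeff U (n₀ : G)) := by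
    rw [← coeff_blockElt, hEU]
    exact hK1
  obtain ⟨χ₀, hχ₀U, hχ₀⟩ := Cfsg.Agent.Lib.Blocks.Knorr.exists_block_of_union hUb hcoeffU
  set B₀ := blockOf M (χ₀ : G → ℂ) with hB₀def
  have hB₀ : IsPBlock M B₀ := ⟨χ₀, rfl⟩
  have hdc₀ : IsDefectClass M B₀ (n₀ : G) :=
    ⟨memLocalRing_blockCoeff hB₀ _, hχ₀, fun χ hχ => hcc χ (hUb χ₀ hχ₀U hχ)⟩
  have hd₀ := factorization_card_centralizer hM hB₀ hdc₀
  obtain ⟨θ₀, hθ₀, hc₀⟩ := hχ₀U
  have hle1 := hmax B₀ hB₀ ⟨χ₀, mem_blockOf_self χ₀, θ₀, hθ₀, hc₀⟩
  have hle2 := blockDefect_le_of_centralChar hM hB hχ₁ (hcc χ₁ ⟨θ₁, hθ₁, hc₁⟩)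
  have hdB : blockDefect p B = blockDefect p b + N.index.factorization p := by omega
  -- the defect group of `b`
  have hdef : IsDefectGroup p M b ((P ⊓ N).subgroupOf N) := by
    obtain ⟨c, hc, -, ⟨χ, hχ, θ, hθ, hcon⟩, hdefc⟩ := exists_stable_block (N := N) hM hB hP
    have hθb : θ ∈ b := by
      have hsame : SameBlock M (χ₁ : G → ℂ) (χ : G → ℂ) := by
        obtain ⟨ξ, rfl⟩ := hB
        exact sameBlock_trans (sameBlock_symm hχ₁) hχ
      exact mem_of_sameBlock_of_constituent hstable (fun n => hbloc.2 n) χ₁.2 χ.2 hsame hc₁ hθ₁ hcon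
    have hcb : c = b := by
      obtain ⟨ξ₁, rfl⟩ := hc
      obtain ⟨ξ₂, rfl⟩ := hb
      rw [← blockOf_eq_of_mem hθ, ← blockOf_eq_of_mem hθb]
    rwa [hcb] at hdefc
  refine ⟨?_, hdef, hdB⟩
  -- the index
  have hcardb := Cfsg.Agent.S0908.result p M hM b hb _ hdef
  have hcardB := Cfsg.Agent.S0908.result p M hM B hB P hP
  have h1 : Nat.card ((P ⊓ N).subgroupOf N) = Nat.card (P ⊓ N : Subgroup G) :=
    Nat.card_congr (Subgroup.subgroupOfEquivOfLe inf_le_right).toEquiv
  have h2 : N.relIndex P * Nat.card (P ⊓ N : Subgroup G) = Nat.card P := by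
    have h3 := Subgroup.index_mul_card (N.subgroupOf P)
    have h4 : Nat.card (N.subgroupOf P) = Nat.card (P ⊓ N : Subgroup G) := by
      rw [← Subgroup.inf_subgroupOf_right, inf_comm]
      exact Nat.card_congr (Subgroup.subgroupOfEquivOfLe inf_le_left).toEquiv
    rw [h4] at h3
    exact h3
  rw [← h1, hcardb, hcardB, hdB, pow_add, mul_comm] at h2
  have h5 : N.relIndex P = p ^ N.index.factorization p := by
    have hpos : 0 < p ^ blockDefect p b := pow_pos hp.out.pos _
    exact Nat.eq_of_mul_eq_mul_left hpos h2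
  have h6 : N.relIndex (P ⊔ N) * (P ⊔ N).index = N.index := Subgroup.relIndex_mul_index le_sup_right
  have h7 : N.relIndex (P ⊔ N) = N.relIndex P := by
    rw [sup_comm]
    exact Subgroup.relIndex_sup_left _ _
  rw [h7, h5] at h6
  intro hdvd
  have h8 : ((P ⊔ N).index).factorization p ≠ 0 := by
    have hne : (P ⊔ N).index ≠ 0 := Subgroup.index_ne_zero_of_finite
    exact (hp.out.factorization_pos_of_dvd hne hdvd).ne'
  have h9 : (N.index).factorization p =
      (p ^ N.index.factorization p).factorization p + ((P ⊔ N).index).factorization p := by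
    conv_lhs => rw [← h6]
    rw [Nat.factorization_mul (pow_ne_zero _ hp.out.ne_zero) Subgroup.index_ne_zero_of_finite, Finsupp.add_apply]
  rw [Nat.Prime.factorization_pow hp.out] at h9
  simp at h9
  exact h8 h9

end Cfsg.Agent.Lib.Blocks.FongCover
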