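import Mathlib
import Cfsg.Agent.Lib.Blocks.DihD

/-!
# A combinatorial lemma on integer vectors of norm 3

A family of at least five distinct integer vectors of norm 3 with pairwise inner product 2 has two common
coordinates, and one private coordinate each.
-/

set_option autoImplicit false

namespace Cfsg.Agent.Lib.Blocks.HomS

open Cfsg.Agent.Lib.Blocks.DihS

section Combi

variable {X : Type*} [DecidableEq X]

/-- The combinatorial heart: norm 2 vectors with pairwise inner product 1, at least 4 of them, each of inner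
product 1 with a norm 3 vector. -/
theorem main_combi_four (S : Finset X) {m : ℕ} (hm4 : 4 ≤ m) (a : Fin m → X → ℤ) (b : X → ℤ)
    (h1 : ∀ i, ∑ x ∈ S, a i x ^ 2 = 2) (h2 : ∀ i j, i ≠ j → ∑ x ∈ S, a i x * a j x = 1)
    (h3 : ∑ x ∈ S, b x ^ 2 = 3) (h4 : ∀ i, ∑ x ∈ S, a i x * b x = 1) :
    ∃ (w r s : X) (f : Fin m → X), w ∈ S ∧ r ∈ S ∧ s ∈ S ∧ (∀ i, f i ∈ S) ∧ w ≠ r ∧ w ≠ s ∧ r ≠ s ∧
      Function.Injective f ∧ (∀ i, f i ≠ w ∧ f i ≠ r ∧ f i ≠ s) ∧
      (b w = 1 ∨ b w = -1) ∧ (b r = 1 ∨ b r = -1) ∧ (b s = 1 ∨ b s = -1) ∧ (∀ i, a i w = b w) ∧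
      (∀ i, a i (f i) = 1 ∨ a i (f i) = -1) ∧ (∀ i, ∀ x ∈ S, x ≠ w → x ≠ f i → a i x = 0) ∧
      (∀ x ∈ S, x ≠ w → x ≠ r → x ≠ s → b x = 0) := by
  have hm0 : 0 < m := by omega
  have hsupp := fun i => two_support S (a i) b (h1 i) h3 (h4 i)
  choose w f hwS hfS hwf hawb hbw hbf haf hzero using hsupp
  obtain ⟨hvb, hcb⟩ := small_norm S b 3 (by norm_num) (by simpa using h3)
  -- the relations between the supports
  have hrel : ∀ i j, i ≠ j → (w i = w j ∧ f i ≠ f j) ∨ (w i ≠ w j ∧ f i = f j ∧ a i (f i) = a j (f j)) := by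
    intro i j hij
    have hsum := sum_two S (hwS i) (hfS i) (hwf i) (a i) (a j) (hzero i)
    rw [h2 i j hij] at hsum
    have hwfne : ∀ i j, w i ≠ f j := by
      intro i j he
      have h7 := hbf j
      rw [← he] at h7
      rcases hbw i with h8 | h8 <;> omega
    have haw : a j (w i) = if w i = w j then b (w j) else 0 := by
      split_ifs with he
      · rw [he, hawb]
      · exact hzero j _ (hwS i) he (hwfne i j)
    have haf' : a j (f i) = if f i = f j then a j (f j) else 0 := by
      split_ifs with he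
      · rw [he]
      · exact hzero j _ (hfS i) (hwfne j i).symm he
    rw [haw, haf', hawb i] at hsum
    by_cases e1 : w i = w j <;> by_cases e2 : f i = f j
    · exfalso
      rw [if_pos e1, if_pos e2, ← e1] at hsum
      have h8 : a i (f i) * a j (f j) = 0 := by
        rcases hbw i with h9 | h9 <;> rw [h9] at hsum <;> omega
      rcases haf i with h9 | h9 <;> rcases haf j with h10 | h10 <;> rw [h9, h10] at h8 <;> omega
    · left
      exact ⟨e1, e2⟩
    · right
      refine ⟨e1, e2, ?_⟩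
      rw [if_neg e1, if_pos e2] at hsum
      rcases haf i with h9 | h9 <;> rcases haf j with h10 | h10 <;> rw [h9, h10] at hsum ⊢ <;> omega
    · exfalso
      rw [if_neg e1, if_neg e2] at hsum
      omega
  by_cases hw : ∀ i j, w i = w j
  · -- all `w i` coincide
    set i₀ : Fin m := ⟨0, hm0⟩ with hi₀
    set w₀ := w i₀ with hw₀
    have hfinj : Function.Injective f := by
      intro i j he
      by_contra hij
      rcases hrel i j hij with h7 | h7
      · exact h7.2 he
      · exact h7.1 (hw i j)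
    have hw₀mem : w₀ ∈ S.filter (fun x => b x ≠ 0) := by
      refine Finset.mem_filter.mpr ⟨hwS i₀, ?_⟩
      rcases hbw i₀ with h7 | h7 <;> rw [hw₀, h7] <;> norm_num
    have hcard : ((S.filter (fun x => b x ≠ 0)).erase w₀).card = 2 := by
      rw [Finset.card_erase_of_mem hw₀mem, hcb]
    obtain ⟨r, s, hrs, hrs'⟩ := Finset.card_eq_two.mp hcard
    have hr : r ∈ (S.filter (fun x => b x ≠ 0)).erase w₀ := by
      rw [hrs']
      simp
    have hs : s ∈ (S.filter (fun x => b x ≠ 0)).erase w₀ := by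
      rw [hrs']
      simp
    obtain ⟨hr1, hr2⟩ := Finset.mem_erase.mp hr
    obtain ⟨hs1, hs2⟩ := Finset.mem_erase.mp hs
    obtain ⟨hrS, hrb⟩ := Finset.mem_filter.mp hr2
    obtain ⟨hsS, hsb⟩ := Finset.mem_filter.mp hs2
    have hunit : ∀ x ∈ S, b x ≠ 0 → (b x = 1 ∨ b x = -1) := by
      intro x hx h0
      rcases hvb x hx with h7 | h7 | h7
      · exact absurd h7 h0
      · exact Or.inl h7
      · exact Or.inr h7
    refine ⟨w₀, r, s, f, hwS i₀, hrS, hsS, hfS, hr1.symm, hs1.symm, hrs, hfinj, ?_, hbw i₀, hunit r hrS hrb,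
      hunit s hsS hsb, ?_, haf, ?_, ?_⟩
    · intro i
      have h0 := hbf i
      refine ⟨?_, ?_, ?_⟩
      · intro he
        rw [he] at h0
        exact (Finset.mem_filter.mp hw₀mem).2 h0
      · intro he
        rw [he] at h0
        exact hrb h0
      · intro he
        rw [he] at h0
        exact hsb h0
    · intro i
      rw [hw₀, hw i₀ i]
      exact hawb i
    · intro i x hx hxw hxf
      apply hzero i x hx _ hxf
      rw [hw i i₀]
      exact hxw
    · intro x hx hxw hxr hxs
      by_contra h0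
      have h7 : x ∈ (S.filter (fun x => b x ≠ 0)).erase w₀ :=
        Finset.mem_erase.mpr ⟨hxw, Finset.mem_filter.mpr ⟨hx, h0⟩⟩
      rw [hrs', Finset.mem_insert, Finset.mem_singleton] at h7
      rcases h7 with h7 | h7
      · exact hxr h7
      · exact hxs h7
  · -- the impossible case
    exfalso
    push Not at hw
    obtain ⟨i, j, hij⟩ := hw
    have hne : i ≠ j := fun he => hij (by rw [he])
    have hall : ∀ ν, f ν = f i ∧ a ν (f ν) = a i (f i) := by
      intro ν
      by_cases e1 : ν = i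
      · rw [e1]
        exact ⟨rfl, rfl⟩
      rcases hrel ν i e1 with h7 | h7
      · by_cases e2 : ν = j
        · exfalso
          rw [e2] at h7
          exact hij h7.1.symm
        · rcases hrel ν j e2 with h8 | h8
          · exact absurd (h7.1.symm.trans h8.1) hij
          · exfalso
            apply h7.2
            rw [h8.2.1]
            rcases hrel i j hne with h9 | h9
            · exact absurd h9.1 hij
            · exact h9.2.1.symm
      · exact ⟨h7.2.1, h7.2.2⟩
    have hwinj : Function.Injective w := by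
      intro ν μ he
      by_contra hνμ
      rcases hrel ν μ hνμ with h7 | h7
      · exact h7.2 ((hall ν).1.trans (hall μ).1.symm)
      · exact h7.1 he
    have himg : Finset.univ.image w ⊆ S.filter (fun x => b x ≠ 0) := by
      intro x hx
      obtain ⟨ν, -, rfl⟩ := Finset.mem_image.mp hx
      refine Finset.mem_filter.mpr ⟨hwS ν, ?_⟩
      rcases hbw ν with h7 | h7 <;> rw [h7] <;> norm_num
    have hcardimg : (Finset.univ.image w).card = m := by
      rw [Finset.card_image_of_injective _ hwinj]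
      simp
    have hle : m ≤ 3 := by
      rw [← hcardimg, ← hcb]
      exact Finset.card_le_card himg
    omega

/-- Five or more vectors of norm 3 and pairwise inner product 2. -/
theorem shape_fin (S : Finset X) {r : ℕ} (hr : 5 ≤ r) (c : Fin r → X → ℤ)
    (h1 : ∀ i, ∑ x ∈ S, c i x ^ 2 = 3) (h2 : ∀ i j, i ≠ j → ∑ x ∈ S, c i x * c j x = 2) :
    ∃ (p q : X) (F : Fin r → X) (gp gq : ℤ), p ∈ S ∧ q ∈ S ∧ p ≠ q ∧ (∀ i, F i ∈ S ∧ F i ≠ p ∧ F i ≠ q) ∧
      Function.Injective F ∧ (gp = 1 ∨ gp = -1) ∧ (gq = 1 ∨ gq = -1) ∧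
      ∀ i, c i p = gp ∧ c i q = gq ∧ (c i (F i) = 1 ∨ c i (F i) = -1) ∧
        ∀ x ∈ S, x ≠ p → x ≠ q → x ≠ F i → c i x = 0 := by
  obtain ⟨m, rfl⟩ : ∃ m, r = m + 1 := ⟨r - 1, by omega⟩
  have hm4 : 4 ≤ m := by omega
  set c₀ := c 0 with hc₀
  -- expansions of sums
  have hsq : ∀ u v : X → ℤ, ∑ x ∈ S, (u x - v x) ^ 2 =
      ∑ x ∈ S, u x ^ 2 - 2 * ∑ x ∈ S, u x * v x + ∑ x ∈ S, v x ^ 2 := by
    intro u v
    rw [Finset.mul_sum, ← Finset.sum_sub_distrib, ← Finset.sum_add_distrib]
    refine Finset.sum_congr rfl fun x _ => ?_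
    ring
  have hmul : ∀ u v u' v' : X → ℤ, ∑ x ∈ S, (u x - v x) * (u' x - v' x) =
      ∑ x ∈ S, u x * u' x - ∑ x ∈ S, u x * v' x - ∑ x ∈ S, v x * u' x + ∑ x ∈ S, v x * v' x := by
    intro u v u' v'
    rw [← Finset.sum_sub_distrib, ← Finset.sum_sub_distrib, ← Finset.sum_add_distrib]
    refine Finset.sum_congr rfl fun x _ => ?_
    ring
  have hc0 : ∑ x ∈ S, c₀ x ^ 2 = 3 := h1 0
  have hsm : ∀ i : Fin m, ∑ x ∈ S, c i.succ x * c₀ x = 2 := fun i => h2 _ _ (Fin.succ_ne_zero i)
  have hsm' : ∀ i : Fin m, ∑ x ∈ S, c₀ x * c i.succ x = 2 := fun i => h2 _ _ (Fin.succ_ne_zero i).symm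
  obtain ⟨w, r, s, f, hwS, hrS, hsS, hfS, hwr, hws, hrs, hfinj, hfne, hbw, hbr, hbs, haw, haf, hazero, hbzero⟩ :=
    main_combi_four S hm4 (fun i x => c i.succ x - c₀ x) (fun x => - c₀ x)
      (fun i => by
        rw [hsq, h1, hsm, hc0]
        norm_num)
      (fun i j hij => by
        rw [hmul, h2 _ _ (fun he => hij (Fin.succ_injective _ he)), hsm, hsm', ]
        have : ∑ x ∈ S, c₀ x * c₀ x = 3 := by
          rw [← hc0]
          exact Finset.sum_congr rfl fun x _ => (pow_two _).symm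
        rw [this]
        norm_num)
      (by
        simp only [even_two, Even.neg_pow]
        exact hc0)
      (fun i => by
        have e : ∀ x, (c i.succ x - c₀ x) * -c₀ x = c₀ x ^ 2 - c i.succ x * c₀ x := fun x => by ring
        simp only [e]
        rw [Finset.sum_sub_distrib, hsm, hc0]
        norm_num)
  have hfw : ∀ i : Fin m, c₀ (f i) = 0 := by
    intro i
    have := hbzero (f i) (hfS i) (hfne i).1 (hfne i).2.1 (hfne i).2.2
    linarith
  refine ⟨r, s, Fin.cons w f, -(-c₀ r), -(-c₀ s), hrS, hsS, hrs, ?_, ?_, ?_, ?_, ?_⟩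
  · intro i
    refine Fin.cases ?_ (fun j => ?_) i
    · exact ⟨hwS, hwr, hws⟩
    · exact ⟨hfS j, (hfne j).2.1, (hfne j).2.2⟩
  · intro i j he
    refine Fin.cases (motive := fun i => Fin.cons (α := fun _ => X) w f i = Fin.cons (α := fun _ => X) w f j → i = j) ?_
      (fun i' => ?_) i he
    · refine Fin.cases (motive := fun j => Fin.cons (α := fun _ => X) w f 0 = Fin.cons (α := fun _ => X) w f j → 0 = j)
        (fun _ => rfl) (fun j' h' => ?_) j
      exact absurd h'.symm (hfne j').1
    · refine Fin.cases (motive := fun j => Fin.cons (α := fun _ => X) w f i'.succ = Fin.cons (α := fun _ => X) w f j → i'.succ = j)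
        (fun h' => ?_) (fun j' h' => ?_) j
      · exact absurd h' (hfne i').1
      · exact congrArg _ (hfinj (by simpa using h'))
  · rcases hbr with h | h
    · right
      omega
    · left
      omega
  · rcases hbs with h | h
    · right
      omega
    · left
      omega
  · intro i
    refine Fin.cases ?_ (fun j => ?_) i
    · refine ⟨by simp [hc₀], by simp [hc₀], ?_, ?_⟩
      · simp only [Fin.cons_zero]
        rw [← hc₀]
        rcases hbw with h | h
        · right
          omega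
        · left
          omega
      · intro x hx h1 h2 h3
        simp only [Fin.cons_zero] at h3
        have := hbzero x hx h3 h1 h2
        rw [← hc₀]
        omega
    · have hrj : c j.succ r - c₀ r = 0 := hazero j r hrS hwr.symm (hfne j).2.1.symm
      have hsj : c j.succ s - c₀ s = 0 := hazero j s hsS hws.symm (hfne j).2.2.symm
      refine ⟨by omega, by omega, ?_, ?_⟩
      · simp only [Fin.cons_succ]
        have := haf j
        have h0 := hfw j
        rw [h0, sub_zero] at this
        exact this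
      · intro x hx h1 h2 h3
        simp only [Fin.cons_succ] at h3
        by_cases hxw : x = w
        · have := haw j
          rw [hxw]
          omega
        · have h4 := hazero j x hx hxw h3
          have h5 := hbzero x hx hxw h1 h2
          omega

/-- The shape of a family with at least five distinct vectors. -/
theorem shape_family {ι : Type*} (S : Finset X) (J : Finset ι) (c : ι → X → ℤ)
    (h1 : ∀ i ∈ J, ∑ x ∈ S, c i x ^ 2 = 3)
    (h2 : ∀ i ∈ J, ∀ j ∈ J, c i ≠ c j → ∑ x ∈ S, c i x * c j x = 2)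
    (h5 : ∃ L : Finset (X → ℤ), (∀ v ∈ L, ∃ i ∈ J, c i = v) ∧ 5 ≤ L.card) :
    ∃ (p q : X) (gp gq : ℤ), p ∈ S ∧ q ∈ S ∧ p ≠ q ∧ (gp = 1 ∨ gp = -1) ∧ (gq = 1 ∨ gq = -1) ∧
      ∀ i ∈ J, c i p = gp ∧ c i q = gq ∧ ∃ y ∈ S, y ≠ p ∧ y ≠ q ∧ (c i y = 1 ∨ c i y = -1) ∧
        ∀ x ∈ S, x ≠ p → x ≠ q → x ≠ y → c i x = 0 := by
  classical
  obtain ⟨L, hL, hL5⟩ := h5
  -- the whole image
  set C : Finset (X → ℤ) := J.image c with hC
  have hLC : L ⊆ C := by
    intro v hv
    obtain ⟨i, hi, rfl⟩ := hL v hv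
    exact Finset.mem_image_of_mem _ hi
  have hr : 5 ≤ C.card := hL5.trans (Finset.card_le_card hLC)
  set e := C.equivFin with he
  set a : Fin C.card → X → ℤ := fun k => (e.symm k : X → ℤ) with ha
  have hmemC : ∀ k, ∃ i ∈ J, c i = a k := fun k => by
    obtain ⟨i, hi, hie⟩ := Finset.mem_image.mp (e.symm k).2
    exact ⟨i, hi, hie⟩
  have hainj : Function.Injective a := fun k l hkl => e.symm.injective (Subtype.ext hkl)
  obtain ⟨p, q, F, gp, gq, hp, hq, hpq, hF, -, hgp, hgq, hall⟩ := shape_fin S hr a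
    (fun k => by
      obtain ⟨i, hi, hie⟩ := hmemC k
      rw [← hie]
      exact h1 i hi)
    (fun k l hkl => by
      obtain ⟨i, hi, hie⟩ := hmemC k
      obtain ⟨j, hj, hje⟩ := hmemC l
      rw [← hie, ← hje]
      exact h2 i hi j hj (fun he' => hkl (hainj (by rw [← hie, ← hje, he']))))
  refine ⟨p, q, gp, gq, hp, hq, hpq, hgp, hgq, fun i hi => ?_⟩
  have hiC : c i ∈ C := Finset.mem_image_of_mem _ hi
  set k := e ⟨c i, hiC⟩ with hk
  have hak : a k = c i := by
    simp [ha, hk]
  obtain ⟨h3, h4, h5, h6⟩ := hall k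
  rw [hak] at h3 h4 h5 h6
  exact ⟨h3, h4, F k, (hF k).1, (hF k).2.1, (hF k).2.2, h5, h6⟩

end Combi

end Cfsg.Agent.Lib.Blocks.HomS
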