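import Mathlib
import Cfsg.Prelude.Def_Blocks
import Cfsg.Agent.Lib.Blocks.HomB
import Cfsg.Agent.Lib.Blocks.PrincipalColumn
import Cfsg.Agent.Lib.Blocks.DihB

/-!
# Groups with abelian Sylow 2-subgroup and a semiregular automorphism of order 3: columns and multiplicities
-/

set_option autoImplicit false

namespace Cfsg.Agent.Lib.Blocks.HomS

open Cfsg Cfsg.Agent.Lib.Blocks.Sections Cfsg.Agent.Lib.Blocks.DihS Cfsg.Agent.Lib.Blocks.Principal
  Cfsg.Agent.Lib.Blocks.PrincipalCen Cfsg.Agent.Lib.Blocks.PrincipalColumn Cfsg.Agent.Lib.Blocks.Local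
open scoped ComplexConjugate

universe u v

section Characters

variable {A : Type v} [AddCommGroup A] [Fintype A]

/-- Orthogonality of additive characters. -/
lemma sum_conj_mul (α β : AddChar A ℂ) :
    ∑ b, conj (α b) * β b = if β = α then (Fintype.card A : ℂ) else 0 := by
  classical
  have h1 := AddChar.sum_eq_ite (β * α⁻¹)
  have h2 : ∀ b, (β * α⁻¹) b = conj (α b) * β b := by
    intro b
    rw [AddChar.mul_apply, AddChar.inv_apply', AddChar.inv_apply_eq_conj, mul_comm]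
  simp only [h2] at h1
  rw [h1]
  by_cases h : β = α
  · rw [if_pos h, if_pos]
    rw [h, mul_inv_cancel]
    rfl
  · rw [if_neg h, if_neg]
    intro h3
    apply h
    have h4 : β * α⁻¹ = 1 := h3
    exact mul_inv_eq_one.mp h4

lemma sum_conj_eq_zero {α : AddChar A ℂ} (hα : α ≠ 0) : ∑ b, conj (α b) = 0 := by
  classical
  have h1 := sum_conj_mul α 0
  simp only [AddChar.zero_apply, mul_one] at h1
  rw [h1, if_neg (Ne.symm hα)]

lemma sum_eq_zero_char {α : AddChar A ℂ} (hα : α ≠ 0) : ∑ b, α b = 0 := by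
  classical
  rw [AddChar.sum_eq_ite, if_neg hα]

end Characters

section Columns

variable {G : Type u} [Group G] [Fintype G] {A : Type v} [AddCommGroup A] [Fintype A] [DecidableEq A]
  {P : Sylow 2 G} {φ : A → G} {τ : G} {s : A → A} {M : Ideal AlgInt}

namespace HData

variable (h : HData G A P φ τ s)
include h

omit [Fintype G] [DecidableEq A] in
theorem card_P : Nat.card (P : Subgroup G) = Fintype.card A := by
  rw [← Nat.card_eq_fintype_card]
  symm
  apply Nat.card_eq_of_bijective (fun a => (⟨φ a, h.mem a⟩ : (P : Subgroup G)))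
  constructor
  · intro a b hab
    exact h.hinj (congrArg Subtype.val hab)
  · rintro ⟨g, hg⟩
    obtain ⟨a, rfl⟩ := (h.hmem g).mp hg
    exact ⟨a, rfl⟩

omit [Fintype G] [Fintype A] [DecidableEq A] in
theorem order_of (a : A) : ∃ j, orderOf (φ a) = 2 ^ j := by
  have : Fact (Nat.Prime 2) := ⟨by norm_num⟩
  obtain ⟨j, hj⟩ := (IsPGroup.iff_orderOf.mp P.isPGroup') ⟨φ a, h.mem a⟩
  refine ⟨j, ?_⟩
  rw [← hj, ← Subgroup.orderOf_coe]

omit [DecidableEq A] in
theorem exists_card_pow : ∃ j, Fintype.card A = 2 ^ j := by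
  have : Fact (Nat.Prime 2) := ⟨by norm_num⟩
  obtain ⟨j, hj⟩ := IsPGroup.iff_card.mp P.isPGroup'
  exact ⟨j, by rw [← h.card_P, hj]⟩

omit [Fintype A] [DecidableEq A] in
theorem apply_s (χ : IrrCharacter G) (a : A) : (χ : G → ℂ) (φ (s a)) = (χ : G → ℂ) (φ a) := by
  rw [h.hs]
  symm
  exact Cfsg.Agent.Lib.Char.CompleteCor.irr_apply_of_isConj (isConj_iff.mpr ⟨τ, rfl⟩) χ

/-- Off-diagonal columns. -/
theorem col_off (hM : IsPModular 2 M) {a b : A} (hne : ¬ (a = b ∨ a = s b ∨ a = s (s b))) :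
    ∑ χ ∈ TB M G, (χ : G → ℂ) (φ a) * conj ((χ : G → ℂ) (φ b)) = 0 := by
  classical
  have : Fact (Nat.Prime 2) := ⟨by norm_num⟩
  haveI hMp : M.IsPrime := isPrime_of_isPModular hM
  obtain ⟨i, hi⟩ := h.order_of a
  obtain ⟨j, hj⟩ := h.order_of b
  have hnc : ¬ IsConj (φ a) (φ b) := fun hc => hne (h.fusion hc.symm)
  exact sum_principal_of_not_isConj hM hj hi hnc

/-- Diagonal columns. -/
theorem col_diag (hM : IsPModular 2 M) {b : A} (hb : b ≠ 0) :
    ∑ χ ∈ TB M G, (χ : G → ℂ) (φ b) * conj ((χ : G → ℂ) (φ b)) = (Fintype.card A : ℂ) := by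
  classical
  have : Fact (Nat.Prime 2) := ⟨by norm_num⟩
  haveI hMp : M.IsPrime := isPrime_of_isPModular hM
  letI : Fintype (Cen (φ b)) := Fintype.ofFinite _
  obtain ⟨i, hi⟩ := h.order_of b
  obtain ⟨j, hj⟩ := h.exists_card_pow
  have hone : ¬ 2 ∣ orderOf (1 : Cen (φ b)) := by simp
  have h1 := sum_principal_eq hM hi (1 : Cen (φ b)) hone
  have hidx : (pPrimeCore 2 (Cen (φ b))).index = 2 ^ j := by
    rw [h.index_core hb, h.card_P, hj]
  have h2 := sum_principal_eq_index (G := Cen (φ b)) (M := M) (p := 2) hM hidx hone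
  simp only [Subgroup.coe_one, mul_one] at h1
  rw [h1, h2, hj]

theorem col (hM : IsPModular 2 M) (a : A) {b : A} (hb : b ≠ 0) :
    ∑ χ ∈ TB M G, (χ : G → ℂ) (φ a) * conj ((χ : G → ℂ) (φ b)) =
      (Fintype.card A : ℂ) * ((if a = b then 1 else 0) + (if a = s b then 1 else 0) + (if a = s (s b) then 1 else 0)) := by
  by_cases h0 : a = b
  · subst h0
    rw [h.col_diag hM hb, if_pos rfl, if_neg (h.s_ne hb).symm, if_neg (h.ss_ne hb).symm]
    ring
  by_cases h1 : a = s b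
  · subst h1
    have h3 : s b ≠ s (s b) := fun h4 => h.s_ne (h.s_ne_zero hb) h4.symm
    rw [if_neg h0, if_pos rfl, if_neg h3]
    simp only [h.apply_s]
    rw [h.col_diag hM hb]
    ring
  by_cases h2 : a = s (s b)
  · subst h2
    have h3 : s (s b) ≠ s b := h.s_ne (h.s_ne_zero hb)
    rw [if_neg h0, if_neg h3, if_pos rfl]
    simp only [h.apply_s]
    rw [h.col_diag hM hb]
    ring
  rw [h.col_off hM (by tauto), if_neg h0, if_neg h1, if_neg h2]
  ring

/-- Columns of odd elements. -/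
theorem col_odd (hM : IsPModular 2 M) {ρ : G} (hρ : ¬ 2 ∣ orderOf ρ) {b : A} (hb : b ≠ 0) :
    ∑ χ ∈ TB M G, (χ : G → ℂ) ρ * conj ((χ : G → ℂ) (φ b)) = 0 := by
  classical
  have : Fact (Nat.Prime 2) := ⟨by norm_num⟩
  haveI hMp : M.IsPrime := isPrime_of_isPModular hM
  obtain ⟨j, hj⟩ := h.order_of b
  have hρ' : IsPPart 2 ρ 1 :=
    ⟨ρ, one_mul ρ, Commute.one_left ρ, ⟨0, by simp⟩, hρ⟩
  have hnc : ¬ IsConj (1 : G) (φ b) := by
    intro h1
    exact h.map_ne_one hb (isConj_one_right.mp h1)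
  have h1 := block_orthogonality hM hρ' (isPPart_self hj) hnc (isPBlock_principalBlock M)
  rw [Cfsg.Agent.Lib.Blocks.Osima.finsum_mem_eq_sum_filter] at h1
  rw [← h1]
  refine Finset.sum_congr rfl fun χ _ => ?_
  rw [Cfsg.Agent.Lib.Char.Complete.isIrr_inv χ.2]

/-- The twist of a character by `s`. -/
noncomputable def tw (ψ : AddChar A ℂ) : AddChar A ℂ where
  toFun a := ψ (s a)
  map_zero_eq_one' := by
    rw [h.s_zero, AddChar.map_zero_eq_one]
  map_add_eq_mul' a b := by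
    rw [h.s_add, AddChar.map_add_eq_mul]

omit [Fintype G] [Fintype A] [DecidableEq A] in
@[simp] theorem tw_apply (ψ : AddChar A ℂ) (a : A) : h.tw ψ a = ψ (s a) := rfl

omit [Fintype G] [DecidableEq A] in
/-- A twist of a nontrivial character is nontrivial, and different. -/
theorem tw_ne {ψ : AddChar A ℂ} (hψ : ψ ≠ 0) : h.tw ψ ≠ ψ := by
  classical
  intro he
  apply hψ
  -- `s - 1` is surjective
  have hinj : Function.Injective (fun a : A => s a - a) := by
    intro a b hab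
    have h1 : s (a - b) = a - b := by
      have h2 : s (a - b) = s a - s b := by
        rw [sub_eq_add_neg, h.s_add, h.s_neg, ← sub_eq_add_neg]
      simp only at hab
      rw [h2]
      rw [sub_eq_sub_iff_sub_eq_sub] at hab
      exact hab
    have := h.hfix _ h1
    exact sub_eq_zero.mp this
  have hsurj := Finite.injective_iff_surjective.mp hinj
  ext a
  obtain ⟨b, rfl⟩ := hsurj a
  have h1 : ψ (s b) = ψ b := by
    have := congrArg (fun f : AddChar A ℂ => f b) he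
    simpa using this
  simp only [AddChar.zero_apply]
  rw [sub_eq_add_neg, AddChar.map_add_eq_mul, AddChar.map_neg_eq_inv, h1]
  exact mul_inv_cancel₀ (ψ.val_isUnit b).ne_zero

omit [Fintype G] [DecidableEq A] in
theorem tw_tw_tw (ψ : AddChar A ℂ) : h.tw (h.tw (h.tw ψ)) = ψ := by
  ext a
  simp [h.hs3]

omit [Fintype G] [DecidableEq A] in
theorem tw_tw_ne {ψ : AddChar A ℂ} (hψ : ψ ≠ 0) : h.tw (h.tw ψ) ≠ ψ := by
  intro he
  apply h.tw_ne hψ
  have h1 := h.tw_tw_tw ψ
  rwa [he] at h1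

omit [Fintype G] [DecidableEq A] in
theorem tw_ne_zero {ψ : AddChar A ℂ} (hψ : ψ ≠ 0) : h.tw ψ ≠ 0 := by
  intro he
  apply hψ
  rw [← h.tw_tw_tw ψ, he]
  ext a
  simp

end HData

/-- The multiplicity of `ψ` in the restriction of `χ` to `P`, minus that of the principal character. -/
noncomputable def cc (φ : A → G) (ψ : AddChar A ℂ) (χ : IrrCharacter G) : ℂ :=
  (Fintype.card A : ℂ)⁻¹ * ∑ a, (conj (ψ a) - 1) * (χ : G → ℂ) (φ a)

omit [Fintype G] [DecidableEq A] in
lemma card_ne_zero : (Fintype.card A : ℂ) ≠ 0 := by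
  exact_mod_cast Fintype.card_ne_zero

namespace HData

variable (h : HData G A P φ τ s)
include h

omit [Fintype G] [DecidableEq A] in
/-- Multiplicities of characters of `A`. -/
theorem exists_nat_mult (ψ : AddChar A ℂ) (χ : IrrCharacter G) :
    ∃ n : ℕ, (Fintype.card A : ℂ)⁻¹ * ∑ a, (χ : G → ℂ) (φ a) * conj (ψ a) = n := by
  classical
  let f : Multiplicative A →* G :=
    { toFun := fun a => φ a.toAdd
      map_one' := h.map_zero
      map_mul' := fun a b => h.hadd a.toAdd b.toAdd }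
  let η : Multiplicative A →* ℂˣ := (AddChar.toMonoidHom ψ).toHomUnits
  have hχc := Cfsg.Agent.Lib.Char.Basic.isCharacter_of_isIrrCharacter χ.2
  have h1 := Cfsg.Agent.Lib.Char.Basic.isCharacter_comp_hom hχc f
  have h2 := Cfsg.Agent.Lib.Char.Basic.isCharacter_of_isIrrCharacter (Cfsg.Agent.Lib.Char.LinearChars.isIrr_of_hom η)
  obtain ⟨n, hn⟩ := Cfsg.Agent.Lib.Char.Ortho.exists_nat_classInner_of_isCharacter h1 h2
  refine ⟨n, ?_⟩
  rw [← hn, Cfsg.Agent.Lib.Char.Induced.classInner_def]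
  congr 1
  · rw [Nat.card_eq_fintype_card]
    simp
  · rw [← Equiv.sum_comp (Multiplicative.toAdd : Multiplicative A ≃ A)]
    exact Finset.sum_congr rfl fun a _ => rfl

omit [Fintype G] [DecidableEq A] in
theorem cc_int (ψ : AddChar A ℂ) (χ : IrrCharacter G) : ∃ z : ℤ, cc φ ψ χ = z := by
  obtain ⟨n, hn⟩ := h.exists_nat_mult ψ χ
  obtain ⟨n₀, hn₀⟩ := h.exists_nat_mult 0 χ
  refine ⟨(n : ℤ) - n₀, ?_⟩
  unfold cc
  push_cast
  rw [← hn, ← hn₀, ← mul_sub, ← Finset.sum_sub_distrib]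
  congr 1
  refine Finset.sum_congr rfl fun a _ => ?_
  simp only [AddChar.zero_apply, map_one]
  ring

omit [DecidableEq A] in
theorem cc_tw (ψ : AddChar A ℂ) (χ : IrrCharacter G) : cc φ (h.tw ψ) χ = cc φ ψ χ := by
  unfold cc
  congr 1
  rw [← Function.Bijective.sum_comp h.s_bij (fun a => (conj (ψ a) - 1) * (χ : G → ℂ) (φ a))]
  refine Finset.sum_congr rfl fun a _ => ?_
  rw [h.apply_s, h.tw_apply]

end HData

omit [DecidableEq A] in
theorem cc_triv {ψ : AddChar A ℂ} (hψ : ψ ≠ 0) : cc φ ψ (trivChar G) = -1 := by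
  unfold cc
  simp only [coe_trivChar, mul_one]
  rw [Finset.sum_sub_distrib, sum_conj_eq_zero hψ]
  simp only [Finset.sum_const, Finset.card_univ, nsmul_eq_mul, mul_one, zero_sub]
  rw [mul_neg, inv_mul_cancel₀ card_ne_zero]

omit [Fintype G] [DecidableEq A] in
theorem cc_zero_char (χ : IrrCharacter G) : cc φ (0 : AddChar A ℂ) χ = 0 := by
  unfold cc
  simp

omit [Fintype G] [DecidableEq A] in
theorem conj_cc (ψ : AddChar A ℂ) (χ : IrrCharacter G) :
    conj (cc φ ψ χ) = (Fintype.card A : ℂ)⁻¹ * ∑ b, (ψ b - 1) * conj ((χ : G → ℂ) (φ b)) := by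
  unfold cc
  rw [map_mul, map_sum, map_inv₀, Complex.conj_natCast]
  congr 1
  refine Finset.sum_congr rfl fun b _ => ?_
  rw [map_mul, map_sub, Complex.conj_conj, map_one]

omit [Fintype G] in
/-- Fourier inversion. -/
theorem fourier {a : A} (ha : a ≠ 0) (χ : IrrCharacter G) :
    (χ : G → ℂ) (φ a) = ∑ ψ : AddChar A ℂ, cc φ ψ χ * ψ a := by
  have hN : (Fintype.card A : ℂ) ≠ 0 := card_ne_zero
  unfold cc
  simp only [mul_assoc, Finset.sum_mul]
  rw [← Finset.mul_sum, Finset.sum_comm]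
  have h1 : ∀ b : A, ∑ ψ : AddChar A ℂ, (conj (ψ b) - 1) * ((χ : G → ℂ) (φ b) * ψ a) =
      (χ : G → ℂ) (φ b) * (if a - b = 0 then (Fintype.card A : ℂ) else 0) := by
    intro b
    have h2 : ∀ ψ : AddChar A ℂ, (conj (ψ b) - 1) * ((χ : G → ℂ) (φ b) * ψ a) =
        (χ : G → ℂ) (φ b) * (ψ (a - b) - ψ a) := by
      intro ψ
      rw [sub_eq_add_neg a b, AddChar.map_add_eq_mul, AddChar.map_neg_eq_conj]
      ring
    simp only [h2]
    rw [← Finset.mul_sum, Finset.sum_sub_distrib, AddChar.sum_apply_eq_ite, AddChar.sum_apply_eq_ite, if_neg ha, sub_zero]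
  simp only [h1, sub_eq_zero]
  rw [Finset.sum_eq_single a]
  · rw [if_pos rfl, ← mul_assoc, mul_comm, ← mul_assoc, mul_inv_cancel₀ hN, one_mul]
  · intro b _ hb
    rw [if_neg (Ne.symm hb), mul_zero]
  · simp

namespace HData

variable (h : HData G A P φ τ s)
include h

/-- The inner products of the multiplicity vectors. -/
theorem gram (hM : IsPModular 2 M) {ψ ω : AddChar A ℂ} (hψ : ψ ≠ 0) (hω : ω ≠ 0) :
    ∑ χ ∈ TB M G, cc φ ψ χ * conj (cc φ ω χ) =
      3 + (if ω = ψ then 1 else 0) + (if ω = h.tw ψ then 1 else 0) + (if ω = h.tw (h.tw ψ) then 1 else 0) := by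
  classical
  have hN : (Fintype.card A : ℂ) ≠ 0 := card_ne_zero
  set N : ℂ := (Fintype.card A : ℂ) with hNdef
  have hpt : ∀ χ : IrrCharacter G, cc φ ψ χ * conj (cc φ ω χ) = N⁻¹ * N⁻¹ * ∑ b, ∑ a,
      (ω b - 1) * ((conj (ψ a) - 1) * ((χ : G → ℂ) (φ a) * conj ((χ : G → ℂ) (φ b)))) := by
    intro χ
    rw [conj_cc]
    unfold cc
    rw [mul_mul_mul_comm, Finset.sum_mul_sum, Finset.sum_comm]
    congr 1
    refine Finset.sum_congr rfl fun b _ => Finset.sum_congr rfl fun a _ => ?_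
    ring
  simp only [hpt]
  rw [← Finset.mul_sum, Finset.sum_comm]
  have hb : ∀ b : A, ∑ χ ∈ TB M G, ∑ a, (ω b - 1) * ((conj (ψ a) - 1) * ((χ : G → ℂ) (φ a) * conj ((χ : G → ℂ) (φ b)))) =
      N * ((ω b - 1) * (conj (ψ b) - 1) + (ω b - 1) * (conj (h.tw ψ b) - 1) + (ω b - 1) * (conj (h.tw (h.tw ψ) b) - 1)) := by
    intro b
    rw [Finset.sum_comm]
    by_cases hb0 : b = 0
    · subst hb0
      simp [AddChar.map_zero_eq_one]
    · have h1 : ∀ a, ∑ χ ∈ TB M G, (ω b - 1) * ((conj (ψ a) - 1) * ((χ : G → ℂ) (φ a) * conj ((χ : G → ℂ) (φ b)))) =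
          (ω b - 1) * ((conj (ψ a) - 1) * (N * ((if a = b then 1 else 0) + (if a = s b then 1 else 0) + (if a = s (s b) then 1 else 0)))) := by
        intro a
        rw [← Finset.mul_sum, ← Finset.mul_sum, h.col hM a hb0]
      simp only [h1]
      simp only [← Finset.mul_sum, mul_add, mul_ite, mul_one, mul_zero, Finset.sum_add_distrib,
        Finset.sum_ite_eq', Finset.sum_ite_eq, Finset.mem_univ, if_true, h.tw_apply]
      ring
  simp only [hb]
  rw [← Finset.mul_sum, Finset.sum_add_distrib, Finset.sum_add_distrib]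
  have hterm : ∀ α : AddChar A ℂ, α ≠ 0 → ∑ b, (ω b - 1) * (conj (α b) - 1) = N * ((if ω = α then 1 else 0) + 1) := by
    intro α hα
    have h1 : ∀ b, (ω b - 1) * (conj (α b) - 1) = conj (α b) * ω b - ω b - conj (α b) + 1 := fun b => by ring
    simp only [h1]
    rw [Finset.sum_add_distrib, Finset.sum_sub_distrib, Finset.sum_sub_distrib, sum_conj_mul, sum_conj_eq_zero hα,
      sum_eq_zero_char hω]
    simp only [Finset.sum_const, Finset.card_univ, nsmul_eq_mul, mul_one, sub_zero]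
    split_ifs <;> ring
  rw [hterm _ hψ, hterm _ (h.tw_ne_zero hψ), hterm _ (h.tw_ne_zero (h.tw_ne_zero hψ))]
  field_simp
  ring

/-- Orthogonality of multiplicity vectors with odd columns. -/
theorem sum_cc_odd (hM : IsPModular 2 M) (ψ : AddChar A ℂ) {ρ : G} (hρ : ¬ 2 ∣ orderOf ρ) :
    ∑ χ ∈ TB M G, (χ : G → ℂ) ρ * conj (cc φ ψ χ) = 0 := by
  classical
  simp only [conj_cc]
  have h1 : ∀ χ : IrrCharacter G, (χ : G → ℂ) ρ * ((Fintype.card A : ℂ)⁻¹ * ∑ b, (ψ b - 1) * conj ((χ : G → ℂ) (φ b))) =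
      (Fintype.card A : ℂ)⁻¹ * ∑ b, (ψ b - 1) * ((χ : G → ℂ) ρ * conj ((χ : G → ℂ) (φ b))) := by
    intro χ
    rw [mul_left_comm, Finset.mul_sum]
    congr 1
    refine Finset.sum_congr rfl fun b _ => ?_
    ring
  simp only [h1]
  rw [← Finset.mul_sum, Finset.sum_comm]
  apply mul_eq_zero_of_right
  apply Finset.sum_eq_zero
  intro b _
  rw [← Finset.mul_sum]
  by_cases hb0 : b = 0
  · subst hb0
    simp [AddChar.map_zero_eq_one]
  · rw [h.col_odd hM hρ hb0, mul_zero]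

end HData

end Columns

end Cfsg.Agent.Lib.Blocks.HomS
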