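import Mathlib
import Cfsg.Prelude.Def_Blocks
import Cfsg.Agent.Lib.Blocks.HomC

/-!
# Groups with abelian Sylow 2-subgroup and a semiregular automorphism of order 3: products of involutions
-/

set_option autoImplicit false

namespace Cfsg.Agent.Lib.Blocks.HomS

open Cfsg Cfsg.Agent.Lib.Blocks.Sections Cfsg.Agent.Lib.Blocks.DihS Cfsg.Agent.Lib.Blocks.Principal
  Cfsg.Agent.Lib.Blocks.PrincipalCen Cfsg.Agent.Lib.Blocks.Local
open scoped ComplexConjugate

universe u v

/-- The Diophantine heart. -/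
theorem diophantine {x y : ℤ} (hx : (x - 1) % 16 = 0) (hy : (y - 1) % 16 = 0)
    (he : (x * y + x + y) * (1 + x + y) = 9 * (x * y)) : x = 1 ∧ y = 1 := by
  obtain ⟨a, rfl⟩ : ∃ a, x = 1 + 16 * a := ⟨(x - 1) / 16, by omega⟩
  obtain ⟨b, rfl⟩ : ∃ b, y = 1 + 16 * b := ⟨(y - 1) / 16, by omega⟩
  set c := a + b with hc
  set q := (1 + 16 * a) * (1 + 16 * b) with hq
  have hD : (6 - 16 * c) * q = 72 - 17 * (6 - 16 * c) + (6 - 16 * c) ^ 2 := by
    have h1 : 1 + 16 * a + (1 + 16 * b) = 2 + 16 * c := by rw [hc]; ring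
    have h2 : (q + (1 + 16 * a) + (1 + 16 * b)) * (1 + (1 + 16 * a) + (1 + 16 * b)) = 9 * q := he
    have h3 : q + (1 + 16 * a) + (1 + 16 * b) = q + (2 + 16 * c) := by rw [← h1]; ring
    have h4 : 1 + (1 + 16 * a) + (1 + 16 * b) = 3 + 16 * c := by rw [hc]; ring
    rw [h3, h4] at h2
    linear_combination (-1 : ℤ) * h2
  have hdvd : (6 - 16 * c) ∣ 72 := by
    refine ⟨q - (6 - 16 * c) + 17, ?_⟩
    linear_combination (-1 : ℤ) * hD
  have hle := Int.le_of_dvd (by norm_num) hdvd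
  have hle' := Int.le_of_dvd (by norm_num) ((neg_dvd).mpr hdvd)
  have hc1 : c ≤ 4 := by omega
  have hc2 : -4 ≤ c := by omega
  have hc0 : c = 0 := by
    interval_cases c <;> first | rfl | (exfalso; revert hdvd; decide)
  rw [hc0] at hD
  have hq1 : q = 1 := by
    norm_num at hD
    linarith
  have hab : a = -b := by omega
  subst hab
  have hb0 : b = 0 := by
    have h5 : (1 + 16 * -b) * (1 + 16 * b) = 1 := hq1
    have h6 : 256 * b ^ 2 = 0 := by linear_combination (-1 : ℤ) * h5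
    have h7 : b ^ 2 = 0 := by linarith
    exact pow_eq_zero_iff (by norm_num) |>.mp h7
  subst hb0
  simp

section Groups

variable {G : Type u} [Group G] [Fintype G] {A : Type v} [AddCommGroup A]
  {P : Sylow 2 G} {φ : A → G} {τ : G} {s : A → A} {M : Ideal AlgInt}

namespace HData

variable (h : HData G A P φ τ s)
include h

/-- Principal block characters are constant on the sections of nontrivial 2-elements. -/
theorem apply_mul_odd [Fintype A] (hM : IsPModular 2 M) {χ : IrrCharacter G} (hχ : χ ∈ principalBlock M G) {t y : G} {j : ℕ}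
    (ht : orderOf t = 2 ^ j) (ht1 : t ≠ 1) (hc : Commute t y) (hy : ¬ 2 ∣ orderOf y) :
    (χ : G → ℂ) (t * y) = (χ : G → ℂ) t := by
  classical
  have : Fact (Nat.Prime 2) := ⟨by norm_num⟩
  haveI hMp : M.IsPrime := isPrime_of_isPModular hM
  obtain ⟨a, hconj⟩ := h.exists_conj_of_order ht
  have ha0 : a ≠ 0 := by
    rintro rfl
    rw [h.map_zero] at hconj
    exact ht1 (isConj_one_right.mp hconj.symm)
  obtain ⟨g, hg⟩ := isConj_iff.mp hconj
  set y' := g * y * g⁻¹ with hy'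
  have hcomm : φ a * y' = y' * φ a := by
    rw [← hg, hy']
    have e1 : g * t * g⁻¹ * (g * y * g⁻¹) = g * (t * y) * g⁻¹ := by group
    have e2 : g * y * g⁻¹ * (g * t * g⁻¹) = g * (y * t) * g⁻¹ := by group
    rw [e1, e2, hc.eq]
  have hoy : ¬ 2 ∣ orderOf y' := by
    rw [hy', orderOf_conj_eq]
    exact hy
  have e : g * (t * y) * g⁻¹ = φ a * y' := by
    rw [← hg, hy']
    group
  have h1 : (χ : G → ℂ) (t * y) = (χ : G → ℂ) (φ a * y') := by
    rw [← e]
    exact Cfsg.Agent.Lib.Char.CompleteCor.irr_apply_of_isConj (isConj_iff.mpr ⟨g, rfl⟩) χ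
  have h2 : (χ : G → ℂ) t = (χ : G → ℂ) (φ a) :=
    Cfsg.Agent.Lib.Char.CompleteCor.irr_apply_of_isConj hconj χ
  rw [h1, h2]
  letI : Fintype (Cen (φ a)) := Fintype.ofFinite _
  obtain ⟨i, hi⟩ := h.order_of a
  obtain ⟨J, hJ⟩ := h.exists_card_pow
  have hvC : y' ∈ Cen (φ a) := Subgroup.mem_centralizer_singleton_iff.mpr hcomm.symm
  have hs : (pPrimeCore 2 (Cen (φ a))).index = 2 ^ J := by
    rw [h.index_core ha0, h.card_P, hJ]
  have hv : (⟨y', hvC⟩ : Cen (φ a)) ∈ pPrimeCore 2 (Cen (φ a)) := by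
    apply mem_core_of_odd hs
    rw [← Subgroup.orderOf_coe]
    exact hoy
  exact apply_mul_core hM hi hv hχ

/-- The 2-part of a product of two involutions squares to 1. -/
theorem two_part_sq {a b u w : G} {k : ℕ} (ha : a * a = 1) (hb : b * b = 1) (huw : u * w = a * b) (hc : Commute u w)
    (hu : orderOf u = 2 ^ k) (hw : ¬ 2 ∣ orderOf w) : u * u = 1 := by
  classical
  have : Fact (Nat.Prime 2) := ⟨by norm_num⟩
  set g := a * b with hg
  have hp : IsPPart 2 g u := ⟨w, huw, hc, ⟨k, hu⟩, hw⟩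
  obtain ⟨n, hn⟩ := isPPart_exists_pow_eq hp
  rcases Nat.eq_zero_or_pos k with rfl | hk
  · rw [pow_zero, orderOf_eq_one_iff] at hu
    rw [hu, one_mul]
  have hainv : a⁻¹ = a := inv_eq_of_mul_eq_one_right ha
  have hbinv : b⁻¹ = b := inv_eq_of_mul_eq_one_right hb
  have hag : a * g * a⁻¹ = g⁻¹ := by
    rw [hg, mul_inv_rev, hainv, hbinv, ← mul_assoc, ha, one_mul]
  have hbg : b * g * b⁻¹ = g⁻¹ := by
    rw [hg, mul_inv_rev, hainv, hbinv]
    have e : b * (a * b) * b = (b * a) * (b * b) := by group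
    rw [e, hb, mul_one]
  -- the involution in `⟨u⟩`
  set z := u ^ 2 ^ (k - 1) with hz
  have hzz : z * z = 1 := by
    rw [hz, ← pow_add, ← two_mul, ← pow_succ', show k - 1 + 1 = k by omega, ← hu, pow_orderOf_eq_one]
  have hz1 : z ≠ 1 := by
    have : 2 ^ (k - 1) < orderOf u := by
      rw [hu]
      exact Nat.pow_lt_pow_right (by norm_num) (by omega)
    exact pow_ne_one_of_lt_orderOf (by positivity) this
  have hzg : z = g ^ (n * 2 ^ (k - 1)) := by
    rw [hz, ← hn, pow_mul]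
  have hzinv : z⁻¹ = z := inv_eq_of_mul_eq_one_right hzz
  have haz : a * z = z * a := by
    have e : a * z * a⁻¹ = z⁻¹ := by
      rw [hzg, ← conj_pow, hag, inv_pow]
    rw [hzinv] at e
    calc a * z = a * z * a⁻¹ * a := by group
      _ = z * a := by rw [e]
  have hbz : b * z = z * b := by
    have e : b * z * b⁻¹ = z⁻¹ := by
      rw [hzg, ← conj_pow, hbg, inv_pow]
    rw [hzinv] at e
    calc b * z = b * z * b⁻¹ * b := by group
      _ = z * b := by rw [e]
  have hzo : orderOf z = 2 ^ 1 := by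
    rw [pow_one]
    exact orderOf_eq_prime (by rw [pow_two]; exact hzz) hz1
  obtain ⟨c, hcz⟩ := h.exists_conj_of_order hzo
  obtain ⟨y, hy⟩ := isConj_iff.mp hcz
  have hc0 : c ≠ 0 := by
    rintro rfl
    rw [h.map_zero] at hcz
    exact hz1 (isConj_one_right.mp hcz.symm)
  letI : Fintype (Cen (φ c)) := Fintype.ofFinite _
  set Q : Sylow 2 (Cen (φ c)) := P.subtype (h.P_le_cen c) with hQ
  have hQmem : ∀ x : Cen (φ c), x ∈ (Q : Subgroup (Cen (φ c))) ↔ (x : G) ∈ (P : Subgroup G) := by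
    intro x
    rw [hQ, Sylow.coe_subtype, Subgroup.mem_subgroupOf]
  have hidx : (pPrimeCore 2 (Cen (φ c))).index = Nat.card (Q : Subgroup (Cen (φ c))) := by
    rw [h.index_core hc0]
    apply Nat.card_congr
    exact (Subgroup.subgroupOfEquivOfLe (h.P_le_cen c)).toEquiv.symm
  obtain ⟨π, hπ1, hπ2, hπ3⟩ := exists_retraction Q hidx
  have hconjC : ∀ x : G, x * z = z * x → y * x * y⁻¹ ∈ Cen (φ c) := by
    intro x hx
    rw [Subgroup.mem_centralizer_singleton_iff, ← hy]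
    have e1 : y * x * y⁻¹ * (y * z * y⁻¹) = y * (x * z) * y⁻¹ := by group
    have e2 : y * z * y⁻¹ * (y * x * y⁻¹) = y * (z * x) * y⁻¹ := by group
    rw [e1, e2, hx]
  set x₁ : Cen (φ c) := ⟨y * a * y⁻¹, hconjC a haz⟩ with hx₁
  set x₂ : Cen (φ c) := ⟨y * b * y⁻¹, hconjC b hbz⟩ with hx₂
  have hx₁₁ : x₁ * x₁ = 1 := by
    apply Subtype.ext
    show y * a * y⁻¹ * (y * a * y⁻¹) = 1
    have e : y * a * y⁻¹ * (y * a * y⁻¹) = y * (a * a) * y⁻¹ := by group
    rw [e, ha]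
    group
  have hx₂₂ : x₂ * x₂ = 1 := by
    apply Subtype.ext
    show y * b * y⁻¹ * (y * b * y⁻¹) = 1
    have e : y * b * y⁻¹ * (y * b * y⁻¹) = y * (b * b) * y⁻¹ := by group
    rw [e, hb]
    group
  have hπcomm : π x₁ * π x₂ = π x₂ * π x₁ := by
    obtain ⟨e1, he1⟩ := (h.hmem _).mp ((hQmem _).mp (hπ1 x₁))
    obtain ⟨e2, he2⟩ := (h.hmem _).mp ((hQmem _).mp (hπ1 x₂))
    apply Subtype.ext
    simp only [Subgroup.coe_mul]
    rw [← he1, ← he2, h.comm]
  have hπsq : π ((x₁ * x₂) * (x₁ * x₂)) = 1 := by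
    simp only [map_mul]
    have e : π x₁ * π x₂ * (π x₁ * π x₂) = π x₁ * π x₁ * (π x₂ * π x₂) := by
      rw [mul_assoc, ← mul_assoc (π x₂), ← hπcomm]
      simp only [mul_assoc]
    rw [e, ← map_mul, ← map_mul, hx₁₁, hx₂₂, map_one, mul_one]
  have hodd : ¬ 2 ∣ orderOf ((x₁ * x₂) * (x₁ * x₂)) := (hπ3 _).mp hπsq
  have hg2 : ¬ 2 ∣ orderOf (g * g) := by
    rw [← Subgroup.orderOf_coe] at hodd
    have e : (((x₁ * x₂) * (x₁ * x₂) : Cen (φ c)) : G) = y * (g * g) * y⁻¹ := by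
      show y * a * y⁻¹ * (y * b * y⁻¹) * (y * a * y⁻¹ * (y * b * y⁻¹)) = y * (g * g) * y⁻¹
      rw [hg]
      group
    rw [e, orderOf_conj_eq] at hodd
    exact hodd
  have huu : u * u = (g * g) ^ n := by
    rw [← hn, ← pow_two, ← pow_mul, ← pow_two, ← pow_mul, mul_comm]
  have h1 : orderOf (u * u) ∣ orderOf (g * g) := by
    rw [huu]
    exact orderOf_pow_dvd n
  have h2 : orderOf (u * u) ∣ 2 ^ k := by
    apply orderOf_dvd_of_pow_eq_one
    rw [← pow_two, ← pow_mul, mul_comm, pow_mul, ← hu, pow_orderOf_eq_one, one_pow]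
  obtain ⟨i, -, hi⟩ := (Nat.dvd_prime_pow Nat.prime_two).mp h2
  have hi0 : i = 0 := by
    by_contra h0
    apply hg2
    have : 2 ∣ orderOf (u * u) := by
      rw [hi]
      exact dvd_pow_self 2 h0
    exact this.trans h1
  rw [hi0, pow_zero, orderOf_eq_one_iff] at hi
  exact hi

end HData

end Groups

end Cfsg.Agent.Lib.Blocks.HomS
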