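import Mathlib
import Cfsg.Prelude.Def_Blocks
import Cfsg.Agent.Lib.Blocks.HomD
import Cfsg.Agent.Lib.Blocks.WeakOrth

/-!
# Groups with abelian Sylow 2-subgroup and a semiregular automorphism of order 3: the principal block
contains a nontrivial linear character trivial on `P`
-/

set_option autoImplicit false

namespace Cfsg.Agent.Lib.Blocks.HomS

open Cfsg Cfsg.Agent.Lib.Blocks.Sections Cfsg.Agent.Lib.Blocks.DihS Cfsg.Agent.Lib.Blocks.Principal
  Cfsg.Agent.Lib.Blocks.PrincipalCen Cfsg.Agent.Lib.Blocks.Local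
open scoped ComplexConjugate

universe u v

section Sums

variable {X : Type*} [DecidableEq X] {R : Type*} [CommRing R]

lemma sum_three_gen (S : Finset X) {w r s : X} (hw : w ∈ S) (hr : r ∈ S) (hs : s ∈ S) (hwr : w ≠ r) (hws : w ≠ s)
    (hrs : r ≠ s) (u : X → R) (hu : ∀ x ∈ S, x ≠ w → x ≠ r → x ≠ s → u x = 0) :
    ∑ x ∈ S, u x = u w + u r + u s := by
  have h1 : ({w, r, s} : Finset X) ⊆ S := by
    intro x hx
    rw [Finset.mem_insert, Finset.mem_insert, Finset.mem_singleton] at hx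
    rcases hx with rfl | rfl | rfl <;> assumption
  rw [← Finset.sum_subset h1, Finset.sum_insert (by simp [hwr, hws]), Finset.sum_pair hrs, add_assoc]
  intro x hx hx'
  rw [Finset.mem_insert, Finset.mem_insert, Finset.mem_singleton, not_or, not_or] at hx'
  exact hu x hx hx'.1 hx'.2.1 hx'.2.2

end Sums

variable {G : Type u} [Group G] [Fintype G] {A : Type v} [AddCommGroup A] [Fintype A] [DecidableEq A]
  {P : Sylow 2 G} {φ : A → G} {τ : G} {s : A → A} {M : Ideal AlgInt}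

namespace HData

variable (h : HData G A P φ τ s)
include h

/-- **The main theorem on the principal block**: when the Sylow 2-subgroup is not elementary abelian, and has order at
least 16, the principal 2-block contains a nontrivial linear character trivial on `P`. -/
theorem exists_linear (hM : IsPModular 2 M) (h16 : 16 ∣ Fintype.card A) (hne : ∃ a : A, a + a ≠ 0) :
    ∃ χ : IrrCharacter G, χ ≠ trivChar G ∧ (χ : G → ℂ) 1 = 1 ∧ ∀ a, (χ : G → ℂ) (φ a) = 1 := by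
  classical
  have : Fact (Nat.Prime 2) := ⟨by norm_num⟩
  haveI hMp : M.IsPrime := isPrime_of_isPModular hM
  have hNpos : 0 < Fintype.card A := Fintype.card_pos
  have hN16 : 16 ≤ Fintype.card A := Nat.le_of_dvd hNpos h16
  set T := TB M G with hT
  have h1T : trivChar G ∈ T := Finset.mem_filter.mpr ⟨Finset.mem_univ _, trivChar_mem_principalBlock⟩
  set S := T.erase (trivChar G) with hS
  choose cz hcz using fun (ψ : AddChar A ℂ) (χ : IrrCharacter G) => h.cc_int ψ χ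
  have hcz1 : ∀ ψ : AddChar A ℂ, ψ ≠ 0 → cz ψ (trivChar G) = -1 := by
    intro ψ hψ
    have h3 := cc_triv (φ := φ) (G := G) hψ
    rw [hcz] at h3
    exact_mod_cast h3
  have hcz0 : ∀ x, cz 0 x = 0 := by
    intro x
    have h3 := cc_zero_char (φ := φ) x
    rw [hcz] at h3
    exact_mod_cast h3
  have hcztw : ∀ ψ x, cz (h.tw ψ) x = cz ψ x := by
    intro ψ x
    have h3 := h.cc_tw ψ x
    rw [hcz, hcz] at h3
    exact_mod_cast h3
  have hconjz : ∀ ψ x, conj (cc φ ψ x) = (cz ψ x : ℂ) := by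
    intro ψ x
    rw [hcz, map_intCast]
  -- the Gram matrix on `S`
  have hgramS : ∀ ψ ω : AddChar A ℂ, ψ ≠ 0 → ω ≠ 0 → ∑ x ∈ S, cz ψ x * cz ω x =
      2 + (if ω = ψ then 1 else 0) + (if ω = h.tw ψ then 1 else 0) + (if ω = h.tw (h.tw ψ) then 1 else 0) := by
    intro ψ ω hψ hω
    have h3 := h.gram hM (M := M) hψ hω
    simp only [hconjz] at h3
    simp only [hcz] at h3
    have h4 := Finset.add_sum_erase T (fun x => cz ψ x * cz ω x) h1T
    simp only [hcz1 ψ hψ, hcz1 ω hω] at h4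
    have h5 : ∑ x ∈ T, cz ψ x * cz ω x =
        3 + (if ω = ψ then 1 else 0) + (if ω = h.tw ψ then 1 else 0) + (if ω = h.tw (h.tw ψ) then 1 else 0) := by
      have h6 : ((∑ x ∈ T, cz ψ x * cz ω x : ℤ) : ℂ) = ((3 + (if ω = ψ then 1 else 0) + (if ω = h.tw ψ then 1 else 0) +
          (if ω = h.tw (h.tw ψ) then 1 else 0) : ℤ) : ℂ) := by
        push_cast
        rw [h3]
      exact_mod_cast h6
    rw [h5] at h4
    linarith
  have hnorm : ∀ ψ : AddChar A ℂ, ψ ≠ 0 → ∑ x ∈ S, cz ψ x ^ 2 = 3 := by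
    intro ψ hψ
    have h3 := hgramS ψ ψ hψ hψ
    rw [if_pos rfl, if_neg (h.tw_ne hψ).symm, if_neg (h.tw_tw_ne hψ).symm] at h3
    simp only [pow_two]
    rw [h3]
    norm_num
  have hnoneq : ∀ ψ ω : AddChar A ℂ, ψ ≠ 0 → ω ≠ 0 → ω ≠ ψ → ω ≠ h.tw ψ → ω ≠ h.tw (h.tw ψ) →
      ∑ x ∈ S, cz ψ x * cz ω x = 2 := by
    intro ψ ω hψ hω h1 h2 h3
    rw [hgramS ψ ω hψ hω, if_neg h1, if_neg h2, if_neg h3]
    norm_num
  have hczeq : ∀ ψ ω : AddChar A ℂ, (ω = ψ ∨ ω = h.tw ψ ∨ ω = h.tw (h.tw ψ)) → cz ω = cz ψ := by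
    rintro ψ ω (rfl | rfl | rfl)
    · rfl
    · funext x
      exact hcztw _ _
    · funext x
      rw [hcztw, hcztw]
  -- the family
  set J : Finset (AddChar A ℂ) := Finset.univ.filter (· ≠ 0) with hJ
  have hJmem : ∀ {ψ : AddChar A ℂ}, ψ ∈ J ↔ ψ ≠ 0 := by
    intro ψ
    simp [hJ]
  have hJcard : J.card = Fintype.card A - 1 := by
    rw [hJ, Finset.filter_ne', Finset.card_erase_of_mem (Finset.mem_univ _), Finset.card_univ, AddChar.card_eq]
  have hfive : 5 ≤ (J.image cz).card := by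
    have h1 : J.card ≤ 3 * (J.image cz).card := by
      apply Finset.card_le_mul_card_image
      intro v hv
      obtain ⟨ψ, hψ, rfl⟩ := Finset.mem_image.mp hv
      have hψ0 := hJmem.mp hψ
      calc (J.filter fun x => cz x = cz ψ).card ≤ ({ψ, h.tw ψ, h.tw (h.tw ψ)} : Finset (AddChar A ℂ)).card := by
            apply Finset.card_le_card
            intro ω hω
            obtain ⟨hω1, hω2⟩ := Finset.mem_filter.mp hω
            rw [Finset.mem_insert, Finset.mem_insert, Finset.mem_singleton]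
            by_contra hcon
            push Not at hcon
            have h4 := hnoneq ψ ω hψ0 (hJmem.mp hω1) hcon.1 hcon.2.1 hcon.2.2
            rw [hω2] at h4
            have h5 := hnorm ψ hψ0
            simp only [pow_two] at h5
            rw [h5] at h4
            norm_num at h4
        _ ≤ 3 := Finset.card_le_three
    omega
  obtain ⟨p, q, gp, gq, hpS, hqS, hpq, hgp, hgq, hall⟩ := shape_family S J cz
    (fun ψ hψ => hnorm ψ (hJmem.mp hψ))
    (fun ψ hψ ω hω hne' => by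
      apply hnoneq ψ ω (hJmem.mp hψ) (hJmem.mp hω)
      · intro he
        exact hne' (hczeq ψ ω (Or.inl he)).symm
      · intro he
        exact hne' (hczeq ψ ω (Or.inr (Or.inl he))).symm
      · intro he
        exact hne' (hczeq ψ ω (Or.inr (Or.inr he))).symm)
    ⟨J.image cz, fun v hv => by
      obtain ⟨ψ, hψ, rfl⟩ := Finset.mem_image.mp hv
      exact ⟨ψ, hψ, rfl⟩, hfive⟩
  have hall' : ∀ ψ : AddChar A ℂ, ψ ≠ 0 → cz ψ p = gp ∧ cz ψ q = gq ∧ ∃ y ∈ S, y ≠ p ∧ y ≠ q ∧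
      (cz ψ y = 1 ∨ cz ψ y = -1) ∧ ∀ x ∈ S, x ≠ p → x ≠ q → x ≠ y → cz ψ x = 0 :=
    fun ψ hψ => hall ψ (hJmem.mpr hψ)
  -- values of characters with constant multiplicities
  have hfour : ∀ (x : IrrCharacter G) {a : A}, a ≠ 0 → (x : G → ℂ) (φ a) = ∑ ψ : AddChar A ℂ, (cz ψ x : ℂ) * ψ a := by
    intro x a ha
    rw [fourier ha x]
    simp only [hcz]
  have hvalc : ∀ (x : IrrCharacter G) (g : ℤ), (∀ ψ : AddChar A ℂ, ψ ≠ 0 → cz ψ x = g) → ∀ {a : A}, a ≠ 0 →
      (x : G → ℂ) (φ a) = ((-g : ℤ) : ℂ) := by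
    intro x g hg a ha
    rw [hfour x ha]
    have h0 : ∑ ψ : AddChar A ℂ, ψ a = 0 := by
      rw [AddChar.sum_apply_eq_ite, if_neg ha]
    have h1 : ∑ ψ : AddChar A ℂ, (cz ψ x : ℂ) * ψ a = ∑ ψ : AddChar A ℂ, ((cz ψ x : ℂ) - g) * ψ a := by
      have h2 : ∀ ψ : AddChar A ℂ, ((cz ψ x : ℂ) - g) * ψ a = (cz ψ x : ℂ) * ψ a - g * ψ a := fun ψ => by ring
      simp only [h2]
      rw [Finset.sum_sub_distrib, ← Finset.mul_sum, h0, mul_zero, sub_zero]
    rw [h1, Finset.sum_eq_single 0]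
    · rw [hcz0]
      simp
    · intro ψ _ hψ
      rw [hg ψ hψ]
      simp
    · simp
  have hpval : ∀ {a : A}, a ≠ 0 → (p : G → ℂ) (φ a) = ((-gp : ℤ) : ℂ) :=
    fun ha => hvalc p gp (fun ψ hψ => (hall' ψ hψ).1) ha
  have hqval : ∀ {a : A}, a ≠ 0 → (q : G → ℂ) (φ a) = ((-gq : ℤ) : ℂ) :=
    fun ha => hvalc q gq (fun ψ hψ => (hall' ψ hψ).2.1) ha
  -- the special character
  obtain ⟨a₁, ha₁⟩ := hne
  obtain ⟨ψ', hψ'⟩ := (AddChar.exists_apply_ne_zero).mpr ha₁
  set ψ₀ : AddChar A ℂ := ψ' * ψ' with hψ₀def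
  have hψ₀a : ∀ a, ψ₀ a = ψ' (a + a) := by
    intro a
    rw [hψ₀def, AddChar.mul_apply, AddChar.map_add_eq_mul]
  have hψ₀ : ψ₀ ≠ 0 := by
    intro he
    apply hψ'
    rw [← hψ₀a, he]
    simp
  have hψ₀V : ∀ a, a + a = 0 → ψ₀ a = 1 := by
    intro a ha
    rw [hψ₀a, ha, AddChar.map_zero_eq_one]
  obtain ⟨hψ₀p, hψ₀q, y₀, hy₀S, hy₀p, hy₀q, hν, hy₀z⟩ := hall' ψ₀ hψ₀
  set ν := cz ψ₀ y₀ with hνdef
  have hgp2 : gp ^ 2 = 1 := by rcases hgp with rfl | rfl <;> norm_num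
  have hgq2 : gq ^ 2 = 1 := by rcases hgq with rfl | rfl <;> norm_num
  have hν2 : ν ^ 2 = 1 := by rcases hν with h1 | h1 <;> rw [h1] <;> norm_num
  have hsupp : ∀ f : IrrCharacter G → ℤ, ∑ x ∈ S, cz ψ₀ x * f x = gp * f p + gq * f q + ν * f y₀ := by
    intro f
    rw [sum_three_gen S hpS hqS hy₀S hpq hy₀p.symm hy₀q.symm (fun x => cz ψ₀ x * f x) (by
      intro x hx h1 h2 h3
      rw [hy₀z x hx h1 h2 h3, zero_mul])]
    rw [hψ₀p, hψ₀q]
  -- the other multiplicities of `y₀`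
  have hy₀other : ∀ ψ : AddChar A ℂ, ψ ≠ 0 → ψ ≠ ψ₀ → ψ ≠ h.tw ψ₀ → ψ ≠ h.tw (h.tw ψ₀) → cz ψ y₀ = 0 := by
    intro ψ hψ h1 h2 h3
    have h4 := hnoneq ψ₀ ψ hψ₀ hψ h1 h2 h3
    rw [hsupp (cz ψ), (hall' ψ hψ).1, (hall' ψ hψ).2.1] at h4
    have h5 : ν * cz ψ y₀ = 0 := by
      have : gp * gp + gq * gq + ν * cz ψ y₀ = 2 := h4
      nlinarith
    rcases mul_eq_zero.mp h5 with h6 | h6
    · rw [h6] at hν2
      norm_num at hν2
    · exact h6
  have hy₀val : ∀ {a : A}, a ≠ 0 → a + a = 0 → (y₀ : G → ℂ) (φ a) = 3 * (ν : ℂ) := by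
    intro a ha haa
    rw [hfour y₀ ha]
    have hne1 : ψ₀ ≠ h.tw ψ₀ := (h.tw_ne hψ₀).symm
    have hne2 : ψ₀ ≠ h.tw (h.tw ψ₀) := (h.tw_tw_ne hψ₀).symm
    have hne3 : h.tw ψ₀ ≠ h.tw (h.tw ψ₀) := (h.tw_ne (h.tw_ne_zero hψ₀)).symm
    rw [sum_three_gen Finset.univ (Finset.mem_univ ψ₀) (Finset.mem_univ (h.tw ψ₀)) (Finset.mem_univ (h.tw (h.tw ψ₀)))
      hne1 hne2 hne3 (fun ψ => (cz ψ y₀ : ℂ) * ψ a) (by
        intro ψ _ h1 h2 h3
        by_cases h0 : ψ = 0
        · subst h0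
          rw [hcz0]
          simp
        · rw [hy₀other ψ h0 h1 h2 h3]
          simp)]
    have hsa : s a + s a = 0 := by rw [← h.s_add, haa, h.s_zero]
    have hssa : s (s a) + s (s a) = 0 := by rw [← h.s_add, hsa, h.s_zero]
    rw [hcztw, hcztw, hcztw, h.tw_apply, h.tw_apply, h.tw_apply, hψ₀V a haa, hψ₀V _ hsa, hψ₀V _ hssa, ← hνdef]
    ring
  -- the relation on odd elements
  have hodd : ∀ ρ : G, ¬ 2 ∣ orderOf ρ →
      (gp : ℂ) * (p : G → ℂ) ρ + gq * (q : G → ℂ) ρ + ν * (y₀ : G → ℂ) ρ = 1 := by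
    intro ρ hρ
    have h1 := h.sum_cc_odd hM (M := M) ψ₀ hρ
    simp only [hconjz] at h1
    have h2 := Finset.add_sum_erase T (fun x => (x : G → ℂ) ρ * (cz ψ₀ x : ℂ)) h1T
    rw [h1] at h2
    simp only [coe_trivChar, hcz1 ψ₀ hψ₀] at h2
    have h3 : ∑ x ∈ S, (cz ψ₀ x : ℂ) * (x : G → ℂ) ρ = 1 := by
      have e : ∑ x ∈ S, (cz ψ₀ x : ℂ) * (x : G → ℂ) ρ = ∑ x ∈ S, (x : G → ℂ) ρ * (cz ψ₀ x : ℂ) :=
        Finset.sum_congr rfl fun x _ => mul_comm _ _
      rw [e]
      push_cast at h2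
      linear_combination h2
    rw [sum_three_gen S hpS hqS hy₀S hpq hy₀p.symm hy₀q.symm (fun x => (cz ψ₀ x : ℂ) * (x : G → ℂ) ρ) (by
      intro x hx h1 h2 h3
      rw [hy₀z x hx h1 h2 h3]
      simp)] at h3
    rw [hψ₀p, hψ₀q] at h3
    exact h3
  -- degrees
  set D : IrrCharacter G → ℤ := fun x => (charDegree (x : G → ℂ) : ℤ) with hD
  have hDc : ∀ x : IrrCharacter G, (x : G → ℂ) 1 = (D x : ℂ) := by
    intro x
    have h1 := Cfsg.Agent.Lib.Char.Values.IsCharacter.charDegree_cast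
      (Cfsg.Agent.Lib.Char.Basic.isCharacter_of_isIrrCharacter x.2)
    rw [← h1]
    simp [hD]
  have hDpos : ∀ x, 0 < D x := by
    intro x
    obtain ⟨n, hn, h1⟩ := Cfsg.Agent.Lib.Char.Ortho.irr_degree_pos x.2
    rw [hDc] at h1
    have h2 : D x = n := by exact_mod_cast h1
    rw [h2]
    exact_mod_cast hn
  have hdeg : gp * D p + gq * D q + ν * D y₀ = 1 := by
    have h1 := hodd 1 (by simp)
    simp only [hDc] at h1
    exact_mod_cast h1
  -- congruences
  have hcong : ∀ (x : IrrCharacter G) (e : ℤ), (∀ {a : A}, a ≠ 0 → (x : G → ℂ) (φ a) = (e : ℂ)) →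
      ∃ k : ℤ, D x - e = Fintype.card A * k := by
    intro x e hx
    obtain ⟨n, hn⟩ := h.exists_nat_mult 0 x
    simp only [AddChar.zero_apply, map_one, mul_one] at hn
    have hN : (Fintype.card A : ℂ) ≠ 0 := card_ne_zero
    have h1 : ∑ a, (x : G → ℂ) (φ a) = Fintype.card A * (n : ℂ) := by
      rw [← hn, ← mul_assoc, mul_inv_cancel₀ hN, one_mul]
    have h2 : ∑ a, (x : G → ℂ) (φ a) = (D x : ℂ) + ((Fintype.card A : ℂ) - 1) * e := by
      rw [← Finset.add_sum_erase Finset.univ _ (Finset.mem_univ (0 : A)), h.map_zero, hDc]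
      congr 1
      rw [Finset.sum_congr rfl (fun a ha => hx (Finset.ne_of_mem_erase ha)), Finset.sum_const,
        Finset.card_erase_of_mem (Finset.mem_univ _), Finset.card_univ, nsmul_eq_mul]
      congr 1
      have : 1 ≤ Fintype.card A := hNpos
      push_cast [Nat.cast_sub this]
      ring
    refine ⟨n - e, ?_⟩
    rw [h1] at h2
    have h3 : (D x : ℂ) - e = (Fintype.card A : ℂ) * ((n : ℂ) - e) := by
      linear_combination -h2
    exact_mod_cast h3
  obtain ⟨k₁, hk₁⟩ := hcong p (-gp) hpval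
  obtain ⟨k₂, hk₂⟩ := hcong q (-gq) hqval
  obtain ⟨c, hc⟩ := h16
  -- the involution
  obtain ⟨v₀, hv₀⟩ := exists_prime_addOrderOf_dvd_card (G := A) 2 (by
    rw [hc]
    exact ⟨8 * c, by ring⟩)
  have hv₀v₀ : v₀ + v₀ = 0 := by
    have h1 := addOrderOf_nsmul_eq_zero v₀
    rw [hv₀, two_nsmul] at h1
    exact h1
  have hv₀0 : v₀ ≠ 0 := by
    rintro rfl
    simp at hv₀
  set t := φ v₀ with ht
  have htt : t * t = 1 := by
    rw [ht, ← h.hadd, hv₀v₀, h.map_zero]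
  have ht1 : t ≠ 1 := h.map_ne_one hv₀0
  -- the class function
  have hpB : p ∈ principalBlock M G := (Finset.mem_filter.mp (Finset.mem_erase.mp hpS).2).2
  have hqB : q ∈ principalBlock M G := (Finset.mem_filter.mp (Finset.mem_erase.mp hqS).2).2
  have hyB : y₀ ∈ principalBlock M G := (Finset.mem_filter.mp (Finset.mem_erase.mp hy₀S).2).2
  have hgpc : (gp : ℂ) ^ 2 = 1 := by exact_mod_cast hgp2
  have hgqc : (gq : ℂ) ^ 2 = 1 := by exact_mod_cast hgq2
  have hνc : (ν : ℂ) ^ 2 = 1 := by exact_mod_cast hν2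
  have hpr : ∀ b : G, IsConj t b →
      1 - (gp : ℂ) * (p : G → ℂ) (b * t) - gq * (q : G → ℂ) (b * t) - ν * (y₀ : G → ℂ) (b * t) = 0 := by
    intro b hb
    have hbb : b * b = 1 := by
      obtain ⟨g, rfl⟩ := isConj_iff.mp hb
      have e : g * t * g⁻¹ * (g * t * g⁻¹) = g * (t * t) * g⁻¹ := by group
      rw [e, htt]
      group
    obtain ⟨u, w, huw, hcw, ⟨k, hk⟩, hw⟩ := Cfsg.Agent.Lib.Blocks.SecondMain.exists_isPPart 2 (b * t)
    by_cases hu1 : u = 1
    · rw [hu1, one_mul] at huw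
      rw [← huw]
      have := hodd w hw
      linear_combination -this
    · have huu := h.two_part_sq hbb htt huw hcw hk hw
      obtain ⟨v, hv⟩ := h.exists_conj_of_order hk
      have hv0 : v ≠ 0 := by
        rintro rfl
        rw [h.map_zero] at hv
        exact hu1 (isConj_one_right.mp hv.symm)
      have hvv : v + v = 0 := by
        apply h.map_eq_one
        rw [h.hadd]
        obtain ⟨g, hg⟩ := isConj_iff.mp hv
        rw [← hg]
        have e : g * u * g⁻¹ * (g * u * g⁻¹) = g * (u * u) * g⁻¹ := by group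
        rw [e, huu]
        group
      have hval : ∀ κ : IrrCharacter G, κ ∈ principalBlock M G → (κ : G → ℂ) (b * t) = (κ : G → ℂ) (φ v) := by
        intro κ hκ
        rw [← huw, h.apply_mul_odd hM hκ hk hu1 hcw hw]
        exact Cfsg.Agent.Lib.Char.CompleteCor.irr_apply_of_isConj hv κ
      rw [hval p hpB, hval q hqB, hval y₀ hyB, hpval hv0, hqval hv0, hy₀val hv0 hvv]
      push_cast
      linear_combination hgpc + hgqc - 3 * hνc
  -- class sums
  have hsum : ∀ κ : IrrCharacter G, ∑ b : G, (if IsConj t b then (κ : G → ℂ) (b * t) else 0) =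
      ((Cen t).index : ℂ) * (κ : G → ℂ) t / (κ : G → ℂ) 1 * (κ : G → ℂ) t := by
    intro κ
    exact Cfsg.Agent.Lib.Blocks.WeakOrth.sum_isConj_mul κ.2 t t
  have hidx0 : ((Cen t).index : ℂ) ≠ 0 := by
    exact_mod_cast Subgroup.index_ne_zero_of_finite
  have hmain : (1 : ℂ) - gp * ((-gp : ℤ) : ℂ) ^ 2 / D p - gq * ((-gq : ℤ) : ℂ) ^ 2 / D q -
      ν * (3 * ν) ^ 2 / D y₀ = 0 := by
    have h1 : ∑ b : G, (if IsConj t b then ((1 : ℂ) - gp * (p : G → ℂ) (b * t) - gq * (q : G → ℂ) (b * t) -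
        ν * (y₀ : G → ℂ) (b * t)) else 0) = 0 := by
      apply Finset.sum_eq_zero
      intro b _
      split_ifs with hb
      · exact hpr b hb
      · rfl
    have h2 : ∑ b : G, (if IsConj t b then ((1 : ℂ) - gp * (p : G → ℂ) (b * t) - gq * (q : G → ℂ) (b * t) -
        ν * (y₀ : G → ℂ) (b * t)) else 0) =
        (∑ b : G, (if IsConj t b then (trivChar G : G → ℂ) (b * t) else 0)) -
        gp * (∑ b : G, (if IsConj t b then (p : G → ℂ) (b * t) else 0)) -
        gq * (∑ b : G, (if IsConj t b then (q : G → ℂ) (b * t) else 0)) -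
        ν * (∑ b : G, (if IsConj t b then (y₀ : G → ℂ) (b * t) else 0)) := by
      simp only [Finset.mul_sum]
      rw [← Finset.sum_sub_distrib, ← Finset.sum_sub_distrib, ← Finset.sum_sub_distrib]
      refine Finset.sum_congr rfl fun b _ => ?_
      split_ifs
      · simp
      · simp
    rw [h1, hsum, hsum, hsum, hsum] at h2
    simp only [coe_trivChar] at h2
    simp only [hDc] at h2
    rw [hpval hv₀0, hqval hv₀0, hy₀val hv₀0 hv₀v₀] at h2
    have h3 : ((Cen t).index : ℂ) * ((1 : ℂ) - gp * ((-gp : ℤ) : ℂ) ^ 2 / D p - gq * ((-gq : ℤ) : ℂ) ^ 2 / D q -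
      ν * (3 * ν) ^ 2 / D y₀) = 0 := by
      rw [h2]
      field_simp
    exact (mul_eq_zero.mp h3).resolve_left hidx0
  have hDp0 : (D p : ℂ) ≠ 0 := by exact_mod_cast (hDpos p).ne'
  have hDq0 : (D q : ℂ) ≠ 0 := by exact_mod_cast (hDpos q).ne'
  have hDy0 : (D y₀ : ℂ) ≠ 0 := by exact_mod_cast (hDpos y₀).ne'
  have hEq : D p * D q * D y₀ - gp * D q * D y₀ - gq * D p * D y₀ - 9 * ν * D p * D q = 0 := by
    have h1 : (D p : ℂ) * D q * D y₀ - gp * D q * D y₀ - gq * D p * D y₀ - 9 * ν * D p * D q = 0 := by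
      field_simp at hmain
      push_cast at hmain
      linear_combination hmain + (D q : ℂ) * D y₀ * gp * hgpc + (D p : ℂ) * D y₀ * gq * hgqc + 9 * (D p : ℂ) * D q * ν * hνc
    exact_mod_cast h1
  set x := -gp * D p with hx
  set y := -gq * D q with hy
  have hX : 1 + x + y = ν * D y₀ := by
    rw [hx, hy]
    linarith
  have htarget : (x * y + x + y) * (1 + x + y) = 9 * (x * y) := by
    rw [hX, hx, hy]
    linear_combination (gp * gq * ν) * hEq + gq * ν * D q * D y₀ * hgp2 + gp * ν * D p * D y₀ * hgq2 +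
      9 * gp * gq * D p * D q * hν2
  have hxmod : (x - 1) % 16 = 0 := by
    have e : x - 1 = 16 * (-gp * c * k₁) := by
      have h1 : x - 1 = -gp * (D p - (-gp)) + (gp ^ 2 - 1) := by
        rw [hx]
        ring
      rw [h1, hk₁, hgp2, hc]
      push_cast
      ring
    rw [e]
    simp
  have hymod : (y - 1) % 16 = 0 := by
    have e : y - 1 = 16 * (-gq * c * k₂) := by
      have h1 : y - 1 = -gq * (D q - (-gq)) + (gq ^ 2 - 1) := by
        rw [hy]
        ring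
      rw [h1, hk₂, hgq2, hc]
      push_cast
      ring
    rw [e]
    simp
  obtain ⟨hx1, -⟩ := diophantine hxmod hymod htarget
  have hpdeg : D p = 1 ∧ gp = -1 := by
    have hp0 := hDpos p
    rcases hgp with rfl | rfl
    · exfalso
      rw [hx] at hx1
      omega
    · refine ⟨?_, rfl⟩
      rw [hx] at hx1
      omega
  refine ⟨p, (Finset.mem_erase.mp hpS).1, ?_, ?_⟩
  · rw [hDc, hpdeg.1]
    simp
  · intro a
    by_cases ha : a = 0
    · rw [ha, h.map_zero, hDc, hpdeg.1]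
      simp
    · rw [hpval ha, hpdeg.2]
      simp

end HData

end Cfsg.Agent.Lib.Blocks.HomS
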