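import Mathlib
import Cfsg.Prelude.Def_Blocks
import Cfsg.Agent.Lib.Blocks.Knorr3
import Cfsg.Agent.Lib.Blocks.Sections
import Cfsg.Agent.Lib.Blocks.Pairs11

/-!
# Stable blocks of normal subgroups of `p`-power index

If `N` is a normal subgroup of `G` of `p`-power index and `c` is a `G`-stable block of `N`, then the idempotent of `c` is
a block idempotent of `G`, and the defect groups `P` of this block satisfy `N P = G`.
-/

set_option autoImplicit false
set_option linter.style.haveILetI false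
set_option linter.unusedSectionVars false

namespace Cfsg.Agent.Lib.Blocks.IndexP

open Cfsg Cfsg.Agent.Lib.Blocks.Local Cfsg.Agent.Lib.Blocks.Central Cfsg.Agent.Lib.Blocks.Osima
  Cfsg.Agent.Lib.Blocks.Covering Cfsg.Agent.Lib.Blocks.Covering2 Cfsg.Agent.Lib.Blocks.Transport
  Cfsg.Agent.Lib.Blocks.Pairs Cfsg.Agent.Lib.Blocks.FongReynolds Cfsg.Agent.Lib.Blocks.Knorr
open scoped ComplexConjugate

universe u

section Stable

variable {G : Type u} [Group G] [Fintype G] {N : Subgroup G} [hN : N.Normal] [Fintype N] {M : Ideal AlgInt}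
  [hMp : M.IsPrime] {p : ℕ} [hp : Fact p.Prime]

lemma isConjStable_of_stabilizes {c : Set (IrrCharacter N)} (hst : ∀ x : G, StabilizesBlock N c x) :
    IsConjStable (G := G) c := by
  intro g θ hθ
  obtain ⟨-, h⟩ := hst g⁻¹
  obtain ⟨χ', hχ', hconj⟩ := h θ hθ
  have : conjIrr g θ = χ' := by
    apply Subtype.ext
    funext n
    rw [conjIrr_apply]
    symm
    apply hconj
    simp only [inv_inv]
    group
  rw [this]
  exact hχ'

/-- A `G`-stable block of a normal subgroup of `p`-power index gives a block of `G` with the same idempotent. -/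
theorem exists_block_eq (hM : IsPModular p M) (hidx : ∃ k : ℕ, N.index = p ^ k) {c : Set (IrrCharacter N)}
    (hc : IsPBlock M c) (hst : IsConjStable (G := G) c) :
    ∃ B : Set (IrrCharacter G), IsPBlock M B ∧ blockElt B = push N (blockElt c) := by
  classical
  obtain ⟨θ₀, hθ₀⟩ := isPBlock_nonempty hc
  obtain ⟨χ₀, hχ₀⟩ := exists_irr_of_constituent (G := G) θ₀.2
  have hBb : IsPBlock M (blockOf M (χ₀ : G → ℂ)) := ⟨χ₀, rfl⟩
  refine ⟨blockOf M (χ₀ : G → ℂ), hBb, ?_⟩
  have hel := blockElt_mem_localCenter hBb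
  have hpush : push N (res N (blockElt (blockOf M (χ₀ : G → ℂ)))) = blockElt (blockOf M (χ₀ : G → ℂ)) :=
    push_res N fun x hx => coeff_blockElt_eq_zero_of_notMem hM hidx hBb hx
  have hcl : IsClassFunction G (push N (res N (blockElt (blockOf M (χ₀ : G → ℂ))))).coeff := by
    rw [hpush]
    exact hel.1
  have hal : res N (blockElt (blockOf M (χ₀ : G → ℂ))) ∈ localCenter N M :=
    ⟨isClassFunction_of_push hcl, fun n => by rw [coeff_res]; exact hel.2 _⟩
  have h1 : blockElt c = res N (blockElt (blockOf M (χ₀ : G → ℂ))) := by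
    apply Cfsg.Agent.Lib.Blocks.Sections.blockElt_eq_of_omega hal.1
    · intro θ hθ
      obtain ⟨χ, hχ⟩ := exists_irr_of_constituent (G := G) θ.2
      have hsbθ : SameBlock M (θ₀ : N → ℂ) (θ : N → ℂ) := by
        obtain ⟨ξ, rfl⟩ := id hc
        exact sameBlock_trans (sameBlock_symm hθ₀) hθ
      have hsb : SameBlock M (χ₀ : G → ℂ) (χ : G → ℂ) := sameBlock_of_constituents hM hidx hχ₀ hχ hsbθ
      rw [← omega_push_eq_of_constituent χ.2 θ.2 hχ hcl, hpush]
      exact omega_blockElt_of_mem hsb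
    · intro θ hθ
      obtain ⟨χ, hχ⟩ := exists_irr_of_constituent (G := G) θ.2
      rw [← omega_push_eq_of_constituent χ.2 θ.2 hχ hcl, hpush]
      apply omega_blockElt_of_notMem
      intro hχB
      exact hθ (mem_of_sameBlock_of_constituent hst (fun n => (blockElt_mem_localCenter hc).2 n) χ₀.2 χ.2 hχB hχ₀ hθ₀ hχ)
  rw [h1, hpush]

/-- The constituents of the members of the block of `G` lie in the block of `N`. -/
lemma mem_of_constituent {c : Set (IrrCharacter N)} {B : Set (IrrCharacter G)}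
    (hBc : blockElt B = push N (blockElt c)) {χ : IrrCharacter G} (hχ : χ ∈ B) {θ : IrrCharacter N}
    (hcon : classInner (fun n : N => (χ : G → ℂ) n) (θ : N → ℂ) ≠ 0) : θ ∈ c := by
  by_contra h
  have h1 := omega_push_eq_of_constituent χ.2 θ.2 hcon (a := blockElt c)
    (by rw [← hBc]; exact isClassFunction_blockElt B)
  rw [← hBc, omega_blockElt_of_mem hχ, omega_blockElt_of_notMem h] at h1
  exact one_ne_zero h1

/-- The members of the block of `G` are exactly the characters above the block of `N`. -/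
lemma mem_of_constituent' {c : Set (IrrCharacter N)} {B : Set (IrrCharacter G)}
    (hBc : blockElt B = push N (blockElt c)) {χ : IrrCharacter G} {θ : IrrCharacter N} (hθ : θ ∈ c)
    (hcon : classInner (fun n : N => (χ : G → ℂ) n) (θ : N → ℂ) ≠ 0) : χ ∈ B := by
  by_contra h
  have h1 := omega_push_eq_of_constituent χ.2 θ.2 hcon (a := blockElt c)
    (by rw [← hBc]; exact isClassFunction_blockElt B)
  rw [← hBc, omega_blockElt_of_notMem h, omega_blockElt_of_mem hθ] at h1
  exact zero_ne_one h1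

/-- The trace class sum as a sum of class sums of `N`. -/
lemma traceClassSum_eq_sum {g₀ : G} (hg₀ : g₀ ∈ N) {T : Subgroup G}
    (hT : T = Subgroup.centralizer ({g₀} : Set G) ⊔ N) [Fintype (G ⧸ T)] :
    Cfsg.Agent.Lib.Blocks.Induced.traceClassSum N g₀ = ∑ t : G ⧸ T,
      classSum (⟨(Quotient.out t : G) * g₀ * (Quotient.out t : G)⁻¹, hN.conj_mem _ hg₀ _⟩ : N) := by
  classical
  have hout : ∀ t : G ⧸ T, ((Quotient.out t : G) : G ⧸ T) = t := fun t => Quotient.out_eq t
  apply ext_coeff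
  intro k
  rw [← res_classSum, coeff_res, MonoidAlgebra.coeff_sum, Finsupp.finsetSum_apply]
  by_cases h : IsConj g₀ (k : G)
  · rw [coeff_classSum_of_isConj h]
    obtain ⟨x, hx⟩ := isConj_iff.mp h
    rw [Finset.sum_eq_single ((x : G) : G ⧸ T)]
    · rw [coeff_classSum_of_isConj]
      -- `out` of the class of `x`
      have h1 : x⁻¹ * Quotient.out ((x : G) : G ⧸ T) ∈ T := by
        have := hout ((x : G) : G ⧸ T)
        exact QuotientGroup.eq.mp this.symm
      have h1' := hT.le h1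
      rw [← SetLike.mem_coe, Subgroup.mul_normal, Set.mem_mul] at h1'
      obtain ⟨c, hc, ν, hν, hcν⟩ := h1'
      set y := Quotient.out ((x : G) : G ⧸ T) with hy
      have h2 : y = x * (c * ν) := by
        rw [hcν, mul_inv_cancel_left]
      have hc' : c * g₀ * c⁻¹ = g₀ := by
        have := (Subgroup.mem_centralizer_iff.mp hc) g₀ rfl
        rw [← this]
        group
      -- the conjugating element in `N`
      have hconj : x * c * ν⁻¹ * c⁻¹ * x⁻¹ ∈ N := by
        have h3 := hN.conj_mem ν⁻¹ (N.inv_mem hν) (x * c)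
        convert h3 using 1
        group
      rw [isConj_iff]
      refine ⟨⟨_, hconj⟩, ?_⟩
      apply Subtype.ext
      simp only [Subgroup.coe_mul, InvMemClass.coe_inv]
      rw [← hx, h2]
      have h4 : x * c * ν⁻¹ * c⁻¹ * x⁻¹ * (x * (c * ν) * g₀ * (x * (c * ν))⁻¹) * (x * c * ν⁻¹ * c⁻¹ * x⁻¹)⁻¹ =
          x * (c * g₀ * c⁻¹) * x⁻¹ := by group
      rw [h4, hc']
    · intro t _ ht
      rw [coeff_classSum_of_not_isConj]
      intro hconj
      apply ht
      obtain ⟨μ, hμ⟩ := isConj_iff.mp hconj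
      have hμ' := congrArg Subtype.val hμ
      simp only [Subgroup.coe_mul, InvMemClass.coe_inv] at hμ'
      rw [← hx] at hμ'
      set y := Quotient.out t with hy
      have hc : x⁻¹ * μ * y ∈ Subgroup.centralizer ({g₀} : Set G) := by
        rw [Subgroup.mem_centralizer_iff]
        intro u hu
        rw [Set.mem_singleton_iff.mp hu]
        have h5 : x⁻¹ * ((μ : G) * (y * g₀ * y⁻¹) * (μ : G)⁻¹) * x = g₀ := by
          rw [hμ']
          group
        calc g₀ * (x⁻¹ * μ * y) = (x⁻¹ * ((μ : G) * (y * g₀ * y⁻¹) * (μ : G)⁻¹) * x) * (x⁻¹ * μ * y) := by rw [h5]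
          _ = x⁻¹ * μ * y * g₀ := by group
      have hν : x⁻¹ * (μ : G)⁻¹ * x ∈ N := by
        have := hN.conj_mem _ (N.inv_mem μ.2) x⁻¹
        simpa using this
      have hmem : x⁻¹ * y ∈ T := by
        rw [hT]
        have h6 : x⁻¹ * y = (x⁻¹ * (μ : G)⁻¹ * x) * (x⁻¹ * μ * y) := by group
        rw [h6]
        exact Subgroup.mul_mem _ ((le_sup_right : N ≤ _) hν) ((le_sup_left : _ ≤ Subgroup.centralizer ({g₀} : Set G) ⊔ N) hc)
      rw [← hout t]
      exact (QuotientGroup.eq.mpr hmem).symm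
    · intro h0
      exact absurd (Finset.mem_univ _) h0
  · rw [coeff_classSum_of_not_isConj h]
    symm
    refine Finset.sum_eq_zero fun t _ => ?_
    rw [coeff_classSum_of_not_isConj]
    intro hconj
    apply h
    obtain ⟨μ, hμ⟩ := isConj_iff.mp hconj
    have hμ' := congrArg Subtype.val hμ
    simp only [Subgroup.coe_mul, InvMemClass.coe_inv] at hμ'
    rw [isConj_iff]
    refine ⟨μ * Quotient.out t, ?_⟩
    rw [← hμ']
    group

/-- **The defect groups cover the quotient.** -/
theorem sup_eq_top (hM : IsPModular p M) (hidx : ∃ k : ℕ, N.index = p ^ k) {c : Set (IrrCharacter N)} (hc : IsPBlock M c)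
    (hst : IsConjStable (G := G) c) {B : Set (IrrCharacter G)} (hB : IsPBlock M B)
    (hBc : blockElt B = push N (blockElt c)) {P : Subgroup G} (hP : IsDefectGroup p M B P) : N ⊔ P = ⊤ := by
  classical
  obtain ⟨g₀, hg₀, S, rfl⟩ := hP
  have hg₀N : g₀ ∈ N := by
    by_contra h
    apply hg₀.2.1
    have := congrArg (fun a => a.coeff g₀) hBc
    simp only [coeff_blockElt] at this
    rw [this, coeff_push_of_notMem N _ h]
    exact memLocalIdeal_zero
  obtain ⟨χ, hχ⟩ := isPBlock_nonempty hB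
  obtain ⟨θ, hcon⟩ := exists_constituent (N := N) χ.2
  have hθ : θ ∈ c := mem_of_constituent hBc hχ hcon
  set T : Subgroup G := Subgroup.centralizer ({g₀} : Set G) ⊔ N with hT
  have hTtop : T = ⊤ := by
    by_contra hne
    apply hg₀.2.2 χ hχ
    haveI : Fintype (G ⧸ T) := Fintype.ofFinite _
    have hI := centralChar_eq_inducedCentralChar χ.2 θ.2 hcon ⟨g₀, hg₀N⟩
    simp only at hI
    rw [hI, Cfsg.Agent.Lib.Blocks.Induced.inducedCentralChar_eq_omega, traceClassSum_eq_sum hg₀N hT, omega_sum]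
    have hdvd : p ∣ T.index := by
      obtain ⟨k, hk⟩ := hidx
      have h1 : T.index ∣ p ^ k := by
        rw [← hk]
        exact Subgroup.index_dvd_of_le le_sup_right
      obtain ⟨j, -, hj⟩ := (Nat.dvd_prime_pow hp.out).mp h1
      rw [hj]
      have hj0 : j ≠ 0 := by
        rintro rfl
        apply hne
        rw [pow_zero] at hj
        exact Subgroup.index_eq_one.mp hj
      exact dvd_pow_self p hj0
    set c₀ := centralChar (θ : N → ℂ) (⟨g₀, hg₀N⟩ : N) with hc₀
    have hcl : MemLocalRing M c₀ := memLocalRing_centralChar θ.2 _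
    have hterm : ∀ t : G ⧸ T, MemLocalIdeal M (omega (θ : N → ℂ)
        (classSum (⟨(Quotient.out t : G) * g₀ * (Quotient.out t : G)⁻¹, hN.conj_mem _ hg₀N _⟩ : N)) - c₀) := by
      intro t
      rw [omega_classSum (isClassFunction_of_irr θ.2)]
      have h1 : (⟨(Quotient.out t : G) * g₀ * (Quotient.out t : G)⁻¹, hN.conj_mem _ hg₀N _⟩ : N) =
          MulAut.conjNormal (Quotient.out t : G) (⟨g₀, hg₀N⟩ : N) := by
        apply Subtype.ext
        simp [MulAut.conjNormal_apply]
      rw [h1, ← centralChar_conjIrr]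
      have h2 : conjIrr (Quotient.out t : G) θ ∈ c := hst _ _ hθ
      obtain ⟨ξ, rfl⟩ := id hc
      exact sameBlock_trans (sameBlock_symm h2) hθ _
    have hsum := memLocalIdeal_sum (M := M) Finset.univ _ fun t _ => hterm t
    rw [Finset.sum_sub_distrib, Finset.sum_const, Finset.card_univ, nsmul_eq_mul] at hsum
    have hcard : ((Fintype.card (G ⧸ T) : ℕ) : ℂ) * c₀ = ((T.index : ℕ) : ℂ) * c₀ := by
      rw [Subgroup.index_eq_card, Nat.card_eq_fintype_card]
    rw [hcard] at hsum
    have hz : MemLocalIdeal M (((T.index : ℕ) : ℂ) * c₀) :=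
      memLocalIdeal_mul_right ((memLocalIdeal_natCast_iff hM).mpr hdvd) hcl
    have := memLocalIdeal_add hsum hz
    simpa using this
  -- the Sylow subgroup covers
  have hq : IsPGroup p (G ⧸ N) := by
    obtain ⟨k, hk⟩ := hidx
    apply IsPGroup.of_card (n := k)
    rw [← Subgroup.index_eq_card, hk]
  have hcover := sylow_cover N hq (Subgroup.centralizer ({g₀} : Set G)).subtype (fun w => by
    have hw : w ∈ T := by rw [hTtop]; trivial
    rw [hT, ← SetLike.mem_coe, Subgroup.mul_normal, Set.mem_mul] at hw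
    obtain ⟨y, hy, k, hk, rfl⟩ := hw
    exact ⟨⟨y, hy⟩, k, hk, rfl⟩) S
  rw [eq_top_iff]
  intro w _
  obtain ⟨s, hs, k, hk, rfl⟩ := hcover w
  exact Subgroup.mul_mem _ ((le_sup_right : _ ≤ N ⊔ _) ⟨s, hs, rfl⟩) ((le_sup_left : N ≤ _) hk)

/-- The block of `N` and the defect group. -/
theorem isDefectGroup_inf (hM : IsPModular p M) {c : Set (IrrCharacter N)} (hc : IsPBlock M c) {B : Set (IrrCharacter G)}
    (hB : IsPBlock M B) (hBc : blockElt B = push N (blockElt c)) {P : Subgroup G} (hP : IsDefectGroup p M B P) :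
    IsDefectGroup p M c ((P ⊓ N).subgroupOf N) := by
  obtain ⟨c', hc', -, ⟨χ, hχ, θ, hθ, hcon⟩, hdef⟩ := exists_stable_block (N := N) hM hB hP
  have h1 : θ ∈ c := mem_of_constituent hBc hχ hcon
  have h2 : c' = c := by
    obtain ⟨ξ, rfl⟩ := id hc
    obtain ⟨ξ', rfl⟩ := id hc'
    rw [← blockOf_eq_of_mem h1, ← blockOf_eq_of_mem hθ]
  rwa [h2] at hdef

end Stable

end Cfsg.Agent.Lib.Blocks.IndexP

namespace Cfsg.Agent.Lib.Blocks.IndexP

open Cfsg Cfsg.Agent.Lib.Blocks.Local Cfsg.Agent.Lib.Blocks.Central Cfsg.Agent.Lib.Blocks.Osima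
  Cfsg.Agent.Lib.Blocks.Covering Cfsg.Agent.Lib.Blocks.Covering2 Cfsg.Agent.Lib.Blocks.Transport
  Cfsg.Agent.Lib.Blocks.Pairs Cfsg.Agent.Lib.Blocks.FongReynolds Cfsg.Agent.Lib.Blocks.Knorr
open scoped ComplexConjugate

universe u

section Middle

variable {G : Type u} [Group G] [Fintype G] {M : Ideal AlgInt} [hMp : M.IsPrime] {p : ℕ} [hp : Fact p.Prime]

/-- A constituent on `N` of the restriction of a class function comes from a constituent on `L ≥ N`. -/
lemma exists_middle {N L : Subgroup G} [Fintype N] [Fintype L] (hNL : N ≤ L) {χ : G → ℂ}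
    (hχ : IsClassFunction G χ) {θ : N → ℂ}
    (hcon : classInner (fun n : N => χ n) θ ≠ 0) :
    ∃ η : IrrCharacter L, classInner (fun l : L => χ l) (η : L → ℂ) ≠ 0 ∧
      classInner (fun n : N => (η : L → ℂ) (Subgroup.inclusion hNL n)) θ ≠ 0 := by
  classical
  haveI : Finite (IrrCharacter L) := Cfsg.Agent.Lib.Char.Complete.finite_irr
  haveI : Fintype (IrrCharacter L) := Fintype.ofFinite _
  by_contra hno
  push Not at hno
  apply hcon
  have hcl : IsClassFunction L (fun l : L => χ l) := fun g h => by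
    have := hχ (g : G) (h : G)
    simpa using this
  have hexp := Cfsg.Agent.Lib.Char.Complete.eq_sum_classInner (fun l : L => χ l) hcl
  have h1 : ∀ n : N, χ n = ∑ η : IrrCharacter L, classInner (fun l : L => χ l) (η : L → ℂ) *
      (η : L → ℂ) (Subgroup.inclusion hNL n) := by
    intro n
    have := congrFun hexp (Subgroup.inclusion hNL n)
    simpa [Finset.sum_apply, Pi.smul_apply, smul_eq_mul] using this
  rw [Cfsg.Agent.Lib.Char.Induced.classInner_def]
  simp_rw [h1, Finset.sum_mul]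
  rw [Finset.sum_comm]
  have h2 : ∀ η : IrrCharacter L, ∑ n : N, classInner (fun l : L => χ l) (η : L → ℂ) *
      (η : L → ℂ) (Subgroup.inclusion hNL n) * (starRingEnd ℂ) (θ n) = 0 := by
    intro η
    by_cases hη : classInner (fun l : L => χ l) (η : L → ℂ) = 0
    · simp [hη]
    · have h3 := hno η hη
      rw [Cfsg.Agent.Lib.Char.Induced.classInner_def] at h3
      have h4 : ∑ n : N, (η : L → ℂ) (Subgroup.inclusion hNL n) * (starRingEnd ℂ) (θ n) = 0 := by
        have h5 : ((Nat.card N : ℕ) : ℂ)⁻¹ ≠ 0 := inv_ne_zero (by exact_mod_cast Nat.card_pos.ne')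
        exact (mul_eq_zero.mp h3).resolve_left h5
      simp_rw [mul_assoc]
      rw [← Finset.mul_sum, h4, mul_zero]
  simp only [h2, Finset.sum_const_zero, mul_zero]

/-- **Lemma**: for a `G`-stable block `c` of `N` covered by `B` whose defect group lies in `N`, there is no normal
subgroup `L ≥ N` with `L / N` a nontrivial `p`-group. -/
theorem eq_of_defect_le (hM : IsPModular p M) {N L : Subgroup G} [hNn : N.Normal] [hLn : L.Normal] [Fintype N]
    (hNL : N ≤ L) (hLN : ∃ k : ℕ, (N.subgroupOf L).index = p ^ k) {B : Set (IrrCharacter G)} (hB : IsPBlock M B)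
    {c : Set (IrrCharacter N)} (hc : IsPBlock M c) (hst : IsConjStable (G := G) c)
    (hcov : ∃ χ ∈ B, ∃ θ ∈ c, classInner (fun n : N => (χ : G → ℂ) n) (θ : N → ℂ) ≠ 0)
    {D : Subgroup G} (hD : IsDefectGroup p M B D) (hDN : D ≤ N) : L = N := by
  classical
  haveI : Fintype L := Fintype.ofFinite L
  haveI : Fintype (N.subgroupOf L) := Fintype.ofFinite _
  have hcY : IsPBlock M (bT hNL c) := isPBlock_blockMap (Subgroup.subgroupOfEquivOfLe hNL) hc
  have hstY : IsConjStable (G := L) (bT hNL c) := by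
    intro t θ hθ
    rw [bT, mem_blockMap_iff] at hθ ⊢
    have h1 : irrComap (Subgroup.subgroupOfEquivOfLe hNL).symm (conjIrr t θ) =
        conjIrr (t : G) (irrComap (Subgroup.subgroupOfEquivOfLe hNL).symm θ) := by
      apply Subtype.ext
      funext n
      rw [coe_irrComap, conjIrr_apply, conjIrr_apply, coe_irrComap]
      congr 1
    rw [h1]
    exact hst _ _ hθ
  obtain ⟨BL, hBL, hBLe⟩ := exists_block_eq hM hLN hcY hstY
  obtain ⟨x₀, S₀, hx₀, hPL⟩ := exists_isDefectGroup (p := p) hM hBL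
  set PL := (S₀ : Subgroup (Subgroup.centralizer ({x₀} : Set L))).map (Subgroup.centralizer ({x₀} : Set L)).subtype with hPLdef
  have hsup := sup_eq_top hM hLN hcY hstY hBL hBLe hPL
  obtain ⟨χ, hχ, θ, hθ, hcon⟩ := hcov
  obtain ⟨η, hη1, hη2⟩ := exists_middle hNL (isClassFunction_of_irr χ.2) hcon
  have hηBL : η ∈ BL := by
    refine mem_of_constituent' hBLe (θ := irrComap (Subgroup.subgroupOfEquivOfLe hNL) θ)
      (irrComap_mem_blockMap _ hθ) ?_
    rw [classInner_res]
    exact hη2
  obtain ⟨P, hP, hPL'⟩ := exists_defect_inf_eq hM hB hBL hPL hχ hηBL hη1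
  obtain ⟨x, hx⟩ := Cfsg.Agent.Lib.Blocks.HeightZero.exists_map_conj_eq_of_isDefectGroup hM hB hD hP
  have hPN : P ≤ N := by
    intro u hu
    have h1 : x * u * x⁻¹ ∈ N := hDN (by rw [← hx]; exact ⟨u, hu, rfl⟩)
    have h2 := hNn.conj_mem _ h1 x⁻¹
    simpa [mul_assoc] using h2
  have hle : PL ≤ N.subgroupOf L := by
    intro u hu
    have h1 : (u : G) ∈ P ⊓ L := by
      rw [hPL']
      exact ⟨u, hu, rfl⟩
    exact Subgroup.mem_subgroupOf.mpr (hPN h1.1)
  have htop : N.subgroupOf L = ⊤ := by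
    rw [sup_eq_left.mpr hle] at hsup
    exact hsup
  apply le_antisymm _ hNL
  intro l hl
  have : (⟨l, hl⟩ : L) ∈ N.subgroupOf L := by rw [htop]; trivial
  exact Subgroup.mem_subgroupOf.mp this

/-- **S4673** in terms of the stabilizer. -/
theorem inf_eq_of_defect_le (hM : IsPModular p M) {N L : Subgroup G} [hNn : N.Normal] [hLn : L.Normal] [Fintype N]
    (hNL : N ≤ L) (hLN : ∃ k : ℕ, (N.subgroupOf L).index = p ^ k) {B : Set (IrrCharacter G)} (hB : IsPBlock M B)
    {c : Set (IrrCharacter N)} (hc : IsPBlock M c) 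
    (hcov : ∃ χ ∈ B, ∃ θ ∈ c, classInner (fun n : N => (χ : G → ℂ) n) (θ : N → ℂ) ≠ 0)
    {D : Subgroup G} (hD : IsDefectGroup p M B D) (hDN : D ≤ N) {T : Subgroup G}
    (hT : ∀ x : G, x ∈ T ↔ StabilizesBlock N c x) : T ⊓ L = N := by
  classical
  have hNT : N ≤ T := fun n hn => (hT n).mpr (stabilizesBlock_of_mem hn c)
  -- the stabilizer, in terms of conjugate characters
  have hS : IsStabilizer c T := by
    intro g
    have hforward : ∀ g : G, StabilizesBlock N c g → ∀ θ ∈ c, conjIrr g⁻¹ θ ∈ c := by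
      intro g hg θ hθ
      obtain ⟨χ', hχ', hconj⟩ := hg.2 θ hθ
      have : conjIrr g⁻¹ θ = χ' := by
        apply Subtype.ext
        funext n
        rw [conjIrr_apply]
        symm
        apply hconj
        simp only [inv_inv]
        group
      rw [this]
      exact hχ'
    have hback : ∀ g : G, (∀ θ ∈ c, conjIrr g⁻¹ θ ∈ c) → StabilizesBlock N c g := by
      intro g hg
      refine ⟨by rw [Subgroup.normalizer_eq_top N]; trivial, fun θ hθ => ⟨_, hg θ hθ, ?_⟩⟩
      intro k k' hk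
      rw [conjIrr_apply]
      apply congrArg (θ : N → ℂ)
      apply Subtype.ext
      simp only [hk, inv_inv]
      group
    constructor
    · intro hg θ hθ
      have := hforward g⁻¹ ((hT _).mp (T.inv_mem hg)) θ hθ
      rwa [inv_inv] at this
    · intro h
      have hg' : g⁻¹ ∈ blockStabilizer (G := G) c hc := (blockStabilizer (G := G) c hc).inv_mem h
      exact (hT g).mpr (hback g hg')
  haveI : Fintype T := Fintype.ofFinite _
  haveI : Fintype (N.subgroupOf T) := Fintype.ofFinite _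
  obtain ⟨χ, hχ, θ, hθ, hcon⟩ := hcov
  obtain ⟨B', hB', ⟨ψ, hψ, θ₂, hθ₂, hc'⟩, hind⟩ := exists_induced_of_covers hNT hc hS hB hχ hθ hcon
  obtain ⟨x₀, S₀, hx₀, hD'⟩ := exists_isDefectGroup (p := p) hM hB'
  have hD'' := (Cfsg.Agent.S4436.result p M hM N c hc T (forall_of_isStabilizer hS) hNT B' hB'
    ⟨ψ, hψ, θ₂, hθ₂, hc'⟩ B hind).1 _ hD'
  obtain ⟨x, hx⟩ := Cfsg.Agent.Lib.Blocks.HeightZero.exists_map_conj_eq_of_isDefectGroup hM hB hD hD''
  have hD'N : (S₀ : Subgroup (Subgroup.centralizer ({x₀} : Set T))).map (Subgroup.centralizer ({x₀} : Set T)).subtype ≤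
      N.subgroupOf T := by
    intro u hu
    apply Subgroup.mem_subgroupOf.mpr
    have h1 : x * (u : G) * x⁻¹ ∈ N := hDN (by rw [← hx]; exact ⟨_, ⟨u, hu, rfl⟩, rfl⟩)
    have h2 := hNn.conj_mem _ h1 x⁻¹
    simpa [mul_assoc] using h2
  haveI : (N.subgroupOf T).Normal := inferInstance
  haveI : (L.subgroupOf T).Normal := inferInstance
  have hidx : ∃ k : ℕ, ((N.subgroupOf T).subgroupOf (L.subgroupOf T)).index = p ^ k := by
    obtain ⟨k, hk⟩ := hLN
    have h1 : (N.subgroupOf T).relIndex (L.subgroupOf T) = N.relIndex (L ⊓ T) := by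
      have h2 : L.subgroupOf T = (L ⊓ T).subgroupOf T := by
        ext u
        simp [Subgroup.mem_subgroupOf]
      rw [h2, Subgroup.relIndex_subgroupOf inf_le_right]
    have h3 : N.relIndex (L ⊓ T) * (L ⊓ T).relIndex L = N.relIndex L :=
      Subgroup.relIndex_mul_relIndex _ _ _ (le_inf hNL hNT) inf_le_left
    have h4 : N.relIndex (L ⊓ T) ∣ p ^ k := by
      rw [← hk]
      exact Dvd.intro _ h3
    obtain ⟨j, -, hj⟩ := (Nat.dvd_prime_pow hp.out).mp h4
    exact ⟨j, by rw [← hj, ← h1]; rfl⟩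
  have hLT := eq_of_defect_le hM (N := N.subgroupOf T) (L := L.subgroupOf T)
    (fun u hu => Subgroup.mem_subgroupOf.mpr (hNL (Subgroup.mem_subgroupOf.mp hu))) hidx hB'
    (isPBlock_blockMap (Subgroup.subgroupOfEquivOfLe hNT) hc : IsPBlock M (bT hNT c)) (isConjStable_bT hNT hS)
    ⟨ψ, hψ, irrComap (Subgroup.subgroupOfEquivOfLe hNT) θ₂, irrComap_mem_blockMap _ hθ₂, by
      rw [classInner_res]
      exact hc'⟩ hD' hD'N
  apply le_antisymm
  · rintro u ⟨huT, huL⟩
    have h1 : (⟨u, huT⟩ : T) ∈ L.subgroupOf T := Subgroup.mem_subgroupOf.mpr huL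
    rw [hLT] at h1
    exact Subgroup.mem_subgroupOf.mp h1
  · exact le_inf hNT hNL

end Middle

end Cfsg.Agent.Lib.Blocks.IndexP
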