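import Mathlib
import Cfsg.Agent.Lib.Blocks.KOCoset

/-!
# The Kiyota–Okuyama theorem in a central extension

Let `Q` be a normal `p`-subgroup of `H`, and `Z` a central `p'`-subgroup containing all the
`p`-regular elements of `C_H(Q)`.  If `U` is a nonempty set of irreducible characters over a linear
character of `Z` such that `∑_{β ∈ U} β(1) β` vanishes on `p`-singular elements, then `U` contains
all irreducible characters over that linear character of `Z`.

With `π` the permutation character of `H` on `Q`, the characters `f_U π^k` have their constituents in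
`U` for all `k`, whence the limit of `π^k / |Q|^k` (the characteristic function of `C_H(Q)`) gives
`∑_{z ∈ Z} f_U(z) f_V(z)^* = 0`, so that `f_U(1) f_V(1) = 0`.
-/

set_option autoImplicit false
set_option linter.unusedSectionVars false
set_option linter.style.haveILetI false

namespace Cfsg.Agent.Lib.Blocks.KOCentral

open Cfsg Cfsg.Agent.Lib.Char.Basic Cfsg.Agent.Lib.Char.Ortho Cfsg.Agent.Lib.Blocks.KOCoset
open scoped ComplexConjugate

universe u

variable {H : Type u} [Group H] [Fintype H]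

open scoped Classical in
/-- The weighted sum `∑_{β ∈ U} β(1) β`. -/
noncomputable def fS (U : Set (IrrCharacter H)) (x : H) : ℂ :=
  ∑ β : IrrCharacter H, if β ∈ U then (β : H → ℂ) 1 * (β : H → ℂ) x else 0

open scoped Classical in
theorem fS_eq (U : Set (IrrCharacter H)) :
    fS U = ∑ β : IrrCharacter H, if β ∈ U then (β : H → ℂ) 1 • (β : H → ℂ) else 0 := by
  funext x
  rw [Finset.sum_apply, fS]
  refine Finset.sum_congr rfl fun β _ => ?_
  split_ifs <;> simp

theorem isCharacter_fS (U : Set (IrrCharacter H)) : IsCharacter H (fS U) := by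
  classical
  rw [fS_eq]
  refine isCharacter_finset_sum _ fun β _ => ?_
  split_ifs
  · obtain ⟨n, -, hn⟩ := irr_degree_pos β.2
    rw [hn, Nat.cast_smul_eq_nsmul]
    exact isCharacter_nsmul (isCharacter_of_isIrrCharacter β.2) n
  · exact isCharacter_zero

open scoped Classical in
theorem classInner_fS_left (U : Set (IrrCharacter H)) (γ : IrrCharacter H) :
    classInner (fS U) (γ : H → ℂ) = if γ ∈ U then (γ : H → ℂ) 1 else 0 := by
  rw [fS_eq, classInner_sum_left]
  have h : ∀ β : IrrCharacter H, classInner (if β ∈ U then (β : H → ℂ) 1 • (β : H → ℂ) else 0)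
      (γ : H → ℂ) = if β = γ then (if γ ∈ U then (γ : H → ℂ) 1 else 0) else 0 := by
    intro β
    by_cases hβγ : β = γ
    · subst hβγ
      rw [if_pos rfl]
      split_ifs
      · rw [classInner_smul_left, classInner_irr_self β.2, mul_one]
      · rw [classInner_zero_left]
    · rw [if_neg hβγ]
      have h1 : classInner (β : H → ℂ) (γ : H → ℂ) = 0 :=
        classInner_irr_of_ne β.2 γ.2 (fun h => hβγ (Subtype.ext h))
      split_ifs
      · rw [classInner_smul_left, h1, mul_zero]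
      · rw [classInner_zero_left]
  simp only [h]
  rw [Finset.sum_ite_eq' Finset.univ γ]
  simp

theorem conj_irr_one (β : IrrCharacter H) : conj ((β : H → ℂ) 1) = (β : H → ℂ) 1 := by
  obtain ⟨n, -, hn⟩ := irr_degree_pos β.2
  rw [hn, Complex.conj_natCast]

open scoped Classical in
theorem classInner_fS_right (A : H → ℂ) (U : Set (IrrCharacter H)) :
    classInner A (fS U) = ∑ β : IrrCharacter H,
      if β ∈ U then (β : H → ℂ) 1 * classInner A (β : H → ℂ) else 0 := by
  rw [fS_eq, classInner_sum_right]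
  refine Finset.sum_congr rfl fun β _ => ?_
  split_ifs
  · rw [classInner_smul_right, conj_irr_one]
  · rw [classInner_zero_right]

/-- A sum of natural numbers in `ℂ`. -/
theorem eq_zero_of_sum_natCast {ι : Type*} (s : Finset ι) (a : ι → ℕ)
    (h : ∑ i ∈ s, (a i : ℂ) = 0) {i : ι} (hi : i ∈ s) : a i = 0 := by
  have h1 : ((∑ i ∈ s, a i : ℕ) : ℂ) = 0 := by
    rw [Nat.cast_sum]
    exact h
  have h2 : ∑ i ∈ s, a i = 0 := by exact_mod_cast h1
  exact (Finset.sum_eq_zero_iff.mp h2) i hi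

open scoped Classical in
/-- If a character is orthogonal to `f_W` then it has no constituent in `W`. -/
theorem classInner_eq_zero_of_fS {A : H → ℂ} (hA : IsCharacter H A) {W : Set (IrrCharacter H)}
    (h : classInner A (fS W) = 0) {β : IrrCharacter H} (hβ : β ∈ W) : classInner A (β : H → ℂ) = 0 := by
  rw [classInner_fS_right] at h
  choose n hn using fun β : IrrCharacter H => exists_nat_classInner hA β
  choose d hd0 hd using fun β : IrrCharacter H => irr_degree_pos β.2
  have h1 := eq_zero_of_sum_natCast Finset.univ (fun β : IrrCharacter H => if β ∈ W then d β * n β else 0)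
    (by
      rw [← h]
      refine Finset.sum_congr rfl fun β _ => ?_
      split_ifs
      · rw [Nat.cast_mul, hd, hn]
      · simp) (Finset.mem_univ β)
  simp only [if_pos hβ] at h1
  rw [hn]
  have h2 : n β = 0 := (Nat.mul_eq_zero.mp h1).resolve_left (hd0 β).ne'
  simp [h2]

theorem fS_one_ne_zero {W : Set (IrrCharacter H)} {β : IrrCharacter H} (hβ : β ∈ W) : fS W 1 ≠ 0 := by
  classical
  intro h
  rw [fS] at h
  choose d hd0 hd using fun β : IrrCharacter H => irr_degree_pos β.2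
  have h1 := eq_zero_of_sum_natCast Finset.univ (fun β : IrrCharacter H => if β ∈ W then d β * d β else 0)
    (by
      rw [← h]
      refine Finset.sum_congr rfl fun β _ => ?_
      split_ifs
      · rw [Nat.cast_mul, hd]
      · simp) (Finset.mem_univ β)
  simp only [if_pos hβ] at h1
  exact (hd0 β).ne' (mul_self_eq_zero.mp h1)

section Pi

variable {p : ℕ} [hp : Fact p.Prime] {Q : Subgroup H} [hQn : Q.Normal] [Fintype Q]

/-- If `A` is orthogonal to `f_W`, then `A π` has no constituent in `W` with `Q` in the kernel. -/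
theorem classInner_mul_pi_eq_zero (hQ : IsPGroup p Q) {A : H → ℂ} (hA : IsCharacter H A)
    (hA0 : ∀ y, p ∣ orderOf y → A y = 0) {W : Set (IrrCharacter H)}
    (hW : ∀ y, p ∣ orderOf y → fS W y = 0) (h : classInner A (fS W) = 0) {β : IrrCharacter H}
    (hβ : β ∈ W) (hT : Triv Q (β : H → ℂ)) : classInner (A * piC Q) (β : H → ℂ) = 0 := by
  classical
  have hAπ : IsCharacter H (A * piC Q) := isCharacter_mul hA (isCharacter_piQ Q)
  rw [classInner_eq_mul_avgQ hQ hA0 (isClassFunction_of_isCharacter (isCharacter_fS W)) hW,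
    inner_avgQ _ (isCharacter_fS W)] at h
  choose n hn using fun β : IrrCharacter H => exists_nat_classInner hAπ β
  choose d hd0 hd using fun β : IrrCharacter H => irr_degree_pos β.2
  have h1 := eq_zero_of_sum_natCast Finset.univ
    (fun β : IrrCharacter H => if Triv Q (β : H → ℂ) then (if β ∈ W then d β * n β else 0) else 0)
    (by
      rw [← h]
      refine Finset.sum_congr rfl fun γ _ => ?_
      split_ifs with h2 h3
      · rw [classInner_fS_left, if_pos h3, conj_irr_one, Nat.cast_mul, hd, hn]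
      · rw [classInner_fS_left, if_neg h3]
        simp
      · simp) (Finset.mem_univ β)
  simp only [if_pos hT, if_pos hβ] at h1
  rw [hn]
  have h2 : n β = 0 := (Nat.mul_eq_zero.mp h1).resolve_left (hd0 β).ne'
  simp [h2]

end Pi

section Central

variable (Z : Subgroup H)

/-- `β` lies over the same linear character of `Z` as `β₀`. -/
def Same (β₀ β : H → ℂ) : Prop := ∀ z ∈ Z, β z * β₀ 1 = β₀ z * β 1

variable {Z}

/-- The linear character of `Z` under `β₀`. -/
noncomputable def lam (β₀ : H → ℂ) (z : H) : ℂ := β₀ z / β₀ 1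

theorem irr_central_mul' {β : H → ℂ} (hβ : IsIrrCharacter H β) {z : H} (hz : ∀ g, g * z = z * g) (y : H) :
    β (z * y) = lam β z * β y := by
  obtain ⟨a, -, ha⟩ := Cfsg.Agent.Lib.Char.BlichfeldtB.irr_central_mul hβ z hz
  have h1 := ha 1
  rw [mul_one] at h1
  rw [ha y, lam, h1, mul_div_cancel_right₀ _ (irr_apply_one_ne_zero hβ)]

theorem norm_lam {β : H → ℂ} (hβ : IsIrrCharacter H β) {z : H} (hz : ∀ g, g * z = z * g) :
    ‖lam β z‖ = 1 := by
  obtain ⟨a, ha1, ha⟩ := Cfsg.Agent.Lib.Char.BlichfeldtB.irr_central_mul hβ z hz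
  have h1 := ha 1
  rw [mul_one] at h1
  rw [lam, h1, mul_div_cancel_right₀ _ (irr_apply_one_ne_zero hβ)]
  exact ha1

theorem lam_mul_conj {β : H → ℂ} (hβ : IsIrrCharacter H β) {z : H} (hz : ∀ g, g * z = z * g) :
    lam β z * conj (lam β z) = 1 := by
  rw [Complex.mul_conj, Complex.normSq_eq_norm_sq, norm_lam hβ hz]
  simp

theorem lam_mul {β : H → ℂ} (hβ : IsIrrCharacter H β) {z w : H} (hz : ∀ g, g * z = z * g) :
    lam β (z * w) = lam β z * lam β w := by
  rw [lam, irr_central_mul' hβ hz, lam, lam, mul_div_assoc]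

theorem Same.lam_eq {β₀ β : H → ℂ} (hβ₀ : IsIrrCharacter H β₀) (hβ : IsIrrCharacter H β)
    (h : Same Z β₀ β) {z : H} (hz : z ∈ Z) : lam β z = lam β₀ z := by
  have h1 := h z hz
  rw [lam, lam, div_eq_div_iff (irr_apply_one_ne_zero hβ) (irr_apply_one_ne_zero hβ₀), h1]

theorem Same.apply_eq {β₀ β : H → ℂ} (hβ₀ : IsIrrCharacter H β₀) (hβ : IsIrrCharacter H β)
    (h : Same Z β₀ β) {z : H} (hz : z ∈ Z) : β z = lam β₀ z * β 1 := by
  rw [← h.lam_eq hβ₀ hβ hz, lam, div_mul_cancel₀ _ (irr_apply_one_ne_zero hβ)]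

theorem same_of_lam_eq {β₀ β : H → ℂ} (hβ₀ : IsIrrCharacter H β₀) (hβ : IsIrrCharacter H β)
    (h : ∀ z ∈ Z, lam β z = lam β₀ z) : Same Z β₀ β := by
  intro z hz
  have h1 := h z hz
  rw [lam, lam, div_eq_div_iff (irr_apply_one_ne_zero hβ) (irr_apply_one_ne_zero hβ₀)] at h1
  rw [h1]

/-- Behaviour of `f_W` under multiplication by elements of `Z`. -/
theorem fS_central_mul (hZc : ∀ z ∈ Z, ∀ x, x * z = z * x) {β₀ : H → ℂ} (hβ₀ : IsIrrCharacter H β₀)
    {W : Set (IrrCharacter H)} (hW : ∀ γ ∈ W, Same Z β₀ (γ : H → ℂ)) {z : H} (hz : z ∈ Z) (y : H) :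
    fS W (z * y) = lam β₀ z * fS W y := by
  classical
  rw [fS, fS, Finset.mul_sum]
  refine Finset.sum_congr rfl fun γ _ => ?_
  split_ifs with h
  · rw [irr_central_mul' γ.2 (hZc z hz) y, (hW γ h).lam_eq hβ₀ γ.2 hz]
    ring
  · simp

/-- Inner products vanish between characters over different characters of `Z`. -/
theorem classInner_eq_zero_of_not_same (hZc : ∀ z ∈ Z, ∀ x, x * z = z * x) {β₀ β : H → ℂ}
    (hβ₀ : IsIrrCharacter H β₀) (hβ : IsIrrCharacter H β) {γ : H → ℂ}
    (hγ : ∀ z ∈ Z, ∀ y, γ (z * y) = lam β₀ z * γ y) (h : ¬ Same Z β₀ β) : classInner γ β = 0 := by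
  have h1 : ¬ ∀ z ∈ Z, lam β z = lam β₀ z := fun h2 => h (same_of_lam_eq hβ₀ hβ h2)
  push Not at h1
  obtain ⟨z, hz, hne⟩ := h1
  have hcz := hZc z hz
  have key : ∑ y, γ y * conj (β y) = lam β₀ z * conj (lam β z) * ∑ y, γ y * conj (β y) := by
    calc ∑ y, γ y * conj (β y) = ∑ y, γ (Equiv.mulLeft z y) * conj (β (Equiv.mulLeft z y)) :=
          (Equiv.sum_comp (Equiv.mulLeft z) (fun y => γ y * conj (β y))).symm
      _ = ∑ y, lam β₀ z * conj (lam β z) * (γ y * conj (β y)) := by
          refine Finset.sum_congr rfl fun y _ => ?_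
          simp only [Equiv.coe_mulLeft]
          rw [hγ z hz y, irr_central_mul' hβ hcz y, map_mul]
          ring
      _ = _ := (Finset.mul_sum _ _ _).symm
  have h2 : classInner γ β = lam β₀ z * conj (lam β z) * classInner γ β := by
    unfold classInner
    rw [mul_left_comm, ← key]
  have h3 : lam β₀ z * conj (lam β z) ≠ 1 := by
    intro h4
    apply hne
    have h5 := lam_mul_conj hβ hcz
    calc lam β z = lam β z * (lam β₀ z * conj (lam β z)) := by rw [h4, mul_one]
      _ = lam β₀ z * (lam β z * conj (lam β z)) := by ring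
      _ = lam β₀ z := by rw [h5, mul_one]
  have h4 : (1 - lam β₀ z * conj (lam β z)) * classInner γ β = 0 := by
    rw [sub_mul, one_mul, ← h2, sub_self]
  exact (mul_eq_zero.mp h4).resolve_left (sub_ne_zero.mpr h3.symm)

/-- Orthogonality for linear characters of `Z`, in the form needed here. -/
theorem sum_conj_lam [Fintype Z] (hZc : ∀ z ∈ Z, ∀ x, x * z = z * x) {β₀ β : H → ℂ}
    (hβ₀ : IsIrrCharacter H β₀) (hβ : IsIrrCharacter H β) (y : H) [Decidable (Same Z β₀ β)] :
    ∑ z : Z, conj (lam β₀ (z : H)) * β ((z : H) * y) =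
      if Same Z β₀ β then (Nat.card Z : ℂ) * β y else 0 := by
  have h1 : ∀ z : Z, conj (lam β₀ (z : H)) * β ((z : H) * y) =
      (conj (lam β₀ (z : H)) * lam β (z : H)) * β y := by
    intro z
    rw [irr_central_mul' hβ (hZc z z.2) y, mul_assoc]
  simp only [h1]
  rw [← Finset.sum_mul]
  split_ifs with h
  · have h2 : ∀ z : Z, conj (lam β₀ (z : H)) * lam β (z : H) = 1 := by
      intro z
      rw [h.lam_eq hβ₀ hβ z.2, mul_comm, lam_mul_conj hβ₀ (hZc z z.2)]
    simp only [h2]
    rw [Finset.sum_const, Finset.card_univ, nsmul_eq_mul, mul_one, Nat.card_eq_fintype_card]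
  · have h1' : ¬ ∀ z ∈ Z, lam β z = lam β₀ z := fun h2 => h (same_of_lam_eq hβ₀ hβ h2)
    push Not at h1'
    obtain ⟨z₀, hz₀, hne⟩ := h1'
    set ν : Z → ℂ := fun z => conj (lam β₀ (z : H)) * lam β (z : H) with hν
    have h3 : ν ⟨z₀, hz₀⟩ ≠ 1 := by
      intro h4
      apply hne
      have h5 := lam_mul_conj hβ₀ (hZc z₀ hz₀)
      have h4' : conj (lam β₀ z₀) * lam β z₀ = 1 := h4
      calc lam β z₀ = (lam β₀ z₀ * conj (lam β₀ z₀)) * lam β z₀ := by rw [h5, one_mul]
        _ = lam β₀ z₀ * (conj (lam β₀ z₀) * lam β z₀) := by ring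
        _ = lam β₀ z₀ := by rw [h4', mul_one]
    have h6 : ∀ z : Z, ν (⟨z₀, hz₀⟩ * z) = ν ⟨z₀, hz₀⟩ * ν z := by
      intro z
      show conj (lam β₀ (z₀ * z)) * lam β (z₀ * z) = (conj (lam β₀ z₀) * lam β z₀) * (conj (lam β₀ z) * lam β z)
      rw [lam_mul hβ₀ (hZc z₀ hz₀), lam_mul hβ (hZc z₀ hz₀), map_mul]
      ring
    have h7 : ∑ z, ν z = ν ⟨z₀, hz₀⟩ * ∑ z, ν z := by
      calc ∑ z, ν z = ∑ z, ν (Equiv.mulLeft (⟨z₀, hz₀⟩ : Z) z) :=
            (Equiv.sum_comp (Equiv.mulLeft (⟨z₀, hz₀⟩ : Z)) ν).symm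
        _ = ∑ z, ν ⟨z₀, hz₀⟩ * ν z := by
            refine Finset.sum_congr rfl fun z _ => ?_
            rw [Equiv.coe_mulLeft, h6]
        _ = _ := (Finset.mul_sum _ _ _).symm
    have h8 : (1 - ν ⟨z₀, hz₀⟩) * ∑ z, ν z = 0 := by
      rw [sub_mul, one_mul, ← h7, sub_self]
    have h9 := (mul_eq_zero.mp h8).resolve_left (sub_ne_zero.mpr h3.symm)
    rw [h9, zero_mul]

/-- The sum over all characters over a linear character of `Z` vanishes off `Z`. -/
theorem fS_same_eq_zero [Fintype Z] (hZc : ∀ z ∈ Z, ∀ x, x * z = z * x) {β₀ : H → ℂ}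
    (hβ₀ : IsIrrCharacter H β₀) {y : H} (hy : y ∉ Z) :
    fS {β : IrrCharacter H | Same Z β₀ β} y = 0 := by
  classical
  have h1 : (Nat.card Z : ℂ) * fS {β : IrrCharacter H | Same Z β₀ β} y =
      ∑ z : Z, conj (lam β₀ (z : H)) * ∑ β : IrrCharacter H, (β : H → ℂ) 1 * (β : H → ℂ) ((z : H) * y) := by
    have h0 : ∑ z : Z, conj (lam β₀ (z : H)) * ∑ β : IrrCharacter H, (β : H → ℂ) 1 * (β : H → ℂ) ((z : H) * y) =
        ∑ β : IrrCharacter H, ∑ z : Z, conj (lam β₀ (z : H)) * ((β : H → ℂ) 1 * (β : H → ℂ) ((z : H) * y)) := by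
      rw [Finset.sum_comm]
      refine Finset.sum_congr rfl fun z _ => ?_
      rw [Finset.mul_sum]
    rw [h0, fS, Finset.mul_sum]
    refine Finset.sum_congr rfl fun β _ => ?_
    have h2 := sum_conj_lam hZc hβ₀ β.2 y
    have h3 : ∑ z : Z, conj (lam β₀ (z : H)) * ((β : H → ℂ) 1 * (β : H → ℂ) ((z : H) * y)) =
        (β : H → ℂ) 1 * ∑ z : Z, conj (lam β₀ (z : H)) * (β : H → ℂ) ((z : H) * y) := by
      rw [Finset.mul_sum]
      refine Finset.sum_congr rfl fun z _ => ?_
      ring
    rw [h3, h2]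
    by_cases h : Same Z β₀ β
    · rw [if_pos h, if_pos (show β ∈ {β : IrrCharacter H | Same Z β₀ β} from h)]
      ring
    · rw [if_neg h, if_neg (show β ∉ {β : IrrCharacter H | Same Z β₀ β} from h)]
      ring
  have h4 : ∀ z : Z, ∑ β : IrrCharacter H, (β : H → ℂ) 1 * (β : H → ℂ) ((z : H) * y) = 0 := by
    intro z
    have h5 := congrFun (Cfsg.Agent.Lib.Char.CompleteCor.regular_character_eq_sum (G := H)) ((z : H) * y)
    rw [Cfsg.Agent.Lib.Char.CompleteCor.regular_character, if_neg] at h5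
    · simpa [Finset.sum_apply, Pi.smul_apply] using h5.symm
    · intro h6
      apply hy
      have h7 : y = (z : H)⁻¹ := eq_inv_of_mul_eq_one_right h6
      rw [h7]
      exact Z.inv_mem z.2
  simp only [h4, mul_zero, Finset.sum_const_zero] at h1
  exact (mul_eq_zero.mp h1).resolve_left (Nat.cast_ne_zero.mpr Nat.card_pos.ne')

end Central

section Limit

open Filter Topology

/-- A limit argument: if all power sums vanish, the terms of maximal weight cancel. -/
theorem sum_ite_eq_zero_of_pow {ι : Type*} [Fintype ι] (c : ι → ℂ) (r : ι → ℕ) (N : ℕ) (hN : 0 < N)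
    (hr : ∀ i, r i ≤ N) (h : ∀ k : ℕ, ∑ i, c i * (r i : ℂ) ^ k = 0) :
    ∑ i, (if r i = N then c i else 0) = 0 := by
  have hN0 : (N : ℂ) ≠ 0 := Nat.cast_ne_zero.mpr hN.ne'
  have h1 : ∀ k : ℕ, ∑ i, c i * ((r i : ℂ) / N) ^ k = 0 := by
    intro k
    have h2 : ∀ i, c i * ((r i : ℂ) / N) ^ k = c i * (r i : ℂ) ^ k / (N : ℂ) ^ k := by
      intro i
      rw [div_pow, mul_div_assoc]
    simp only [h2]
    rw [← Finset.sum_div, h k, zero_div]
  have h2 : Tendsto (fun k : ℕ => ∑ i, c i * ((r i : ℂ) / N) ^ k) atTop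
      (𝓝 (∑ i, if r i = N then c i else 0)) := by
    apply tendsto_finsetSum
    intro i _
    by_cases hi : r i = N
    · rw [if_pos hi]
      have h3 : ((r i : ℂ) / N) = 1 := by
        rw [hi, div_self hN0]
      simp only [h3, one_pow, mul_one]
      exact tendsto_const_nhds
    · rw [if_neg hi]
      have h3 : ‖(r i : ℂ) / N‖ < 1 := by
        rw [norm_div, Complex.norm_natCast, Complex.norm_natCast, div_lt_one (by exact_mod_cast hN)]
        exact_mod_cast lt_of_le_of_ne (hr i) hi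
      have h4 := (tendsto_pow_atTop_nhds_zero_of_norm_lt_one h3).const_mul (c i)
      simpa using h4
  have h3 : (fun k : ℕ => ∑ i, c i * ((r i : ℂ) / N) ^ k) = fun _ => 0 := funext h1
  rw [h3] at h2
  exact tendsto_nhds_unique h2 tendsto_const_nhds

end Limit

section Main

variable {p : ℕ} [hp : Fact p.Prime] {Q : Subgroup H} [hQn : Q.Normal] [Fintype Q] {Z : Subgroup H}
  [Fintype Z]

theorem piQ_mul_of_central (Q : Subgroup H) {z : H} (hz : ∀ g, g * z = z * g) (y : H) :
    piQ Q (z * y) = piQ Q y := by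
  rw [piQ, piQ]
  apply Nat.card_congr
  apply Equiv.subtypeEquivRight
  intro t
  rw [← mul_assoc, hz t, mul_assoc, mul_assoc]
  exact mul_right_inj z

/-- **The Kiyota–Okuyama theorem in a central extension.** -/
theorem main_central (hQ : IsPGroup p Q) (hZc : ∀ z ∈ Z, ∀ x, x * z = z * x) (hZp : ¬ p ∣ Nat.card Z)
    (hCQ : ∀ x, (∀ q ∈ Q, q * x = x * q) → ¬ p ∣ orderOf x → x ∈ Z) {U : Set (IrrCharacter H)}
    {β₀ : IrrCharacter H} (hβ₀ : β₀ ∈ U) (hUS : ∀ β ∈ U, Same Z (β₀ : H → ℂ) (β : H → ℂ))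
    (hU : ∀ x, p ∣ orderOf x → fS U x = 0) (β : IrrCharacter H) (hβ : Same Z (β₀ : H → ℂ) (β : H → ℂ)) :
    β ∈ U := by
  classical
  by_contra hn
  set V : Set (IrrCharacter H) := {γ | Same Z (β₀ : H → ℂ) (γ : H → ℂ) ∧ γ ∉ U} with hV
  have hβV : β ∈ V := ⟨hβ, hn⟩
  have hnotZ : ∀ y, p ∣ orderOf y → y ∉ Z := fun y hy hyZ =>
    hZp (hy.trans (Subgroup.orderOf_dvd_natCard Z hyZ))
  have hV0 : ∀ y, p ∣ orderOf y → fS V y = 0 := by
    intro y hy
    have h1 := fS_same_eq_zero hZc β₀.2 (hnotZ y hy)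
    have h2 : fS {γ : IrrCharacter H | Same Z (β₀ : H → ℂ) (γ : H → ℂ)} y = fS U y + fS V y := by
      rw [fS, fS, fS, ← Finset.sum_add_distrib]
      refine Finset.sum_congr rfl fun γ _ => ?_
      by_cases h3 : γ ∈ U
      · have h4 : γ ∈ {γ : IrrCharacter H | Same Z (β₀ : H → ℂ) (γ : H → ℂ)} := hUS γ h3
        have h5 : γ ∉ V := fun h => h.2 h3
        rw [if_pos h4, if_pos h3, if_neg h5, add_zero]
      · by_cases h4 : γ ∈ {γ : IrrCharacter H | Same Z (β₀ : H → ℂ) (γ : H → ℂ)}
        · have h5 : γ ∈ V := ⟨h4, h3⟩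
          rw [if_pos h4, if_neg h3, if_pos h5, zero_add]
        · have h5 : γ ∉ V := fun h => h4 h.1
          rw [if_neg h4, if_neg h3, if_neg h5, add_zero]
    rw [h1, hU y hy, zero_add] at h2
    exact h2.symm
  have hVcl : IsClassFunction H (fS V) := isClassFunction_of_isCharacter (isCharacter_fS V)
  have hVU : classInner (fS V) (fS U) = 0 := by
    rw [classInner_fS_right]
    refine Finset.sum_eq_zero fun γ _ => ?_
    split_ifs with h
    · rw [classInner_fS_left, if_neg (fun h' => h'.2 h), mul_zero]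
    · rfl
  -- the closure property
  have hπ : IsCharacter H (piC Q) := isCharacter_piQ Q
  have step : ∀ A : H → ℂ, IsCharacter H A → (∀ y, p ∣ orderOf y → A y = 0) →
      (∀ γ : IrrCharacter H, γ ∉ U → classInner A (γ : H → ℂ) = 0) →
      ∀ γ : IrrCharacter H, γ ∉ U → classInner (A * piC Q) (γ : H → ℂ) = 0 := by
    intro A hAc hA0 hAU
    have hAπ : IsCharacter H (A * piC Q) := isCharacter_mul hAc hπ
    -- behaviour on `Z`
    have hAz : ∀ z ∈ Z, ∀ y, A (z * y) = lam (β₀ : H → ℂ) z * A y := by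
      intro z hz y
      have hdec : ∀ w, A w = ∑ γ : IrrCharacter H, classInner A (γ : H → ℂ) * (γ : H → ℂ) w := by
        intro w
        have := congrFun (decomp_eq_sum_classInner hAc) w
        simpa [Finset.sum_apply, Pi.smul_apply] using this
      rw [hdec, hdec y, Finset.mul_sum]
      refine Finset.sum_congr rfl fun γ _ => ?_
      by_cases hγ : γ ∈ U
      · rw [irr_central_mul' γ.2 (hZc z hz) y, (hUS γ hγ).lam_eq β₀.2 γ.2 hz]
        ring
      · rw [hAU γ hγ]
        ring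
    have hAπz : ∀ z ∈ Z, ∀ y, (A * piC Q) (z * y) = lam (β₀ : H → ℂ) z * (A * piC Q) y := by
      intro z hz y
      simp only [Pi.mul_apply, piC]
      rw [hAz z hz y, piQ_mul_of_central Q (hZc z hz) y]
      ring
    have hNS : ∀ γ : IrrCharacter H, ¬ Same Z (β₀ : H → ℂ) (γ : H → ℂ) →
        classInner (A * piC Q) (γ : H → ℂ) = 0 := fun γ hγ =>
      classInner_eq_zero_of_not_same hZc β₀.2 γ.2 hAπz hγ
    have hAV : classInner A (fS V) = 0 := by
      rw [classInner_fS_right]
      refine Finset.sum_eq_zero fun γ _ => ?_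
      split_ifs with h
      · rw [hAU γ h.2, mul_zero]
      · rfl
    have hV1 : classInner (A * piC Q) (fS V) = 0 := by
      rw [mul_classInner_eq_avgQ hQ hA0 hVcl hV0, inner_avgQ _ (isCharacter_mul (isCharacter_fS V) hπ)]
      refine Finset.sum_eq_zero fun γ _ => ?_
      split_ifs with hT
      · by_cases hS : Same Z (β₀ : H → ℂ) (γ : H → ℂ)
        · by_cases hγU : γ ∈ U
          · rw [classInner_mul_pi_eq_zero hQ (isCharacter_fS V) hV0 hU hVU hγU hT, map_zero, zero_mul]
          · rw [classInner_mul_pi_eq_zero hQ hAc hA0 hV0 hAV (⟨hS, hγU⟩ : γ ∈ V) hT, mul_zero]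
        · rw [hNS γ hS, mul_zero]
      · rfl
    intro γ hγ
    by_cases hS : Same Z (β₀ : H → ℂ) (γ : H → ℂ)
    · exact classInner_eq_zero_of_fS hAπ hV1 (⟨hS, hγ⟩ : γ ∈ V)
    · exact hNS γ hS
  -- all powers
  have hall : ∀ k : ℕ, IsCharacter H (fS U * piC Q ^ k) ∧
      (∀ y, p ∣ orderOf y → (fS U * piC Q ^ k) y = 0) ∧
      ∀ γ : IrrCharacter H, γ ∉ U → classInner (fS U * piC Q ^ k) (γ : H → ℂ) = 0 := by
    intro k
    induction k with
    | zero =>
      simp only [pow_zero, mul_one]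
      refine ⟨isCharacter_fS U, hU, fun γ hγ => ?_⟩
      rw [classInner_fS_left, if_neg hγ]
    | succ k ih =>
      obtain ⟨h1, h2, h3⟩ := ih
      have h4 : fS U * piC Q ^ (k + 1) = (fS U * piC Q ^ k) * piC Q := by
        rw [pow_succ, mul_assoc]
      rw [h4]
      refine ⟨isCharacter_mul h1 hπ, fun y hy => ?_, step _ h1 h2 h3⟩
      rw [Pi.mul_apply, h2 y hy, zero_mul]
  have hpow : ∀ k : ℕ, ∑ x : H, (fS U x * conj (fS V x)) * ((piQ Q x : ℕ) : ℂ) ^ k = 0 := by
    intro k
    have h1 : classInner (fS U * piC Q ^ k) (fS V) = 0 := by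
      rw [classInner_fS_right]
      refine Finset.sum_eq_zero fun γ _ => ?_
      split_ifs with h
      · rw [(hall k).2.2 γ h.2, mul_zero]
      · rfl
    unfold classInner at h1
    have h2 := (mul_eq_zero.mp h1).resolve_left (inv_ne_zero (Nat.cast_ne_zero.mpr Nat.card_pos.ne'))
    rw [← h2]
    refine Finset.sum_congr rfl fun x _ => ?_
    simp only [Pi.mul_apply, Pi.pow_apply, piC]
    ring
  have hlim := sum_ite_eq_zero_of_pow (fun x => fS U x * conj (fS V x)) (piQ Q) (Nat.card Q) Nat.card_pos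
    (piQ_le Q) hpow
  -- the terms
  have hfZ : ∀ {W : Set (IrrCharacter H)}, (∀ γ ∈ W, Same Z (β₀ : H → ℂ) (γ : H → ℂ)) → ∀ z ∈ Z,
      fS W z = lam (β₀ : H → ℂ) z * fS W 1 := by
    intro W hW z hz
    rw [fS, fS, Finset.mul_sum]
    refine Finset.sum_congr rfl fun γ _ => ?_
    split_ifs with h
    · rw [(hW γ h).apply_eq β₀.2 γ.2 hz]
      ring
    · simp
  have hterm : ∀ x : H, (if piQ Q x = Nat.card Q then fS U x * conj (fS V x) else 0) =
      if x ∈ Z then fS U 1 * conj (fS V 1) else 0 := by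
    intro x
    by_cases hx : x ∈ Z
    · have h1 : piQ Q x = Nat.card Q := (piQ_eq_card_iff Q x).mpr fun q _ => hZc x hx q
      rw [if_pos h1, if_pos hx, hfZ hUS x hx, hfZ (fun γ hγ => hγ.1) x hx, map_mul]
      have h2 := lam_mul_conj β₀.2 (hZc x hx)
      calc lam (β₀ : H → ℂ) x * fS U 1 * (conj (lam (β₀ : H → ℂ) x) * conj (fS V 1))
          = (lam (β₀ : H → ℂ) x * conj (lam (β₀ : H → ℂ) x)) * (fS U 1 * conj (fS V 1)) := by ring
        _ = _ := by rw [h2, one_mul]
    · rw [if_neg hx]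
      split_ifs with h1
      · have h2 := (piQ_eq_card_iff Q x).mp h1
        by_cases h3 : p ∣ orderOf x
        · rw [hU x h3, zero_mul]
        · exact absurd (hCQ x h2 h3) hx
      · rfl
  simp only [hterm] at hlim
  rw [Finset.sum_ite, Finset.sum_const_zero, add_zero, Finset.sum_const, nsmul_eq_mul] at hlim
  have hcard : ((Finset.univ.filter (fun x => x ∈ Z)).card : ℂ) ≠ 0 := by
    have h1 : (Finset.univ.filter (fun x => x ∈ Z)).card = Nat.card Z := by
      rw [Nat.card_eq_fintype_card, Fintype.card_subtype]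
    rw [h1]
    exact Nat.cast_ne_zero.mpr Nat.card_pos.ne'
  have h5 := (mul_eq_zero.mp hlim).resolve_left hcard
  rcases mul_eq_zero.mp h5 with h6 | h6
  · exact fS_one_ne_zero hβ₀ h6
  · rw [map_eq_zero] at h6
    exact fS_one_ne_zero hβV h6

end Main

end Cfsg.Agent.Lib.Blocks.KOCentral
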