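import Mathlib
import Cfsg.Agent.Lib.Blocks.KOCentral
import Cfsg.Agent.Lib.Blocks.FongMain
import Cfsg.Agent.Lib.Blocks.Principal
import Cfsg.Agent.Lib.Char.TraceNonzero

/-!
# The Kiyota–Okuyama theorem over an invariant character of `O_{p'}(G)`
-/

set_option autoImplicit false
set_option linter.unusedSectionVars false
set_option linter.style.haveILetI false

namespace Cfsg.Agent.Lib.Blocks.KOInvariant

open Cfsg Module
open Cfsg.Agent.Lib.Char.DegreeDvd Cfsg.Agent.Lib.Char.FongTensor Cfsg.Agent.Lib.Char.QuotRep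
open Cfsg.Agent.Lib.Blocks.Local Cfsg.Agent.Lib.Blocks.Central Cfsg.Agent.Lib.Blocks.FongGam
  Cfsg.Agent.Lib.Blocks.FongMain Cfsg.Agent.Lib.Blocks.KOCentral Cfsg.Agent.Lib.Blocks.KOCoset
open Cfsg.Agent.Lib.Char.Basic Cfsg.Agent.Lib.Char.Ortho

universe u

section Kernel

variable {H Gb : Type*} [Group H] [Group Gb] [Finite H] [Finite Gb]

/-- Homomorphisms whose kernels have no nontrivial `p`-elements preserve `p`-singularity. -/
theorem dvd_orderOf_map {p : ℕ} [hp : Fact p.Prime] (f : H →* Gb)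
    (hp' : ∀ z ∈ f.ker, (∃ k : ℕ, z ^ (p ^ k) = 1) → z = 1) {x : H} (hx : p ∣ orderOf x) :
    p ∣ orderOf (f x) := by
  have hpos : orderOf x ≠ 0 := (orderOf_pos x).ne'
  obtain ⟨a, m, hm, he⟩ := Nat.exists_eq_pow_mul_and_not_dvd hpos p hp.out.ne_one
  set e := orderOf (f x) with hedef
  have h1 : x ^ (e * m) ∈ f.ker := by
    rw [MonoidHom.mem_ker, pow_mul, map_pow, map_pow, hedef, pow_orderOf_eq_one, one_pow]
  have h2 : (x ^ (e * m)) ^ (p ^ a) = 1 := by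
    rw [← pow_mul, mul_assoc, mul_comm m, ← he, mul_comm, pow_mul, pow_orderOf_eq_one, one_pow]
  have h3 := hp' _ h1 ⟨a, h2⟩
  have h4 := orderOf_dvd_of_pow_eq_one h3
  have h5 : p ∣ e * m := hx.trans h4
  rcases (Nat.Prime.dvd_mul hp.out).mp h5 with h6 | h6
  · exact h6
  · exact absurd h6 hm

end Kernel

section Main

variable {G : Type u} [Group G] [Fintype G] {N : Subgroup G} [hN : N.Normal] [Fintype N]
variable {d : ℕ} (Y : Representation ℂ N (Fin d → ℂ))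

/-- Each element of `Γ` has a multiple by an element over `N` with nonzero trace. -/
theorem exists_lift_trace_ne_zero [hY : Y.IsIrreducible]
    (hinv : ∀ (g : G) (n : N), Y.character (cn g n) = Y.character n) (s : Gam Y) :
    ∃ k : Gam Y, k.1.1 ∈ N ∧
      LinearMap.trace ℂ (Fin d → ℂ) (((s * k).1.2 : (Fin d → ℂ) ≃ₗ[ℂ] (Fin d → ℂ)) : (Fin d → ℂ) →ₗ[ℂ] (Fin d → ℂ)) ≠ 0 := by
  classical
  haveI hnt : Nontrivial (Fin d → ℂ) := Cfsg.Agent.Lib.Char.Integrality.nontrivial_of_isIrreducible Y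
  have hW : 0 < finrank ℂ (Fin d → ℂ) := Module.finrank_pos
  have hA : ((s.1.2 : (Fin d → ℂ) ≃ₗ[ℂ] (Fin d → ℂ)) : (Fin d → ℂ) →ₗ[ℂ] (Fin d → ℂ)) ≠ 0 := by
    intro h
    obtain ⟨w, hw⟩ := exists_ne (0 : Fin d → ℂ)
    apply hw
    apply s.1.2.injective
    have := congrArg (fun L : (Fin d → ℂ) →ₗ[ℂ] (Fin d → ℂ) => L w) h
    simpa using this
  obtain ⟨n, hn⟩ := Cfsg.Agent.Lib.Char.TraceNonzero.exists_trace_ne_zero Y hA
  obtain ⟨k, hk⟩ := piG_surjective Y hW hinv (n : G)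
  have hk' : k.1.1 = n := hk
  obtain ⟨a, ha⟩ := exists_isSc k (hk' ▸ n.2)
  have ha0 := ha.ne_zero
  refine ⟨k, hk' ▸ n.2, ?_⟩
  obtain ⟨h6, h7⟩ := ha
  have h8 : ((s * k).1.2 : (Fin d → ℂ) →ₗ[ℂ] (Fin d → ℂ)) =
      a • ((s.1.2 : (Fin d → ℂ) →ₗ[ℂ] (Fin d → ℂ)) ∘ₗ Y n) := by
    apply LinearMap.ext
    intro w
    show s.1.2 (k.1.2 w) = _
    have h9 : (⟨k.1.1, h6⟩ : N) = n := Subtype.ext hk'
    rw [h7, h9]
    simp
  rw [h8, map_smul, smul_eq_mul]
  exact mul_ne_zero ha0 hn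

variable {p : ℕ} [hp : Fact p.Prime]

/-- **The Kiyota–Okuyama theorem over an invariant character.** -/
theorem invariant_case (hNp : ¬ p ∣ Nat.card N) (hsolv : IsPSolvable p (G ⧸ N))
    (hcore : pPrimeCore p (G ⧸ N) = ⊥) {θ : N → ℂ} (hθ : IsIrrCharacter N θ)
    (hinv : ∀ (g : G) (n : N), θ (cn g n) = θ n) {U : Set (IrrCharacter G)}
    (hUo : ∀ χ ∈ U, classInner (fun n : N => (χ : G → ℂ) n) θ ≠ 0)
    (hU : ∀ x, p ∣ orderOf x → fS U x = 0) {χ₀ : IrrCharacter G} (hχ₀ : χ₀ ∈ U)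
    {ψ : IrrCharacter G} (hψ : classInner (fun n : N => (ψ : G → ℂ) n) θ ≠ 0) : ψ ∈ U := by
  classical
  obtain ⟨d, Y, hY, rfl⟩ := hθ
  haveI hnt : Nontrivial (Fin d → ℂ) := Cfsg.Agent.Lib.Char.Integrality.nontrivial_of_isIrreducible Y
  have hW : 0 < finrank ℂ (Fin d → ℂ) := Module.finrank_pos
  haveI hfin : Finite (Gam Y) := finite_gam Y hW
  haveI : Fintype (HH Y) := Fintype.ofFinite _
  have hd0 : (d : ℂ) ≠ 0 := by
    have : d ≠ 0 := by
      rintro rfl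
      simp at hW
    exact_mod_cast this
  -- the character of `H` attached to a character of `G`
  have hex : ∀ χ : IrrCharacter G, classInner (fun n : N => (χ : G → ℂ) n) Y.character ≠ 0 →
      ∃ β : IrrCharacter (HH Y),
        (∀ s : Gam Y, (χ : G → ℂ) s.1.1 = (β : HH Y → ℂ) (s : HH Y) *
          LinearMap.trace ℂ (Fin d → ℂ) (s.1.2 : (Fin d → ℂ) →ₗ[ℂ] (Fin d → ℂ))) ∧
        ((χ : G → ℂ) 1 = (β : HH Y → ℂ) 1 * (d : ℂ)) ∧
        ∀ (s : Gam Y) (a : ℂ), IsSc Y s a → (β : HH Y → ℂ) (s : HH Y) = a⁻¹ * (β : HH Y → ℂ) 1 := by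
    rintro ⟨χ, c, ρ, hρ, rfl⟩ hcon
    haveI := hρ
    obtain ⟨hU', hdim⟩ := uhom_dims ρ Y hinv hcon
    refine ⟨⟨betaH ρ Y, isIrr_betaH ρ Y hinv hU' hdim⟩, char_eq_betaH ρ Y hinv hU' hdim, ?_, ?_⟩
    · show ρ.character 1 = betaH ρ Y 1 * (d : ℂ)
      rw [betaH_one, Representation.char_one, ← hdim]
      simp
    · intro s a ha
      exact betaH_of_isSc ρ Y ha.ne_zero ha
  haveI : Nonempty (IrrCharacter (HH Y)) := ⟨Cfsg.Agent.Lib.Blocks.Principal.trivChar _⟩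
  choose! b hb1 hb2 hb3 using hex
  set Z : Subgroup (HH Y) := (fH Y).ker with hZdef
  set Q : Subgroup (HH Y) := pCore p (HH Y) with hQdef
  haveI hQn : Q.Normal := pCore_normal p (HH Y)
  haveI : Fintype Q := Fintype.ofFinite Q
  haveI : Fintype Z := Fintype.ofFinite Z
  have hQp : IsPGroup p Q := Cfsg.Agent.Lib.Basic.PCore.pCore_isPGroup p
  have hZc : ∀ z ∈ Z, ∀ x, x * z = z * x := ker_fH_central Y
  have hp' : ∀ z ∈ Z, (∃ k : ℕ, z ^ (p ^ k) = 1) → z = 1 := ker_fH_pprime Y hp.out hNp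
  have hZp : ¬ p ∣ Nat.card Z := by
    intro h
    obtain ⟨z, hz⟩ := exists_prime_orderOf_dvd_card' p h
    have h1 : (z : HH Y) ^ (p ^ 1) = 1 := by
      rw [pow_one]
      have := pow_orderOf_eq_one z
      rw [hz] at this
      exact congrArg Subtype.val this
    have h2 := hp' z z.2 ⟨1, h1⟩
    have h3 : z = 1 := Subtype.ext h2
    rw [h3, orderOf_one] at hz
    exact hp.out.one_lt.ne hz
  have hfs := fH_surjective Y hW hinv
  have hmap := Cfsg.Agent.Lib.Blocks.FongCentral.map_pCore_eq (fH Y) hfs (ker_fH_central Y)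
    (ker_fH_pprime Y hp.out hNp)
  have hCQ : ∀ x, (∀ q ∈ Q, q * x = x * q) → ¬ p ∣ orderOf x → x ∈ Z := by
    intro x hx hxp
    have h1 : fH Y x ∈ pCore p (G ⧸ N) := by
      apply Cfsg.Agent.Lib.Solvable.PSeries.centralizer_pCore_le hsolv hcore
      rw [Subgroup.mem_centralizer_iff]
      intro w hw
      rw [← hmap] at hw
      obtain ⟨y, hy, rfl⟩ := hw
      rw [← map_mul, ← map_mul, hx y hy]
    have h2 : ¬ p ∣ orderOf (fH Y x) := fun h => hxp (h.trans (orderOf_map_dvd _ _))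
    exact eq_one_of_mem_of_not_dvd (Cfsg.Agent.Lib.Basic.PCore.pCore_isPGroup p) h1 h2
  have hSame : ∀ χ χ' : IrrCharacter G, classInner (fun n : N => (χ : G → ℂ) n) Y.character ≠ 0 →
      classInner (fun n : N => (χ' : G → ℂ) n) Y.character ≠ 0 →
      Same Z (b χ : HH Y → ℂ) (b χ' : HH Y → ℂ) := by
    intro χ χ' h h' z hz
    obtain ⟨s, rfl⟩ := QuotientGroup.mk_surjective z
    have hs : s.1.1 ∈ N := (mem_ker_fH Y s).mp hz
    obtain ⟨a, ha⟩ := exists_isSc s hs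
    rw [hb3 χ' h' s a ha, hb3 χ h s a ha]
    ring
  have hinj : ∀ χ χ' : IrrCharacter G, classInner (fun n : N => (χ : G → ℂ) n) Y.character ≠ 0 →
      classInner (fun n : N => (χ' : G → ℂ) n) Y.character ≠ 0 → b χ = b χ' → χ = χ' := by
    intro χ χ' h h' he
    apply Subtype.ext
    funext g
    obtain ⟨s, hs⟩ := piG_surjective Y hW hinv g
    have hs' : s.1.1 = g := hs
    rw [← hs', hb1 χ h s, hb1 χ' h' s, he]
  have hid : ∀ t : Gam Y, fS U t.1.1 = (d : ℂ) * LinearMap.trace ℂ (Fin d → ℂ)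
      (t.1.2 : (Fin d → ℂ) →ₗ[ℂ] (Fin d → ℂ)) * fS (b '' U) (t : HH Y) := by
    intro t
    have h1 : fS U t.1.1 = ∑ χ ∈ Finset.univ.filter (· ∈ U), (χ : G → ℂ) 1 * (χ : G → ℂ) t.1.1 := by
      rw [fS, Finset.sum_filter]
    have h2 : fS (b '' U) (t : HH Y) = ∑ β ∈ ((Finset.univ.filter (· ∈ U)).image b),
        (β : HH Y → ℂ) 1 * (β : HH Y → ℂ) (t : HH Y) := by
      rw [fS, ← Finset.sum_filter]
      refine Finset.sum_congr ?_ (fun _ _ => rfl)
      ext β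
      simp
    rw [h1, h2, Finset.sum_image, Finset.mul_sum]
    · refine Finset.sum_congr rfl fun χ hχ => ?_
      have hχU : χ ∈ U := (Finset.mem_filter.mp hχ).2
      rw [hb2 χ (hUo χ hχU), hb1 χ (hUo χ hχU) t]
      ring
    · intro χ hχ χ' hχ' he
      have hχU : χ ∈ U := (Finset.mem_filter.mp hχ).2
      have hχU' : χ' ∈ U := (Finset.mem_filter.mp hχ').2
      exact hinj χ χ' (hUo χ hχU) (hUo χ' hχU') he
  have hUS : ∀ β ∈ b '' U, Same Z (b χ₀ : HH Y → ℂ) (β : HH Y → ℂ) := by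
    rintro β ⟨χ, hχ, rfl⟩
    exact hSame χ₀ χ (hUo χ₀ hχ₀) (hUo χ hχ)
  have hUH : ∀ x, p ∣ orderOf x → fS (b '' U) x = 0 := by
    intro x hx
    obtain ⟨s, rfl⟩ := QuotientGroup.mk_surjective x
    obtain ⟨k, hkN, htr⟩ := exists_lift_trace_ne_zero Y
      (fun g n => hinv g n) s
    have hz : (k : HH Y) ∈ Z := (mem_ker_fH Y k).mpr hkN
    have hs' : ((s * k : Gam Y) : HH Y) = (k : HH Y) * (s : HH Y) := by
      rw [QuotientGroup.mk_mul]
      exact hZc _ hz _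
    have hg : p ∣ orderOf (s * k : Gam Y).1.1 := by
      have h1 := dvd_orderOf_map (fH Y) hp' hx
      have h2 : fH Y (s : HH Y) = QuotientGroup.mk' N (s * k : Gam Y).1.1 := by
        have h3 : fH Y ((s * k : Gam Y) : HH Y) = fH Y (s : HH Y) := by
          rw [hs', map_mul, (MonoidHom.mem_ker.mp hz), one_mul]
        rw [← h3, fH_mk]
        rfl
      rw [h2] at h1
      exact h1.trans (orderOf_map_dvd _ _)
    have h0 := hid (s * k)
    rw [hU _ hg] at h0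
    have h1 : fS (b '' U) ((s * k : Gam Y) : HH Y) = 0 := by
      have h2 := h0.symm
      exact (mul_eq_zero.mp h2).resolve_left (mul_ne_zero hd0 htr)
    rw [hs', fS_central_mul hZc (b χ₀).2 hUS hz] at h1
    have h3 : lam (b χ₀ : HH Y → ℂ) (k : HH Y) ≠ 0 := by
      intro h4
      have h5 := norm_lam (b χ₀).2 (hZc _ hz)
      rw [h4, norm_zero] at h5
      exact zero_ne_one h5
    exact (mul_eq_zero.mp h1).resolve_left h3
  have hfinal := main_central (Q := Q) (Z := Z) hQp hZc hZp hCQ (U := b '' U) (β₀ := b χ₀)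
    ⟨χ₀, hχ₀, rfl⟩ hUS hUH (b ψ) (hSame χ₀ ψ (hUo χ₀ hχ₀) hψ)
  obtain ⟨χ, hχ, he⟩ := hfinal
  rw [← hinj χ ψ (hUo χ hχ) hψ he]
  exact hχ

end Main

end Cfsg.Agent.Lib.Blocks.KOInvariant
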