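/-
Okuyama-Tsushima, abstract part: a `p`-group `Y` permuting a finite set `X`, and an invariant idempotent
matrix `E` over a field of characteristic `p`. `InU E U` says that `E` has a nonzero entry on the fixed
points of `U`. If `E` has the least possible rank `|Y| / |V₂|`, with `V₂` of the greatest order among
the subgroups in `InU E`, then each subgroup in `InU E` is `Y`-conjugate into `V₂`.
-/
import Mathlib
import Cfsg.Agent.Lib.Blocks.Green

set_option autoImplicit false

namespace Cfsg.Agent.Lib.Blocks.MinDim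

open Finset Module

section Sum

variable {p : ℕ} [hp : Fact p.Prime] {k : Type*} [Field k]

/-- Sum of an invariant function over a stable set without fixed points. -/
lemma sum_eq_zero_of_no_fixed {S W : Type*} [Group S] [Finite S] (hS : IsPGroup p S) [MulAction S W]
    [DecidableEq W] (hpk : (p : k) = 0) (f : W → k) (hf : ∀ (s : S) (w : W), f (s • w) = f w)
    (A : Finset W) (hA : ∀ s : S, ∀ w ∈ A, s • w ∈ A) (hfree : ∀ w ∈ A, ∃ s : S, s • w ≠ w) :
    ∑ w ∈ A, f w = 0 := by
  classical
  induction hn : A.card using Nat.strong_induction_on generalizing A with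
  | _ n ih =>
    rcases A.eq_empty_or_nonempty with rfl | ⟨w, hw⟩
    · simp
    have hfin : (MulAction.orbit S w).Finite := Set.finite_range _
    haveI : Finite (MulAction.orbit S w) := hfin.to_subtype
    set O := hfin.toFinset with hO
    have hmem : ∀ a, a ∈ O ↔ a ∈ MulAction.orbit S w := fun a => by simp [hO]
    have hOA : O ⊆ A := by
      intro a ha
      obtain ⟨s, rfl⟩ := (hmem a).1 ha
      exact hA s w hw
    have hsum : ∑ a ∈ O, f a = 0 := by
      rw [Finset.sum_congr rfl (g := fun _ => f w)]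
      · rw [Finset.sum_const]
        obtain ⟨m, hm⟩ := hS.card_orbit w
        have hcard : O.card = Nat.card (MulAction.orbit S w) := by
          rw [hO, ← Set.ncard_eq_toFinset_card _ hfin, Nat.card_coe_set_eq]
        have hm0 : m ≠ 0 := by
          rintro rfl
          obtain ⟨s, hs⟩ := hfree w hw
          rw [pow_zero] at hm
          have hsub : Subsingleton (MulAction.orbit S w) := (Nat.card_eq_one_iff_unique.1 hm).1
          have h1 : (⟨s • w, MulAction.mem_orbit w s⟩ : MulAction.orbit S w) =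
              ⟨w, MulAction.mem_orbit_self w⟩ := Subsingleton.elim _ _
          exact hs (congrArg Subtype.val h1)
        rw [hcard, hm, nsmul_eq_mul]
        push_cast
        rw [hpk, zero_pow hm0, zero_mul]
      · intro a ha
        obtain ⟨s, rfl⟩ := (hmem a).1 ha
        exact hf s w
    rw [← Finset.sum_sdiff hOA, hsum, add_zero]
    refine ih (A \ O).card ?_ (A \ O) ?_ ?_ rfl
    · rw [← hn]
      apply Finset.card_lt_card
      refine ⟨Finset.sdiff_subset, fun h => ?_⟩
      have := h hw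
      rw [Finset.mem_sdiff] at this
      exact this.2 ((hmem w).2 (MulAction.mem_orbit_self w))
    · intro s a ha
      rw [Finset.mem_sdiff] at ha ⊢
      refine ⟨hA s a ha.1, fun h => ha.2 ?_⟩
      rw [hmem] at h ⊢
      have h1 : MulAction.orbit S (s • a) = MulAction.orbit S w := MulAction.orbit_eq_iff.2 h
      rw [MulAction.orbit_smul] at h1
      rw [← h1]
      exact MulAction.mem_orbit_self a
    · intro a ha
      exact hfree a (Finset.mem_sdiff.1 ha).1

/-- A nonzero stable family of functions contains a nonzero invariant function. -/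
lemma exists_fixed_fun {R W : Type*} [Group R] [Finite R] (hR : IsPGroup p R) [MulAction R W]
    (hpk : (p : k) = 0) (K : AddSubgroup (W → k))
    (hK : ∀ r : R, ∀ a ∈ K, (fun w => a (r⁻¹ • w)) ∈ K) {a₀ : W → k} (ha₀ : a₀ ∈ K) (h0 : a₀ ≠ 0) :
    ∃ a ∈ K, a ≠ 0 ∧ ∀ (r : R) (w : W), a (r • w) = a w := by
  letI act : DistribMulAction R K :=
    { smul := fun r a => ⟨fun w => a.1 (r⁻¹ • w), hK r a.1 a.2⟩
      one_smul := fun a => Subtype.ext (by
        funext w
        change a.1 ((1 : R)⁻¹ • w) = a.1 w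
        simp)
      mul_smul := fun r s a => Subtype.ext (by
        funext w
        change a.1 ((r * s)⁻¹ • w) = a.1 (s⁻¹ • r⁻¹ • w)
        rw [mul_inv_rev, mul_smul])
      smul_zero := fun r => rfl
      smul_add := fun r a b => rfl }
  have hU : ∀ x : K, p • x = 0 := by
    intro x
    apply Subtype.ext
    funext w
    change p • x.1 w = 0
    rw [nsmul_eq_mul, hpk, zero_mul]
  have hv : (⟨a₀, ha₀⟩ : K) ≠ 0 := fun h => h0 (congrArg Subtype.val h)
  obtain ⟨x, hx0, -, hx⟩ := Cfsg.Agent.Lib.Blocks.Green.exists_fixed_vector hU hR hv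
  refine ⟨x.1, x.2, fun h => hx0 (Subtype.ext h), fun r w => ?_⟩
  have h1 := congrArg Subtype.val (hx r⁻¹)
  have h2 := congrFun h1 w
  change x.1 ((r⁻¹)⁻¹ • w) = x.1 w at h2
  rwa [inv_inv] at h2

end Sum

section Main

variable {p : ℕ} [hp : Fact p.Prime] {k : Type*} [Field k]
variable {Y X : Type*} [Group Y] [Finite Y] [MulAction Y X]

/-- `x` is fixed by the subgroup `U`. -/
def Fix (U : Subgroup Y) (x : X) : Prop := ∀ u ∈ U, u • x = x

/-- `E` has a nonzero entry on the fixed points of `U`. -/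
def InU (E : X → X → k) (U : Subgroup Y) : Prop := ∃ x x', Fix U x ∧ Fix U x' ∧ E x x' ≠ 0

lemma Fix.smul_of_normalizer {V : Subgroup Y} {r : Y} (hr : r ∈ Subgroup.normalizer (V : Set Y)) {w : X}
    (hw : Fix V w) : Fix V (r • w) := by
  intro u hu
  have h1 : r⁻¹ * u * r ∈ V := by
    rw [Subgroup.mem_normalizer_iff] at hr
    have h2 := (hr (r⁻¹ * u * r)).2
    apply h2
    have : r * (r⁻¹ * u * r) * r⁻¹ = u := by group
    rw [this]
    exact hu
  have h2 := hw _ h1
  rw [← mul_smul]
  have : u * r = r * (r⁻¹ * u * r) := by group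
  rw [this, mul_smul, h2]

lemma fix_smul_iff {V : Subgroup Y} {r : Y} (hr : r ∈ Subgroup.normalizer (V : Set Y)) {w : X} :
    Fix V (r • w) ↔ Fix V w := by
  refine ⟨fun h => ?_, Fix.smul_of_normalizer hr⟩
  have := Fix.smul_of_normalizer ((Subgroup.normalizer (V : Set Y)).inv_mem hr) h
  rwa [inv_smul_smul] at this

open Classical in
/-- Restriction to the fixed points: the sum of an invariant function. -/
lemma sum_eq_sum_fix (hY : IsPGroup p Y) (hpk : (p : k) = 0) [DecidableEq X] (S : Subgroup Y) (f : X → k)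
    (hf : ∀ s ∈ S, ∀ w, f (s • w) = f w) (A : Finset X) (hA : ∀ s ∈ S, ∀ w ∈ A, s • w ∈ A) :
    ∑ w ∈ A, f w = ∑ w ∈ A.filter (Fix S), f w := by
  rw [← Finset.sum_filter_add_sum_filter_not A (Fix S)]
  rw [add_eq_left]
  have hS : IsPGroup p S := hY.to_subgroup S
  apply sum_eq_zero_of_no_fixed hS hpk f (fun s w => hf s.1 s.2 w)
  · intro s w hw
    rw [Finset.mem_filter] at hw ⊢
    refine ⟨hA s.1 s.2 w hw.1, fun h => hw.2 fun u hu => ?_⟩
    have h2 : (s : Y) * u * (s : Y)⁻¹ ∈ S := S.mul_mem (S.mul_mem s.2 hu) (S.inv_mem s.2)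
    have h3 := h _ h2
    rw [Subgroup.smul_def, ← mul_smul] at h3
    have h4 : (s : Y) * u * (s : Y)⁻¹ * (s : Y) = (s : Y) * u := by group
    rw [h4, mul_smul] at h3
    exact smul_left_cancel _ h3
  · intro w hw
    rw [Finset.mem_filter] at hw
    have h := hw.2
    unfold Fix at h
    push Not at h
    obtain ⟨u, hu, huw⟩ := h
    exact ⟨⟨u, hu⟩, huw⟩

variable {E : X → X → k}

open Classical in
/-- The main lemma: a maximal member `V` of `InU E` is a stabilizer `Y_{z₀}`, and the column sum over the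
orbit of `z₀` is nonzero. -/
lemma exists_orbit_of_maximal [Fintype X] (hY : IsPGroup p Y) (hpk : (p : k) = 0)
    (hinv : ∀ (y : Y) (x x' : X), E (y • x) (y • x') = E x x')
    (hidem : ∀ x x', ∑ w, E x w * E w x' = E x x') {V : Subgroup Y} (hV : InU E V)
    (hmax : ∀ U : Subgroup Y, V < U → ¬ InU E U) :
    ∃ x z₀, Fix V x ∧ MulAction.stabilizer Y z₀ = V ∧
      ∑ z ∈ Finset.univ.filter (· ∈ MulAction.orbit Y z₀), E x z ≠ 0 := by
  -- idempotent on the fixed points
  have hinvl : ∀ {S : Subgroup Y} {x : X}, Fix S x → ∀ s ∈ S, ∀ w, E x (s • w) = E x w := by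
    intro S x hx s hs w
    have := hinv s x w
    rwa [hx s hs] at this
  have hinvr : ∀ {S : Subgroup Y} {x : X}, Fix S x → ∀ s ∈ S, ∀ w, E (s • w) x = E w x := by
    intro S x hx s hs w
    have := hinv s w x
    rwa [hx s hs] at this
  have hidemZ : ∀ x x', Fix V x → Fix V x' → ∑ z ∈ Finset.univ.filter (Fix V), E x z * E z x' = E x x' := by
    intro x x' hx hx'
    rw [← hidem x x']
    symm
    apply sum_eq_sum_fix hY hpk V (fun w => E x w * E w x')
    · intro s hs w
      simp only [hinvl hx s hs w, hinvr hx' s hs w]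
    · intro s _ w _
      exact Finset.mem_univ _
  -- the space of functions
  let K : AddSubgroup (X → k) :=
    { carrier := {a | (∀ w, ¬ Fix V w → a w = 0) ∧ ∀ w, Fix V w → a w = ∑ z, E w z * a z}
      zero_mem' := by simp
      add_mem' := by
        rintro a b ⟨ha, ha'⟩ ⟨hb, hb'⟩
        refine ⟨fun w hw => ?_, fun w hw => ?_⟩
        · simp [ha w hw, hb w hw]
        · simp only [Pi.add_apply, mul_add, Finset.sum_add_distrib]
          rw [← ha' w hw, ← hb' w hw]
      neg_mem' := by
        rintro a ⟨ha, ha'⟩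
        refine ⟨fun w hw => ?_, fun w hw => ?_⟩
        · simp [ha w hw]
        · simp only [Pi.neg_apply, mul_neg, Finset.sum_neg_distrib]
          rw [← ha' w hw] }
  let N₀ := Subgroup.normalizer (V : Set Y)
  have hKst : ∀ r : N₀, ∀ a ∈ K, (fun w => a (r⁻¹ • w)) ∈ K := by
    rintro r a ⟨ha, ha'⟩
    have hr' : ((r⁻¹ : N₀) : Y) ∈ N₀ := (r⁻¹ : N₀).2
    refine ⟨fun w hw => ha _ ?_, fun w hw => ?_⟩
    · intro h
      exact hw ((fix_smul_iff hr').1 h)
    · have h1 : Fix V (r⁻¹ • w) := (fix_smul_iff hr').2 hw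
      change a (r⁻¹ • w) = _
      rw [ha' _ h1]
      refine Fintype.sum_equiv (MulAction.toPerm (r : N₀)) _ _ fun z => ?_
      have h2 : E (r⁻¹ • w) z = E w ((r : N₀) • z) := by
        have := hinv ((r : N₀) : Y) (r⁻¹ • w) z
        rw [← this]
        congr 1
        change ((r : Y)) • ((r⁻¹ : N₀) : Y) • w = w
        rw [← mul_smul]
        simp
      rw [h2]
      simp [MulAction.toPerm_apply]
  obtain ⟨x₀, x₀', hx₀, hx₀', hE⟩ := hV
  let a₀ : X → k := fun w => if Fix V w then E w x₀' else 0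
  have ha₀ : a₀ ∈ K := by
    refine ⟨fun w hw => by simp [a₀, hw], fun w hw => ?_⟩
    simp only [a₀, if_pos hw]
    rw [← hidemZ w x₀' hw hx₀', Finset.sum_filter]
    refine Finset.sum_congr rfl fun z _ => ?_
    split_ifs <;> simp
  have ha₀0 : a₀ ≠ 0 := by
    intro h
    have := congrFun h x₀
    simp only [a₀, if_pos hx₀, Pi.zero_apply] at this
    exact hE this
  obtain ⟨n, hnK, hn0, hnfix⟩ := exists_fixed_fun (hY.to_subgroup N₀) hpk K hKst ha₀ ha₀0
  have hnfix' : ∀ r ∈ N₀, ∀ w, n (r • w) = n w := fun r hr w => hnfix ⟨r, hr⟩ w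
  -- vanishing at points with a bigger stabilizer
  have hnzero : ∀ z₁, n z₁ ≠ 0 → MulAction.stabilizer Y z₁ = V := by
    intro z₁ hz₁
    by_contra hne
    have hfz : Fix V z₁ := by
      by_contra h
      exact hz₁ (hnK.1 z₁ h)
    set T := MulAction.stabilizer Y z₁ with hT
    have hVT : V < T := lt_of_le_of_ne (fun u hu => MulAction.mem_stabilizer_iff.2 (hfz u hu)) (Ne.symm hne)
    -- normalizer condition
    haveI : Finite T := inferInstance
    haveI hTnil : Group.IsNilpotent T := (hY.to_subgroup T).isNilpotent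
    have hlt : V.subgroupOf T < ⊤ := by
      rw [lt_top_iff_ne_top]
      intro h
      rw [Subgroup.subgroupOf_eq_top] at h
      exact absurd (lt_of_lt_of_le hVT h) (lt_irrefl _)
    have hnc := Group.normalizerCondition_of_isNilpotent (G := T) _ hlt
    obtain ⟨t, ht, htV⟩ := SetLike.exists_of_lt hnc
    let S := N₀ ⊓ T
    have hVS : V < S := by
      refine lt_of_le_of_ne (le_inf Subgroup.le_normalizer hVT.le) fun h => ?_
      have hmem : (t : Y) ∈ S := by
        refine ⟨?_, t.2⟩
        change (t : Y) ∈ Subgroup.normalizer (V : Set Y)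
        rw [Subgroup.mem_normalizer_iff]
        rw [Subgroup.mem_normalizer_iff] at ht
        intro u
        constructor
        · intro hu
          have h1 := (ht ⟨u, hVT.le hu⟩).1 (by simpa [Subgroup.mem_subgroupOf] using hu)
          simpa [Subgroup.mem_subgroupOf] using h1
        · intro hu
          have huT : u ∈ T := by
            have h1 : (t : Y) * u * (t : Y)⁻¹ ∈ T := hVT.le hu
            have h2 : u = (t : Y)⁻¹ * ((t : Y) * u * (t : Y)⁻¹) * (t : Y) := by group
            rw [h2]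
            exact T.mul_mem (T.mul_mem (T.inv_mem t.2) h1) t.2
          have h1 := (ht ⟨u, huT⟩).2 (by simpa [Subgroup.mem_subgroupOf] using hu)
          simpa [Subgroup.mem_subgroupOf] using h1
      rw [← h] at hmem
      exact htV hmem
    apply hz₁
    rw [hnK.2 z₁ hfz]
    rw [sum_eq_sum_fix hY hpk S (fun z => E z₁ z * n z) _ _ (fun s _ w _ => Finset.mem_univ _)]
    · apply Finset.sum_eq_zero
      intro z hz
      by_cases hE' : E z₁ z = 0
      · rw [hE', zero_mul]
      · exact absurd ⟨z₁, z, fun u hu => MulAction.mem_stabilizer_iff.1 hu.2, (Finset.mem_filter.1 hz).2, hE'⟩ (hmax S hVS)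
    · intro s hs w
      rw [hnfix' s hs.1 w]
      have h1 : Fix S z₁ := fun u hu => MulAction.mem_stabilizer_iff.1 hu.2
      rw [hinvl h1 s hs w]
  -- pick a point
  obtain ⟨x, hx⟩ : ∃ x, n x ≠ 0 := by
    by_contra h
    push Not at h
    exact hn0 (funext h)
  have hfx : Fix V x := by
    by_contra h
    exact hx (hnK.1 x h)
  have hsum := hnK.2 x hfx
  rw [hsum] at hx
  -- partition into orbits
  letI : Fintype (MulAction.orbitRel.Quotient Y X) := Fintype.ofFinite _
  rw [← Finset.sum_fiberwise Finset.univ (fun z => (Quotient.mk (MulAction.orbitRel Y X) z)) (fun z => E x z * n z)] at hx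
  obtain ⟨j, -, hj⟩ := Finset.exists_ne_zero_of_sum_ne_zero hx
  obtain ⟨z₀, hz₀, hz₀'⟩ := Finset.exists_ne_zero_of_sum_ne_zero hj
  have hnz₀ : n z₀ ≠ 0 := right_ne_zero_of_mul hz₀'
  have hst := hnzero z₀ hnz₀
  have hqz : ∀ z, (Quotient.mk (MulAction.orbitRel Y X) z) = j ↔ z ∈ MulAction.orbit Y z₀ := by
    intro z
    rw [← (Finset.mem_filter.1 hz₀).2]
    rw [Quotient.eq]
    exact MulAction.orbitRel_apply
  refine ⟨x, z₀, hfx, hst, ?_⟩
  -- the sum restricted to the fixed points
  have hV₀ : Fix V z₀ := fun u hu => by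
    rw [← hst] at hu
    exact MulAction.mem_stabilizer_iff.1 hu
  have horb : ∀ z ∈ MulAction.orbit Y z₀, Fix V z → n z = n z₀ := by
    rintro _ ⟨y, rfl⟩ hz
    have hyN : y ∈ N₀ := by
      change y ∈ Subgroup.normalizer (V : Set Y)
      have hle : V.map (MulAut.conj y⁻¹).toMonoidHom ≤ V := by
        rintro _ ⟨u, hu, rfl⟩
        rw [← hst]
        rw [MulAction.mem_stabilizer_iff]
        have h1 := hz u hu
        simp only [MulEquiv.toMonoidHom_eq_coe, MonoidHom.coe_coe, MulAut.conj_apply]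
        rw [← mul_smul] at h1
        have h2 : (y⁻¹ * u * y⁻¹⁻¹) • z₀ = y⁻¹ • ((u * y) • z₀) := by
          rw [← mul_smul]
          congr 1
          group
        rw [h2, h1, inv_smul_smul]
      have hEq : V.map (MulAut.conj y⁻¹).toMonoidHom = V := by
        apply Subgroup.eq_of_le_of_card_ge hle
        rw [Subgroup.card_map_of_injective (MulAut.conj y⁻¹).injective]
      rw [Subgroup.mem_normalizer_iff]
      intro h
      constructor
      · intro hh
        rw [← hEq] at hh
        obtain ⟨v, hv, rfl⟩ := hh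
        simp only [MulEquiv.toMonoidHom_eq_coe, MonoidHom.coe_coe, MulAut.conj_apply]
        have : y * (y⁻¹ * v * y⁻¹⁻¹) * y⁻¹ = v := by group
        rwa [this]
      · intro hh
        rw [← hEq]
        refine ⟨y * h * y⁻¹, hh, ?_⟩
        simp only [MulEquiv.toMonoidHom_eq_coe, MonoidHom.coe_coe, MulAut.conj_apply]
        group
    exact hnfix' y hyN z₀
  rw [sum_eq_sum_fix hY hpk V (fun z => E x z) (fun s hs w => hinvl hfx s hs w)
    (Finset.univ.filter (· ∈ MulAction.orbit Y z₀)) (fun s hs w hw => by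
      rw [Finset.mem_filter] at hw ⊢
      obtain ⟨y, rfl⟩ := hw.2
      exact ⟨Finset.mem_univ _, ⟨s * y, mul_smul _ _ _⟩⟩)]
  intro hzero
  apply hj
  have h1 : ∑ z ∈ Finset.univ.filter (fun z => (Quotient.mk (MulAction.orbitRel Y X) z) = j), E x z * n z =
      ∑ z ∈ Finset.univ.filter (· ∈ MulAction.orbit Y z₀), E x z * n z :=
    Finset.sum_congr (Finset.filter_congr fun z _ => hqz z) fun _ _ => rfl
  rw [h1, ← Finset.sum_filter_of_ne (p := Fix V)]
  · rw [Finset.sum_congr rfl (g := fun z => E x z * n z₀), ← Finset.sum_mul, hzero, zero_mul]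
    intro z hz
    rw [Finset.mem_filter, Finset.mem_filter] at hz
    rw [horb z hz.1.2 hz.2]
  · intro z _ hz
    by_contra h
    exact hz (by rw [hnK.1 z h, mul_zero])

/-- The columns over an orbit with a nonzero sum are independent. -/
lemma linearIndependent_orbit [Fintype X] (hY : IsPGroup p Y) (hpk : (p : k) = 0)
    (hinv : ∀ (y : Y) (x x' : X), E (y • x) (y • x') = E x x') (z₀ x : X)
    [Fintype (MulAction.orbit Y z₀)] (h : ∑ z : MulAction.orbit Y z₀, E x z ≠ 0) :
    LinearIndependent k (fun (z : MulAction.orbit Y z₀) (x : X) => E x z) := by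
  classical
  by_contra hli
  rw [Fintype.linearIndependent_iff] at hli
  push Not at hli
  obtain ⟨g, hg, z, hz⟩ := hli
  let K : AddSubgroup (MulAction.orbit Y z₀ → k) :=
    { carrier := {a | ∀ x, ∑ z, a z * E x z = 0}
      zero_mem' := by simp
      add_mem' := by
        intro a b ha hb x
        simp only [Pi.add_apply, add_mul, Finset.sum_add_distrib, ha x, hb x, add_zero]
      neg_mem' := by
        intro a ha x
        simp only [Pi.neg_apply, neg_mul, Finset.sum_neg_distrib, ha x, neg_zero] }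
  have hKst : ∀ r : Y, ∀ a ∈ K, (fun w => a (r⁻¹ • w)) ∈ K := by
    intro r a ha x
    have h1 := ha (r⁻¹ • x)
    rw [← h1]
    refine Fintype.sum_equiv (MulAction.toPerm r⁻¹) _ _ fun w => ?_
    simp only [MulAction.toPerm_apply]
    congr 1
    have := hinv r⁻¹ x w
    rw [← this]
    rfl
  have hgK : g ∈ K := by
    intro x
    have h1 := congrFun hg x
    simpa using h1
  have hg0 : g ≠ 0 := fun h0 => hz (congrFun h0 z)
  obtain ⟨a, haK, ha0, hafix⟩ := exists_fixed_fun hY hpk K hKst hgK hg0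
  have hconst : ∀ w, a w = a ⟨z₀, MulAction.mem_orbit_self z₀⟩ := by
    rintro ⟨_, y, rfl⟩
    exact hafix y ⟨z₀, MulAction.mem_orbit_self z₀⟩
  have h2 := haK x
  simp only [hconst] at h2
  rw [← Finset.mul_sum] at h2
  have h3 := (mul_eq_zero.1 h2).resolve_right h
  apply ha0
  funext w
  rw [hconst w, h3]
  rfl

lemma sum_orbit_eq [Fintype X] (z₀ : X) (f : X → k) [Fintype (MulAction.orbit Y z₀)]
    [DecidablePred (· ∈ MulAction.orbit Y z₀)] :
    ∑ z : MulAction.orbit Y z₀, f z = ∑ z ∈ Finset.univ.filter (· ∈ MulAction.orbit Y z₀), f z := by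
  symm
  apply Finset.sum_subtype
  simp

open Classical in
/-- **Main abstract theorem.** If the rank of `E` is at most `|Y| / |V₂|`, with `V₂` of the greatest order
among the subgroups in `InU E`, then each of these subgroups is `Y`-conjugate into `V₂`. -/
theorem exists_conj_le_of_rank [Fintype X] (hY : IsPGroup p Y) (hpk : (p : k) = 0)
    (hinv : ∀ (y : Y) (x x' : X), E (y • x) (y • x') = E x x')
    (hidem : ∀ x x', ∑ w, E x w * E w x' = E x x') {V₂ : Subgroup Y} (hV₂ : InU E V₂)
    (hbig : ∀ U : Subgroup Y, InU E U → Nat.card U ≤ Nat.card V₂)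
    (hrank : finrank k (Submodule.span k (Set.range fun (z : X) (x : X) => E x z)) * Nat.card V₂ ≤ Nat.card Y)
    {U : Subgroup Y} (hU : InU E U) : ∃ y : Y, ∀ u ∈ U, y⁻¹ * u * y ∈ V₂ := by
  -- `V₂` is maximal
  have hmax₂ : ∀ U : Subgroup Y, V₂ < U → ¬ InU E U := by
    intro U hlt hU
    have h1 := hbig U hU
    have h2 : Nat.card V₂ < Nat.card U := by
      by_contra hcon
      exact absurd (Subgroup.eq_of_le_of_card_ge hlt.le (not_lt.1 hcon)) hlt.ne
    omega
  obtain ⟨x₂, z₂, hx₂, hst₂, hsum₂⟩ := exists_orbit_of_maximal hY hpk hinv hidem hV₂ hmax₂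
  letI : ∀ z : X, Fintype (MulAction.orbit Y z) := fun z => Fintype.ofFinite _
  have hsum₂' : ∑ z : MulAction.orbit Y z₂, E x₂ z ≠ 0 := by
    rwa [sum_orbit_eq (Y := Y) z₂ (fun z => E x₂ z)]
  have hli₂ := linearIndependent_orbit hY hpk hinv z₂ x₂ hsum₂'
  -- cardinalities
  set L := Submodule.span k (Set.range fun (z : X) (x : X) => E x z) with hL
  set L₂ := Submodule.span k (Set.range fun (z : MulAction.orbit Y z₂) (x : X) => E x z) with hL₂
  have hL₂L : L₂ ≤ L := by
    apply Submodule.span_mono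
    rintro _ ⟨z, rfl⟩
    exact ⟨z, rfl⟩
  have hcard₂ : finrank k L₂ = Nat.card (MulAction.orbit Y z₂) := by
    rw [hL₂, finrank_span_eq_card hli₂, Nat.card_eq_fintype_card]
  have hcardY : Nat.card (MulAction.orbit Y z₂) * Nat.card V₂ = Nat.card Y := by
    rw [← hst₂, ← Subgroup.index_mul_card (MulAction.stabilizer Y z₂), MulAction.index_stabilizer,
      Nat.card_coe_set_eq]
  have hL₂eq : L₂ = L := by
    apply Submodule.eq_of_le_of_finrank_le hL₂L
    rw [hcard₂]
    have hpos : 0 < Nat.card V₂ := Nat.card_pos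
    rw [← hcardY] at hrank
    exact Nat.le_of_mul_le_mul_right hrank hpos
  -- a maximal subgroup above `U`
  obtain ⟨V₁, hUV₁, hV₁⟩ := (Set.toFinite {W : Subgroup Y | InU E W}).exists_le_maximal hU
  have hmax₁ : ∀ W : Subgroup Y, V₁ < W → ¬ InU E W := fun W hlt hW => absurd (hV₁.2 hW hlt.le) (not_le_of_gt hlt)
  obtain ⟨x₁, z₁, hx₁, hst₁, hsum₁⟩ := exists_orbit_of_maximal hY hpk hinv hidem hV₁.1 hmax₁
  -- the sum of the columns over the orbit of `z₁` is a combination of the columns over the orbit of `z₂`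
  let σ₁ : X → k := fun x => ∑ z ∈ Finset.univ.filter (· ∈ MulAction.orbit Y z₁), E x z
  have hσ₁L : σ₁ ∈ L₂ := by
    rw [hL₂eq]
    have : σ₁ = ∑ z ∈ Finset.univ.filter (· ∈ MulAction.orbit Y z₁), (fun x => E x z) := by
      funext x
      simp [σ₁, Finset.sum_apply]
    rw [this]
    exact Submodule.sum_mem _ fun z _ => Submodule.subset_span ⟨z, rfl⟩
  obtain ⟨a, ha⟩ := (Submodule.mem_span_range_iff_exists_fun k).1 hσ₁L
  have ha' : ∀ x, ∑ z : MulAction.orbit Y z₂, a z * E x z = σ₁ x := by
    intro x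
    have := congrFun ha x
    simpa [Finset.sum_apply] using this
  -- `σ₁` is invariant
  have hσinv : ∀ (y : Y) x, σ₁ (y • x) = σ₁ x := by
    intro y x
    apply Finset.sum_equiv (MulAction.toPerm y⁻¹)
    · intro z
      simp only [Finset.mem_filter, Finset.mem_univ, true_and, MulAction.toPerm_apply]
      constructor
      · rintro ⟨w, rfl⟩
        exact ⟨y⁻¹ * w, mul_smul _ _ _⟩
      · rintro ⟨w, hw⟩
        refine ⟨y * w, ?_⟩
        simp only at hw
        change (y * w) • z₁ = z
        rw [mul_smul, hw, smul_inv_smul]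
    · intro z _
      simp only [MulAction.toPerm_apply]
      have := hinv y x (y⁻¹ • z)
      rw [smul_inv_smul] at this
      exact this
  -- so `a` is invariant
  have hainv : ∀ (y : Y) z, a (y • z) = a z := by
    intro y z
    have h1 : ∑ z : MulAction.orbit Y z₂, (a (y • z) - a z) • (fun x => E x z) = 0 := by
      funext x
      simp only [Finset.sum_apply, Pi.smul_apply, smul_eq_mul, Pi.zero_apply, sub_mul, Finset.sum_sub_distrib]
      rw [sub_eq_zero, ha' x, ← hσinv y x, ← ha']
      refine Fintype.sum_equiv (MulAction.toPerm y) _ _ fun w => ?_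
      simp only [MulAction.toPerm_apply]
      congr 1
      exact (hinv y x w).symm
    have h2 := Fintype.linearIndependent_iff.1 hli₂ _ h1 z
    exact sub_eq_zero.1 h2
  have hconst : ∀ z, a z = a ⟨z₂, MulAction.mem_orbit_self z₂⟩ := by
    rintro ⟨_, y, rfl⟩
    exact hainv y ⟨z₂, MulAction.mem_orbit_self z₂⟩
  have hσ₁ : σ₁ x₁ = a ⟨z₂, MulAction.mem_orbit_self z₂⟩ * ∑ z : MulAction.orbit Y z₂, E x₁ z := by
    rw [← ha', Finset.mul_sum]
    exact Finset.sum_congr rfl fun z _ => by rw [hconst z]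
  have hne : ∑ z ∈ Finset.univ.filter (· ∈ MulAction.orbit Y z₂), E x₁ z ≠ 0 := by
    rw [← sum_orbit_eq (Y := Y) z₂ (fun z => E x₁ z)]
    intro h0
    rw [h0, mul_zero] at hσ₁
    exact hsum₁ hσ₁
  -- a fixed point of `V₁` in the orbit of `z₂`
  have hinvl : ∀ s ∈ V₁, ∀ w, E x₁ (s • w) = E x₁ w := by
    intro s hs w
    have := hinv s x₁ w
    rwa [hx₁ s hs] at this
  rw [sum_eq_sum_fix hY hpk V₁ (fun z => E x₁ z) hinvl
    (Finset.univ.filter (· ∈ MulAction.orbit Y z₂)) (fun s hs w hw => by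
      rw [Finset.mem_filter] at hw ⊢
      obtain ⟨y, rfl⟩ := hw.2
      exact ⟨Finset.mem_univ _, ⟨s * y, mul_smul _ _ _⟩⟩)] at hne
  obtain ⟨z, hz, -⟩ := Finset.exists_ne_zero_of_sum_ne_zero hne
  rw [Finset.mem_filter, Finset.mem_filter] at hz
  obtain ⟨⟨-, y, rfl⟩, hzfix⟩ := hz
  refine ⟨y, fun u hu => ?_⟩
  rw [← hst₂, MulAction.mem_stabilizer_iff]
  have h1 := hzfix u (hUV₁ hu)
  simp only at h1
  rw [mul_smul, mul_smul, h1, inv_smul_smul]

end Main

end Cfsg.Agent.Lib.Blocks.MinDim
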