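/-
Okuyama-Tsushima: a block whose sum of squared degrees is least possible is nilpotent.
The matrix `(x, z) ↦ e_B(x z⁻¹)` is an idempotent over the local ring; its rank over the complex numbers is
its trace, the sum of the squared degrees, and the rank mod `M` can only be smaller.
-/
import Mathlib
import Cfsg.Agent.Lib.Blocks.MinDim
import Cfsg.Agent.Lib.Blocks.ModRank
import Cfsg.Agent.Lib.Blocks.Pairs6
import Cfsg.Agent.Lib.Blocks.AbFrob6

set_option autoImplicit false

namespace Cfsg.Agent.Lib.Blocks.MinDim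

open Finset Module Cfsg Cfsg.Agent.Lib.Blocks.Local Cfsg.Agent.Lib.Blocks.Central Cfsg.Agent.Lib.Blocks.Osima
open Cfsg.Agent.Lib.Blocks.Covering Cfsg.Agent.Lib.Blocks.Pairs

universe u

section Idem

/-- An idempotent complex matrix has rank equal to its trace. -/
lemma finrank_span_cols_of_idem {X : Type*} [Fintype X] [DecidableEq X] (A : Matrix X X ℂ) (h : A * A = A) :
    ((finrank ℂ (Submodule.span ℂ (Set.range fun (z : X) (x : X) => A x z)) : ℕ) : ℂ) = A.trace := by
  have hT : IsIdempotentElem (Matrix.toLin' A) := by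
    change Matrix.toLin' A * Matrix.toLin' A = Matrix.toLin' A
    rw [Module.End.mul_eq_comp, ← Matrix.toLin'_mul, h]
  have h1 := (LinearMap.IsIdempotentElem.isProj_range _ hT).trace
  have h2 : LinearMap.trace ℂ (X → ℂ) (Matrix.toLin' A) = A.trace := by
    rw [LinearMap.trace_eq_matrix_trace ℂ (Pi.basisFun ℂ X)]
    congr 1
    ext i j
    simp [LinearMap.toMatrix_apply, Matrix.toLin'_apply, Matrix.mulVec, dotProduct, Pi.single_apply]
  have h3 : Submodule.span ℂ (Set.range fun (z : X) (x : X) => A x z) = LinearMap.range (Matrix.toLin' A) := by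
    rw [Matrix.toLin'_apply', Matrix.range_mulVecLin]
    rfl
  rw [← h2, h1, h3]

end Idem

section Core

variable {G : Type u} [Group G] [Fintype G] {M : Ideal AlgInt} [hM : M.IsPrime]

lemma blockCoeff_idem (B : Set (IrrCharacter G)) (x x' : G) :
    ∑ w, blockCoeff B (x * w⁻¹) * blockCoeff B (w * x'⁻¹) = blockCoeff B (x * x'⁻¹) := by
  have h := congrArg (fun a => MonoidAlgebra.coeff a (x * x'⁻¹)) (blockElt_mul_self B)
  simp only [coeff_mul_eq_sum', coeff_blockElt] at h
  rw [← h]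
  refine Fintype.sum_equiv (Equiv.mulRight x'⁻¹) _ _ fun w => ?_
  simp only [Equiv.coe_mulRight]
  congr 2
  group

/-- The pair `(x, y)` acts by `g ↦ x g y⁻¹`. -/
@[reducible] def biAct (P : Subgroup G) : MulAction (P × P) G where
  smul u g := (u.1 : G) * g * (u.2 : G)⁻¹
  one_smul g := by
    change ((1 : P) : G) * g * ((1 : P) : G)⁻¹ = g
    simp
  mul_smul u v g := by
    change ((u.1 * v.1 : P) : G) * g * ((u.2 * v.2 : P) : G)⁻¹ =
      (u.1 : G) * ((v.1 : G) * g * (v.2 : G)⁻¹) * (u.2 : G)⁻¹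
    simp only [Subgroup.coe_mul, mul_inv_rev]
    group

lemma isPGroup_prod {p : ℕ} [Fact p.Prime] {P : Subgroup G} (hP : IsPGroup p P) : IsPGroup p (P × P) := by
  rintro ⟨a, b⟩
  obtain ⟨k, hk⟩ := hP a
  obtain ⟨l, hl⟩ := hP b
  refine ⟨k + l, ?_⟩
  apply Prod.ext
  · change a ^ (p ^ (k + l)) = 1
    rw [pow_add, pow_mul, hk, one_pow]
  · change b ^ (p ^ (k + l)) = 1
    rw [pow_add, mul_comm, pow_mul, hl, one_pow]

/-- The matrix of the block idempotent over the local ring. -/
noncomputable def sM {B : Set (IrrCharacter G)} (hB : ∀ x : G, MemLocalRing M (blockCoeff B x)) (x z : G) :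
    localRing M := ⟨blockCoeff B (x * z⁻¹), hB _⟩

/-- The matrix of the block idempotent over the residue field. -/
noncomputable def eM {B : Set (IrrCharacter G)} (hB : ∀ x : G, MemLocalRing M (blockCoeff B x)) (x z : G) :
    localRing M ⧸ localIdeal M := residue M (sM hB x z)

lemma eM_ne_zero {B : Set (IrrCharacter G)} (hB : ∀ x : G, MemLocalRing M (blockCoeff B x)) {x z : G} :
    eM hB x z ≠ 0 ↔ ¬ MemLocalIdeal M (blockCoeff B (x * z⁻¹)) := by
  rw [eM, Ne, residue_eq_zero_iff]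
  rfl

lemma eM_idem {B : Set (IrrCharacter G)} (hB : ∀ x : G, MemLocalRing M (blockCoeff B x)) (x x' : G) :
    ∑ w, eM hB x w * eM hB w x' = eM hB x x' := by
  simp only [eM, ← map_mul, ← map_sum]
  congr 1
  apply Subtype.ext
  change _ = blockCoeff B (x * x'⁻¹)
  rw [← blockCoeff_idem B x x', AddSubmonoidClass.coe_finsetSum]
  rfl

/-- Rank of the reduced matrix. -/
lemma finrank_eM_le {B : Set (IrrCharacter G)} (hB : ∀ x : G, MemLocalRing M (blockCoeff B x)) :
    ((finrank (localRing M ⧸ localIdeal M) (Submodule.span (localRing M ⧸ localIdeal M)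
      (Set.range fun (z : G) (x : G) => eM hB x z)) : ℕ) : ℝ) ≤
      ((∑ᶠ χ ∈ B, charDegree (χ : G → ℂ) ^ 2 : ℕ) : ℝ) := by
  classical
  let A : Matrix G G ℂ := Matrix.of fun x z => blockCoeff B (x * z⁻¹)
  have hA : A * A = A := by
    ext x z
    simp only [Matrix.mul_apply, A, Matrix.of_apply]
    exact blockCoeff_idem B x z
  have htr : A.trace = ((∑ᶠ χ ∈ B, charDegree (χ : G → ℂ) ^ 2 : ℕ) : ℂ) := by
    have h1 : A.trace = (Nat.card G : ℂ) * blockCoeff B 1 := by
      simp only [Matrix.trace, Matrix.diag, A, Matrix.of_apply, mul_inv_cancel, Finset.sum_const,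
        Finset.card_univ, nsmul_eq_mul, Nat.card_eq_fintype_card]
    rw [h1, blockCoeff_eq_sum, ← mul_assoc, mul_inv_cancel₀ Cfsg.Agent.Lib.Char.OrthoBasic.natCard_ne_zero_complex,
      one_mul, Osima.finsum_mem_eq_sum_filter]
    push_cast
    refine Finset.sum_congr rfl fun χ _ => ?_
    rw [← Cfsg.Agent.Lib.Blocks.AbFrob.deg_cast χ, Complex.conj_natCast, sq]
  have h1 := finrank_span_cols_of_idem A hA
  rw [htr] at h1
  have h2 := Nat.cast_injective h1
  have h3 := Cfsg.Agent.Lib.Blocks.ModRank.finrank_span_reduction_le (X := G) (J := G)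
    (residue M) Ideal.Quotient.mk_surjective (fun x hx => by
      rw [isUnit_iff_not_mem]
      intro h
      exact hx (residue_eq_zero_iff.2 h)) (localRing M).subtype
    (fun z x => sM hB x z) (fun z x => eM hB x z) (fun z x => A x z) LinearMap.id Function.injective_id
    LinearMap.id (fun _ _ => rfl) (fun _ _ => rfl)
  rw [← h2]
  exact_mod_cast h3

/-- Pure group theory: conjugation by the `p`-regular element `t` agrees on `Q` with conjugation by a
`p`-element. -/
lemma mem_centralizer_of_conj_eq {p : ℕ} [hp : Fact p.Prime] {Q : Subgroup G} {t w : G}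
    (ht : ∀ q ∈ Q, t⁻¹ * q * t ∈ Q) (htr : IsPRegular p t) (hw : ∃ m : ℕ, w ^ p ^ m = 1)
    (h : ∀ q ∈ Q, t⁻¹ * q * t = w * q * w⁻¹) : t ∈ Subgroup.centralizer (Q : Set G) := by
  have key : ∀ n : ℕ, ∀ q ∈ Q, (t ^ n)⁻¹ * q * t ^ n = w ^ n * q * (w ^ n)⁻¹ := by
    intro n
    induction n with
    | zero => intro q _; simp
    | succ n ih =>
      intro q hq
      have h1 := ih _ (ht q hq)
      rw [h q hq] at h1
      rw [pow_succ' t, pow_succ w]
      calc (t * t ^ n)⁻¹ * q * (t * t ^ n) = (t ^ n)⁻¹ * (t⁻¹ * q * t) * t ^ n := by group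
        _ = (t ^ n)⁻¹ * (w * q * w⁻¹) * t ^ n := by rw [h q hq]
        _ = w ^ n * (w * q * w⁻¹) * (w ^ n)⁻¹ := h1
        _ = w ^ n * w * q * (w ^ n * w)⁻¹ := by group
  obtain ⟨m, hm⟩ := hw
  have hcop : (p ^ m).Coprime (orderOf t) :=
    Nat.Coprime.pow_left m ((Nat.Prime.coprime_iff_not_dvd hp.out).2 htr)
  obtain ⟨n, hn⟩ := exists_pow_eq_self_of_coprime hcop
  rw [Subgroup.mem_centralizer_iff]
  intro q hq
  have h1 := key (p ^ m) q hq
  rw [hm, one_mul, inv_one, mul_one] at h1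
  have h2 : Commute q (t ^ p ^ m) := by
    change q * t ^ p ^ m = t ^ p ^ m * q
    calc q * t ^ p ^ m = t ^ p ^ m * ((t ^ p ^ m)⁻¹ * q * t ^ p ^ m) := by group
      _ = t ^ p ^ m * q := by rw [h1]
  have h3 : Commute q t := by
    have := h2.pow_right n
    rwa [hn] at this
  exact h3

/-- **Core theorem.** -/
theorem mem_centralizer_of_minDim' {p : ℕ} [hp : Fact p.Prime] (hMp : IsPModular p M) {B : Set (IrrCharacter G)}
    (hB : IsPBlock M B) {P : Subgroup G} (hP : IsPGroup p P) {D : Subgroup G} (hDP : D ≤ P) {g : G}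
    (hgD : D ≤ Subgroup.centralizer ({g} : Set G)) (hg : ¬ MemLocalIdeal M (blockCoeff B g))
    (hbig : ∀ R : Subgroup G, IsPGroup p R → ∀ c, R ≤ Subgroup.centralizer ({c} : Set G) →
      ¬ MemLocalIdeal M (blockCoeff B c) → Nat.card R ≤ Nat.card D)
    (hdim : (∑ᶠ χ ∈ B, charDegree (χ : G → ℂ) ^ 2) * Nat.card D ≤ Nat.card (P × P))
    {Q : Subgroup G} (hQD : Q ≤ D) {c : G} (hQc : Q ≤ Subgroup.centralizer ({c} : Set G))
    (hc : ¬ MemLocalIdeal M (blockCoeff B c)) {t : G} (ht : t ∈ Subgroup.normalizer (Q : Set G))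
    (htr : IsPRegular p t) : t ∈ Subgroup.centralizer (Q : Set G) := by
  classical
  letI act := biAct P
  have hloc : ∀ x : G, MemLocalRing M (blockCoeff B x) := memLocalRing_blockCoeff hB
  set E := eM (M := M) hloc with hE
  have hY : IsPGroup p (P × P) := isPGroup_prod hP
  have hpk : ((p : ℕ) : localRing M ⧸ localIdeal M) = 0 := by
    have : ((p : ℕ) : localRing M ⧸ localIdeal M) = residue M (p : localRing M) := (map_natCast _ _).symm
    rw [this, residue_eq_zero_iff]
    exact_mod_cast memLocalIdeal_natCast_self hMp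
  have hsmul : ∀ (u : P × P) (x : G), u • x = (u.1 : G) * x * (u.2 : G)⁻¹ := fun _ _ => rfl
  have hinv : ∀ (y : P × P) (x x' : G), E (y • x) (y • x') = E x x' := by
    intro y x x'
    simp only [hE, eM]
    congr 1
    apply Subtype.ext
    change blockCoeff B ((y • x) * (y • x')⁻¹) = blockCoeff B (x * x'⁻¹)
    rw [hsmul, hsmul]
    have h1 : (y.1 : G) * x * (y.2 : G)⁻¹ * ((y.1 : G) * x' * (y.2 : G)⁻¹)⁻¹ = (y.1 : G) * (x * x'⁻¹) * (y.1 : G)⁻¹ := by
      group
    rw [h1]
    exact isClassFunction_blockCoeff B _ _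
  have hidem : ∀ x x', ∑ w, E x w * E w x' = E x x' := eM_idem hloc
  -- the diagonal of `D`
  let δ : D →* P × P :=
    { toFun := fun d => (⟨d, hDP d.2⟩, ⟨d, hDP d.2⟩)
      map_one' := rfl
      map_mul' := fun _ _ => rfl }
  have hδ : Function.Injective δ := by
    intro a b hab
    have := congrArg (fun u => ((u.1 : P) : G)) hab
    exact Subtype.ext this
  have hV₂ : InU E δ.range := by
    refine ⟨g, 1, ?_, ?_, ?_⟩
    · rintro _ ⟨d, rfl⟩
      rw [hsmul]
      change (d : G) * g * (d : G)⁻¹ = g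
      have h1 := hgD d.2
      rw [Subgroup.mem_centralizer_iff] at h1
      have h2 := h1 g rfl
      rw [← h2]
      group
    · rintro _ ⟨d, rfl⟩
      rw [hsmul]
      change (d : G) * 1 * (d : G)⁻¹ = 1
      group
    · rw [hE, eM_ne_zero]
      simpa using hg
  have hcardV₂ : Nat.card δ.range = Nat.card D :=
    Nat.card_congr (MonoidHom.ofInjective hδ).toEquiv.symm
  have hbig' : ∀ U : Subgroup (P × P), InU E U → Nat.card U ≤ Nat.card δ.range := by
    rintro U ⟨x, x', hx, hx', hne⟩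
    rw [hcardV₂]
    rw [hE, eM_ne_zero] at hne
    -- the first projection
    let R : Subgroup G := (U.map (MonoidHom.fst P P)).map P.subtype
    have hRP : R ≤ P := by
      rintro _ ⟨_, ⟨u, _, rfl⟩, rfl⟩
      exact (MonoidHom.fst P P u).2
    have hRc : R ≤ Subgroup.centralizer ({x * x'⁻¹} : Set G) := by
      rintro _ ⟨_, ⟨u, hu, rfl⟩, rfl⟩
      rw [Subgroup.mem_centralizer_iff]
      rintro _ rfl
      have h1 := hx u hu
      have h2 := hx' u hu
      rw [hsmul] at h1 h2
      change x * x'⁻¹ * (u.1 : G) = (u.1 : G) * (x * x'⁻¹)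
      calc x * x'⁻¹ * (u.1 : G) = ((u.1 : G) * x * (u.2 : G)⁻¹) * ((u.1 : G) * x' * (u.2 : G)⁻¹)⁻¹ * (u.1 : G) := by
            rw [h1, h2]
        _ = (u.1 : G) * (x * x'⁻¹) := by group
    refine le_trans ?_ (hbig R (hP.to_le hRP) _ hRc hne)
    refine Nat.card_le_card_of_injective (fun u => ⟨((u.1.1 : P) : G), ⟨u.1.1, ⟨u.1, u.2, rfl⟩, rfl⟩⟩) ?_
    intro u v huv
    have h1 : ((u.1.1 : P) : G) = ((v.1.1 : P) : G) := congrArg (fun r : R => (r : G)) huv
    have h2 := hx u.1 u.2
    have h3 := hx v.1 v.2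
    rw [hsmul] at h2 h3
    apply Subtype.ext
    apply Prod.ext
    · exact Subtype.ext h1
    · apply Subtype.ext
      rw [h1] at h2
      have h4 := h2.trans h3.symm
      have h5 := mul_left_cancel h4
      exact inv_injective h5
  have hrank : finrank (localRing M ⧸ localIdeal M) (Submodule.span (localRing M ⧸ localIdeal M)
      (Set.range fun (z : G) (x : G) => E x z)) * Nat.card δ.range ≤ Nat.card (P × P) := by
    rw [hcardV₂]
    refine le_trans (Nat.mul_le_mul_right _ ?_) hdim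
    have := finrank_eM_le (M := M) hloc
    exact_mod_cast this
  -- the subgroup attached to `Q` and `t`
  have htQ : ∀ q ∈ Q, t⁻¹ * q * t ∈ Q := by
    intro q hq
    rw [Subgroup.mem_normalizer_iff] at ht
    rw [ht]
    have : t * (t⁻¹ * q * t) * t⁻¹ = q := by group
    rwa [this]
  let ψ : Q →* P × P :=
    { toFun := fun q => (⟨q, hDP (hQD q.2)⟩, ⟨t⁻¹ * q * t, hDP (hQD (htQ q q.2))⟩)
      map_one' := by
        apply Prod.ext <;> apply Subtype.ext
        · rfl
        · change t⁻¹ * 1 * t = 1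
          group
      map_mul' := fun a b => by
        apply Prod.ext <;> apply Subtype.ext
        · rfl
        · change t⁻¹ * ((a : G) * (b : G)) * t = (t⁻¹ * a * t) * (t⁻¹ * b * t)
          group }
  have hU : InU E ψ.range := by
    refine ⟨c * t, t, ?_, ?_, ?_⟩
    · rintro _ ⟨q, rfl⟩
      rw [hsmul]
      change (q : G) * (c * t) * (t⁻¹ * q * t)⁻¹ = c * t
      have h1 := hQc q.2
      rw [Subgroup.mem_centralizer_iff] at h1
      have h2 := h1 c rfl
      calc (q : G) * (c * t) * (t⁻¹ * q * t)⁻¹ = ((q : G) * c) * (q : G)⁻¹ * t := by group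
        _ = (c * (q : G)) * (q : G)⁻¹ * t := by rw [h2]
        _ = c * t := by group
    · rintro _ ⟨q, rfl⟩
      rw [hsmul]
      change (q : G) * t * (t⁻¹ * q * t)⁻¹ = t
      group
    · rw [hE, eM_ne_zero]
      simpa using hc
  obtain ⟨y, hy⟩ := exists_conj_le_of_rank hY hpk hinv hidem hV₂ hbig' hrank hU
  let w : G := (y.2 : G) * (y.1 : G)⁻¹
  refine mem_centralizer_of_conj_eq (w := w) htQ htr ?_ ?_
  · have hwP : w ∈ P := P.mul_mem y.2.2 (P.inv_mem y.1.2)
    obtain ⟨m, hm⟩ := hP ⟨w, hwP⟩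
    exact ⟨m, congrArg Subtype.val hm⟩
  · intro q hq
    obtain ⟨d, hd⟩ := hy (ψ ⟨q, hq⟩) ⟨⟨q, hq⟩, rfl⟩
    have h1 := congrArg (fun u => ((u.1 : P) : G)) hd
    have h2 := congrArg (fun u => ((u.2 : P) : G)) hd
    change (d : G) = (y.1 : G)⁻¹ * q * (y.1 : G) at h1
    change (d : G) = (y.2 : G)⁻¹ * (t⁻¹ * q * t) * (y.2 : G) at h2
    have h3 := h2.symm.trans h1
    calc t⁻¹ * q * t = (y.2 : G) * ((y.2 : G)⁻¹ * (t⁻¹ * q * t) * (y.2 : G)) * (y.2 : G)⁻¹ := by group
      _ = (y.2 : G) * ((y.1 : G)⁻¹ * q * (y.1 : G)) * (y.2 : G)⁻¹ := by rw [h3]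
      _ = w * q * w⁻¹ := by
        simp only [w]
        group

/-- **Okuyama-Tsushima.** -/
theorem isNilpotentBlock_of_minDim {p : ℕ} [hp : Fact p.Prime] (hMp : IsPModular p M) {B : Set (IrrCharacter G)}
    (hB : IsPBlock M B) {D : Subgroup G} (hD : IsDefectGroup p M B D)
    (hdim : (∑ᶠ χ ∈ B, charDegree (χ : G → ℂ) ^ 2) * Nat.card D ≤ p ^ (2 * (Nat.card G).factorization p)) :
    IsNilpotentBlock p M B := by
  classical
  refine ⟨hB, fun Q f hQ t ht _ htr => ?_⟩
  obtain ⟨g, hg, S, hDS⟩ := id hD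
  have hgD : D ≤ Subgroup.centralizer ({g} : Set G) := by
    rw [hDS]
    rintro _ ⟨s, _, rfl⟩
    exact s.2
  have hDp : IsPGroup p D := by
    rw [hDS]
    exact Cfsg.Agent.Lib.Blocks.Defect.isPGroup_sylow_map S
  have hg' := hg.2.1
  obtain ⟨c, hcQ, hc⟩ := exists_coeff_of_pair hQ
  have hQc : Q ≤ Subgroup.centralizer ({c} : Set G) := by
    intro q hq
    rw [Subgroup.mem_centralizer_iff]
    rintro _ rfl
    have := (Subgroup.mem_centralizer_iff.1 hcQ) q hq
    exact this.symm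
  have hQp : IsPGroup p Q := hQ.1.1
  obtain ⟨y, hy⟩ := exists_le_conj_of_coeff hMp hB hD hc hQp hQc
  -- conjugate of `D`
  set D' := D.map (MulAut.conj y).toMonoidHom with hD'
  have hcardD' : Nat.card D' = Nat.card D := Subgroup.card_map_of_injective (MulAut.conj y).injective
  have hD'p : IsPGroup p D' := hDp.map _
  obtain ⟨P, hDP⟩ := hD'p.exists_le_sylow
  refine mem_centralizer_of_minDim' hMp hB P.isPGroup' hDP (g := y * g * y⁻¹) ?_ ?_ ?_ ?_ hy hQc hc ht htr
  · rintro _ ⟨d, hd, rfl⟩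
    rw [Subgroup.mem_centralizer_iff]
    rintro _ rfl
    have := (Subgroup.mem_centralizer_iff.1 (hgD hd)) g rfl
    simp only [MulEquiv.toMonoidHom_eq_coe, MonoidHom.coe_coe, MulAut.conj_apply]
    calc y * g * y⁻¹ * (y * d * y⁻¹) = y * (g * d) * y⁻¹ := by group
      _ = y * (d * g) * y⁻¹ := by rw [this]
      _ = y * d * y⁻¹ * (y * g * y⁻¹) := by group
  · rwa [isClassFunction_blockCoeff B g y]
  · intro R hR c' hRc hc'
    obtain ⟨y', hy'⟩ := exists_le_conj_of_coeff hMp hB hD hc' hR hRc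
    rw [hcardD']
    calc Nat.card R ≤ Nat.card (D.map (MulAut.conj y').toMonoidHom) := Subgroup.card_le_of_le hy'
      _ = Nat.card D := Subgroup.card_map_of_injective (MulAut.conj y').injective
  · rw [hcardD', Nat.card_prod, ← sq, P.card_eq_multiplicity, ← pow_mul, mul_comm _ 2]
    exact hdim

end Core

end Cfsg.Agent.Lib.Blocks.MinDim
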