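/-
Perfect isometries for blocks with a Klein four defect group: the values on singular elements.
-/
import Mathlib
import Cfsg.Agent.Lib.Blocks.KleinFour
import Cfsg.Agent.Lib.Blocks.AbelianCount
import Cfsg.Agent.S0907
import Cfsg.Agent.Lib.Blocks.PrincipalCen

set_option autoImplicit false
set_option linter.style.haveILetI false

namespace Cfsg.Agent.Lib.Blocks.PerfectV4

open Cfsg Cfsg.Agent.Lib.Blocks.Local Cfsg.Agent.Lib.Blocks.Central Cfsg.Agent.Lib.Blocks.Osima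
  Cfsg.Agent.Lib.Blocks.Regular Cfsg.Agent.Lib.Blocks.BlockCount
  Cfsg.Agent.Lib.Blocks.Sections Cfsg.Agent.Lib.Blocks.MajorSub Cfsg.Agent.Lib.Blocks.KleinFour
  Cfsg.Agent.Lib.Blocks.AbelianCount Cfsg.Agent.Lib.Blocks.Pairs Cfsg.Agent.Lib.Blocks.Transport
  Cfsg.Agent.Lib.Blocks.CentralQuot
open scoped ComplexConjugate

universe u

/-- A column of a block of a group: an integer vector, with entries `±1` on the block, orthogonal to the
`2`-regular columns. -/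
def IsColumn {G : Type u} [Group G] (A : Set (IrrCharacter G)) (w : IrrCharacter G → ℤ) : Prop :=
  (∀ χ ∈ A, w χ = 1 ∨ w χ = -1) ∧ ∀ y : G, ¬ 2 ∣ orderOf y → ∑ᶠ χ ∈ A, (w χ : ℂ) * (χ : G → ℂ) y = 0

section Main

variable {G : Type u} [Group G] [Fintype G] {M : Ideal AlgInt} [hMp : M.IsPrime]

/-- A block part over a disjoint union of blocks. -/
lemma blockPart_biUnion (S : Finset (Set (IrrCharacter G))) (hS : ∀ b ∈ S, IsPBlock M b) (ϑ : G → ℂ) (g : G) :
    blockPart (⋃ b ∈ S, b) ϑ g = ∑ b ∈ S, blockPart b ϑ g := by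
  classical
  simp only [blockPart_eq_sum]
  have h1 : Finset.univ.filter (· ∈ ⋃ b ∈ S, b) =
      S.biUnion (fun b => Finset.univ.filter (fun χ : IrrCharacter G => χ ∈ b)) := by
    ext χ
    simp
  rw [h1, Finset.sum_biUnion]
  intro b hb b' hb' hne
  have := BlockCount.disjoint_of_isPBlock (hS b hb) (hS b' hb') hne
  rw [Function.onFun, Finset.disjoint_left]
  intro χ hχ hχ'
  exact Set.disjoint_left.mp this (Finset.mem_filter.mp hχ).2 (Finset.mem_filter.mp hχ').2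

variable {A : Set (IrrCharacter G)} {D₀ : Subgroup G} {c₀ : Set (IrrCharacter (Subgroup.centralizer (D₀ : Set G)))}

/-- The blocks of `C_G(z)` inducing a block with Klein four defect group. -/
theorem cz_block_facts (hM : IsPModular 2 M) (hmax : IsMaximalBrauerPair 2 M A D₀ c₀)
    (hab : ∀ x ∈ D₀, ∀ y ∈ D₀, x * y = y * x) (hcard : Nat.card D₀ = 4) (hsq : ∀ x ∈ D₀, x * x = 1)
    {z : G} (hz : ∃ k : ℕ, orderOf z = 2 ^ k) (hz1 : z ≠ 1)
    {f : Set (IrrCharacter (CZ z))} (hf : IsInducedBlock M (CZ z) f A) :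
    orderOf z = 2 ∧ ∃ D : Subgroup (CZ z), IsDefectGroup 2 M f D ∧ blockDefect 2 f = 2 ∧ blockRank 2 f = 1 := by
  classical
  letI : Fintype (CZ z) := Fintype.ofFinite _
  have hQz : IsPGroup 2 (Subgroup.zpowers z) := by
    obtain ⟨k, hk⟩ := hz
    rw [IsPGroup.iff_card, Nat.card_zpowers]
    exact ⟨k, hk⟩
  have hbp := isBrauerPairOf_of_induced hQz hf
  obtain ⟨g, hg⟩ := exists_conj_subpairLE hM hmax hbp
  have hz' : g * z * g⁻¹ ∈ D₀ := SubpairLE.le hg ⟨z, Subgroup.mem_zpowers z, rfl⟩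
  have hord : orderOf z = 2 := by
    refine orderOf_eq_prime ?_ hz1
    have h1 := hsq _ hz'
    rw [sq]
    have h2 : z * z = g⁻¹ * (g * z * g⁻¹ * (g * z * g⁻¹)) * g := by group
    rw [h2, h1]
    group
  refine ⟨hord, ?_⟩
  have hf' : IsPBlock M (conjBlock (Subgroup.zpowers z) g f) := by
    rw [conjBlock_eq_conjB]
    exact isPBlock_conjB hf.1
  have hdef := isDefectGroup_of_abelian hM hmax hab (SubpairLE.le hg) hf' hg
  obtain ⟨x₀, S₀, -, hD⟩ := exists_isDefectGroup hM hf.1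
  have h2 := card_defect_conjBlock hM hf.1 hD g hdef
  have hPK : D₀ ≤ Subgroup.centralizer (((Subgroup.zpowers z).map (MulAut.conj g).toMonoidHom : Subgroup G) : Set G) :=
    fun u hu => Subgroup.mem_centralizer_iff.mpr fun q hq => hab q (SubpairLE.le hg hq) u hu
  have h3 : Nat.card (D₀.subgroupOf (Subgroup.centralizer (((Subgroup.zpowers z).map (MulAut.conj g).toMonoidHom : Subgroup G) : Set G))) = 4 := by
    rw [card_subgroupOf_of_le hPK, hcard]
  have hd : blockDefect 2 f = 2 := by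
    have h1 := Cfsg.Agent.S0908.result 2 M hM f hf.1 _ hD
    rw [← h2, h3] at h1
    have h3 : (2 : ℕ) ^ 2 = 2 ^ blockDefect 2 f := h1
    exact (Nat.pow_right_injective le_rfl h3).symm
  refine ⟨_, hD, hd, ?_⟩
  have hmemy : z ∈ CZ z := by
    rw [cz_eq_cen, Subgroup.mem_centralizer_singleton_iff]
  have hox : orderOf (⟨z, hmemy⟩ : CZ z) = 2 := by
    rw [Subgroup.orderOf_mk]
    exact hord
  refine blockRank_eq_one_of_central_involution hM hox ?_ hf.1 hd.le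
  intro c
  apply Subtype.ext
  exact (Subgroup.mem_centralizer_iff.mp c.2 z (Subgroup.mem_zpowers z)).symm

/-- The column of a block of `C_G(z)` inducing a block with Klein four defect group. -/
theorem cen_column (hM : IsPModular 2 M) (hmax : IsMaximalBrauerPair 2 M A D₀ c₀)
    (hab : ∀ x ∈ D₀, ∀ y ∈ D₀, x * y = y * x) (hcard : Nat.card D₀ = 4) (hsq : ∀ x ∈ D₀, x * x = 1)
    (hh : ∀ χ ∈ A, blockHeight 2 A (χ : G → ℂ) = 0)
    {z : G} [Fintype (Cen z)] (hz : ∃ k : ℕ, orderOf z = 2 ^ k) (hz1 : z ≠ 1)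
    {b : Set (IrrCharacter (Cen z))} (hb : IsInducedBlock M (Cen z) b A) :
    ∃ (ρ : Cen z → ℂ) (a : IrrCharacter G → ℤ), (∀ χ, gg 2 b χ = (a χ : ℂ) • ρ) ∧
      (∀ χ ∈ A, a χ = 1 ∨ a χ = -1) ∧ (∀ y, MemLocalRing M (ρ y)) ∧
      (∀ y, MemLocalRing M ((4 : ℂ) * ρ y / (Nat.card (Subgroup.centralizer ({y} : Set (Cen z))) : ℂ))) ∧
      ∃ y, ρ y ≠ 0 := by
  have key : ∀ (K : Subgroup G) (_ : K = CZ z) (f : Set (IrrCharacter K)), IsInducedBlock M K f A →
      orderOf z = 2 ∧ ∃ D : Subgroup K, IsDefectGroup 2 M f D ∧ blockDefect 2 f = 2 ∧ blockRank 2 f = 1 := by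
    rintro K rfl f hf
    exact cz_block_facts hM hmax hab hcard hsq hz hz1 hf
  obtain ⟨hord, D, hD, hd, hl⟩ := key _ (cz_eq_cen z).symm b hb
  obtain ⟨-, ρ, a, hgg, hnorm, hone, hloc, hloc'⟩ := card_eq_four_of_major hM hord hb hD hl hd hh
  refine ⟨ρ, a, hgg, hone, hloc, hloc', ?_⟩
  by_contra hcon
  push Not at hcon
  have h0 : ρ = 0 := funext hcon
  rw [h0, classInner] at hnorm
  simp at hnorm

/-- **Orthogonality of a column of a block of `C_G(z)` to the regular columns.** -/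
theorem column_orth (hM : IsPModular 2 M) {z : G} [Fintype (Cen z)] (hz : ∃ k : ℕ, orderOf z = 2 ^ k) (hz1 : z ≠ 1)
    (hA : IsPBlock M A) {b : Set (IrrCharacter (Cen z))} (hb : IsPBlock M b) {ρ : Cen z → ℂ} {a : IrrCharacter G → ℤ}
    (hgg : ∀ χ, gg 2 b χ = (a χ : ℂ) • ρ) {y₁ : Cen z} (hy₁ : ρ y₁ ≠ 0) (hy₁' : ¬ 2 ∣ orderOf y₁) {y₀ : G}
    (hy₀ : ¬ 2 ∣ orderOf y₀) : ∑ᶠ χ ∈ A, (a χ : ℂ) * (χ : G → ℂ) y₀ = 0 := by
  classical
  obtain ⟨k, hk⟩ := hz
  set F : Cen z → ℂ := ∑ χ ∈ Finset.univ.filter (· ∈ A), conj ((χ : G → ℂ) y₀) • (fun c : Cen z => (χ : G → ℂ) (z * c)) with hF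
  have hF0 : ∀ c : Cen z, ¬ 2 ∣ orderOf c → F c = 0 := by
    intro c hc
    have hsing : 2 ∣ orderOf (z * (c : G)) := by
      have hc' : ¬ 2 ∣ orderOf (c : G) := by rwa [Subgroup.orderOf_coe]
      have hcomm : (c : G) * z = z * c := (commute_of_mem_Cen c).eq
      have := dvd_orderOf_mul (p := 2) hcomm hc' hk hz1
      rwa [← hcomm]
    have h1 := Cfsg.Agent.S0907.result 2 M hM A hA y₀ _ hy₀ hsing
    rw [Cfsg.Agent.Lib.Blocks.Osima.finsum_mem_eq_sum_filter] at h1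
    have h2 := congrArg conj h1
    rw [map_sum, map_zero] at h2
    rw [hF, Finset.sum_apply, ← h2]
    refine Finset.sum_congr rfl fun χ _ => ?_
    simp [mul_comm]
  have h1 := blockPart_eq_zero_of_regular hM (BlockCount.isClosed_of_isPBlock hb) hF0 hy₁'
  have h2 : blockPart b F = ∑ χ ∈ Finset.univ.filter (· ∈ A), conj ((χ : G → ℂ) y₀) • blockPart b (fun c : Cen z => (χ : G → ℂ) (z * c)) := by
    rw [← blockPartL_apply, hF, map_sum]
    refine Finset.sum_congr rfl fun χ _ => ?_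
    rw [map_smul, blockPartL_apply]
  rw [h2, Finset.sum_apply] at h1
  have h3 : ∀ χ : IrrCharacter G, blockPart b (fun c : Cen z => (χ : G → ℂ) (z * c)) y₁ = (a χ : ℂ) * ρ y₁ := by
    intro χ
    have h4 := congrFun (hgg χ) y₁
    simp only [gg, Pi.smul_apply, smul_eq_mul] at h4
    rwa [reg_of_not_dvd _ hy₁'] at h4
  have h5 : (∑ χ ∈ Finset.univ.filter (· ∈ A), conj ((χ : G → ℂ) y₀) * (a χ : ℂ)) * ρ y₁ = 0 := by
    rw [Finset.sum_mul, ← h1]
    refine Finset.sum_congr rfl fun χ _ => ?_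
    simp only [Pi.smul_apply, smul_eq_mul]
    rw [h3]
    ring
  have h6 := (mul_eq_zero.mp h5).resolve_right hy₁
  have h7 := congrArg conj h6
  rw [map_sum, map_zero] at h7
  rw [Cfsg.Agent.Lib.Blocks.Osima.finsum_mem_eq_sum_filter, ← h7]
  refine Finset.sum_congr rfl fun χ _ => ?_
  simp [mul_comm]

/-- **The values on singular elements of a block with Klein four defect group.** -/
theorem exists_decomposition (hM : IsPModular 2 M) (hA : IsPBlock M A) (hmax : IsMaximalBrauerPair 2 M A D₀ c₀)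
    (hab : ∀ x ∈ D₀, ∀ y ∈ D₀, x * y = y * x) (hcard : Nat.card D₀ = 4) (hsq : ∀ x ∈ D₀, x * x = 1)
    (hh : ∀ χ ∈ A, blockHeight 2 A (χ : G → ℂ) = 0) {x : G} (hx : 2 ∣ orderOf x) :
    ∃ (ι : Type u) (_ : Fintype ι) (w : ι → IrrCharacter G → ℤ) (t : ι → ℂ),
      (∀ i, IsColumn A (w i)) ∧ (∀ i, MemLocalRing M (t i)) ∧
      (∀ i, MemLocalRing M ((4 : ℂ) * t i / (Nat.card (Subgroup.centralizer ({x} : Set G)) : ℂ))) ∧
      ∀ χ ∈ A, (χ : G → ℂ) x = ∑ i, (w i χ : ℂ) * t i := by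
  classical
  obtain ⟨z, y', hzy, hcomm, ⟨k, hk⟩, hy'⟩ := Cfsg.Agent.Lib.Blocks.SecondMain.exists_isPPart 2 x
  subst hzy
  have hy'C : y' ∈ Cen z := by
    rw [Subgroup.mem_centralizer_singleton_iff]
    exact hcomm.eq.symm
  set y : Cen z := ⟨y', hy'C⟩ with hy
  have hyreg : ¬ 2 ∣ orderOf y := by
    rwa [hy, Subgroup.orderOf_mk]
  have hz1 : z ≠ 1 := by
    rintro rfl
    rw [one_mul] at hx
    exact hy' hx
  letI : Fintype (Cen z) := Fintype.ofFinite _
  set S : Finset (Set (IrrCharacter (Cen z))) := (Set.toFinite {b | IsInducedBlock M (Cen z) b A}).toFinset with hS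
  have hSmem : ∀ b, b ∈ S ↔ IsInducedBlock M (Cen z) b A := by
    intro b
    simp [hS]
  have hex : ∀ b : Set (IrrCharacter (Cen z)), ∃ (ρ : Cen z → ℂ) (a : IrrCharacter G → ℤ), IsInducedBlock M (Cen z) b A →
      (∀ χ, gg 2 b χ = (a χ : ℂ) • ρ) ∧
      (∀ χ ∈ A, a χ = 1 ∨ a χ = -1) ∧ (∀ y, MemLocalRing M (ρ y)) ∧
      (∀ y, MemLocalRing M ((4 : ℂ) * ρ y / (Nat.card (Subgroup.centralizer ({y} : Set (Cen z))) : ℂ))) ∧
      ∃ y, ρ y ≠ 0 := by
    intro b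
    by_cases hb : IsInducedBlock M (Cen z) b A
    · obtain ⟨ρ, a, h⟩ := cen_column hM hmax hab hcard hsq hh ⟨k, hk⟩ hz1 hb
      exact ⟨ρ, a, fun _ => h⟩
    · exact ⟨0, 0, fun h => absurd h hb⟩
  choose ρ a hρa using hex
  obtain ⟨χ₀, hχ₀⟩ := id hA
  have hcardC : Nat.card (Subgroup.centralizer ({z * y'} : Set G)) =
      Nat.card (Subgroup.centralizer ({y} : Set (Cen z))) := Cfsg.Agent.Lib.Blocks.PrincipalCen.card_centralizer_mul hk y hyreg
  refine ⟨S, inferInstance, fun i => a i.1, fun i => ρ i.1 y, ?_, ?_, ?_, ?_⟩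
  · intro i
    have hi := (hSmem i.1).mp i.2
    obtain ⟨hgg, hone, -, -, y₁, hy₁⟩ := hρa i.1 hi
    refine ⟨hone, ?_⟩
    intro y₀ hy₀
    have hy₁' : ¬ 2 ∣ orderOf y₁ := by
      intro hd
      obtain ⟨χ, hχ⟩ : ∃ χ, χ ∈ A := ⟨χ₀, by rw [hχ₀]; exact mem_blockOf_self χ₀⟩
      have h1 := congrFun (hgg χ) y₁
      simp only [gg, Pi.smul_apply, smul_eq_mul] at h1
      rw [reg_of_dvd _ hd] at h1
      rcases hone χ hχ with h2 | h2 <;> rw [h2] at h1 <;> exact hy₁ (by simpa using h1.symm)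
    exact column_orth hM ⟨k, hk⟩ hz1 hA hi.1 hgg hy₁ hy₁' hy₀
  · intro i
    exact (hρa i.1 ((hSmem i.1).mp i.2)).2.2.1 y
  · intro i
    rw [hcardC]
    exact (hρa i.1 ((hSmem i.1).mp i.2)).2.2.2.1 y
  · intro χ hχ
    have hcl := isClassFunction_of_irr χ.2
    have h1 := blockPart_section (M := M) hM hk y hyreg χ₀ hcl
    rw [← hχ₀, blockPart_eq_self hχ] at h1
    have h2 : inducers (Cen z) M ((χ₀ : IrrCharacter G) : G → ℂ) = ⋃ b ∈ S, b := by
      rw [inducers_eq_biUnion, ← hχ₀]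
      ext ξ
      simp [hSmem]
    show (χ : G → ℂ) (z * y') = _
    rw [show z * y' = z * (y : G) from rfl, h1, h2, blockPart_biUnion S (fun b hb => ((hSmem b).mp hb).1)]
    rw [← Finset.sum_coe_sort S]
    refine Finset.sum_congr rfl fun i _ => ?_
    have hi := (hSmem i.1).mp i.2
    have h3 := congrFun ((hρa i.1 hi).1 χ) y
    simp only [gg, Pi.smul_apply, smul_eq_mul] at h3
    rwa [reg_of_not_dvd _ hyreg] at h3

end Main

end Cfsg.Agent.Lib.Blocks.PerfectV4
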