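/-
Perfect isometries for blocks with a Klein four defect group: the abstract criterion and the two cases.
-/
import Mathlib
import Cfsg.Agent.Lib.Blocks.PerfectV4
import Cfsg.Agent.S4675

set_option autoImplicit false
set_option linter.style.haveILetI false

namespace Cfsg.Agent.Lib.Blocks.PerfectV4

open Cfsg Cfsg.Agent.Lib.Blocks.Local Cfsg.Agent.Lib.Blocks.Central Cfsg.Agent.Lib.Blocks.KleinFour
open scoped ComplexConjugate

universe u v

section Abstract

variable {G : Type u} {N : Type v} [Group G] [Group N] [Fintype G] [Fintype N] {M : Ideal AlgInt} [hMp : M.IsPrime]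

/-- The values on singular elements as an expression over columns. -/
def HasDec (M : Ideal AlgInt) {G : Type u} [Group G] (A : Set (IrrCharacter G)) : Prop :=
  ∀ x : G, 2 ∣ orderOf x → ∃ (ι : Type u) (_ : Fintype ι) (w : ι → IrrCharacter G → ℤ) (t : ι → ℂ),
      (∀ i, IsColumn A (w i)) ∧ (∀ i, MemLocalRing M (t i)) ∧
      (∀ i, MemLocalRing M ((4 : ℂ) * t i / (Nat.card (Subgroup.centralizer ({x} : Set G)) : ℂ))) ∧
      ∀ χ ∈ A, (χ : G → ℂ) x = ∑ i, (w i χ : ℂ) * t i

open Classical in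
/-- **The abstract criterion.** -/
theorem isPerfectFun_of_columns (hM : IsPModular 2 M) {B : Set (IrrCharacter G)} {c : Set (IrrCharacter N)}
    {I : IrrCharacter N → IrrCharacter G} {ε : IrrCharacter N → ℤ} (hI : Set.MapsTo I c B)
    (hdecG : HasDec M B) (hdecN : HasDec M c)
    (hbr : ∀ w w', IsColumn B w → IsColumn c w' → ∃ m : ℤ,
      ∑ η ∈ Finset.univ.filter (· ∈ c), ε η * w (I η) * w' η = 4 * m)
    (hrs : ∀ (x : G) (y : N), ¬ 2 ∣ orderOf x → 2 ∣ orderOf y →
      ∑ η ∈ Finset.univ.filter (· ∈ c), (ε η : ℂ) * (I η : G → ℂ) x * (η : N → ℂ) y = 0)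
    (hsr : ∀ (x : G) (y : N), 2 ∣ orderOf x → ¬ 2 ∣ orderOf y →
      ∑ η ∈ Finset.univ.filter (· ∈ c), (ε η : ℂ) * (I η : G → ℂ) x * (η : N → ℂ) y = 0) :
    IsPerfectFun 2 M (signedBijectionKernel c I ε) := by
  intro x y
  have hμ : signedBijectionKernel c I ε x y =
      ∑ η ∈ Finset.univ.filter (· ∈ c), (ε η : ℂ) * (I η : G → ℂ) x * (η : N → ℂ) y := by
    rw [signedBijectionKernel, Cfsg.Agent.Lib.Blocks.Osima.finsum_mem_eq_sum_filter]
  rw [hμ]
  set F := Finset.univ.filter (· ∈ c) with hF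
  by_cases hx : 2 ∣ orderOf x
  · by_cases hy : 2 ∣ orderOf y
    · obtain ⟨ι, _, w, t, hw, ht, ht', hdec⟩ := hdecG x hx
      obtain ⟨κ, _, w', t', hw', ht2, ht2', hdec'⟩ := hdecN y hy
      have hm := fun i j => hbr _ _ (hw i) (hw' j)
      choose m hm using hm
      have key : ∑ η ∈ F, (ε η : ℂ) * (I η : G → ℂ) x * (η : N → ℂ) y =
          ∑ i, ∑ j, t i * t' j * (4 * (m i j : ℂ)) := by
        have h1 : ∀ i j, (4 * (m i j : ℂ)) = ∑ η ∈ F, (ε η : ℂ) * (w i (I η) : ℂ) * (w' j η : ℂ) := by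
          intro i j
          have := congrArg (Int.cast : ℤ → ℂ) (hm i j)
          push_cast at this
          exact this.symm
        simp only [h1, Finset.mul_sum]
        have h2 : ∀ η ∈ F, (ε η : ℂ) * (I η : G → ℂ) x * (η : N → ℂ) y =
            ∑ i, ∑ j, t i * t' j * ((ε η : ℂ) * (w i (I η) : ℂ) * (w' j η : ℂ)) := by
          intro η hη
          have hηc := (Finset.mem_filter.mp hη).2
          rw [hdec _ (hI hηc), hdec' _ hηc, mul_assoc, Finset.sum_mul_sum, Finset.mul_sum]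
          refine Finset.sum_congr rfl fun i _ => ?_
          rw [Finset.mul_sum]
          refine Finset.sum_congr rfl fun j _ => ?_
          ring
        rw [Finset.sum_congr rfl h2, Finset.sum_comm]
        refine Finset.sum_congr rfl fun i _ => ?_
        rw [Finset.sum_comm]
      rw [key]
      refine ⟨?_, ?_, Or.inl ?_⟩
      · rw [Finset.sum_div]
        refine memLocalRing_sum _ _ fun i _ => ?_
        rw [Finset.sum_div]
        refine memLocalRing_sum _ _ fun j _ => ?_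
        have h3 : t i * t' j * (4 * (m i j : ℂ)) / (Nat.card (Subgroup.centralizer ({x} : Set G)) : ℂ) =
            ((4 : ℂ) * t i / (Nat.card (Subgroup.centralizer ({x} : Set G)) : ℂ)) * (t' j * (m i j : ℂ)) := by
          ring
        rw [h3]
        exact memLocalRing_mul (ht' i) (memLocalRing_mul (ht2 j) (memLocalRing_intCast _))
      · rw [Finset.sum_div]
        refine memLocalRing_sum _ _ fun i _ => ?_
        rw [Finset.sum_div]
        refine memLocalRing_sum _ _ fun j _ => ?_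
        have h3 : t i * t' j * (4 * (m i j : ℂ)) / (Nat.card (Subgroup.centralizer ({y} : Set N)) : ℂ) =
            ((4 : ℂ) * t' j / (Nat.card (Subgroup.centralizer ({y} : Set N)) : ℂ)) * (t i * (m i j : ℂ)) := by
          ring
        rw [h3]
        exact memLocalRing_mul (ht2' j) (memLocalRing_mul (ht i) (memLocalRing_intCast _))
      · simp [IsPRegular, hx, hy]
    · rw [hsr x y hx hy, zero_div, zero_div]
      exact ⟨memLocalRing_zero, memLocalRing_zero, Or.inr rfl⟩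
  · by_cases hy : 2 ∣ orderOf y
    · rw [hrs x y hx hy, zero_div, zero_div]
      exact ⟨memLocalRing_zero, memLocalRing_zero, Or.inr rfl⟩
    · refine ⟨?_, ?_, Or.inl (by simp [IsPRegular, hx, hy])⟩
      · have h1 := memLocalRing_div_card_centralizer (p := 2) hM F (fun η => (ε η : ℂ) * (η : N → ℂ) y) I
          (fun η _ => memLocalRing_mul (memLocalRing_intCast _) (memLocalRing_of_isIntegral (isIntegral_irr η.2 y)))
          (fun x' hx' => by
            have := hsr x' y hx' hy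
            rw [← this]
            exact Finset.sum_congr rfl fun η _ => by ring) x
        convert h1 using 2
        exact Finset.sum_congr rfl fun η _ => by ring
      · have h1 := memLocalRing_div_card_centralizer (p := 2) hM F (fun η => (ε η : ℂ) * (I η : G → ℂ) x) id
          (fun η _ => memLocalRing_mul (memLocalRing_intCast _) (memLocalRing_of_isIntegral (isIntegral_irr (I η).2 x)))
          (fun y' hy' => hrs x y' hx hy') y
        exact h1

end Abstract

section One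

variable {H : Type u} [Group H] [Fintype H] {M : Ideal AlgInt} [hMp : M.IsPrime]

/-- A block of defect two with four characters and rank one: all characters agree on regular elements. -/
theorem eq_of_rank_one (hM : IsPModular 2 M) {b : Set (IrrCharacter H)} (hb : IsPBlock M b) {D : Subgroup H}
    (hD : IsDefectGroup 2 M b D) (hDc : Nat.card D = 4) (hk : Nat.card b = 4) (hl : blockRank 2 b = 1) :
    ∃ φ : H → ℂ, ∀ χ ∈ b, ∀ x, ¬ 2 ∣ orderOf x → (χ : H → ℂ) x = φ x := by
  classical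
  letI : Fintype (IrrCharacter H) := Fintype.ofFinite _
  obtain ⟨φ, d, -, hφ, hsum⟩ := Cfsg.Agent.S4675.result 2 M hM b hb D hD hl
  refine ⟨φ, ?_⟩
  rw [Cfsg.Agent.Lib.Blocks.Osima.finsum_mem_eq_sum_filter, hDc] at hsum
  rw [Nat.card_eq_fintype_card, Fintype.card_subtype] at hk
  have h1odd : ¬ 2 ∣ orderOf (1 : H) := by simp
  have hd1 : ∀ χ ∈ b, 1 ≤ d χ ^ 2 := by
    intro χ hχ
    have h0 : d χ ≠ 0 := by
      intro h
      have h1 := hφ χ hχ 1 h1odd
      rw [h] at h1
      simp only [Nat.cast_zero, zero_mul] at h1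
      exact Cfsg.Agent.Lib.Char.Ortho.irr_apply_one_ne_zero χ.2 h1
    exact Nat.one_le_iff_ne_zero.mpr (pow_ne_zero 2 h0)
  have hall : ∀ χ ∈ Finset.univ.filter (· ∈ b), 1 = d χ ^ 2 := by
    have h2 : ∑ χ ∈ Finset.univ.filter (· ∈ b), 1 = ∑ χ ∈ Finset.univ.filter (· ∈ b), d χ ^ 2 := by
      rw [hsum, Finset.sum_const, hk]
      rfl
    exact (Finset.sum_eq_sum_iff_of_le (fun χ hχ => hd1 χ (Finset.mem_filter.mp hχ).2)).mp h2
  intro χ hχ x hx
  have h3 := hall χ (Finset.mem_filter.mpr ⟨Finset.mem_univ _, hχ⟩)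
  have h4 : d χ = 1 := by
    have : d χ ^ 2 = 1 := h3.symm
    exact (Nat.pow_eq_one.mp this).resolve_right (by norm_num)
  rw [hφ χ hχ x hx, h4]
  simp

open Classical in
/-- The entries of a column sum to zero when all characters agree on regular elements. -/
lemma sum_column_eq_zero {A : Set (IrrCharacter H)} {φ : H → ℂ}
    (hφ : ∀ χ ∈ A, ∀ x, ¬ 2 ∣ orderOf x → (χ : H → ℂ) x = φ x) {w : IrrCharacter H → ℤ} (hw : IsColumn A w) :
    ∑ χ ∈ Finset.univ.filter (· ∈ A), w χ = 0 := by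
  letI : Fintype (IrrCharacter H) := Fintype.ofFinite _
  have h1odd : ¬ 2 ∣ orderOf (1 : H) := by simp
  by_cases hA : ∃ χ, χ ∈ A
  · obtain ⟨χ₁, hχ₁⟩ := hA
    have hφ1 : φ 1 ≠ 0 := by
      rw [← hφ χ₁ hχ₁ 1 h1odd]
      exact Cfsg.Agent.Lib.Char.Ortho.irr_apply_one_ne_zero χ₁.2
    have h1 := hw.2 1 h1odd
    rw [Cfsg.Agent.Lib.Blocks.Osima.finsum_mem_eq_sum_filter] at h1
    have h2 : ((∑ χ ∈ Finset.univ.filter (· ∈ A), w χ : ℤ) : ℂ) * φ 1 = 0 := by
      rw [← h1, Int.cast_sum, Finset.sum_mul]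
      refine Finset.sum_congr rfl fun χ hχ => ?_
      rw [hφ χ (Finset.mem_filter.mp hχ).2 1 h1odd]
    exact_mod_cast (mul_eq_zero.mp h2).resolve_right hφ1
  · have : Finset.univ.filter (· ∈ A) = ∅ := by
      ext χ
      simp only [Finset.mem_filter, Finset.mem_univ, true_and, Finset.notMem_empty, iff_false]
      exact fun h => hA ⟨χ, h⟩
    rw [this, Finset.sum_empty]

open Classical in
/-- The sum of the characters of a block vanishes on singular elements when they agree on regular elements. -/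
lemma sum_block_eq_zero (hM : IsPModular 2 M) {A : Set (IrrCharacter H)} (hA : IsPBlock M A) {φ : H → ℂ}
    (hφ : ∀ χ ∈ A, ∀ x, ¬ 2 ∣ orderOf x → (χ : H → ℂ) x = φ x) {y : H} (hy : 2 ∣ orderOf y) :
    ∑ χ ∈ Finset.univ.filter (· ∈ A), (χ : H → ℂ) y = 0 := by
  letI : Fintype (IrrCharacter H) := Fintype.ofFinite _
  have h1odd : ¬ 2 ∣ orderOf (1 : H) := by simp
  obtain ⟨χ₁, hχ₁⟩ : ∃ χ, χ ∈ A := by
    obtain ⟨χ₁, rfl⟩ := id hA
    exact ⟨χ₁, Cfsg.Agent.Lib.Blocks.Osima.mem_blockOf_self χ₁⟩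
  have hφ1 : φ 1 ≠ 0 := by
    rw [← hφ χ₁ hχ₁ 1 h1odd]
    exact Cfsg.Agent.Lib.Char.Ortho.irr_apply_one_ne_zero χ₁.2
  have h1 := Cfsg.Agent.S0907.result 2 M hM A hA 1 y h1odd hy
  rw [Cfsg.Agent.Lib.Blocks.Osima.finsum_mem_eq_sum_filter] at h1
  have h2 : φ 1 * conj (∑ χ ∈ Finset.univ.filter (· ∈ A), (χ : H → ℂ) y) = 0 := by
    rw [← h1, map_sum, Finset.mul_sum]
    refine Finset.sum_congr rfl fun χ hχ => ?_
    rw [hφ χ (Finset.mem_filter.mp hχ).2 1 h1odd]
  exact (map_eq_zero _).mp ((mul_eq_zero.mp h2).resolve_left hφ1)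

end One

section Bij

open Classical in
lemma sum_filter_bijOn {α β R : Type*} [Fintype α] [Fintype β] [AddCommMonoid R] {c : Set α} {B : Set β} {I : α → β}
    (hbij : Set.BijOn I c B) (g : β → R) :
    ∑ η ∈ Finset.univ.filter (· ∈ c), g (I η) = ∑ χ ∈ Finset.univ.filter (· ∈ B), g χ := by
  rw [← Cfsg.Agent.Lib.Blocks.Osima.finsum_mem_eq_sum_filter, ← Cfsg.Agent.Lib.Blocks.Osima.finsum_mem_eq_sum_filter]
  exact finsum_mem_eq_of_bijOn I hbij (fun _ _ => rfl)

end Bij

section CaseOne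

variable {G : Type u} {N : Type v} [Group G] [Group N] [Fintype G] [Fintype N] {M : Ideal AlgInt} [hMp : M.IsPrime]

open Classical in
/-- **Rank one on both sides.** -/
theorem isPerfectFun_of_rank_one (hM : IsPModular 2 M) {B : Set (IrrCharacter G)} {c : Set (IrrCharacter N)}
    {I : IrrCharacter N → IrrCharacter G} (hbij : Set.BijOn I c B) (hB : IsPBlock M B) (hc : IsPBlock M c)
    (hcardc : Nat.card c = 4) {φ : G → ℂ} {φ' : N → ℂ}
    (hφ : ∀ χ ∈ B, ∀ x, ¬ 2 ∣ orderOf x → (χ : G → ℂ) x = φ x)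
    (hφ' : ∀ χ ∈ c, ∀ x, ¬ 2 ∣ orderOf x → (χ : N → ℂ) x = φ' x)
    (hdecG : HasDec M B) (hdecN : HasDec M c) :
    IsPerfectFun 2 M (signedBijectionKernel c I (fun _ => 1)) := by
  letI : Fintype (IrrCharacter G) := Fintype.ofFinite _
  letI : Fintype (IrrCharacter N) := Fintype.ofFinite _
  rw [Nat.card_eq_fintype_card, Fintype.card_subtype] at hcardc
  refine isPerfectFun_of_columns hM hbij.mapsTo hdecG hdecN ?_ ?_ ?_
  · intro w w' hw hw'
    have h1 := sum_column_eq_zero hφ hw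
    have h2 := sum_column_eq_zero hφ' hw'
    rw [← sum_filter_bijOn hbij] at h1
    have h3 : (4 : ℤ) ∣ ∑ η ∈ Finset.univ.filter (· ∈ c), (1 + w (I η)) * (1 + w' η) := by
      refine Finset.dvd_sum fun η hη => ?_
      have hηc := (Finset.mem_filter.mp hη).2
      rcases hw.1 _ (hbij.mapsTo hηc) with h | h <;> rcases hw'.1 _ hηc with h' | h' <;> rw [h, h'] <;> norm_num
    have h4 : ∑ η ∈ Finset.univ.filter (· ∈ c), (1 + w (I η)) * (1 + w' η) =
        4 + ∑ η ∈ Finset.univ.filter (· ∈ c), 1 * w (I η) * w' η := by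
      have h5 : ∀ η ∈ Finset.univ.filter (· ∈ c), (1 + w (I η)) * (1 + w' η) =
          1 + w (I η) + w' η + 1 * w (I η) * w' η := fun η _ => by ring
      rw [Finset.sum_congr rfl h5, Finset.sum_add_distrib, Finset.sum_add_distrib, Finset.sum_add_distrib, h1, h2,
        Finset.sum_const, hcardc]
      simp
    rw [h4] at h3
    obtain ⟨k, hk⟩ := h3
    exact ⟨k - 1, by linarith⟩
  · intro x y hx hy
    have h1 := sum_block_eq_zero hM hc hφ' hy
    have h2 : ∑ η ∈ Finset.univ.filter (· ∈ c), (((1 : ℤ) : ℂ)) * (I η : G → ℂ) x * (η : N → ℂ) y =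
        φ x * ∑ η ∈ Finset.univ.filter (· ∈ c), (η : N → ℂ) y := by
      rw [Finset.mul_sum]
      refine Finset.sum_congr rfl fun η hη => ?_
      rw [hφ _ (hbij.mapsTo (Finset.mem_filter.mp hη).2) x hx]
      simp
    rw [h2, h1, mul_zero]
  · intro x y hx hy
    have h1 := sum_block_eq_zero hM hB hφ hx
    rw [← sum_filter_bijOn hbij (fun χ : IrrCharacter G => (χ : G → ℂ) x)] at h1
    have h2 : ∑ η ∈ Finset.univ.filter (· ∈ c), (((1 : ℤ) : ℂ)) * (I η : G → ℂ) x * (η : N → ℂ) y =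
        φ' y * ∑ η ∈ Finset.univ.filter (· ∈ c), (I η : G → ℂ) x := by
      rw [Finset.mul_sum]
      refine Finset.sum_congr rfl fun η hη => ?_
      rw [hφ' _ (Finset.mem_filter.mp hη).2 y hy]
      simp [mul_comm]
    rw [h2, h1, mul_zero]

end CaseOne

section Three

variable {H : Type u} [Group H] [Fintype H]

/-- Two columns of a block with four characters and rank three agree up to sign. -/
theorem column_unique {A : Set (IrrCharacter H)} (hk : Nat.card A = 4) (hl : blockRank 2 A = 3)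
    {w w₀ : IrrCharacter H → ℤ} (hw : IsColumn A w) (hw₀ : IsColumn A w₀) :
    (∀ χ ∈ A, w χ = w₀ χ) ∨ (∀ χ ∈ A, w χ = - w₀ χ) := by
  classical
  letI : Fintype (IrrCharacter H) := Fintype.ofFinite _
  set v : A → (H → ℂ) := fun χ => pRegularPart 2 ((χ : IrrCharacter H) : H → ℂ) with hv
  set L := Fintype.linearCombination ℂ v with hL
  have hrange : Module.finrank ℂ (LinearMap.range L) = 3 := by
    have heq : Set.range v = (fun χ : IrrCharacter H => pRegularPart 2 (χ : H → ℂ)) '' A := by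
      ext f
      constructor
      · rintro ⟨χ, rfl⟩
        exact ⟨χ.1, χ.2, rfl⟩
      · rintro ⟨χ, hχ, rfl⟩
        exact ⟨⟨χ, hχ⟩, rfl⟩
    rw [hL, Fintype.range_linearCombination, heq]
    exact hl
  have hdim : Module.finrank ℂ (A → ℂ) = 4 := by
    rw [Module.finrank_fintype_fun_eq_card, ← hk, Nat.card_eq_fintype_card]
  have hker : Module.finrank ℂ (LinearMap.ker L) = 1 := by
    have := LinearMap.finrank_range_add_finrank_ker L
    omega
  have hmem : ∀ u : IrrCharacter H → ℤ, IsColumn A u → (fun χ : A => (u χ : ℂ)) ∈ LinearMap.ker L := by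
    intro u hu
    rw [LinearMap.mem_ker, hL, Fintype.linearCombination_apply]
    funext y
    rw [Finset.sum_apply]
    simp only [Pi.zero_apply, Pi.smul_apply, smul_eq_mul, hv]
    by_cases hy : 2 ∣ orderOf y
    · refine Finset.sum_eq_zero fun χ _ => ?_
      rw [Cfsg.Agent.Lib.Blocks.Cartan.pRegularPart_eq_reg, Cfsg.Agent.Lib.Blocks.Regular.reg_of_dvd _ hy, mul_zero]
    · have h1 := hu.2 y hy
      rw [Cfsg.Agent.Lib.Blocks.Osima.finsum_mem_eq_sum_filter] at h1
      have h2 : ∑ χ : A, (u χ : ℂ) * ((χ : IrrCharacter H) : H → ℂ) y =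
          ∑ χ ∈ Finset.univ.filter (· ∈ A), (u χ : ℂ) * (χ : H → ℂ) y := by
        rw [← Finset.sum_coe_sort (Finset.univ.filter (· ∈ A))]
        refine Finset.sum_bij (fun χ _ => ⟨χ.1, Finset.mem_filter.mpr ⟨Finset.mem_univ _, χ.2⟩⟩) ?_ ?_ ?_ ?_
        · intro _ _
          exact Finset.mem_univ _
        · intro a _ b _ h
          exact Subtype.ext (Subtype.mk.inj h)
        · intro b _
          exact ⟨⟨b.1, (Finset.mem_filter.mp b.2).2⟩, Finset.mem_univ _, rfl⟩
        · intro _ _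
          rfl
      have h3 : ∀ χ : A, (u χ : ℂ) * pRegularPart 2 ((χ : IrrCharacter H) : H → ℂ) y =
          (u χ : ℂ) * ((χ : IrrCharacter H) : H → ℂ) y := by
        intro χ
        rw [Cfsg.Agent.Lib.Blocks.Cartan.pRegularPart_eq_reg, Cfsg.Agent.Lib.Blocks.Regular.reg_of_not_dvd _ hy]
      rw [Finset.sum_congr rfl (fun χ _ => h3 χ), h2]
      exact h1
  obtain ⟨χ₁, hχ₁⟩ : ∃ χ, χ ∈ A := by
    by_contra hcon
    push Not at hcon
    have : IsEmpty A := ⟨fun χ => hcon χ.1 χ.2⟩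
    rw [Nat.card_of_isEmpty] at hk
    omega
  have hne : (⟨fun χ : A => (w₀ χ : ℂ), hmem w₀ hw₀⟩ : LinearMap.ker L) ≠ 0 := by
    intro h
    have h1 := congrFun (congrArg Subtype.val h) ⟨χ₁, hχ₁⟩
    simp only [ZeroMemClass.coe_zero, Pi.zero_apply] at h1
    rcases hw₀.1 χ₁ hχ₁ with h2 | h2 <;> rw [h2] at h1 <;> simp at h1
  obtain ⟨s, hs⟩ := (finrank_eq_one_iff_of_nonzero' _ hne).mp hker ⟨fun χ : A => (w χ : ℂ), hmem w hw⟩
  have hs' : ∀ χ : A, s * (w₀ χ : ℂ) = (w χ : ℂ) := by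
    intro χ
    exact congrFun (congrArg Subtype.val hs) χ
  have hs1 : s = 1 ∨ s = -1 := by
    have h1 := hs' ⟨χ₁, hχ₁⟩
    simp only at h1
    rcases hw₀.1 χ₁ hχ₁ with h2 | h2 <;> rcases hw.1 χ₁ hχ₁ with h3 | h3 <;> rw [h2, h3] at h1 <;> simp at h1
    · exact Or.inl h1
    · exact Or.inr h1
    · exact Or.inr (by linear_combination -h1)
    · exact Or.inl h1
  rcases hs1 with rfl | rfl
  · left
    intro χ hχ
    have h1 := hs' ⟨χ, hχ⟩
    simp only [one_mul] at h1
    exact_mod_cast h1.symm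
  · right
    intro χ hχ
    have h1 := hs' ⟨χ, hχ⟩
    have h2 : ((w χ : ℤ) : ℂ) = ((- w₀ χ : ℤ) : ℂ) := by
      rw [← h1]
      push_cast
      ring
    exact_mod_cast h2

end Three

section CaseThree

variable {G : Type u} {N : Type v} [Group G] [Group N] [Fintype G] [Fintype N] {M : Ideal AlgInt} [hMp : M.IsPrime]

/-- The values on a singular element when all columns are proportional. -/
lemma exists_value {A : Set (IrrCharacter G)} {a : IrrCharacter G → ℤ}
    (hu : ∀ w, IsColumn A w → (∀ χ ∈ A, w χ = a χ) ∨ (∀ χ ∈ A, w χ = - a χ)) (hdec : HasDec M A) {x : G}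
    (hx : 2 ∣ orderOf x) : ∃ T : ℂ, ∀ χ ∈ A, (χ : G → ℂ) x = (a χ : ℂ) * T := by
  classical
  obtain ⟨ι, _, w, t, hw, -, -, h⟩ := hdec x hx
  have hs : ∀ i, ∃ s : ℤ, ∀ χ ∈ A, w i χ = s * a χ := by
    intro i
    rcases hu _ (hw i) with h1 | h1
    · exact ⟨1, fun χ hχ => by rw [h1 χ hχ, one_mul]⟩
    · exact ⟨-1, fun χ hχ => by rw [h1 χ hχ, neg_one_mul]⟩
  choose s hs using hs
  refine ⟨∑ i, (s i : ℂ) * t i, fun χ hχ => ?_⟩
  rw [h χ hχ, Finset.mul_sum]
  refine Finset.sum_congr rfl fun i _ => ?_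
  rw [hs i χ hχ]
  push_cast
  ring

lemma sq_of_isColumn {A : Set (IrrCharacter G)} {a : IrrCharacter G → ℤ} (ha : IsColumn A a) {χ : IrrCharacter G}
    (hχ : χ ∈ A) : a χ * a χ = 1 := by
  rcases ha.1 χ hχ with h | h <;> rw [h] <;> norm_num

open Classical in
/-- **Rank three on both sides.** -/
theorem isPerfectFun_of_rank_three (hM : IsPModular 2 M) {B : Set (IrrCharacter G)} {c : Set (IrrCharacter N)}
    {I : IrrCharacter N → IrrCharacter G} (hbij : Set.BijOn I c B)
    (hcardc : Nat.card c = 4) {a : IrrCharacter G → ℤ} {a' : IrrCharacter N → ℤ}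
    (ha : IsColumn B a) (ha' : IsColumn c a')
    (hu : ∀ w, IsColumn B w → (∀ χ ∈ B, w χ = a χ) ∨ (∀ χ ∈ B, w χ = - a χ))
    (hu' : ∀ w, IsColumn c w → (∀ χ ∈ c, w χ = a' χ) ∨ (∀ χ ∈ c, w χ = - a' χ))
    (hdecG : HasDec M B) (hdecN : HasDec M c) :
    IsPerfectFun 2 M (signedBijectionKernel c I (fun η => a' η * a (I η))) := by
  letI : Fintype (IrrCharacter G) := Fintype.ofFinite _
  letI : Fintype (IrrCharacter N) := Fintype.ofFinite _
  rw [Nat.card_eq_fintype_card, Fintype.card_subtype] at hcardc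
  have hsq1 : ∀ η ∈ c, (a (I η) : ℂ) * (a (I η) : ℂ) = 1 := by
    intro η hη
    have := sq_of_isColumn ha (hbij.mapsTo hη)
    exact_mod_cast this
  have hsq2 : ∀ η ∈ c, (a' η : ℂ) * (a' η : ℂ) = 1 := by
    intro η hη
    have := sq_of_isColumn ha' hη
    exact_mod_cast this
  refine isPerfectFun_of_columns hM hbij.mapsTo hdecG hdecN ?_ ?_ ?_
  · intro w w' hw hw'
    have hs : ∃ s : ℤ, ∀ χ ∈ B, w χ = s * a χ := by
      rcases hu _ hw with h1 | h1
      · exact ⟨1, fun χ hχ => by rw [h1 χ hχ, one_mul]⟩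
      · exact ⟨-1, fun χ hχ => by rw [h1 χ hχ, neg_one_mul]⟩
    have hs' : ∃ s : ℤ, ∀ χ ∈ c, w' χ = s * a' χ := by
      rcases hu' _ hw' with h1 | h1
      · exact ⟨1, fun χ hχ => by rw [h1 χ hχ, one_mul]⟩
      · exact ⟨-1, fun χ hχ => by rw [h1 χ hχ, neg_one_mul]⟩
    obtain ⟨s, hs⟩ := hs
    obtain ⟨s', hs'⟩ := hs'
    refine ⟨s * s', ?_⟩
    have h1 : ∀ η ∈ Finset.univ.filter (· ∈ c), a' η * a (I η) * w (I η) * w' η = s * s' := by
      intro η hη
      have hηc := (Finset.mem_filter.mp hη).2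
      rw [hs _ (hbij.mapsTo hηc), hs' _ hηc]
      calc a' η * a (I η) * (s * a (I η)) * (s' * a' η) = s * s' * (a (I η) * a (I η)) * (a' η * a' η) := by ring
        _ = s * s' := by rw [sq_of_isColumn ha (hbij.mapsTo hηc), sq_of_isColumn ha' hηc]; ring
    rw [Finset.sum_congr rfl h1, Finset.sum_const, hcardc]
    simp
  · intro x y hx hy
    obtain ⟨T, hT⟩ := exists_value hu' hdecN hy
    have h1 := ha.2 x hx
    rw [Cfsg.Agent.Lib.Blocks.Osima.finsum_mem_eq_sum_filter, ← sum_filter_bijOn hbij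
      (fun χ : IrrCharacter G => (a χ : ℂ) * (χ : G → ℂ) x)] at h1
    have h2 : ∑ η ∈ Finset.univ.filter (· ∈ c), (((a' η * a (I η) : ℤ)) : ℂ) * (I η : G → ℂ) x * (η : N → ℂ) y =
        T * ∑ η ∈ Finset.univ.filter (· ∈ c), (a (I η) : ℂ) * (I η : G → ℂ) x := by
      rw [Finset.mul_sum]
      refine Finset.sum_congr rfl fun η hη => ?_
      have hηc := (Finset.mem_filter.mp hη).2
      rw [hT η hηc]
      push_cast
      linear_combination (T * (a (I η) : ℂ) * (I η : G → ℂ) x) * hsq2 η hηc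
    rw [h2, h1, mul_zero]
  · intro x y hx hy
    obtain ⟨T, hT⟩ := exists_value hu hdecG hx
    have h1 := ha'.2 y hy
    rw [Cfsg.Agent.Lib.Blocks.Osima.finsum_mem_eq_sum_filter] at h1
    have h2 : ∑ η ∈ Finset.univ.filter (· ∈ c), (((a' η * a (I η) : ℤ)) : ℂ) * (I η : G → ℂ) x * (η : N → ℂ) y =
        T * ∑ η ∈ Finset.univ.filter (· ∈ c), (a' η : ℂ) * (η : N → ℂ) y := by
      rw [Finset.mul_sum]
      refine Finset.sum_congr rfl fun η hη => ?_
      have hηc := (Finset.mem_filter.mp hη).2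
      rw [hT _ (hbij.mapsTo hηc)]
      push_cast
      linear_combination (T * (a' η : ℂ) * (η : N → ℂ) y) * hsq1 η hηc
    rw [h2, h1, mul_zero]

end CaseThree

end Cfsg.Agent.Lib.Blocks.PerfectV4
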