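/-
Perfect isometries for blocks with a Klein four defect group: columns and induction in stages.
-/
import Mathlib
import Cfsg.Agent.Lib.Blocks.PerfectV4b
import Cfsg.Agent.Lib.Blocks.Pairs21

set_option autoImplicit false
set_option linter.style.haveILetI false

namespace Cfsg.Agent.Lib.Blocks.PerfectV4

open Cfsg Cfsg.Agent.Lib.Blocks.Local Cfsg.Agent.Lib.Blocks.Central Cfsg.Agent.Lib.Blocks.Osima
  Cfsg.Agent.Lib.Blocks.Regular Cfsg.Agent.Lib.Blocks.BlockCount
  Cfsg.Agent.Lib.Blocks.Sections Cfsg.Agent.Lib.Blocks.MajorSub Cfsg.Agent.Lib.Blocks.KleinFour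
  Cfsg.Agent.Lib.Blocks.AbelianCount Cfsg.Agent.Lib.Blocks.Pairs Cfsg.Agent.Lib.Blocks.Transport
  Cfsg.Agent.Lib.Blocks.CentralQuot Cfsg.Agent.Lib.Blocks.Induced Cfsg.Agent.Lib.Blocks.SecondMain
open scoped ComplexConjugate

universe u

section Main

variable {G : Type u} [Group G] [Fintype G] {M : Ideal AlgInt} [hMp : M.IsPrime]

/-- A block with a Klein four defect group has a column. -/
theorem exists_isColumn {A : Set (IrrCharacter G)} {D₀ : Subgroup G}
    {c₀ : Set (IrrCharacter (Subgroup.centralizer (D₀ : Set G)))} (hM : IsPModular 2 M) (hA : IsPBlock M A)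
    (hmax : IsMaximalBrauerPair 2 M A D₀ c₀)
    (hab : ∀ x ∈ D₀, ∀ y ∈ D₀, x * y = y * x) (hcard : Nat.card D₀ = 4) (hsq : ∀ x ∈ D₀, x * x = 1)
    (hh : ∀ χ ∈ A, blockHeight 2 A (χ : G → ℂ) = 0) : ∃ w, IsColumn A w := by
  classical
  obtain ⟨u, hu, hu1⟩ : ∃ u ∈ D₀, u ≠ 1 := by
    by_contra hcon
    push Not at hcon
    have h0 : D₀ = ⊥ := (Subgroup.eq_bot_iff_forall D₀).mpr hcon
    rw [h0] at hcard
    simp at hcard
  have hord : orderOf u = 2 ^ 1 := by
    rw [pow_one]
    refine orderOf_eq_prime ?_ hu1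
    rw [sq]
    exact hsq u hu
  have hPe := hmax.1.1
  obtain ⟨f, hf, hle⟩ := exists_subpairLE hM hPe (Subgroup.zpowers_le.mpr hu)
  have hpair : IsBrauerPairOf 2 M A (Subgroup.zpowers u) f := by
    have hQf : IsBrauerPair 2 M (Subgroup.zpowers u) f := ⟨isPGroup_zpowers_of_mem hPe.1 hu, hf⟩
    exact (isBrauerPairOf_iff_of_subpairLE hM hQf hle).mp hmax.1
  have hind := isInducedBlock_of_brauerPair hM hpair
  have key : ∀ (K : Subgroup G) (_ : K = Cen u) (f : Set (IrrCharacter K)), IsInducedBlock M K f A →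
      ∃ b : Set (IrrCharacter (Cen u)), IsInducedBlock M (Cen u) b A := by
    rintro K rfl f hf
    exact ⟨f, hf⟩
  obtain ⟨b, hb⟩ := key _ (cz_eq_cen u) f hind
  letI : Fintype (Cen u) := Fintype.ofFinite _
  obtain ⟨ρ, a, hgg, hone, -, -, y₁, hy₁⟩ := cen_column hM hmax hab hcard hsq hh ⟨1, hord⟩ hu1 hb
  refine ⟨a, hone, fun y₀ hy₀ => ?_⟩
  have hy₁' : ¬ 2 ∣ orderOf y₁ := by
    intro hd
    obtain ⟨χ, hχ⟩ : ∃ χ, χ ∈ A := by
      obtain ⟨χ₀, rfl⟩ := id hA
      exact ⟨χ₀, mem_blockOf_self χ₀⟩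
    have h1 := congrFun (hgg χ) y₁
    simp only [gg, Pi.smul_apply, smul_eq_mul] at h1
    rw [reg_of_dvd _ hd] at h1
    rcases hone χ hχ with h2 | h2 <;> rw [h2] at h1 <;> exact hy₁ (by simpa using h1.symm)
  exact column_orth hM ⟨1, hord⟩ hu1 hA hb.1 hgg hy₁ hy₁' hy₀

/-- **Induction in stages** through the centralizer of a subgroup. -/
theorem isInducedBlock_of_stages {W P : Subgroup G} (hCW : Subgroup.centralizer (P : Set G) ≤ W) (hPW : P ≤ W)
    {c₀' : Set (IrrCharacter (Subgroup.centralizer ((P.subgroupOf W : Subgroup W) : Set W)))}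
    {c : Set (IrrCharacter W)} {B : Set (IrrCharacter G)}
    (h1 : IsInducedBlock M (Subgroup.centralizer ((P.subgroupOf W : Subgroup W) : Set W)) c₀' c)
    (h2 : IsInducedBlock M W c B) :
    IsInducedBlock M (Subgroup.centralizer (P : Set G)) (blockMap (cD hCW le_rfl hPW).symm c₀') B := by
  classical
  letI : Fintype W := Fintype.ofFinite _
  letI : Fintype (Subgroup.centralizer ((P.subgroupOf W : Subgroup W) : Set W)) := Fintype.ofFinite _
  letI : Fintype (Subgroup.centralizer (P : Set G)) := Fintype.ofFinite _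
  refine ⟨isPBlock_blockMap _ h1.1, h2.2.1, ?_⟩
  intro ξ hξ χ hχ g
  rw [mem_blockMap_iff] at hξ
  obtain ⟨η, hη⟩ : ∃ η, η ∈ c := by
    obtain ⟨η, hη⟩ := id h1.2.1
    rw [hη]
    exact ⟨η, mem_blockOf_self η⟩
  have hA := h2.2.2 η hη χ hχ g
  have hb : traceClassSum W g ∈ localCenter W M := traceClassSum_mem_localCenter W g
  have hB := memLocalIdeal_omega_restr_sub (isClassFunction_of_irr η.2) hb (h1.2.2 _ hξ η hη)
  rw [← inducedCentralChar_eq_omega W (η : W → ℂ) g] at hB
  have hC : omega ((irrComap (cD hCW le_rfl hPW).symm.symm ξ : IrrCharacter _) : _ → ℂ)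
      (restr (Subgroup.centralizer ((P.subgroupOf W : Subgroup W) : Set W)) (traceClassSum W g)) =
      inducedCentralChar (Subgroup.centralizer (P : Set G)) (ξ : _ → ℂ) g := by
    rw [inducedCentralChar_eq_omega, omega, omega]
    congr 1
    rw [← Equiv.sum_comp (cD hCW le_rfl hPW).toEquiv]
    refine Finset.sum_congr rfl fun z _ => ?_
    rw [coeff_restr]
    simp only [traceClassSum, coeff_ofFun]
    rfl
  rw [hC] at hB
  have := memLocalIdeal_add hB hA
  convert this using 1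
  ring

/-- Stabilizers of a block of the centralizer, read in a subgroup. -/
theorem stabilizesBlock_cD_iff {W P : Subgroup G} (hCW : Subgroup.centralizer (P : Set G) ≤ W) (hPW : P ≤ W)
    (c₀' : Set (IrrCharacter (Subgroup.centralizer ((P.subgroupOf W : Subgroup W) : Set W)))) (g : W)
    (hg : (g : G) ∈ Subgroup.normalizer ((Subgroup.centralizer (P : Set G) : Subgroup G) : Set G)) :
    StabilizesBlock (Subgroup.centralizer ((P.subgroupOf W : Subgroup W) : Set W)) c₀' g ↔
      StabilizesBlock (Subgroup.centralizer (P : Set G)) (blockMap (cD hCW le_rfl hPW).symm c₀') (g : G) := by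
  set φ := cD hCW le_rfl hPW with hφ
  have hcoe : ∀ z : Subgroup.centralizer ((P.subgroupOf W : Subgroup W) : Set W), ((φ z : Subgroup.centralizer (P : Set G)) : G) = ((z : W) : G) :=
    fun z => rfl
  have hcoe' : ∀ k : Subgroup.centralizer (P : Set G), ((φ.symm k : Subgroup.centralizer ((P.subgroupOf W : Subgroup W) : Set W)) : W) = ⟨k, hCW k.2⟩ :=
    fun k => rfl
  constructor
  · rintro ⟨-, h2⟩
    refine ⟨hg, fun χ hχ => ?_⟩
    rw [mem_blockMap_iff] at hχ
    obtain ⟨χ₁, hχ₁, hconj⟩ := h2 _ hχ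
    refine ⟨irrComap φ.symm χ₁, irrComap_mem_blockMap _ hχ₁, ?_⟩
    intro k k' hkk
    show (χ₁ : _ → ℂ) (φ.symm k') = _
    have h3 := hconj (φ.symm k) (φ.symm k') (by
      rw [hcoe', hcoe']
      apply Subtype.ext
      exact hkk)
    rw [h3]
    show (χ : _ → ℂ) (φ.symm.symm (φ.symm k)) = _
    rw [MulEquiv.symm_symm, MulEquiv.apply_symm_apply]
  · rintro ⟨-, h2⟩
    refine ⟨?_, fun η hη => ?_⟩
    · rw [Subgroup.mem_normalizer_iff]
      intro w
      rw [mem_centralizer_subgroupOf_iff hPW, mem_centralizer_subgroupOf_iff hPW]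
      have := Subgroup.mem_normalizer_iff.mp hg (w : G)
      simpa using this
    · obtain ⟨χ₁, hχ₁, hconj⟩ := h2 (irrComap φ.symm η) (irrComap_mem_blockMap _ hη)
      rw [mem_blockMap_iff] at hχ₁
      refine ⟨_, hχ₁, ?_⟩
      intro z z' hzz
      show (χ₁ : _ → ℂ) (φ.symm.symm z') = _
      have h3 := hconj (φ z) (φ z') (by
        rw [hcoe, hcoe, hzz]
        simp)
      rw [MulEquiv.symm_symm, h3]
      show (η : _ → ℂ) (φ.symm (φ z)) = _
      rw [MulEquiv.symm_apply_apply]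

end Main

/-- A bijection between two sets of the same size. -/
lemma exists_bijOn {α β : Type*} [Finite α] [Finite β] [Nonempty β] {c : Set α} {B : Set β}
    (h : Nat.card c = Nat.card B) : ∃ I : α → β, Set.BijOn I c B := by
  classical
  letI : Fintype c := Fintype.ofFinite _
  letI : Fintype B := Fintype.ofFinite _
  let e : c ≃ B := Fintype.equivOfCardEq (by rwa [Nat.card_eq_fintype_card, Nat.card_eq_fintype_card] at h)
  refine ⟨fun x => if hx : x ∈ c then (e ⟨x, hx⟩ : β) else Classical.arbitrary β, ?_, ?_, ?_⟩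
  · intro x hx
    simp only [dif_pos hx]
    exact (e ⟨x, hx⟩).2
  · intro x hx y hy hxy
    simp only [dif_pos hx, dif_pos hy] at hxy
    have := e.injective (Subtype.ext hxy)
    exact congrArg Subtype.val this
  · intro y hy
    refine ⟨(e.symm ⟨y, hy⟩ : α), (e.symm ⟨y, hy⟩).2, ?_⟩
    simp only [dif_pos (e.symm ⟨y, hy⟩).2]
    simp

end Cfsg.Agent.Lib.Blocks.PerfectV4
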