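import Mathlib
import Cfsg.Prelude.Def_Blocks
import Cfsg.Agent.Lib.Char.Klein4

/-!
# Groups with a central involution and quaternion Sylow 2-subgroups of order 8

The group theory behind the structure of the principal 2-block of such a group, when all elements of
order 4 are conjugate.
-/

set_option autoImplicit false

namespace Cfsg.Agent.Lib.Blocks.Q8Cen

open Cfsg Cfsg.Agent.Lib.Blocks.Sections Cfsg.Agent.Lib.Blocks.Principal
  Cfsg.Agent.Lib.Blocks.PrincipalCen Cfsg.Agent.Lib.Char.Klein4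
open scoped ComplexConjugate

universe u

lemma q8_pow_four : ∀ w : QuaternionGroup 2, w * w * (w * w) = 1 := by decide

lemma q8_comm : ∀ w w' : QuaternionGroup 2, w * w ≠ 1 → w * w' = w' * w →
    w' = 1 ∨ w' = w ∨ w' = w * w ∨ w' = w * w * w := by decide

/-- A central involution, the only involution; Sylow 2-subgroups quaternion of order 8; all
elements of order 4 conjugate. -/
structure Q8C (H : Type u) [Group H] (x : H) : Prop where
  hx : orderOf x = 2
  hxc : ∀ g, Commute x g
  hinv : ∀ g : H, orderOf g = 2 → g = x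
  quat : ∀ Q : Sylow 2 H, Nonempty ((Q : Subgroup H) ≃* QuaternionGroup 2)
  hconj : ∀ u v : H, orderOf u = 4 → orderOf v = 4 → IsConj u v

section Groups

variable {H : Type u} [Group H] {x : H}

theorem Q8C.of_sylow [Finite H] (hx : orderOf x = 2) (hxc : ∀ g, Commute x g)
    (hinv : ∀ g : H, orderOf g = 2 → g = x) (S : Sylow 2 H) (e : (S : Subgroup H) ≃* QuaternionGroup 2)
    (hconj : ∀ u v : H, orderOf u = 4 → orderOf v = 4 → IsConj u v) : Q8C H x :=
  ⟨hx, hxc, hinv, fun Q => ⟨(Q.equiv S).trans e⟩, hconj⟩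

namespace Q8C

variable [Finite H] (h : Q8C H x)
include h

theorem x_ne_one : x ≠ 1 := by
  intro h1
  have := h.hx
  rw [h1, orderOf_one] at this
  omega

theorem x_mul_x : x * x = 1 := by
  rw [← pow_two, ← h.hx]
  exact pow_orderOf_eq_one x

theorem pow_four {t : H} {k : ℕ} (ht : orderOf t = 2 ^ k) : t * t * (t * t) = 1 := by
  obtain ⟨Q, hQ⟩ := exists_sylow_mem ht
  obtain ⟨e⟩ := h.quat Q
  have h1 := q8_pow_four (e ⟨t, hQ⟩)
  rw [← map_mul, ← map_mul] at h1
  have h2 := e.injective (h1.trans e.map_one.symm)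
  exact congrArg Subtype.val h2

theorem elt_cases {t : H} {k : ℕ} (ht : orderOf t = 2 ^ k) : t = 1 ∨ t = x ∨ orderOf t = 4 := by
  have h1 : t ^ 4 = 1 := by
    have := h.pow_four ht
    rw [show t ^ 4 = t * t * (t * t) by simp only [pow_succ, pow_zero, one_mul, mul_assoc]]
    exact this
  have h2 : orderOf t ∣ 2 ^ 2 := orderOf_dvd_of_pow_eq_one (by simpa using h1)
  obtain ⟨j, hj, hj2⟩ := (Nat.dvd_prime_pow (by norm_num : Nat.Prime 2)).mp h2
  interval_cases j
  · left
    simpa using hj2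
  · right; left
    exact h.hinv t (by simpa using hj2)
  · right; right
    simpa using hj2

theorem sq_of_four {u : H} (hu : orderOf u = 4) : u * u = x := by
  apply h.hinv
  have h4 : u ^ 4 = 1 := by rw [← hu]; exact pow_orderOf_eq_one u
  apply orderOf_eq_prime
  · rw [show (u * u) ^ 2 = u ^ 4 by simp only [pow_succ, pow_zero, one_mul, mul_assoc]]
    exact h4
  · intro h1
    have : orderOf u ∣ 2 := orderOf_dvd_of_pow_eq_one (by rw [pow_two]; exact h1)
    rw [hu] at this
    omega

theorem inv_of_four {u : H} (hu : orderOf u = 4) : u⁻¹ = x * u := by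
  rw [inv_eq_iff_mul_eq_one, ← h.sq_of_four hu]
  have h4 : u ^ 4 = 1 := by rw [← hu]; exact pow_orderOf_eq_one u
  rw [show u * (u * u * u) = u ^ 4 by simp only [pow_succ, pow_zero, one_mul, mul_assoc]]
  exact h4

theorem orderOf_x_mul_four {u : H} (hu : orderOf u = 4) : orderOf (x * u) = 4 := by
  rw [← h.inv_of_four hu, orderOf_inv, hu]

/-- A 2-element commuting with an element `u` of order 4 is a power of `u`. -/
theorem eq_of_comm {u t : H} {k : ℕ} (hu : orderOf u = 4) (ht : orderOf t = 2 ^ k) (hc : u * t = t * u) :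
    t = 1 ∨ t = u ∨ t = x ∨ t = x * u := by
  have hu' : orderOf u = 2 ^ 2 := by simpa using hu
  obtain ⟨Q, huQ, htQ⟩ := exists_sylow_mem₂ hu' ht hc
  obtain ⟨e⟩ := h.quat Q
  set w := e ⟨u, huQ⟩ with hw
  set w' := e ⟨t, htQ⟩ with hw'
  have hxQ : u * u ∈ (Q : Subgroup H) := Subgroup.mul_mem _ huQ huQ
  have key : ∀ a b : (Q : Subgroup H), (a : H) = b → e a = e b := fun a b hab =>
    congrArg e (Subtype.ext hab)
  have h1 : w * w ≠ 1 := by
    intro h1
    rw [hw, ← map_mul] at h1
    have h2 := e.injective (h1.trans e.map_one.symm)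
    have h3 : u * u = 1 := congrArg Subtype.val h2
    rw [h.sq_of_four hu] at h3
    exact h.x_ne_one h3
  have h2 : w * w' = w' * w := by
    rw [hw, hw', ← map_mul, ← map_mul]
    exact key _ _ hc
  have hinj : ∀ a : (Q : Subgroup H), e ⟨t, htQ⟩ = e a → t = a := fun a ha =>
    congrArg Subtype.val (e.injective ha)
  rcases q8_comm w w' h1 h2 with h3 | h3 | h3 | h3
  · left
    have := hinj 1 (by rw [map_one]; exact h3)
    simpa using this
  · right; left
    exact hinj ⟨u, huQ⟩ h3
  · right; right; left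
    have := hinj (⟨u, huQ⟩ * ⟨u, huQ⟩) (by rw [map_mul]; exact h3)
    simpa [h.sq_of_four hu] using this
  · right; right; right
    have := hinj (⟨u, huQ⟩ * ⟨u, huQ⟩ * ⟨u, huQ⟩) (by rw [map_mul, map_mul]; exact h3)
    simpa [h.sq_of_four hu] using this

end Q8C

/-- A Sylow 2-subgroup of order 4 centralized by its normalizer: the odd core has index 4. -/
theorem index_core_of_sylow {C : Type*} [Group C] [Finite C] (Q : Sylow 2 C)
    (hN : Subgroup.normalizer ((Q : Subgroup C) : Set C) ≤ Subgroup.centralizer ((Q : Subgroup C) : Set C))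
    (hQcard : Nat.card (Q : Subgroup C) = 4) : (pPrimeCore 2 C).index = 4 := by
  classical
  haveI : Fact (Nat.Prime 2) := ⟨by norm_num⟩
  have hcompl := MonoidHom.ker_transferSylow_isComplement' Q hN
  set L : Subgroup C := (MonoidHom.transferSylow Q hN).ker with hL
  haveI hLn : L.Normal := MonoidHom.normal_ker _
  have hcc := hcompl.card_mul_card
  have hidx := Subgroup.card_mul_index (Q : Subgroup C)
  have hodd : ¬ 2 ∣ (Q : Subgroup C).index := Q.not_dvd_index
  rw [hQcard] at hcc hidx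
  have hLcard : Nat.card L = (Q : Subgroup C).index := by omega
  have hLcop : (Nat.card L).Coprime 2 := by
    rw [hLcard, Nat.coprime_comm]
    exact (Nat.Prime.coprime_iff_not_dvd (by norm_num)).mpr hodd
  have hLle : L ≤ pPrimeCore 2 C := Cfsg.Agent.Lib.Solvable.Carter.le_pPrimeCore hLn hLcop
  have hcop := Cfsg.Agent.Lib.Solvable.Carter.card_pPrimeCore_coprime (G := C) 2
  obtain ⟨r, hr⟩ := Subgroup.card_dvd_of_le hLle
  have hci := Subgroup.card_mul_index (pPrimeCore 2 C)
  set i := (pPrimeCore 2 C).index with hi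
  have hLpos : 0 < Nat.card L := Nat.card_pos
  have hri : r * i = 4 := by
    have : Nat.card L * (r * i) = Nat.card L * 4 := by
      rw [← mul_assoc, ← hr, hci, hcc.symm]
    exact Nat.eq_of_mul_eq_mul_left hLpos this
  have hrodd : ¬ 2 ∣ r := by
    intro hd
    have : 2 ∣ Nat.card (pPrimeCore 2 C) := hr ▸ Dvd.dvd.mul_left hd _
    have h2 := Nat.Coprime.eq_one_of_dvd hcop.symm this
    omega
  have hr4 : r ∣ 4 := ⟨i, hri.symm⟩
  have hr_le : r ≤ 4 := Nat.le_of_dvd (by norm_num) hr4
  interval_cases r <;> omega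

namespace Q8C

variable [Finite H] (h : Q8C H x)
include h

/-- The odd core of the centralizer of an element of order 4 has index 4. -/
theorem index_core {u : H} (hu : orderOf u = 4) : (pPrimeCore 2 (Cen u)).index = 4 := by
  classical
  haveI : Fact (Nat.Prime 2) := ⟨by norm_num⟩
  letI : Fintype H := Fintype.ofFinite H
  set uc : Cen u := ⟨u, mem_Cen_self u⟩ with huc
  have huo : orderOf uc = 2 ^ 2 := by
    rw [← Subgroup.orderOf_coe, huc]
    simpa using hu
  obtain ⟨Q, hQ⟩ := exists_sylow_mem huo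
  have hcases : ∀ y ∈ (Q : Subgroup (Cen u)), (y : H) = 1 ∨ (y : H) = u ∨ (y : H) = x ∨ (y : H) = x * u := by
    intro y hy
    obtain ⟨k, hk⟩ := (IsPGroup.iff_orderOf.mp Q.isPGroup') ⟨y, hy⟩
    refine h.eq_of_comm hu (k := k) ?_ (commute_of_mem_Cen y).symm.eq
    rw [Subgroup.orderOf_coe]
    rw [Subgroup.orderOf_mk] at hk
    exact hk
  have hcen : ∀ c : Cen u, ∀ y ∈ (Q : Subgroup (Cen u)), y * c = c * y := by
    intro c y hy
    have hcu := commute_of_mem_Cen c
    apply Subtype.ext
    simp only [Subgroup.coe_mul]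
    rcases hcases y hy with h1 | h1 | h1 | h1
    · rw [h1]; simp
    · rw [h1]; exact hcu.symm.eq
    · rw [h1]; exact (h.hxc _).eq
    · rw [h1, mul_assoc, hcu.symm.eq, ← mul_assoc, (h.hxc _).eq, mul_assoc]
  refine index_core_of_sylow Q (fun c _ => ?_) ?_
  · rw [Subgroup.mem_centralizer_iff]
    intro y hy
    exact hcen c y hy
  · have hle : (Q : Subgroup (Cen u)) = Subgroup.zpowers uc := by
      apply le_antisymm
      · intro y hy
        have hup : ∀ n : ℤ, ((uc ^ n : Cen u) : H) = u ^ n := fun n => by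
          simp [huc]
        rcases hcases y hy with h1 | h1 | h1 | h1
        · have : y = 1 := Subtype.ext h1
          rw [this]
          exact Subgroup.one_mem _
        · have : y = uc := Subtype.ext h1
          rw [this]
          exact Subgroup.mem_zpowers _
        · refine ⟨2, Subtype.ext ?_⟩
          show ((uc ^ (2 : ℤ) : Cen u) : H) = _
          rw [hup, h1, ← h.sq_of_four hu]
          simp [zpow_two, pow_two]
        · refine ⟨3, Subtype.ext ?_⟩
          show ((uc ^ (3 : ℤ) : Cen u) : H) = _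
          rw [hup, h1, ← h.sq_of_four hu, show (3 : ℤ) = (3 : ℕ) by norm_num, zpow_natCast]
          simp only [pow_succ, pow_zero, one_mul, mul_assoc]
      · rw [Subgroup.zpowers_le]
        exact hQ
    rw [hle, Nat.card_zpowers, ← Subgroup.orderOf_coe, huc]
    simpa using hu

end Q8C

/-- Order of a product of a 2-element and a commuting odd element. -/
theorem orderOf_mul_part {t y : H} {k : ℕ} (hc : Commute t y) (hk : orderOf t = 2 ^ k) (hy : ¬ 2 ∣ orderOf y) :
    orderOf (t * y) = orderOf t * orderOf y := by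
  apply hc.orderOf_mul_eq_mul_orderOf_of_coprime
  rw [hk]
  exact Nat.Coprime.pow_left k ((Nat.Prime.coprime_iff_not_dvd Nat.prime_two).2 hy)

/-- The sign function: `1` on odd elements, `-1` on the 2-section of the involution, `0` on the rest. -/
noncomputable def sig (g : H) : ℂ := if ¬ 2 ∣ orderOf g then 1 else if 4 ∣ orderOf g then 0 else -1

theorem sig_of_odd {g : H} (hg : ¬ 2 ∣ orderOf g) : sig g = 1 := by
  simp [sig, hg]

theorem sig_of_four {g : H} (hg : 4 ∣ orderOf g) : sig g = 0 := by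
  have : 2 ∣ orderOf g := Dvd.dvd.trans (by norm_num) hg
  simp [sig, hg, this]

theorem sig_of_even_not_four {g : H} (hg : 2 ∣ orderOf g) (hg4 : ¬ 4 ∣ orderOf g) : sig g = -1 := by
  simp [sig, hg, hg4]

theorem sig_conj (g c : H) : sig (c * g * c⁻¹) = sig g := by
  have h1 : orderOf (c * g * c⁻¹) = orderOf g := by
    have := orderOf_injective (MulAut.conj c).toMonoidHom (MulAut.conj c).injective g
    simpa using this
  unfold sig
  rw [h1]

theorem sig_sq (g : H) : sig g * conj (sig g) = if 4 ∣ orderOf g then 0 else 1 := by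
  by_cases h4 : 4 ∣ orderOf g
  · simp [sig_of_four h4, h4]
  · rw [if_neg h4]
    by_cases h2 : 2 ∣ orderOf g
    · rw [sig_of_even_not_four h2 h4]
      simp
    · rw [sig_of_odd h2]
      simp

namespace Q8C

variable [Finite H] (h : Q8C H x)
include h

theorem part_cases (g : H) : ∃ t y, t * y = g ∧ Commute t y ∧ ¬ 2 ∣ orderOf y ∧
    (t = 1 ∨ t = x ∨ orderOf t = 4) ∧ IsPPart 2 g t := by
  haveI : Fact (Nat.Prime 2) := ⟨by norm_num⟩
  obtain ⟨t, ht⟩ := Cfsg.Agent.Lib.Blocks.SecondMain.exists_isPPart 2 g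
  obtain ⟨y, hty, hc, ⟨k, hk⟩, hy⟩ := ht
  exact ⟨t, y, hty, hc, hy, h.elt_cases hk, ⟨y, hty, hc, ⟨k, hk⟩, hy⟩⟩

theorem orderOf_x_mul_odd {y : H} (hy : ¬ 2 ∣ orderOf y) : orderOf (x * y) = 2 * orderOf y :=
  by
  have h1 := orderOf_mul_part (k := 1) (h.hxc y) (by simpa using h.hx) hy
  rw [h1, h.hx]

theorem not_four_of_x_mul {y : H} (hy : ¬ 2 ∣ orderOf y) : ¬ 4 ∣ orderOf (x * y) := by
  rw [h.orderOf_x_mul_odd hy]
  omega

theorem sig_x_mul_odd {y : H} (hy : ¬ 2 ∣ orderOf y) : sig (x * y) = -1 := by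
  apply sig_of_even_not_four _ (h.not_four_of_x_mul hy)
  rw [h.orderOf_x_mul_odd hy]
  exact dvd_mul_right _ _

theorem four_of_part {u y : H} (hu : orderOf u = 4) (hc : Commute u y) (hy : ¬ 2 ∣ orderOf y) :
    4 ∣ orderOf (u * y) := by
  have h1 := orderOf_mul_part (k := 2) hc (by simpa using hu) hy
  rw [h1, hu]
  exact dvd_mul_right _ _

/-- Trichotomy. -/
theorem trichotomy (g : H) : (¬ 2 ∣ orderOf g) ∨ (∃ y, ¬ 2 ∣ orderOf y ∧ g = x * y) ∨ 4 ∣ orderOf g := by
  obtain ⟨t, y, rfl, hc, hy, ht, -⟩ := h.part_cases g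
  rcases ht with rfl | rfl | ht
  · left
    simpa using hy
  · right; left
    exact ⟨y, hy, rfl⟩
  · right; right
    exact h.four_of_part ht hc hy

theorem order_part_of_four {g t : H} (hgt : IsPPart 2 g t) (hg : 4 ∣ orderOf g) : orderOf t = 4 := by
  obtain ⟨y, rfl, hc, ⟨k, hk⟩, hy⟩ := hgt
  rcases h.elt_cases hk with rfl | rfl | ht
  · exfalso
    rw [one_mul] at hg
    exact hy (Dvd.dvd.trans (by norm_num) hg)
  · exact absurd hg (h.not_four_of_x_mul hy)
  · exact ht

theorem sig_x_mul (g : H) : sig (x * g) = - sig g := by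
  rcases h.trichotomy g with hg | ⟨y, hy, rfl⟩ | hg
  · rw [sig_of_odd hg, h.sig_x_mul_odd hg]
  · rw [← mul_assoc, h.x_mul_x, one_mul, sig_of_odd hy, h.sig_x_mul_odd hy]
    simp
  · obtain ⟨t, y, rfl, hc, hy, -, hpart⟩ := h.part_cases g
    have ht := h.order_part_of_four hpart hg
    rw [sig_of_four hg, neg_zero, ← mul_assoc]
    apply sig_of_four
    apply h.four_of_part (h.orderOf_x_mul_four ht) _ hy
    exact (h.hxc y).mul_left hc

/-- `sig` on products of 2-elements and commuting odd elements. -/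
theorem sig_mul_part {t y : H} {k : ℕ} (hc : Commute t y) (hk : orderOf t = 2 ^ k) (hy : ¬ 2 ∣ orderOf y) :
    sig (t * y) = sig t := by
  rcases h.elt_cases hk with rfl | rfl | ht
  · rw [one_mul, sig_of_odd hy, sig_of_odd (by simp)]
  · rw [h.sig_x_mul_odd hy]
    have := h.sig_x_mul_odd (y := 1) (by simp)
    rw [mul_one] at this
    exact this.symm
  · rw [sig_of_four (h.four_of_part ht hc hy), sig_of_four (by rw [ht])]

theorem exists_four : ∃ u : H, orderOf u = 4 := by
  obtain ⟨Q⟩ : Nonempty (Sylow 2 H) := inferInstance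
  obtain ⟨e⟩ := h.quat Q
  refine ⟨e.symm (QuaternionGroup.a 1), ?_⟩
  rw [Subgroup.orderOf_coe, MulEquiv.orderOf_eq]
  rw [QuaternionGroup.orderOf_a_one]

theorem x_mem_sylow (Q : Sylow 2 H) : x ∈ (Q : Subgroup H) := by
  obtain ⟨e⟩ := h.quat Q
  have h1 : orderOf ((e.symm (QuaternionGroup.a 2) : (Q : Subgroup H)) : H) = 2 := by
    rw [Subgroup.orderOf_coe, MulEquiv.orderOf_eq]
    apply orderOf_eq_prime <;> decide
  have h2 := h.hinv _ h1
  rw [← h2]
  exact Subtype.property _

end Q8C

end Groups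

end Cfsg.Agent.Lib.Blocks.Q8Cen
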