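import Mathlib
import Cfsg.Prelude.Def_Blocks
import Cfsg.Agent.Lib.Blocks.Q8CenA
import Cfsg.Agent.Lib.Blocks.CentralProd
import Cfsg.Agent.Lib.Char.BrauerInd
import Cfsg.Agent.Lib.Char.Virtual
import Cfsg.Agent.Lib.Char.LinearChars
import Cfsg.Agent.Lib.PSL2.Quat

/-!
# The two-dimensional character of the quaternion group and the sign function on 2-subgroups
-/

set_option autoImplicit false

namespace Cfsg.Agent.Lib.Blocks.Q8Cen

open Cfsg Cfsg.Agent.Lib.Blocks.Sections Cfsg.Agent.Lib.Blocks.Principal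
  Cfsg.Agent.Lib.Blocks.PrincipalCen Cfsg.Agent.Lib.Char.Klein4
open scoped ComplexConjugate

universe u

section Rho

open Complex Matrix

noncomputable def tA : Matrix (Fin 2) (Fin 2) ℂ := !![I, 0; 0, -I]
noncomputable def tB : Matrix (Fin 2) (Fin 2) ℂ := !![0, 1; -1, 0]

lemma tA_sq : tA * tA = -1 := by
  ext i j
  fin_cases i <;> fin_cases j <;> simp [tA, Matrix.mul_apply, Fin.sum_univ_two]

lemma tB_sq : tB * tB = -1 := by
  ext i j
  fin_cases i <;> fin_cases j <;> simp [tB, Matrix.mul_apply, Fin.sum_univ_two]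

lemma tBA : tB * tA * tB = tA := by
  ext i j
  fin_cases i <;> fin_cases j <;> simp [tA, tB, Matrix.mul_apply, Fin.sum_univ_two]

noncomputable def tAu : (Matrix (Fin 2) (Fin 2) ℂ)ˣ :=
  ⟨tA, -tA, by rw [mul_neg, tA_sq, neg_neg], by rw [neg_mul, tA_sq, neg_neg]⟩

noncomputable def tBu : (Matrix (Fin 2) (Fin 2) ℂ)ˣ :=
  ⟨tB, -tB, by rw [mul_neg, tB_sq, neg_neg], by rw [neg_mul, tB_sq, neg_neg]⟩

lemma tAu_four : tAu ^ (2 * 2) = 1 := by
  apply Units.ext
  simp only [Units.val_pow_eq_pow_val, Units.val_one]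
  rw [show (2 * 2 : ℕ) = 2 + 2 by norm_num, pow_add, pow_two]
  show tA * tA * (tA * tA) = 1
  rw [tA_sq]
  simp

lemma tBu_sq : tBu * tBu = tAu ^ 2 := by
  apply Units.ext
  rw [pow_two]
  show tB * tB = tA * tA
  rw [tA_sq, tB_sq]

lemma tBu_conj : tBu * tAu * tBu⁻¹ = tAu⁻¹ := by
  apply Units.ext
  show tB * tA * (-tB) = -tA
  rw [mul_neg, tBA]

lemma fa_tAu (i : ZMod (2 * 2)) : Cfsg.Agent.Lib.PSL2.Quat.fa tAu i = tAu ^ i.val := rfl

/-- The two-dimensional character of the quaternion group of order 8. -/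
theorem exists_rho : ∃ ρ : QuaternionGroup 2 → ℂ, IsCharacter (QuaternionGroup 2) ρ ∧
    ∀ w, ρ w = if w = 1 then 2 else if w * w = 1 then -2 else 0 := by
  classical
  let φ : QuaternionGroup 2 →* (Matrix (Fin 2) (Fin 2) ℂ)ˣ :=
    Cfsg.Agent.Lib.PSL2.Quat.quatHom tAu_four tBu_sq tBu_conj
  let r : Representation ℂ (QuaternionGroup 2) (Fin 2 → ℂ) :=
    ((Matrix.toLinAlgEquiv' : Matrix (Fin 2) (Fin 2) ℂ ≃ₐ[ℂ] _).toAlgHom.toRingHom.toMonoidHom).comp
      ((Units.coeHom _).comp φ)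
  have hr : ∀ w, r.character w = Matrix.trace ((φ w : (Matrix (Fin 2) (Fin 2) ℂ)ˣ) : Matrix (Fin 2) (Fin 2) ℂ) := by
    intro w
    show LinearMap.trace ℂ _ (Matrix.toLin' _) = _
    exact Matrix.trace_toLin'_eq _
  refine ⟨r.character, ⟨2, r, rfl⟩, fun w => ?_⟩
  rw [hr]
  have hcases : ∀ i : ZMod (2 * 2), i = 0 ∨ i = 1 ∨ i = 2 ∨ i = 3 := by decide
  rcases w with i | i
  · have hφ : ((φ (QuaternionGroup.a i) : (Matrix (Fin 2) (Fin 2) ℂ)ˣ) : Matrix (Fin 2) (Fin 2) ℂ) =
        tA ^ i.val := by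
      rw [show φ (QuaternionGroup.a i) = tAu ^ i.val from rfl, Units.val_pow_eq_pow_val]
      rfl
    rw [hφ]
    rcases hcases i with rfl | rfl | rfl | rfl
    · rw [if_pos (by decide)]
      rw [show ((0 : ZMod (2 * 2)).val) = 0 from rfl, pow_zero]
      simp [Matrix.trace, Fin.sum_univ_two]
    · rw [if_neg (by decide), if_neg (by decide)]
      rw [show ((1 : ZMod (2 * 2)).val) = 1 from rfl, pow_one]
      simp [Matrix.trace, Fin.sum_univ_two, tA]
    · rw [if_neg (by decide), if_pos (by decide)]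
      rw [show ((2 : ZMod (2 * 2)).val) = 2 from rfl, pow_two, tA_sq]
      simp [Matrix.trace, Fin.sum_univ_two]
    · rw [if_neg (by decide), if_neg (by decide)]
      rw [show ((3 : ZMod (2 * 2)).val) = 3 from rfl, pow_succ, pow_two, tA_sq]
      simp [Matrix.trace, Fin.sum_univ_two, tA]
  · have hφ : ((φ (QuaternionGroup.xa i) : (Matrix (Fin 2) (Fin 2) ℂ)ˣ) : Matrix (Fin 2) (Fin 2) ℂ) =
        tB * tA ^ i.val := by
      rw [show φ (QuaternionGroup.xa i) = tBu * tAu ^ i.val from rfl, Units.val_mul, Units.val_pow_eq_pow_val]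
      rfl
    rw [hφ]
    rcases hcases i with rfl | rfl | rfl | rfl
    · rw [if_neg (by decide), if_neg (by decide)]
      rw [show ((0 : ZMod (2 * 2)).val) = 0 from rfl, pow_zero, mul_one]
      simp [Matrix.trace, Fin.sum_univ_two, tB]
    · rw [if_neg (by decide), if_neg (by decide)]
      rw [show ((1 : ZMod (2 * 2)).val) = 1 from rfl, pow_one]
      simp [Matrix.trace, Fin.sum_univ_two, tA, tB, Matrix.mul_apply]
    · rw [if_neg (by decide), if_neg (by decide)]
      rw [show ((2 : ZMod (2 * 2)).val) = 2 from rfl, pow_two, tA_sq]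
      simp [Matrix.trace, Fin.sum_univ_two, tB]
    · rw [if_neg (by decide), if_neg (by decide)]
      rw [show ((3 : ZMod (2 * 2)).val) = 3 from rfl, pow_succ, pow_two, tA_sq]
      simp [Matrix.trace, Fin.sum_univ_two, tA, tB, Matrix.mul_apply]

end Rho

section Sig

variable {H : Type u} [Group H] {x : H}

lemma sig_one : sig (1 : H) = 1 := sig_of_odd (by simp)

namespace Q8C

variable [Finite H] (h : Q8C H x)
include h

lemma sig_x : sig x = -1 := by
  have := h.sig_x_mul_odd (y := 1) (by simp)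
  rwa [mul_one] at this

/-- `2 sig` is a character of a 2-group in `H`. -/
theorem isCharacter_two_sig {K : Type*} [Group K] (i : K →* H) (hi : Function.Injective i)
    (hK : IsPGroup 2 K) : IsCharacter K (fun k => 2 * sig (i k)) := by
  classical
  haveI : Fact (Nat.Prime 2) := ⟨by norm_num⟩
  have hR : IsPGroup 2 i.range := by
    rintro ⟨_, k, rfl⟩
    obtain ⟨n, hn⟩ := hK k
    refine ⟨n, Subtype.ext ?_⟩
    simpa using congrArg i hn
  obtain ⟨Q, hQ⟩ := hR.exists_le_sylow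
  obtain ⟨e⟩ := h.quat Q
  obtain ⟨ρ, hρ, hval⟩ := exists_rho
  let j : K →* (Q : Subgroup H) := i.codRestrict (Q : Subgroup H) (fun k => hQ ⟨k, rfl⟩)
  have hj : ∀ k, ((j k : (Q : Subgroup H)) : H) = i k := fun _ => rfl
  have hc := Cfsg.Agent.Lib.Char.Basic.isCharacter_comp_hom hρ (e.toMonoidHom.comp j)
  convert hc using 1
  funext k
  simp only [MonoidHom.comp_apply, MulEquiv.toMonoidHom_eq_coe, MonoidHom.coe_coe]
  rw [hval]
  have hcase1 : e (j k) = 1 ↔ i k = 1 := by
    rw [map_eq_one_iff e e.injective, ← hj, OneMemClass.coe_eq_one]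
  have hcase2 : e (j k) * e (j k) = 1 ↔ i k * i k = 1 := by
    rw [← map_mul, map_eq_one_iff e e.injective, ← hj, ← Subgroup.coe_mul, OneMemClass.coe_eq_one]
  by_cases h1 : i k = 1
  · rw [if_pos (hcase1.mpr h1), h1, sig_one]
    norm_num
  · rw [if_neg (fun h2 => h1 (hcase1.mp h2))]
    obtain ⟨n, hn⟩ := (IsPGroup.iff_orderOf.mp hK) k
    have hok : orderOf (i k) = 2 ^ n := by
      rw [orderOf_injective i hi, hn]
    rcases h.elt_cases hok with h3 | h3 | h3
    · exact absurd h3 h1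
    · rw [if_pos (hcase2.mpr (by rw [h3]; exact h.x_mul_x)), h3, h.sig_x]
      norm_num
    · have h4 : ¬ (i k * i k = 1) := by
        intro h5
        have : orderOf (i k) ∣ 2 := orderOf_dvd_of_pow_eq_one (by rw [pow_two]; exact h5)
        rw [h3] at this
        omega
      rw [if_neg (fun h2 => h4 (hcase2.mp h2)), sig_of_four (by rw [h3])]
      simp

/-- `sig` is a character on subgroups of `⟨x⟩`. -/
theorem isCharacter_sig_of_small {K : Type*} [Group K] (i : K →* H)
    (hK : ∀ k, i k = 1 ∨ i k = x) : IsCharacter K (fun k => sig (i k)) := by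
  classical
  have hne : x ≠ 1 := h.x_ne_one
  let φ : K →* ℂˣ := MonoidHom.mk' (fun k => if i k = 1 then 1 else -1) (by
    intro a b
    rw [map_mul]
    rcases hK a with ha | ha <;> rcases hK b with hb | hb <;> rw [ha, hb]
    · simp
    · simp [hne]
    · simp [hne]
    · rw [h.x_mul_x]
      simp [hne])
  have h1 := Cfsg.Agent.Lib.Char.Basic.isCharacter_of_isIrrCharacter
    (Cfsg.Agent.Lib.Char.LinearChars.isIrr_of_hom φ)
  convert h1 using 1
  funext k
  show sig (i k) = ((if i k = 1 then 1 else -1 : ℂˣ) : ℂ)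
  rcases hK k with hk | hk
  · rw [hk, sig_one]
    simp
  · rw [hk, h.sig_x]
    simp [hne]

end Q8C

end Sig

end Cfsg.Agent.Lib.Blocks.Q8Cen
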