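import Mathlib
import Cfsg.Prelude.Def_Blocks
import Cfsg.Agent.Lib.Blocks.Q8CenB
import Cfsg.Agent.Lib.Blocks.Laradji
import Cfsg.Agent.Lib.Char.CoprimeLayers
import Cfsg.Agent.Lib.Char.Ortho
import Cfsg.Agent.Lib.Char.Values2

/-!
# The part of the principal 2-block of a `Q8C` group with non-zero value on elements of order 4
-/

set_option autoImplicit false

namespace Cfsg.Agent.Lib.Blocks.Q8Cen

open Cfsg Cfsg.Agent.Lib.Blocks.Sections Cfsg.Agent.Lib.Blocks.Principal
  Cfsg.Agent.Lib.Blocks.PrincipalCen Cfsg.Agent.Lib.Char.Klein4 Cfsg.Agent.Lib.Blocks.Local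
  Cfsg.Agent.Lib.Blocks.Laradji Cfsg.Agent.Lib.Char.Virtual
open scoped ComplexConjugate

universe u

section Block

variable {H : Type u} [Group H] [Fintype H] {x : H} {M : Ideal AlgInt}

namespace Q8C

lemma x_mem_center (h : Q8C H x) : x ∈ Subgroup.center H :=
  Subgroup.mem_center_iff.mpr fun g => (h.hxc g).symm.eq

theorem sign_cases (h : Q8C H x) (χ : IrrCharacter H) :
    (∀ g, (χ : H → ℂ) (x * g) = (χ : H → ℂ) g) ∨ (∀ g, (χ : H → ℂ) (x * g) = - (χ : H → ℂ) g) := by
  have hc := h.x_mem_center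
  have h2 : lam (χ : H → ℂ) x ^ 2 = 1 := by
    rw [← lam_pow χ.2 hc, ← h.hx, pow_orderOf_eq_one, lam_one χ.2]
  have h3 : (lam (χ : H → ℂ) x - 1) * (lam (χ : H → ℂ) x + 1) = 0 := by
    linear_combination h2
  rcases mul_eq_zero.mp h3 with h4 | h4
  · left
    intro g
    rw [irr_mul_central χ.2 hc, sub_eq_zero.mp h4, one_mul]
  · right
    intro g
    rw [irr_mul_central χ.2 hc, eq_neg_of_add_eq_zero_left h4]
    ring

theorem val_zero_of_neg (h : Q8C H x) {χ : IrrCharacter H} (hneg : ∀ g, (χ : H → ℂ) (x * g) = - (χ : H → ℂ) g)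
    {u : H} (hu : orderOf u = 4) : (χ : H → ℂ) u = 0 := by
  have h1 : (χ : H → ℂ) u⁻¹ = (χ : H → ℂ) u := by
    apply Cfsg.Agent.Lib.Char.CompleteCor.irr_apply_of_isConj
    exact h.hconj _ _ (by rw [orderOf_inv, hu]) hu
  rw [h.inv_of_four hu, hneg] at h1
  have h2 : (2 : ℂ) * (χ : H → ℂ) u = 0 := by linear_combination -h1
  simpa using h2

lemma mem_zpowers_iff (h : Q8C H x) {z : H} : z ∈ Subgroup.zpowers x ↔ z = 1 ∨ z = x := by
  constructor
  · rintro ⟨n, rfl⟩
    have h2 : x ^ (2 : ℤ) = 1 := by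
      have : x ^ 2 = 1 := by rw [← h.hx]; exact pow_orderOf_eq_one x
      exact_mod_cast this
    obtain ⟨k, hk | hk⟩ := n.even_or_odd'
    · left
      show x ^ n = 1
      rw [hk, zpow_mul, h2, one_zpow]
    · right
      show x ^ n = x
      rw [hk, zpow_add, zpow_mul, h2, one_zpow, one_mul, zpow_one]
  · rintro (rfl | rfl)
    · exact Subgroup.one_mem _
    · exact Subgroup.mem_zpowers _

theorem exists_int_val_of_pos (h : Q8C H x) {χ : IrrCharacter H} (hpos : ∀ g, (χ : H → ℂ) (x * g) = (χ : H → ℂ) g)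
    {u : H} (hu : orderOf u = 4) : ∃ n : ℤ, (χ : H → ℂ) u = n := by
  classical
  haveI : (Subgroup.zpowers x).Normal := by
    refine ⟨fun n hn g => ?_⟩
    rw [h.mem_zpowers_iff] at hn ⊢
    rcases hn with rfl | rfl
    · left; group
    · right
      rw [(h.hxc g).symm.eq]
      group
  let f : H →* H ⧸ Subgroup.zpowers x := QuotientGroup.mk' _
  obtain ⟨χb, hχb, hval⟩ := Cfsg.Agent.Lib.Char.CoprimeLayers.exists_descend f
    (QuotientGroup.mk'_surjective _) χ.2 (by
      intro z hz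
      have hz' : z ∈ Subgroup.zpowers x := by
        rwa [← QuotientGroup.eq_one_iff]
      rcases h.mem_zpowers_iff.mp hz' with rfl | rfl
      · rfl
      · have := hpos 1
        rwa [mul_one] at this)
  have hord : orderOf (f u) = 2 := by
    apply orderOf_eq_prime
    · rw [pow_two, ← map_mul, h.sq_of_four hu]
      exact (QuotientGroup.eq_one_iff _).mpr (Subgroup.mem_zpowers x)
    · intro h1
      have h2 : u ∈ Subgroup.zpowers x := (QuotientGroup.eq_one_iff _).mp h1
      rcases h.mem_zpowers_iff.mp h2 with rfl | rfl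
      · simp at hu
      · rw [h.hx] at hu
        omega
  obtain ⟨n, hn, -⟩ := Cfsg.Agent.Lib.Char.Values2.character_involution χb
    (Cfsg.Agent.Lib.Char.Basic.isCharacter_of_isIrrCharacter hχb) _ hord
  exact ⟨n, by rw [← hval, hn]⟩

theorem exists_int_val (h : Q8C H x) (χ : IrrCharacter H) {u : H} (hu : orderOf u = 4) :
    ∃ n : ℤ, (χ : H → ℂ) u = n := by
  rcases h.sign_cases χ with h1 | h1
  · exact h.exists_int_val_of_pos h1 hu
  · exact ⟨0, by rw [h.val_zero_of_neg h1 hu]; simp⟩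

open Classical in
/-- The sum of the squares of the values at an element of order 4 over the principal block is 4. -/
theorem sum_sq_eq_four (h : Q8C H x) (hM : IsPModular 2 M) {u : H} (hu : orderOf u = 4) :
    ∑ ζ ∈ Finset.univ.filter (· ∈ principalBlock M H), (ζ : H → ℂ) u * conj ((ζ : H → ℂ) u) = 4 := by
  haveI : Fact (Nat.Prime 2) := ⟨by norm_num⟩
  haveI hMp : M.IsPrime := isPrime_of_isPModular hM
  letI : Fintype (Cen u) := Fintype.ofFinite _
  have hz' : orderOf u = 2 ^ 2 := by simpa using hu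
  have hone : ¬ 2 ∣ orderOf (1 : Cen u) := by simp
  have h1 := sum_principal_eq hM hz' (1 : Cen u) hone
  have h2 := sum_principal_eq_index (G := Cen u) (M := M) (p := 2) (j := 2) hM
    (by simpa using h.index_core hu) hone
  simp only [Subgroup.coe_one, mul_one] at h1
  rw [h1]
  convert h2 using 1
  norm_num

/-- On elements of order divisible by 4, principal block characters take the value at `u`. -/
theorem apply_of_four (h : Q8C H x) (hM : IsPModular 2 M) {u g : H} (hu : orderOf u = 4)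
    (hg : 4 ∣ orderOf g) {χ : IrrCharacter H} (hχ : χ ∈ principalBlock M H) :
    (χ : H → ℂ) g = (χ : H → ℂ) u := by
  haveI : Fact (Nat.Prime 2) := ⟨by norm_num⟩
  haveI hMp : M.IsPrime := isPrime_of_isPModular hM
  obtain ⟨t, y, rfl, hc, hy, -, hpart⟩ := h.part_cases g
  have ht := h.order_part_of_four hpart hg
  letI : Fintype (Cen t) := Fintype.ofFinite _
  have ht' : orderOf t = 2 ^ 2 := by simpa using ht
  have hidx := h.index_core ht
  have hyC : y ∈ Cen t := by
    rw [Subgroup.mem_centralizer_singleton_iff]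
    exact hc.eq.symm
  have hcop : (Nat.card (pPrimeCore 2 (Cen t))).Coprime 2 :=
    Cfsg.Agent.Lib.Solvable.Carter.card_pPrimeCore_coprime (G := Cen t) 2
  have hPq : IsPGroup 2 ((Cen t) ⧸ pPrimeCore 2 (Cen t)) := by
    rw [IsPGroup.iff_card]
    exact ⟨2, by rw [← Subgroup.index_eq_card, hidx]; norm_num⟩
  have hmem : (⟨y, hyC⟩ : Cen t) ∈ pPrimeCore 2 (Cen t) := by
    rw [Cfsg.Agent.Lib.Transfer.Basic.mem_iff_coprime_of_normal _ hcop hPq, Nat.coprime_comm,
      Nat.Prime.coprime_iff_not_dvd (by norm_num)]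
    rwa [← Subgroup.orderOf_coe]
  have h1 := apply_mul_core hM ht' hmem hχ
  simp only at h1
  rw [h1]
  exact Cfsg.Agent.Lib.Char.CompleteCor.irr_apply_of_isConj (h.hconj t u ht hu) χ

open Classical in
/-- The characters of the principal block not vanishing at `u`. -/
noncomputable def TT (M : Ideal AlgInt) (H : Type u) [Group H] [Fintype H] (u : H) : Finset (IrrCharacter H) :=
  Finset.univ.filter (fun χ => χ ∈ principalBlock M H ∧ (χ : H → ℂ) u ≠ 0)

open Classical in
theorem mem_TT {u : H} {χ : IrrCharacter H} :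
    χ ∈ TT M H u ↔ χ ∈ principalBlock M H ∧ (χ : H → ℂ) u ≠ 0 := by
  simp [TT]

open Classical in
/-- The values at `u` on `T` are `±1`, and `T` has 4 members. -/
theorem val_and_card (h : Q8C H x) (hM : IsPModular 2 M) {u : H} (hu : orderOf u = 4) :
    (∀ χ ∈ TT M H u, (χ : H → ℂ) u = 1 ∨ (χ : H → ℂ) u = -1) ∧ (TT M H u).card = 4 := by
  haveI hMp : M.IsPrime := isPrime_of_isPModular hM
  have hs := h.sum_sq_eq_four hM hu
  have hint : ∀ χ : IrrCharacter H, ∃ n : ℤ, (χ : H → ℂ) u = (n : ℂ) := fun χ => h.exists_int_val χ hu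
  choose n hn using hint
  set T := TT M H u with hT
  set B := Finset.univ.filter (· ∈ principalBlock M H) with hB
  have hsumB : ∑ χ ∈ B, n χ ^ 2 = 4 := by
    have : ((∑ χ ∈ B, n χ ^ 2 : ℤ) : ℂ) = ((4 : ℤ) : ℂ) := by
      push_cast
      rw [← hs]
      refine Finset.sum_congr rfl fun χ _ => ?_
      rw [hn χ, map_intCast]
      ring
    exact_mod_cast this
  have hTB : T ⊆ B := fun χ hχ => Finset.mem_filter.mpr ⟨Finset.mem_univ _, (mem_TT.mp hχ).1⟩
  have hne : ∀ χ ∈ T, n χ ≠ 0 := fun χ hχ h0 => by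
    apply (mem_TT.mp hχ).2
    rw [hn χ, h0]
    simp
  have hsum : ∑ χ ∈ T, n χ ^ 2 = 4 := by
    rw [← hsumB]
    refine Finset.sum_subset hTB fun χ hχ hχT => ?_
    have h0 : (χ : H → ℂ) u = 0 := by
      by_contra h1
      exact hχT (mem_TT.mpr ⟨(Finset.mem_filter.mp hχ).2, h1⟩)
    have h2 : ((n χ : ℤ) : ℂ) = 0 := by rw [← hn χ, h0]
    have h3 : n χ = 0 := by exact_mod_cast h2
    rw [h3]
    simp
  have h1T : trivChar H ∈ T := mem_TT.mpr ⟨trivChar_mem_principalBlock, by simp⟩
  have hn1 : n (trivChar H) = 1 := by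
    have h1 : ((n (trivChar H) : ℤ) : ℂ) = ((1 : ℤ) : ℂ) := by
      rw [← hn (trivChar H)]
      simp
    exact_mod_cast h1
  have hsum' : ∑ χ ∈ T.erase (trivChar H), n χ ^ 2 = 3 := by
    have := Finset.add_sum_erase T (fun χ => n χ ^ 2) h1T
    simp only [hn1] at this
    omega
  have hval : ∀ χ ∈ T.erase (trivChar H), n χ = 1 ∨ n χ = -1 := by
    intro χ hχ
    have hle : n χ ^ 2 ≤ 3 := by
      rw [← hsum']
      exact Finset.single_le_sum (f := fun χ => n χ ^ 2) (fun i _ => sq_nonneg _) hχ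
    have hne0 := hne χ (Finset.mem_of_mem_erase hχ)
    have h1 : n χ < 2 := by nlinarith
    have h2 : -2 < n χ := by nlinarith
    omega
  have hcard : (T.erase (trivChar H)).card = 3 := by
    have h1 : ∑ χ ∈ T.erase (trivChar H), n χ ^ 2 = ∑ χ ∈ T.erase (trivChar H), (1 : ℤ) := by
      refine Finset.sum_congr rfl fun χ hχ => ?_
      rcases hval χ hχ with h1 | h1 <;> rw [h1] <;> norm_num
    rw [hsum', Finset.sum_const, nsmul_eq_mul, mul_one] at h1
    omega
  constructor
  · intro χ hχT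
    by_cases h1 : χ = trivChar H
    · left
      rw [h1]
      simp
    · rcases hval χ (Finset.mem_erase.mpr ⟨h1, hχT⟩) with h2 | h2
      · left; rw [hn χ, h2]; simp
      · right; rw [hn χ, h2]; simp
  · have := Finset.card_erase_of_mem h1T
    omega

open Classical in
theorem trivChar_mem_TT [M.IsPrime] {u : H} : trivChar H ∈ TT M H u :=
  mem_TT.mpr ⟨trivChar_mem_principalBlock, by simp⟩

/-- The characters in `T` have `x` in their kernel. -/
theorem pos_of_mem_TT (h : Q8C H x) {u : H} (hu : orderOf u = 4) {χ : IrrCharacter H} (hχ : χ ∈ TT M H u) (g : H) :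
    (χ : H → ℂ) (x * g) = (χ : H → ℂ) g := by
  rcases h.sign_cases χ with h1 | h1
  · exact h1 g
  · exact absurd (h.val_zero_of_neg h1 hu) (mem_TT.mp hχ).2

open Classical in
/-- Sum over the principal block weighted by the value at `u` is the sum over `T`. -/
theorem sum_B_eq_sum_TT {u : H} (f : IrrCharacter H → ℂ) :
    ∑ χ ∈ Finset.univ.filter (· ∈ principalBlock M H), (χ : H → ℂ) u * f χ =
      ∑ χ ∈ TT M H u, (χ : H → ℂ) u * f χ := by
  symm
  refine Finset.sum_subset (fun χ hχ => Finset.mem_filter.mpr ⟨Finset.mem_univ _, (mem_TT.mp hχ).1⟩) fun χ hχ hχT => ?_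
  have h0 : (χ : H → ℂ) u = 0 := by
    by_contra h1
    exact hχT (mem_TT.mpr ⟨(Finset.mem_filter.mp hχ).2, h1⟩)
  rw [h0, zero_mul]

open Classical in
/-- The fundamental column relation: `∑_T χ(u) χ = 4·1_X`. -/
theorem sum_TT (h : Q8C H x) (hM : IsPModular 2 M) {u : H} (hu : orderOf u = 4) (g : H) :
    ∑ χ ∈ TT M H u, (χ : H → ℂ) u * (χ : H → ℂ) g = if 4 ∣ orderOf g then 4 else 0 := by
  haveI : Fact (Nat.Prime 2) := ⟨by norm_num⟩
  haveI hMp : M.IsPrime := isPrime_of_isPModular hM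
  obtain ⟨hval, hcard⟩ := h.val_and_card hM hu
  by_cases hg : 4 ∣ orderOf g
  · rw [if_pos hg]
    have h1 : ∀ χ ∈ TT M H u, (χ : H → ℂ) u * (χ : H → ℂ) g = 1 := by
      intro χ hχ
      rw [h.apply_of_four hM hu hg (mem_TT.mp hχ).1]
      rcases hval χ hχ with h3 | h3 <;> rw [h3] <;> norm_num
    rw [Finset.sum_congr rfl h1, Finset.sum_const, hcard]
    norm_num
  · rw [if_neg hg, ← sum_B_eq_sum_TT]
    obtain ⟨t, y, hty, hc, hy, hcases, hpart⟩ := h.part_cases g
    have hu2 : IsPPart 2 u⁻¹ u⁻¹ := by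
      refine ⟨1, by simp, by simp, ⟨2, by rw [orderOf_inv, hu]; norm_num⟩, by simp⟩
    have hnc : ¬ IsConj t u⁻¹ := by
      intro hconj
      have hto : orderOf t = 4 := by
        rw [← hu, ← orderOf_inv u]
        obtain ⟨c, hc⟩ := isConj_iff.mp hconj
        rw [← hc, orderOf_conj_eq]
      apply hg
      rw [← hty]
      exact h.four_of_part hto hc hy
    have h2 := block_orthogonality hM hpart hu2 hnc (isPBlock_principalBlock M)
    rw [Cfsg.Agent.Lib.Blocks.Osima.finsum_mem_eq_sum_filter] at h2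
    rw [← h2]
    refine Finset.sum_congr rfl fun χ _ => ?_
    rw [inv_inv, mul_comm]

end Q8C

end Block

end Cfsg.Agent.Lib.Blocks.Q8Cen
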