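import Mathlib
import Cfsg.Prelude.Def_Blocks
import Cfsg.Agent.Lib.Blocks.Q8CenC

/-!
# The faithful generalized characters `(1 + x) sig` of a `Q8C` group (Brauer characterization)
-/

set_option autoImplicit false

namespace Cfsg.Agent.Lib.Blocks.Q8Cen

open Cfsg Cfsg.Agent.Lib.Blocks.Sections Cfsg.Agent.Lib.Blocks.Principal
  Cfsg.Agent.Lib.Blocks.PrincipalCen Cfsg.Agent.Lib.Char.Klein4 Cfsg.Agent.Lib.Blocks.Local
  Cfsg.Agent.Lib.Blocks.Laradji Cfsg.Agent.Lib.Char.Virtual Cfsg.Agent.Lib.Blocks.CentralProd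
  Cfsg.Agent.Lib.Blocks.Central
open scoped ComplexConjugate

universe u

/-- Generalized characters pull back along homomorphisms. -/
theorem isGeneralized_comp {G K : Type*} [Group G] [Group K] (f : K →* G) {θ : G → ℂ}
    (hθ : IsGeneralizedCharacter G θ) : IsGeneralizedCharacter K (fun k => θ (f k)) := by
  obtain ⟨χ, ψ, h₁, h₂, rfl⟩ := hθ
  exact ⟨_, _, Cfsg.Agent.Lib.Char.Basic.isCharacter_comp_hom h₁ f,
    Cfsg.Agent.Lib.Char.Basic.isCharacter_comp_hom h₂ f, rfl⟩

/-- A sum over a finite type with two special points. -/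
lemma sum_split {K : Type*} [Fintype K] [DecidableEq K] {a b : K} (hab : a ≠ b) (v : K → ℂ) (A B : ℂ)
    (ha : v a = A) (hb : v b = A) (hB : ∀ k, k ≠ a → k ≠ b → v k = B) :
    ∑ k, v k = 2 * A + ((Fintype.card K : ℂ) - 2) * B := by
  have h1 := Finset.add_sum_erase Finset.univ v (Finset.mem_univ a)
  have hbm : b ∈ Finset.univ.erase a := Finset.mem_erase.mpr ⟨hab.symm, Finset.mem_univ _⟩
  have h2 := Finset.add_sum_erase _ v hbm
  have h3 : ∑ k ∈ (Finset.univ.erase a).erase b, v k = ((Fintype.card K : ℂ) - 2) * B := by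
    rw [Finset.sum_congr rfl (fun k hk => hB k (Finset.mem_erase.mp (Finset.mem_erase.mp hk).2).1
      (Finset.mem_erase.mp hk).1), Finset.sum_const, Finset.card_erase_of_mem hbm,
      Finset.card_erase_of_mem (Finset.mem_univ _), Finset.card_univ, nsmul_eq_mul]
    congr 1
    have hc : 2 ≤ Fintype.card K := by
      have : ({a, b} : Finset K).card ≤ Fintype.card K := Finset.card_le_univ _
      rwa [Finset.card_pair hab] at this
    rw [show Fintype.card K - 1 - 1 = Fintype.card K - 2 by omega, Nat.cast_sub hc]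
    norm_num
  rw [← h1, ← h2, h3, ha, hb]
  ring

section Block

variable {H : Type u} [Group H] [Fintype H] {x : H} {M : Ideal AlgInt}

/-- The faithful generalized character attached to `χ`. -/
noncomputable def FF (u : H) (χ : IrrCharacter H) : H → ℂ :=
  fun g => (1 + (χ : H → ℂ) u * (χ : H → ℂ) g) * sig g

namespace Q8C

theorem isGeneralized_one_add {u : H} (χ : IrrCharacter H) (h : ∃ c : ℤ, (χ : H → ℂ) u = c) :
    IsGeneralizedCharacter H (fun g => 1 + (χ : H → ℂ) u * (χ : H → ℂ) g) := by
  obtain ⟨c, hc⟩ := h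
  have h1 := isGeneralized_add (isGeneralized_of_isIrr (trivChar H).2)
    (isGeneralized_intCast_smul (isGeneralized_of_isIrr χ.2) c)
  convert h1 using 1
  funext g
  simp [hc]

theorem isClassFunction_FF (u : H) (χ : IrrCharacter H) : IsClassFunction H (FF u χ) := by
  intro g c
  unfold FF
  rw [sig_conj, isClassFunction_of_irr χ.2]

open Classical in
/-- **Brauer's characterization gives** that `(1 + x) sig` is a generalized character. -/
theorem isGeneralized_FF (h : Q8C H x) (hM : IsPModular 2 M) {u : H} (hu : orderOf u = 4) {χ : IrrCharacter H}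
    (hχ : χ ∈ TT M H u) : IsGeneralizedCharacter H (FF u χ) := by
  haveI : Fact (Nat.Prime 2) := ⟨by norm_num⟩
  haveI hMp : M.IsPrime := isPrime_of_isPModular hM
  obtain ⟨hval, -⟩ := h.val_and_card hM hu
  have hχB := (mem_TT.mp hχ).1
  have hpos := h.pos_of_mem_TT hu hχ
  obtain ⟨c, hc1, hc⟩ : ∃ c : ℤ, (c = 1 ∨ c = -1) ∧ (χ : H → ℂ) u = c := by
    rcases hval χ hχ with h1 | h1
    · exact ⟨1, Or.inl rfl, by rw [h1]; simp⟩
    · exact ⟨-1, Or.inr rfl, by rw [h1]; simp⟩
  have hδ2 : (χ : H → ℂ) u * (χ : H → ℂ) u = 1 := by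
    rcases hval χ hχ with h1 | h1 <;> rw [h1] <;> norm_num
  refine Cfsg.Agent.Lib.Char.BrauerInd.isGeneralized_of_restrict (isClassFunction_FF u χ) fun E r hr hE => ?_
  letI : Fintype E := Fintype.ofFinite _
  obtain ⟨Q, L, hQn, hLn, hQp, hLr, Φ, hΦ⟩ := exists_decomp_of_isElementary r 2 hr hE
  letI : Fintype Q := Fintype.ofFinite _
  letI : Fintype L := Fintype.ofFinite _
  let i : Q →* H := E.subtype.comp Q.subtype
  let j : L →* H := E.subtype.comp L.subtype
  have hi : Function.Injective i := E.subtype_injective.comp Q.subtype_injective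
  have hΦv : ∀ (q : Q) (l : L), ((Φ (q, l) : E) : H) = i q * j l := by
    intro q l
    rw [hΦ]
    rfl
  have hcomm : ∀ (q : Q) (l : L), Commute (i q) (j l) := by
    intro q l
    have h1 : Φ ((q, 1) * (1, l)) = Φ ((1, l) * (q, 1)) := by simp
    rw [map_mul, map_mul] at h1
    have h2 := congrArg (Subtype.val) h1
    simp only [Subgroup.coe_mul] at h2
    rw [hΦv, hΦv] at h2
    simpa [Commute, SemiconjBy] using h2
  have hqk : ∀ q : Q, ∃ k, orderOf (i q) = 2 ^ k := by
    intro q
    obtain ⟨k, hk⟩ := (IsPGroup.iff_orderOf.mp hQp) q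
    exact ⟨k, by rw [orderOf_injective i hi, hk]⟩
  have hlodd : ∀ l : L, ¬ 2 ∣ orderOf (j l) := by
    intro l
    have := hLr l
    rwa [← Subgroup.orderOf_coe] at this
  have hgen1 := isGeneralized_one_add χ ⟨c, hc⟩
  have hsig : ∀ (q : Q) (l : L), sig (i q * j l) = sig (i q) := by
    intro q l
    obtain ⟨k, hk⟩ := hqk q
    exact h.sig_mul_part (hcomm q l) hk (hlodd l)
  by_cases hsmall : ∀ q : Q, i q = 1 ∨ i q = x
  · have hΛ := h.isCharacter_sig_of_small i hsmall
    have hζ := isGeneralized_comp j hgen1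
    have hgen := isGeneralized_of_prod Φ hΛ hζ
    convert hgen using 1
    funext e
    obtain ⟨⟨q, l⟩, rfl⟩ := Φ.surjective e
    simp only [MulEquiv.symm_apply_apply]
    rw [hΦv]
    unfold FF
    rw [hsig]
    rcases hsmall q with h1 | h1
    · rw [h1, one_mul]
      ring
    · rw [h1, hpos]
      ring
  · push Not at hsmall
    obtain ⟨q₀, hq1, hq2⟩ := hsmall
    obtain ⟨k₀, hk₀⟩ := hqk q₀
    have hq₀ : orderOf (i q₀) = 4 := by
      rcases h.elt_cases hk₀ with h1 | h1 | h1
      · exact absurd h1 hq1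
      · exact absurd h1 hq2
      · exact h1
    have hΛ := h.isCharacter_two_sig i hi hQp
    -- the average
    let τ : Q × L → ℂ := fun z => (χ : H → ℂ) ((Φ z : E) : H)
    have hτ : IsCharacter (Q × L) τ :=
      Cfsg.Agent.Lib.Char.Basic.isCharacter_comp_hom (Cfsg.Agent.Lib.Char.Basic.isCharacter_of_isIrrCharacter χ.2)
        (E.subtype.comp Φ.toMonoidHom)
    have hA := isGeneralized_average hτ
    -- the order of `Q`
    have hq₀' : orderOf q₀ = 4 := by rw [← hq₀, orderOf_injective i hi]
    set q₁ : Q := q₀ * q₀ with hq₁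
    have hiq₁ : i q₁ = x := by
      rw [hq₁, map_mul]
      exact h.sq_of_four hq₀
    have h1q₁ : (1 : Q) ≠ q₁ := by
      intro h1
      have : i q₁ = 1 := by rw [← h1, map_one]
      rw [hiq₁] at this
      exact h.x_ne_one this
    have hsum : ∀ l : L, ∑ q : Q, τ (q, l) =
        2 * (χ : H → ℂ) (j l) + ((Fintype.card Q : ℂ) - 2) * (χ : H → ℂ) u := by
      intro l
      refine sum_split h1q₁ (fun q => τ (q, l)) _ _ ?_ ?_ ?_
      · simp only [τ]
        rw [hΦv, map_one, one_mul]
      · simp only [τ]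
        rw [hΦv, hiq₁, hpos]
      · intro q hq1' hq2'
        simp only [τ]
        rw [hΦv]
        obtain ⟨k, hk⟩ := hqk q
        have hq4 : orderOf (i q) = 4 := by
          rcases h.elt_cases hk with h1 | h1 | h1
          · exact absurd (hi (by rw [h1, map_one])) hq1'
          · exact absurd (hi (by rw [h1, hiq₁])) hq2'
          · exact h1
        exact h.apply_of_four hM hu (h.four_of_part hq4 (hcomm q l) (hlodd l)) hχB
    have hncard : Nat.card Q = 4 ∨ Nat.card Q = 8 := by
      have h4 : 4 ∣ Nat.card Q := by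
        rw [← hq₀']
        exact orderOf_dvd_natCard q₀
      have hR : IsPGroup 2 i.range := by
        rintro ⟨_, k, rfl⟩
        obtain ⟨n, hn⟩ := hQp k
        refine ⟨n, Subtype.ext ?_⟩
        simpa using congrArg i hn
      obtain ⟨S, hS⟩ := hR.exists_le_sylow
      obtain ⟨e⟩ := h.quat S
      have h8 : Nat.card Q ∣ 8 := by
        have h1 : Nat.card i.range ∣ Nat.card (S : Subgroup H) := Subgroup.card_dvd_of_le hS
        have hc8 : Nat.card (QuaternionGroup 2) = 8 := by
          rw [Nat.card_eq_fintype_card, QuaternionGroup.card]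
        rw [Nat.card_congr e.toEquiv, hc8, ← Nat.card_congr (MonoidHom.ofInjective hi).toEquiv] at h1
        exact h1
      have h9 := Nat.le_of_dvd (by norm_num) h8
      have h0 : Nat.card Q ≠ 0 := Nat.card_pos.ne'
      omega
    have hζ : IsGeneralizedCharacter L (fun l => (1 + (χ : H → ℂ) u * (χ : H → ℂ) (j l)) / 2) := by
      rcases hncard with hn | hn
      · have h1 := isGeneralized_intCast_smul hA c
        convert h1 using 1
        funext l
        simp only [Pi.smul_apply, smul_eq_mul]
        rw [hsum, ← hc, ← Nat.card_eq_fintype_card, hn]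
        push_cast
        linear_combination (-(1 : ℂ) / 2) * hδ2
      · have h1 := isGeneralized_sub (isGeneralized_intCast_smul hA (2 * c))
          (isGeneralized_of_isIrr (trivChar L).2)
        convert h1 using 1
        funext l
        simp only [Pi.sub_apply, Pi.smul_apply, smul_eq_mul, coe_trivChar]
        rw [hsum, ← Nat.card_eq_fintype_card, hn]
        push_cast
        rw [← hc]
        linear_combination (-(3 : ℂ) / 2) * hδ2
    have hgen := isGeneralized_of_prod Φ hΛ hζ
    convert hgen using 1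
    funext e
    obtain ⟨⟨q, l⟩, rfl⟩ := Φ.surjective e
    simp only [MulEquiv.symm_apply_apply]
    rw [hΦv]
    unfold FF
    rw [hsig]
    obtain ⟨k, hk⟩ := hqk q
    rcases h.elt_cases hk with h1 | h1 | h1
    · rw [h1, one_mul]
      ring
    · rw [h1, hpos]
      ring
    · rw [sig_of_four (by rw [h1])]
      ring

end Q8C

end Block

end Cfsg.Agent.Lib.Blocks.Q8Cen
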