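import Mathlib
import Cfsg.Prelude.Def_Blocks
import Cfsg.Agent.Lib.Blocks.Q8CenD
import Cfsg.Agent.Lib.Char.Kazarin

/-!
# Norms of the generalized characters `(1 + x) sig`; the structure theorem `q8_central`

`H` has a central involution `x`, the only involution, quaternion Sylow 2-subgroups of order 8, and all
elements of order 4 conjugate. Then there are signed irreducible characters `E₁, E₂, E₃` (with `x` in their
kernel) and `F₁, F₂, F₃` (with `F j x = - F j 1`), with `1 + ∑ E j = 4 · 1_X`, where `X` consists of the elements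
of order divisible by 4, and `F j y = 1 + E j y` on elements of odd order.
-/

set_option autoImplicit false

namespace Cfsg.Agent.Lib.Blocks.Q8Cen

open Cfsg Cfsg.Agent.Lib.Blocks.Sections Cfsg.Agent.Lib.Blocks.Principal
  Cfsg.Agent.Lib.Blocks.PrincipalCen Cfsg.Agent.Lib.Char.Klein4 Cfsg.Agent.Lib.Blocks.Local
  Cfsg.Agent.Lib.Blocks.Laradji Cfsg.Agent.Lib.Char.Virtual Cfsg.Agent.Lib.Blocks.CentralProd
  Cfsg.Agent.Lib.Blocks.Central Cfsg.Agent.Lib.Char.Induced
open scoped ComplexConjugate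

universe u

section Block

variable {H : Type u} [Group H] [Fintype H] {x : H} {M : Ideal AlgInt}

/-- The signed character `χ(u) χ`. -/
noncomputable def EE (u : H) (χ : IrrCharacter H) : H → ℂ := fun g => (χ : H → ℂ) u * (χ : H → ℂ) g

lemma EE_eq_smul (u : H) (χ : IrrCharacter H) : EE u χ = ((χ : H → ℂ) u) • (χ : H → ℂ) := rfl

lemma EE_trivChar (u : H) : EE u (trivChar H) = fun _ => 1 := by
  funext g
  simp [EE]

open Q8C

namespace Q8C

open Classical in
theorem classInner_EE (h : Q8C H x) (hM : IsPModular 2 M) {u : H} (hu : orderOf u = 4) {χ χ' : IrrCharacter H}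
    (hχ : χ ∈ TT M H u) (hχ' : χ' ∈ TT M H u) : classInner (EE u χ) (EE u χ') = if χ = χ' then 1 else 0 := by
  obtain ⟨hval, -⟩ := h.val_and_card hM hu
  rw [EE_eq_smul, EE_eq_smul, classInner_smul_left, classInner_smul_right]
  by_cases hne : χ = χ'
  · subst hne
    rw [if_pos rfl, classInner_irr_self χ.2]
    rcases hval χ hχ with h1 | h1 <;> rw [h1] <;> simp
  · rw [if_neg hne, classInner_irr_of_ne χ.2 χ'.2 (fun h1 => hne (Subtype.ext h1))]
    simp

/-- Elements of order divisible by 4 are a quarter of the group. -/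
theorem card_four (h : Q8C H x) (hM : IsPModular 2 M) {u : H} (hu : orderOf u = 4) :
    ((Finset.univ.filter (fun g : H => 4 ∣ orderOf g)).card : ℂ) * 4 = (Nat.card H : ℂ) := by
  classical
  obtain ⟨-, hcard⟩ := h.val_and_card hM hu
  set a : H → ℂ := ∑ χ ∈ TT M H u, EE u χ with ha
  have hav : ∀ g, a g = if 4 ∣ orderOf g then 4 else 0 := by
    intro g
    rw [← h.sum_TT hM hu g, ha, Finset.sum_apply]
    rfl
  have h1 : classInner a a = 4 := by
    rw [ha, classInner_finset_sum_left]
    have h2 : ∀ χ ∈ TT M H u, classInner (EE u χ) (∑ χ' ∈ TT M H u, EE u χ') = 1 := by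
      intro χ hχ
      rw [classInner_finset_sum_right, Finset.sum_eq_single χ]
      · rw [h.classInner_EE hM hu hχ hχ, if_pos rfl]
      · intro χ' hχ' hne
        rw [h.classInner_EE hM hu hχ hχ', if_neg hne.symm]
      · intro hn
        exact absurd hχ hn
    rw [Finset.sum_congr rfl h2, Finset.sum_const, hcard]
    norm_num
  rw [classInner_def] at h1
  have h2 : ∀ g, a g * conj (a g) = if 4 ∣ orderOf g then 16 else 0 := by
    intro g
    rw [hav]
    by_cases hg : 4 ∣ orderOf g
    · simp only [if_pos hg, map_ofNat]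
      norm_num
    · simp [hg]
  simp only [h2] at h1
  rw [Finset.sum_ite, Finset.sum_const_zero, add_zero, Finset.sum_const, nsmul_eq_mul] at h1
  have hH : (Nat.card H : ℂ) ≠ 0 := Nat.cast_ne_zero.mpr Nat.card_pos.ne'
  field_simp at h1
  linear_combination (1 / 4 : ℂ) * h1

open Classical in
/-- The inner product restricted to the complement of `X`. -/
theorem sum_EE_off (h : Q8C H x) (hM : IsPModular 2 M) {u : H} (hu : orderOf u = 4) {χ χ' : IrrCharacter H}
    (hχ : χ ∈ TT M H u) (hχ' : χ' ∈ TT M H u) :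
    ∑ g, EE u χ g * conj (EE u χ' g) * (sig g * conj (sig g)) =
      (Nat.card H : ℂ) * ((if χ = χ' then 1 else 0) - 1 / 4) := by
  obtain ⟨hval, -⟩ := h.val_and_card hM hu
  have hsplit : ∀ g, EE u χ g * conj (EE u χ' g) * (sig g * conj (sig g)) =
      EE u χ g * conj (EE u χ' g) - if 4 ∣ orderOf g then 1 else 0 := by
    intro g
    rw [sig_sq]
    by_cases hg : 4 ∣ orderOf g
    · rw [if_pos hg, if_pos hg, mul_zero]
      have h1 : EE u χ g = 1 := by
        unfold EE
        rw [h.apply_of_four hM hu hg (mem_TT.mp hχ).1]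
        rcases hval χ hχ with h3 | h3 <;> rw [h3] <;> norm_num
      have h2 : EE u χ' g = 1 := by
        unfold EE
        rw [h.apply_of_four hM hu hg (mem_TT.mp hχ').1]
        rcases hval χ' hχ' with h3 | h3 <;> rw [h3] <;> norm_num
      rw [h1, h2]
      simp
    · rw [if_neg hg, if_neg hg]
      ring
  simp only [hsplit]
  rw [Finset.sum_sub_distrib, Finset.sum_ite, Finset.sum_const_zero, add_zero, Finset.sum_const, nsmul_eq_mul,
    mul_one]
  have h1 := h.classInner_EE hM hu hχ hχ'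
  rw [classInner_def] at h1
  have hH : (Nat.card H : ℂ) ≠ 0 := Nat.cast_ne_zero.mpr Nat.card_pos.ne'
  have h2 : ∑ g, EE u χ g * conj (EE u χ' g) = (Nat.card H : ℂ) * (if χ = χ' then 1 else 0) := by
    rw [← h1]
    field_simp
  rw [h2]
  have h3 := h.card_four hM hu
  linear_combination (-(1 : ℂ) / 4) * h3

open Classical in
/-- Orthonormality of the `(1 + x) sig`. -/
theorem classInner_FF (h : Q8C H x) (hM : IsPModular 2 M) {u : H} (hu : orderOf u = 4) {χ χ' : IrrCharacter H}
    (hχ : χ ∈ TT M H u) (hχ' : χ' ∈ TT M H u) (h1 : χ ≠ trivChar H) (h1' : χ' ≠ trivChar H) :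
    classInner (FF u χ) (FF u χ') = if χ = χ' then 1 else 0 := by
  haveI hMp : M.IsPrime := isPrime_of_isPModular hM
  have htr : trivChar H ∈ TT M H u := trivChar_mem_TT
  have hH : (Nat.card H : ℂ) ≠ 0 := Nat.cast_ne_zero.mpr Nat.card_pos.ne'
  have hS00 := h.sum_EE_off hM hu htr htr
  have hS10 := h.sum_EE_off hM hu hχ htr
  have hS01 := h.sum_EE_off hM hu htr hχ'
  have hS11 := h.sum_EE_off hM hu hχ hχ'
  rw [if_pos rfl] at hS00
  rw [if_neg h1] at hS10
  rw [if_neg (Ne.symm h1')] at hS01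
  rw [EE_trivChar] at hS00 hS10 hS01
  simp only [map_one, one_mul, mul_one] at hS00 hS10 hS01
  rw [classInner_def]
  have hexp : ∀ g, FF u χ g * conj (FF u χ' g) =
      sig g * conj (sig g) + EE u χ g * (sig g * conj (sig g)) + conj (EE u χ' g) * (sig g * conj (sig g)) +
        EE u χ g * conj (EE u χ' g) * (sig g * conj (sig g)) := by
    intro g
    unfold FF EE
    simp only [map_mul, map_add, map_one]
    ring
  simp only [hexp]
  rw [Finset.sum_add_distrib, Finset.sum_add_distrib, Finset.sum_add_distrib, hS00, hS10, hS01, hS11]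
  field_simp
  ring

/-- Inner products vanish for functions of opposite parity with respect to `x`. -/
theorem classInner_eq_zero_of_flip {f f' : H → ℂ} (hf : ∀ g, f (x * g) = - f g)
    (hf' : ∀ g, f' (x * g) = f' g) : classInner f f' = 0 := by
  rw [classInner_def]
  have h1 : ∑ g, f g * conj (f' g) = ∑ g, f (x * g) * conj (f' (x * g)) :=
    (Equiv.sum_comp (Equiv.mulLeft x) (fun g => f g * conj (f' g))).symm
  simp only [hf, hf', neg_mul, Finset.sum_neg_distrib] at h1
  have h2 : ∑ g, f g * conj (f' g) = 0 := by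
    have : (2 : ℂ) * ∑ g, f g * conj (f' g) = 0 := by linear_combination h1
    simpa using this
  rw [h2, mul_zero]

theorem FF_flip (h : Q8C H x) {u : H} (hu : orderOf u = 4) {χ : IrrCharacter H}
    (hχ : χ ∈ TT M H u) (g : H) : FF u χ (x * g) = - FF u χ g := by
  unfold FF
  rw [h.pos_of_mem_TT hu hχ, h.sig_x_mul]
  ring

theorem EE_flip (h : Q8C H x) {u : H} (hu : orderOf u = 4) {χ : IrrCharacter H}
    (hχ : χ ∈ TT M H u) (g : H) : EE u χ (x * g) = EE u χ g := by
  unfold EE
  rw [h.pos_of_mem_TT hu hχ]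

theorem isSigned_EE (h : Q8C H x) (hM : IsPModular 2 M) {u : H} (hu : orderOf u = 4) {χ : IrrCharacter H}
    (hχ : χ ∈ TT M H u) : IsSignedIrr H (EE u χ) :=
  isSignedIrr_of_sign ((h.val_and_card hM hu).1 χ hχ) χ.2

theorem isSigned_FF (h : Q8C H x) (hM : IsPModular 2 M) {u : H} (hu : orderOf u = 4) {χ : IrrCharacter H}
    (hχ : χ ∈ TT M H u) (h1 : χ ≠ trivChar H) : IsSignedIrr H (FF u χ) := by
  classical
  apply isSignedIrr_of_norm_one (h.isGeneralized_FF hM hu hχ)
  rw [h.classInner_FF hM hu hχ hχ h1 h1, if_pos rfl]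

end Q8C

/-- **Structure of the principal 2-block at the level of `C_G(z)`.** -/
theorem q8_central {H : Type u} [Group H] [Fintype H] (x : H) (hx : orderOf x = 2) (hxc : ∀ g, Commute x g)
    (hinv : ∀ g : H, orderOf g = 2 → g = x) (S : Sylow 2 H) (e : (S : Subgroup H) ≃* QuaternionGroup 2)
    (hconj : ∀ u v : H, orderOf u = 4 → orderOf v = 4 → IsConj u v) :
    ∃ E F : Fin 3 → H → ℂ, (∀ j, IsSignedIrr H (E j)) ∧ (∀ j, IsSignedIrr H (F j)) ∧
      (∀ g, 1 + ∑ j, E j g = if 4 ∣ orderOf g then 4 else 0) ∧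
      (∀ j, classInner (E j) (fun _ => 1) = 0) ∧ (∀ j k, j ≠ k → classInner (E j) (E k) = 0) ∧
      (∀ j, classInner (F j) (fun _ => 1) = 0) ∧ (∀ j k, classInner (F j) (E k) = 0) ∧
      (∀ j k, j ≠ k → classInner (F j) (F k) = 0) ∧
      (∀ j (y : H), Odd (orderOf y) → F j y = 1 + E j y) ∧ (∀ j, F j x = - F j 1) ∧ (∀ j, E j x = E j 1) := by
  classical
  have h : Q8C H x := Q8C.of_sylow hx hxc hinv S e hconj
  obtain ⟨M, hM⟩ := Cfsg.Agent.Lib.Char.Kazarin.exists_modular 2 Nat.prime_two
  haveI hMp : M.IsPrime := isPrime_of_isPModular hM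
  obtain ⟨u, hu⟩ := h.exists_four
  obtain ⟨-, hcard⟩ := h.val_and_card hM hu
  have htr : trivChar H ∈ TT M H u := Q8C.trivChar_mem_TT
  have hcard1 : ((TT M H u).erase (trivChar H)).card = 3 := by
    rw [Finset.card_erase_of_mem htr, hcard]
  let eq := ((TT M H u).erase (trivChar H)).equivFinOfCardEq hcard1
  let c : Fin 3 → IrrCharacter H := fun j => (eq.symm j : IrrCharacter H)
  have hcmem : ∀ j, c j ∈ (TT M H u).erase (trivChar H) := fun j => (eq.symm j).2
  have hcT : ∀ j, c j ∈ TT M H u := fun j => Finset.mem_of_mem_erase (hcmem j)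
  have hc1 : ∀ j, c j ≠ trivChar H := fun j => (Finset.mem_erase.mp (hcmem j)).1
  have hcinj : ∀ j k, j ≠ k → c j ≠ c k := fun j k hjk hc =>
    hjk (eq.symm.injective (Subtype.ext hc))
  have hsum : ∀ f : IrrCharacter H → ℂ, ∑ j, f (c j) = ∑ χ ∈ (TT M H u).erase (trivChar H), f χ := by
    intro f
    exact (Equiv.sum_comp eq.symm (fun χ : ((TT M H u).erase (trivChar H) : Finset _) => f χ)).trans
      (Finset.sum_coe_sort _ f)
  have htriv : (fun _ : H => (1 : ℂ)) = EE u (trivChar H) := (EE_trivChar u).symm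
  refine ⟨fun j => EE u (c j), fun j => FF u (c j), fun j => h.isSigned_EE hM hu (hcT j),
    fun j => h.isSigned_FF hM hu (hcT j) (hc1 j), ?_, ?_, ?_, ?_, ?_, ?_, ?_, ?_, ?_⟩
  · intro g
    rw [← h.sum_TT hM hu g, ← Finset.add_sum_erase _ _ htr]
    simp only
    rw [hsum (fun χ => EE u χ g)]
    congr 1
    simp
  · intro j
    rw [htriv, h.classInner_EE hM hu (hcT j) htr, if_neg (hc1 j)]
  · intro j k hjk
    simp only
    rw [h.classInner_EE hM hu (hcT j) (hcT k), if_neg (hcinj j k hjk)]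
  · intro j
    exact Q8C.classInner_eq_zero_of_flip (h.FF_flip hu (hcT j)) (fun _ => rfl)
  · intro j k
    exact Q8C.classInner_eq_zero_of_flip (h.FF_flip hu (hcT j)) (h.EE_flip hu (hcT k))
  · intro j k hjk
    simp only
    rw [h.classInner_FF hM hu (hcT j) (hcT k) (hc1 j) (hc1 k), if_neg (hcinj j k hjk)]
  · intro j y hy
    simp only
    unfold FF EE
    rw [sig_of_odd (by rwa [← Nat.not_even_iff_odd, even_iff_two_dvd] at hy), mul_one]
  · intro j
    simp only
    have h1 := h.FF_flip hu (hcT j) 1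
    rwa [mul_one] at h1
  · intro j
    simp only
    have h1 := h.EE_flip hu (hcT j) 1
    rwa [mul_one] at h1

end Block

end Cfsg.Agent.Lib.Blocks.Q8Cen
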