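import Mathlib
import Cfsg.Prelude.Def_Blocks
import Cfsg.Agent.Lib.Blocks.Q8Cen
import Cfsg.Agent.Lib.Blocks.Regular
import Cfsg.Agent.Lib.Char.Integrality
import Cfsg.Agent.S0969
import Cfsg.Agent.S4652

/-!
# The principal 2-block of a `Q8C` group has exactly seven characters
-/

set_option autoImplicit false

namespace Cfsg.Agent.Lib.Blocks.Q8Cen

open Cfsg Cfsg.Agent.Lib.Blocks.Sections Cfsg.Agent.Lib.Blocks.Principal
  Cfsg.Agent.Lib.Blocks.PrincipalCen Cfsg.Agent.Lib.Char.Klein4 Cfsg.Agent.Lib.Blocks.Local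
  Cfsg.Agent.Lib.Blocks.Laradji Cfsg.Agent.Lib.Char.Virtual Cfsg.Agent.Lib.Blocks.CentralProd
  Cfsg.Agent.Lib.Blocks.Central Cfsg.Agent.Lib.Char.Induced Cfsg.Agent.Lib.Blocks.Regular
  Cfsg.Agent.Lib.Blocks.Osima
open scoped ComplexConjugate

universe u

lemma factorization_four_mul {k : ℕ} (hk : ¬ 2 ∣ k) : (4 * k).factorization 2 = 2 := by
  have hk0 : k ≠ 0 := by
    rintro rfl
    simp at hk
  rw [Nat.factorization_mul (by norm_num) hk0, Finsupp.add_apply,
    Nat.factorization_eq_zero_of_not_dvd hk, show (4 : ℕ) = 2 ^ 2 by norm_num, Nat.factorization_pow]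
  simp [Nat.Prime.factorization_self Nat.prime_two]

section Block

variable {H : Type u} [Group H] [Fintype H] {x : H} {M : Ideal AlgInt}

namespace Q8C

/-- A character of the principal block with `x` in its kernel does not vanish on elements of order 4. -/
theorem apply_ne_zero_of_pos (h : Q8C H x) (hM : IsPModular 2 M) {u : H} (hu : orderOf u = 4) {ξ : IrrCharacter H}
    (hξ : ξ ∈ principalBlock M H) (hpos : ∀ g, (ξ : H → ℂ) (x * g) = (ξ : H → ℂ) g) : (ξ : H → ℂ) u ≠ 0 := by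
  classical
  haveI : Fact (Nat.Prime 2) := ⟨by norm_num⟩
  haveI hMp : M.IsPrime := isPrime_of_isPModular hM
  intro h0
  have hvan : ∀ g, 4 ∣ orderOf g → (ξ : H → ℂ) g = 0 := fun g hg => by
    rw [h.apply_of_four hM hu hg hξ, h0]
  obtain ⟨Q⟩ : Nonempty (Sylow 2 H) := inferInstance
  obtain ⟨e⟩ := h.quat Q
  letI : Fintype (Q : Subgroup H) := Fintype.ofFinite _
  have hQ8 : Nat.card (Q : Subgroup H) = 8 := by
    rw [Nat.card_congr e.toEquiv, Nat.card_eq_fintype_card, QuaternionGroup.card]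
  have hxQ := h.x_mem_sylow Q
  have h1x : (1 : (Q : Subgroup H)) ≠ ⟨x, hxQ⟩ := by
    intro h1
    exact h.x_ne_one (congrArg Subtype.val h1).symm
  have hsum := sum_split h1x (fun q : (Q : Subgroup H) => (ξ : H → ℂ) q) ((ξ : H → ℂ) 1) 0 rfl (by
      have := hpos 1
      rwa [mul_one] at this) (by
      intro q hq1 hqx
      obtain ⟨k, hk⟩ := (IsPGroup.iff_orderOf.mp Q.isPGroup') q
      rw [← Subgroup.orderOf_coe] at hk
      rcases h.elt_cases hk with h2 | h2 | h2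
      · exact absurd (Subtype.ext h2) hq1
      · exact absurd (Subtype.ext h2) hqx
      · exact hvan _ (by rw [h2]))
  simp only [mul_zero, add_zero] at hsum
  have hξc := Cfsg.Agent.Lib.Char.Basic.isCharacter_of_isIrrCharacter ξ.2
  obtain ⟨n, hn⟩ := Cfsg.Agent.Lib.Char.Ortho.exists_nat_classInner_of_isCharacter
    (Cfsg.Agent.Lib.Char.Basic.isCharacter_restrict hξc (Q : Subgroup H))
    (Cfsg.Agent.Lib.Char.Basic.isCharacter_of_isIrrCharacter (trivChar (Q : Subgroup H)).2)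
  rw [classInner_def, hQ8] at hn
  simp only [coe_trivChar, map_one, mul_one] at hn
  rw [hsum] at hn
  push_cast at hn
  have hdeg : ((charDegree (ξ : H → ℂ) : ℕ) : ℂ) = (ξ : H → ℂ) 1 :=
    Cfsg.Agent.Lib.Char.Values.IsCharacter.charDegree_cast hξc
  have hd4 : charDegree (ξ : H → ℂ) = 4 * n := by
    have : ((charDegree (ξ : H → ℂ) : ℕ) : ℂ) = ((4 * n : ℕ) : ℂ) := by
      rw [hdeg]
      push_cast
      rw [← hn]
      ring
    exact_mod_cast this
  -- the degree divides the index of the centre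
  set D : Subgroup H := Subgroup.zpowers x with hD
  have hDc : Nat.card D = 2 := by
    rw [hD, Nat.card_zpowers, h.hx]
  have hDZ : D ≤ Subgroup.center H := by
    rw [hD, Subgroup.zpowers_le]
    exact h.x_mem_center
  have hDp : IsPGroup 2 D := by
    rw [IsPGroup.iff_card]
    exact ⟨1, by rw [hDc]; norm_num⟩
  have hdvd : charDegree (ξ : H → ℂ) ∣ (Subgroup.center H).index := by
    obtain ⟨m, ρ, hρ, hχ⟩ := ξ.2
    haveI := hρ
    have h1 := Cfsg.Agent.Lib.Char.Integrality.finrank_dvd_index_center ρ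
    have h2 : charDegree (ξ : H → ℂ) = m := by
      have : ((charDegree (ξ : H → ℂ) : ℕ) : ℂ) = (m : ℂ) := by
        rw [hdeg, ← hχ]
        simp [Representation.char_one]
      exact_mod_cast this
    rw [h2]
    simpa using h1
  have hdvd2 : charDegree (ξ : H → ℂ) ∣ D.index := hdvd.trans (Subgroup.index_dvd_of_le hDZ)
  -- valuations
  have hcardH : Nat.card H = 8 * (Q : Subgroup H).index := by
    rw [← Subgroup.card_mul_index (Q : Subgroup H), hQ8]
  have hDidx : D.index = 4 * (Q : Subgroup H).index := by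
    have h1 := Subgroup.card_mul_index D
    rw [hDc, hcardH] at h1
    omega
  have hodd : ¬ 2 ∣ (Q : Subgroup H).index := Q.not_dvd_index
  have hn0 : n ≠ 0 := by
    rintro rfl
    rw [hd4] at hdeg
    exact Cfsg.Agent.Lib.Char.Ortho.irr_apply_one_ne_zero ξ.2 (by rw [← hdeg]; simp)
  have hnodd : ¬ 2 ∣ n := by
    intro hn2
    rw [hd4, hDidx] at hdvd2
    have h3 : n ∣ (Q : Subgroup H).index := Nat.dvd_of_mul_dvd_mul_left (by norm_num) hdvd2
    exact hodd (hn2.trans h3)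
  have hfac : (charDegree (ξ : H → ℂ)).factorization 2 = D.index.factorization 2 := by
    rw [hd4, hDidx, factorization_four_mul hnodd, factorization_four_mul hodd]
  have hdef := (Cfsg.Agent.S0969.result 2 M hM D hDp hDZ ξ hfac).1
  have hb : blockOf M (ξ : H → ℂ) = principalBlock M H := blockOf_eq_of_mem (χ := trivChar H) hξ
  rw [hb] at hdef
  obtain ⟨S, hS⟩ := (Cfsg.Agent.S4652.result 2 M hM D).1 hdef
  obtain ⟨e'⟩ := h.quat S
  have h8 : Nat.card (S : Subgroup H) = 8 := by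
    rw [Nat.card_congr e'.toEquiv, Nat.card_eq_fintype_card, QuaternionGroup.card]
  rw [hS, hDc] at h8
  omega

theorem neg_of_notMem_TT (h : Q8C H x) (hM : IsPModular 2 M) {u : H} (hu : orderOf u = 4) {ξ : IrrCharacter H}
    (hξ : ξ ∈ principalBlock M H) (hT : ξ ∉ TT M H u) (g : H) : (ξ : H → ℂ) (x * g) = - (ξ : H → ℂ) g := by
  rcases h.sign_cases ξ with h1 | h1
  · exact absurd (mem_TT.mpr ⟨hξ, h.apply_ne_zero_of_pos hM hu hξ h1⟩) hT
  · exact h1 g

/-- The sign function squared in terms of the indicator of odd elements. -/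
theorem sig_sq_eq_reg (h : Q8C H x) (g : H) :
    sig g * conj (sig g) = reg 2 (fun _ : H => (1 : ℂ)) g + reg 2 (fun _ : H => (1 : ℂ)) (x * g) := by
  rw [sig_sq]
  rcases h.trichotomy g with hg | ⟨y, hy, rfl⟩ | hg
  · have h4 : ¬ 4 ∣ orderOf g := fun h4 => hg (Dvd.dvd.trans (by norm_num) h4)
    rw [if_neg h4, reg_of_not_dvd _ hg, reg_of_dvd _ (by rw [h.orderOf_x_mul_odd hg]; exact dvd_mul_right _ _)]
    simp
  · rw [if_neg (h.not_four_of_x_mul hy), reg_of_dvd _ (by rw [h.orderOf_x_mul_odd hy]; exact dvd_mul_right _ _),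
      ← mul_assoc, h.x_mul_x, one_mul, reg_of_not_dvd _ hy]
    simp
  · rw [if_pos hg, reg_of_dvd _ (Dvd.dvd.trans (by norm_num) hg)]
    obtain ⟨t, y, rfl, hc, hy, -, hpart⟩ := h.part_cases g
    have ht := h.order_part_of_four hpart hg
    have h1 : 4 ∣ orderOf (x * (t * y)) := by
      rw [← mul_assoc]
      exact h.four_of_part (h.orderOf_x_mul_four ht) ((h.hxc y).mul_left hc) hy
    rw [reg_of_dvd _ (Dvd.dvd.trans (by norm_num) h1)]
    simp

/-- The sum over odd elements of `conj F`. -/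
theorem sum_reg_FF (h : Q8C H x) (hM : IsPModular 2 M) {u : H} (hu : orderOf u = 4) {χ : IrrCharacter H}
    (hχ : χ ∈ TT M H u) (h1 : χ ≠ trivChar H) :
    ∑ g, reg 2 (fun _ : H => (1 : ℂ)) g * conj (FF u χ g) = (Nat.card H : ℂ) / 4 := by
  classical
  haveI hMp : M.IsPrime := isPrime_of_isPModular hM
  have htr : trivChar H ∈ TT M H u := trivChar_mem_TT
  have hS00 := h.sum_EE_off hM hu htr htr
  have hS01 := h.sum_EE_off hM hu htr hχ
  rw [if_pos rfl] at hS00
  rw [if_neg (Ne.symm h1)] at hS01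
  rw [EE_trivChar] at hS00 hS01
  simp only [map_one, one_mul, mul_one] at hS00 hS01
  set f : H → ℂ := fun g => conj (1 + EE u χ g) with hf
  have hfx : ∀ g, f (x * g) = f g := fun g => by
    simp only [hf]
    rw [h.EE_flip hu hχ]
  have h2 : ∀ g, reg 2 (fun _ : H => (1 : ℂ)) g * conj (FF u χ g) =
      reg 2 (fun _ : H => (1 : ℂ)) g * f g := by
    intro g
    by_cases hg : 2 ∣ orderOf g
    · rw [reg_of_dvd _ hg]
      simp
    · simp only [hf]
      unfold FF EE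
      rw [sig_of_odd hg, mul_one]
  simp only [h2]
  have h3 : ∑ g, reg 2 (fun _ : H => (1 : ℂ)) (x * g) * f g = ∑ g, reg 2 (fun _ : H => (1 : ℂ)) g * f g := by
    have := (Equiv.sum_comp (Equiv.mulLeft x) (fun g => reg 2 (fun _ : H => (1 : ℂ)) (x * g) * f g)).symm
    rw [this]
    refine Finset.sum_congr rfl fun g _ => ?_
    simp only [Equiv.coe_mulLeft]
    rw [← mul_assoc, h.x_mul_x, one_mul, hfx]
  have h4 : ∑ g, (sig g * conj (sig g)) * f g = 2 * ∑ g, reg 2 (fun _ : H => (1 : ℂ)) g * f g := by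
    simp only [h.sig_sq_eq_reg, add_mul]
    rw [Finset.sum_add_distrib, h3]
    ring
  have h5 : ∑ g, (sig g * conj (sig g)) * f g = (Nat.card H : ℂ) * (1 - 1 / 4) + (Nat.card H : ℂ) * (0 - 1 / 4) := by
    rw [← hS00, ← hS01, ← Finset.sum_add_distrib]
    refine Finset.sum_congr rfl fun g _ => ?_
    simp only [hf, map_add, map_one]
    ring
  rw [h4] at h5
  linear_combination (1 / 2 : ℂ) * h5

open Classical in
/-- **The principal block has seven characters.** -/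
theorem card_principalBlock (h : Q8C H x) (hM : IsPModular 2 M) : Nat.card (principalBlock M H) = 7 := by
  haveI : Fact (Nat.Prime 2) := ⟨by norm_num⟩
  haveI hMp : M.IsPrime := isPrime_of_isPModular hM
  obtain ⟨u, hu⟩ := h.exists_four
  obtain ⟨hval, hcard⟩ := h.val_and_card hM hu
  set T := TT M H u with hT
  have htr : trivChar H ∈ T := trivChar_mem_TT
  set T₁ := T.erase (trivChar H) with hT₁
  have hT₁c : T₁.card = 3 := by
    rw [hT₁, Finset.card_erase_of_mem htr, hcard]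
  have hmemT : ∀ χ ∈ T₁, χ ∈ T := fun χ hχ => Finset.mem_of_mem_erase hχ
  have hne1 : ∀ χ ∈ T₁, χ ≠ trivChar H := fun χ hχ => (Finset.mem_erase.mp hχ).1
  have hex : ∀ χ : IrrCharacter H, ∃ η : IrrCharacter H, χ ∈ T₁ →
      ∃ ε : ℂ, (ε = 1 ∨ ε = -1) ∧ FF u χ = ε • (η : H → ℂ) := by
    intro χ
    by_cases hχ : χ ∈ T₁
    · obtain ⟨ε, η, hε, hη, h3⟩ := (h.isSigned_FF hM hu (hmemT χ hχ) (hne1 χ hχ)).exists_sign
      exact ⟨⟨η, hη⟩, fun _ => ⟨ε, hε, h3⟩⟩
    · exact ⟨trivChar H, fun h2 => absurd h2 hχ⟩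
  choose η hη using hex
  have hεreal : ∀ ε : ℂ, (ε = 1 ∨ ε = -1) → conj ε = ε ∧ ε * ε = 1 := by
    rintro ε (rfl | rfl) <;> simp
  -- `η χ` in the principal block
  have hηB : ∀ χ ∈ T₁, η χ ∈ principalBlock M H := by
    intro χ hχ
    by_contra hn
    obtain ⟨ε, hε, hF⟩ := hη χ hχ
    have hns : ¬ SameBlock M ((trivChar H : IrrCharacter H) : H → ℂ) (η χ : H → ℂ) := hn
    have h0 := classInner_reg_eq_zero hM hns
    rw [classInner_def] at h0
    have hH : (Nat.card H : ℂ) ≠ 0 := Nat.cast_ne_zero.mpr Nat.card_pos.ne'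
    have h1 : ∑ g, reg 2 ((trivChar H : IrrCharacter H) : H → ℂ) g * conj ((η χ : H → ℂ) g) = 0 := by
      rcases mul_eq_zero.mp h0 with h2 | h2
      · exact absurd h2 (inv_ne_zero hH)
      · exact h2
    have h3 := h.sum_reg_FF hM hu (hmemT χ hχ) (hne1 χ hχ)
    have h4 : ∑ g, reg 2 (fun _ : H => (1 : ℂ)) g * conj (FF u χ g) =
        ε * ∑ g, reg 2 ((trivChar H : IrrCharacter H) : H → ℂ) g * conj ((η χ : H → ℂ) g) := by
      rw [Finset.mul_sum]
      refine Finset.sum_congr rfl fun g _ => ?_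
      rw [hF]
      simp only [Pi.smul_apply, smul_eq_mul, map_mul, (hεreal ε hε).1, coe_trivChar]
      ring
    rw [h4, h1, mul_zero] at h3
    apply hH
    linear_combination (-4 : ℂ) * h3
  -- `η χ` is not in `T`
  have hηT : ∀ χ ∈ T₁, η χ ∉ T := by
    intro χ hχ hηχ
    obtain ⟨ε, hε, hF⟩ := hη χ hχ
    have h1 := h.FF_flip hu (hmemT χ hχ) 1
    have h2 := h.pos_of_mem_TT hu hηχ 1
    rw [mul_one] at h1 h2
    rw [hF] at h1
    simp only [Pi.smul_apply, smul_eq_mul] at h1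
    rw [h2] at h1
    have h3 : (2 : ℂ) * (ε * (η χ : H → ℂ) 1) = 0 := by linear_combination h1
    have h4 : (η χ : H → ℂ) 1 = 0 := by
      have h5 : ε * (η χ : H → ℂ) 1 = 0 := by simpa using h3
      have h6 : ε ≠ 0 := by
        rcases hε with rfl | rfl <;> norm_num
      exact (mul_eq_zero.mp h5).resolve_left h6
    exact Cfsg.Agent.Lib.Char.Ortho.irr_apply_one_ne_zero (η χ).2 h4
  -- injectivity
  have hηinj : Set.InjOn η (T₁ : Set (IrrCharacter H)) := by
    intro χ hχ χ' hχ' heq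
    by_contra hne
    obtain ⟨ε, hε, hF⟩ := hη χ hχ
    obtain ⟨ε', hε', hF'⟩ := hη χ' hχ'
    have h1 := h.classInner_FF hM hu (hmemT χ hχ) (hmemT χ' hχ') (hne1 χ hχ) (hne1 χ' hχ')
    rw [if_neg hne, hF, hF', classInner_smul_left, classInner_smul_right, heq,
      classInner_irr_self (η χ').2, mul_one] at h1
    have h6 : ε ≠ 0 := by
      rcases hε with rfl | rfl <;> norm_num
    have h7 : conj ε' ≠ 0 := by
      rcases hε' with rfl | rfl <;> simp
    exact (mul_ne_zero h6 h7) h1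
  set N := T₁.image η with hN
  have hNc : N.card = 3 := by
    rw [hN, Finset.card_image_of_injOn hηinj, hT₁c]
  set B := Finset.univ.filter (· ∈ principalBlock M H) with hB
  have hTB : T ⊆ B := fun χ hχ => Finset.mem_filter.mpr ⟨Finset.mem_univ _, (mem_TT.mp hχ).1⟩
  have hNB : N ⊆ B \ T := by
    intro ψ hψ
    obtain ⟨χ, hχ, rfl⟩ := Finset.mem_image.mp hψ
    exact Finset.mem_sdiff.mpr ⟨Finset.mem_filter.mpr ⟨Finset.mem_univ _, hηB χ hχ⟩, hηT χ hχ⟩
  -- the column relation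
  have hcol : ∑ ψ ∈ B, (ψ : H → ℂ) x * (ψ : H → ℂ) 1 = 0 := by
    have hx2 : IsPPart 2 x x := ⟨1, by simp, by simp, ⟨1, by rw [h.hx]; norm_num⟩, by simp⟩
    have h12 : IsPPart 2 (1 : H) 1 := ⟨1, by simp, by simp, ⟨0, by simp⟩, by simp⟩
    have hnc : ¬ IsConj x (1 : H) := fun hc => h.x_ne_one (isConj_one_right.mp hc.symm)
    have h1 := block_orthogonality hM hx2 h12 hnc (isPBlock_principalBlock M)
    rw [Cfsg.Agent.Lib.Blocks.Osima.finsum_mem_eq_sum_filter] at h1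
    simpa using h1
  have hcol2 : ∑ ψ ∈ T, (ψ : H → ℂ) 1 * (ψ : H → ℂ) 1 = ∑ ψ ∈ B \ T, (ψ : H → ℂ) 1 * (ψ : H → ℂ) 1 := by
    rw [← Finset.sum_sdiff hTB] at hcol
    have h1 : ∀ ψ ∈ B \ T, (ψ : H → ℂ) x * (ψ : H → ℂ) 1 = - ((ψ : H → ℂ) 1 * (ψ : H → ℂ) 1) := by
      intro ψ hψ
      obtain ⟨h2, h3⟩ := Finset.mem_sdiff.mp hψ
      have h4 := h.neg_of_notMem_TT hM hu (Finset.mem_filter.mp h2).2 h3 1
      rw [mul_one] at h4
      rw [h4]
      ring
    have h2 : ∀ ψ ∈ T, (ψ : H → ℂ) x * (ψ : H → ℂ) 1 = (ψ : H → ℂ) 1 * (ψ : H → ℂ) 1 := by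
      intro ψ hψ
      have h4 := h.pos_of_mem_TT hu hψ 1
      rw [mul_one] at h4
      rw [h4]
    rw [Finset.sum_congr rfl h1, Finset.sum_congr rfl h2, Finset.sum_neg_distrib] at hcol
    linear_combination hcol
  -- degrees of `N`
  have hE1 : ∑ χ ∈ T₁, EE u χ 1 = -1 := by
    have h1 := h.sum_TT hM hu (1 : H)
    rw [if_neg (by simp), ← Finset.add_sum_erase _ _ htr] at h1
    simp only [coe_trivChar, mul_one] at h1
    have h2 : ∑ χ ∈ T₁, EE u χ 1 = ∑ χ ∈ T.erase (trivChar H), (χ : H → ℂ) u * (χ : H → ℂ) 1 := rfl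
    rw [h2]
    linear_combination h1
  have hsq : ∀ χ ∈ T, EE u χ 1 * EE u χ 1 = (χ : H → ℂ) 1 * (χ : H → ℂ) 1 := by
    intro χ hχ
    unfold EE
    rcases hval χ hχ with h3 | h3 <;> rw [h3] <;> ring
  have hNsum : ∑ ψ ∈ N, (ψ : H → ℂ) 1 * (ψ : H → ℂ) 1 = ∑ ψ ∈ T, (ψ : H → ℂ) 1 * (ψ : H → ℂ) 1 := by
    rw [hN, Finset.sum_image hηinj]
    have h1 : ∀ χ ∈ T₁, (η χ : H → ℂ) 1 * (η χ : H → ℂ) 1 = 1 + 2 * EE u χ 1 + EE u χ 1 * EE u χ 1 := by
      intro χ hχ
      obtain ⟨ε, hε, hF⟩ := hη χ hχ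
      have h2 := congrFun hF 1
      simp only [Pi.smul_apply, smul_eq_mul] at h2
      have h3 : FF u χ 1 = 1 + EE u χ 1 := by
        unfold FF EE
        rw [sig_one, mul_one]
      rw [h3] at h2
      have h4 := (hεreal ε hε).2
      have h5 : (1 + EE u χ 1) * (1 + EE u χ 1) = (ε * ε) * ((η χ : H → ℂ) 1 * (η χ : H → ℂ) 1) := by
        rw [h2]
        ring
      rw [h4, one_mul] at h5
      rw [← h5]
      ring
    rw [Finset.sum_congr rfl h1, Finset.sum_add_distrib, Finset.sum_add_distrib, ← Finset.mul_sum, hE1,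
      ← Finset.add_sum_erase T _ htr, Finset.sum_const, hT₁c]
    have h2 : ∑ χ ∈ T₁, EE u χ 1 * EE u χ 1 = ∑ χ ∈ T.erase (trivChar H), (χ : H → ℂ) 1 * (χ : H → ℂ) 1 :=
      Finset.sum_congr rfl fun χ hχ => hsq χ (hmemT χ hχ)
    rw [h2]
    simp only [coe_trivChar]
    norm_num
  have hrest : ∑ ψ ∈ (B \ T) \ N, (ψ : H → ℂ) 1 * (ψ : H → ℂ) 1 = 0 := by
    have h1 := Finset.sum_sdiff (f := fun ψ : IrrCharacter H => (ψ : H → ℂ) 1 * (ψ : H → ℂ) 1) hNB
    rw [← hcol2, hNsum] at h1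
    exact add_eq_right.mp h1
  have hempty : (B \ T) \ N = ∅ := by
    by_contra hne
    obtain ⟨ψ₀, hψ₀⟩ := Finset.nonempty_iff_ne_empty.mpr hne
    have h1 : ∀ ψ : IrrCharacter H, ((charDegree (ψ : H → ℂ) : ℕ) : ℂ) = (ψ : H → ℂ) 1 := fun ψ =>
      Cfsg.Agent.Lib.Char.Values.IsCharacter.charDegree_cast
        (Cfsg.Agent.Lib.Char.Basic.isCharacter_of_isIrrCharacter ψ.2)
    have h2 : ∑ ψ ∈ (B \ T) \ N, charDegree (ψ : H → ℂ) * charDegree (ψ : H → ℂ) = 0 := by
      have : ((∑ ψ ∈ (B \ T) \ N, charDegree (ψ : H → ℂ) * charDegree (ψ : H → ℂ) : ℕ) : ℂ) = 0 := by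
        push_cast
        rw [← hrest]
        refine Finset.sum_congr rfl fun ψ _ => ?_
        rw [h1]
      exact_mod_cast this
    have h3 := (Finset.sum_eq_zero_iff.mp h2) ψ₀ hψ₀
    have h4 : charDegree (ψ₀ : H → ℂ) = 0 := by simpa using h3
    apply Cfsg.Agent.Lib.Char.Ortho.irr_apply_one_ne_zero ψ₀.2
    rw [← h1, h4]
    simp
  have hBeq : B.card = 7 := by
    have h1 : N = B \ T := by
      apply Finset.Subset.antisymm hNB
      exact Finset.sdiff_eq_empty_iff_subset.mp hempty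
    have h2 := Finset.card_sdiff_add_card_eq_card hTB
    rw [← h1, hNc, hcard] at h2
    omega
  have hset : (principalBlock M H : Set (IrrCharacter H)) = (B : Set (IrrCharacter H)) := by
    ext χ
    simp [hB]
  rw [hset, Nat.card_coe_set_eq, Set.ncard_coe_finset, hBeq]

end Q8C

end Block

end Cfsg.Agent.Lib.Blocks.Q8Cen
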