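/-
A compression of a group automorphism to the `p`-regular span of a union of blocks has a
natural number as trace: the projective characters give a basis in which the matrix has
natural number entries.
-/
import Mathlib
import Cfsg.Agent.Lib.Blocks.Pim4
import Cfsg.Agent.Lib.Blocks.RegLift
import Cfsg.Agent.Lib.Blocks.BlockCount

set_option autoImplicit false

namespace Cfsg.Agent.Lib.Blocks.Rat

open Cfsg Cfsg.Agent.Lib.Blocks.Local Cfsg.Agent.Lib.Blocks.Central Cfsg.Agent.Lib.Blocks.Osima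
open Cfsg.Agent.Lib.Blocks.Covering Cfsg.Agent.Lib.Blocks.BlockHom Cfsg.Agent.Lib.Blocks.Pairs
open Cfsg.Agent.Lib.Blocks.Twisted Cfsg.Agent.Lib.Blocks.Nilp Cfsg.Agent.Lib.Blocks.Sections
open Cfsg.Agent.Lib.Blocks.Regular Cfsg.Agent.Lib.Blocks.Pim
open Cfsg.Agent.Lib.Char.Ortho
open scoped ComplexConjugate

universe u

section Tm

variable {X : Type u} [Group X] [Fintype X] {M : Ideal AlgInt} [hM : M.IsPrime] {p : ℕ} [hp : Fact p.Prime]

/-- The transport of a group algebra element along an automorphism. -/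
noncomputable def tm (τ : X ≃* X) (a : MonoidAlgebra ℂ X) : MonoidAlgebra ℂ X :=
  ofFun (fun g => a.coeff (τ.symm g))

@[simp] lemma coeff_tm (τ : X ≃* X) (a : MonoidAlgebra ℂ X) (g : X) : (tm τ a).coeff g = a.coeff (τ.symm g) :=
  coeff_ofFun _ _

lemma tm_mul (τ : X ≃* X) (a b : MonoidAlgebra ℂ X) : tm τ (a * b) = tm τ a * tm τ b := by
  apply ext_coeff
  intro g
  rw [coeff_tm, coeff_mul_eq_sum, coeff_mul_eq_sum]
  refine Fintype.sum_equiv τ.toEquiv _ _ fun x => ?_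
  simp only [MulEquiv.toEquiv_eq_coe, MulEquiv.coe_toEquiv, coeff_tm, MulEquiv.symm_apply_apply, map_mul, map_inv]

lemma locCoeff_tm (τ : X ≃* X) {a : MonoidAlgebra ℂ X} (ha : LocCoeff M a) : LocCoeff M (tm τ a) := fun c => by
  rw [coeff_tm]
  exact ha _

lemma twTrace_tm (τ : X ≃* X) (t : X → ℂ) (a : MonoidAlgebra ℂ X) :
    twTrace t 1 (tm τ a) = twTrace (fun g => t (τ g)) 1 a := by
  unfold twTrace
  refine (Fintype.sum_equiv τ.toEquiv _ _ fun x => ?_).symm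
  simp

/-- Expansion of an element of `Pl` along representatives, for a union of blocks. -/
lemma exists_expand' (hMp : IsPModular p M) {T : Set (IrrCharacter X)}
    (hT : ∀ χ ∈ T, blockOf M (χ : X → ℂ) ⊆ T) {J R : Finset (MonoidAlgebra ℂ X)}
    (hJ : Dec M ⊥ (blockElt T) J) (hRJ : ∀ j ∈ J, ∃ a ∈ R, PEquiv M j a) {F : X → ℂ} (hF : F ∈ Pl M X) :
    ∃ A : MonoidAlgebra ℂ X → ℤ, ∀ χ ∈ T, classInner (χ : X → ℂ) F = ∑ r ∈ R, (A r : ℂ) * twTrace (χ : X → ℂ) 1 r := by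
  classical
  have hEl : LocCoeff M (blockElt T) := (blockElt_mem_localCenter_of_closed hT).2
  refine AddSubgroup.closure_induction (p := fun F _ => ∃ A : MonoidAlgebra ℂ X → ℤ, ∀ χ ∈ T,
    classInner (χ : X → ℂ) F = ∑ r ∈ R, (A r : ℂ) * twTrace (χ : X → ℂ) 1 r) ?_ ?_ ?_ ?_ hF
  · rintro F ⟨-, y, hyl, hy2, hy⟩
    obtain ⟨m, hm⟩ := exists_mult hMp hJ hRJ hEl E_idem E_comm hyl hy2
    refine ⟨fun r => (m r : ℤ), fun χ hχ => ?_⟩
    have hcl := isClassFunction_of_irr χ.2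
    rw [hy _ hcl, ← twTrace_blockElt_mul T hχ 1 y, E_comm, hm _ hcl]
    simp
  · refine ⟨0, fun χ _ => ?_⟩
    simp [classInner_zero_right]
  · rintro a b _ _ ⟨A, hA⟩ ⟨A', hA'⟩
    refine ⟨A + A', fun χ hχ => ?_⟩
    rw [classInner_add_right, hA χ hχ, hA' χ hχ, ← Finset.sum_add_distrib]
    refine Finset.sum_congr rfl fun r _ => ?_
    simp only [Pi.add_apply]
    push_cast
    ring
  · rintro a _ ⟨A, hA⟩
    refine ⟨-A, fun χ hχ => ?_⟩
    have e : (-a : X → ℂ) = (-1 : ℂ) • a := by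
      funext g
      simp
    rw [e, classInner_smul_right, hA χ hχ, Finset.mul_sum]
    refine Finset.sum_congr rfl fun r _ => ?_
    simp only [Pi.neg_apply]
    push_cast
    simp

end Tm

section Main

variable {X : Type u} [Group X] [Fintype X] {M : Ideal AlgInt} [hM : M.IsPrime] {p : ℕ} [hp : Fact p.Prime]

/-- A projective character of an idempotent vanishes off the `p`-regular elements. -/
lemma sum_D_eq_zero (hMp : IsPModular p M) {T : Set (IrrCharacter X)} {s : MonoidAlgebra ℂ X}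
    (hsl : LocCoeff M s) (hs2 : s * s = s) (hEs : blockElt T * s = s) (D : IrrCharacter X → ℕ)
    (hD : ∀ η : IrrCharacter X, twTrace (η : X → ℂ) 1 s = D η) [DecidablePred (· ∈ T)] {y : X} (hy : p ∣ orderOf y) :
    ∑ ξ ∈ Finset.univ.filter (· ∈ T), (D ξ : ℂ) * (ξ : X → ℂ) y = 0 := by
  classical
  have h1 := sum_conj_twTrace y s
  rw [Hattori.classTrace_eq_zero_of_idempotent hMp s hs2 hsl y hy, mul_zero] at h1
  have h2 := congrArg conj h1
  rw [map_sum, map_zero] at h2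
  have h3 : ∑ ξ ∈ Finset.univ.filter (· ∈ T), (D ξ : ℂ) * (ξ : X → ℂ) y =
      ∑ ξ : IrrCharacter X, conj (conj ((ξ : X → ℂ) y) * twTrace (ξ : X → ℂ) 1 s) := by
    rw [Finset.sum_filter]
    refine Finset.sum_congr rfl fun ξ _ => ?_
    by_cases hξ : ξ ∈ T
    · rw [if_pos hξ, hD, map_mul, Complex.conj_conj, Complex.conj_natCast, mul_comm]
    · have h3 := twTrace_of_notMem hξ hEs
      rw [if_neg hξ, h3, mul_zero, map_zero]
  rw [h3, h2]

open Classical in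
/-- The trace of the compression of an automorphism to the regular span of a union of blocks is a
natural number. -/
theorem exists_nat_trace (hMp : IsPModular p M) {T : Set (IrrCharacter X)}
    (hT : ∀ χ ∈ T, blockOf M (χ : X → ℂ) ⊆ T) (τ : X ≃* X) :
    ∃ n : ℕ, ∑ y ∈ Finset.univ.filter (fun y : X => ¬ p ∣ orderOf y),
      ∑ ξ ∈ Finset.univ.filter (· ∈ T), (ξ : X → ℂ) (τ y) * conj ((ξ : X → ℂ) y) = (Nat.card X : ℂ) * n := by
  have hEl : LocCoeff M (blockElt T) := (blockElt_mem_localCenter_of_closed hT).2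
  obtain ⟨J, hJ⟩ := exists_dec (M := M) ⊥ hEl (invBy_bot _) E_idem
  obtain ⟨R, hRs, hRJ, hR⟩ := exists_pim_reps hJ
  have hrl : ∀ r ∈ R, LocCoeff M r := fun r hr => (hJ.prim r (hRs hr)).loc
  have hr2 : ∀ r ∈ R, r * r = r := fun r hr => (hJ.prim r (hRs hr)).idem
  have hEr : ∀ r ∈ R, blockElt T * r = r := fun r hr => hJ.mul_left (hRs hr)
  have hD' : ∀ r ∈ R, ∃ D : IrrCharacter X → ℕ, ∀ η : IrrCharacter X, twTrace (η : X → ℂ) 1 r = D η := by
    intro r hr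
    have h := fun η : IrrCharacter X =>
      exists_nat_twTrace_idem (Cfsg.Agent.Lib.Char.Values.IsIrrCharacter.isCharacter η.2) (hr2 r hr)
    choose D hD using h
    exact ⟨D, hD⟩
  choose! D hD using hD'
  have hDT : ∀ η : IrrCharacter X, η ∉ T → ∀ r ∈ R, (D r η : ℂ) = 0 := by
    intro η hη r hr
    rw [← hD r hr η]
    exact twTrace_of_notMem hη (hEr r hr)
  have hm' : ∀ r ∈ R, ∃ m : MonoidAlgebra ℂ X → ℕ, ∀ t : X → ℂ, IsClassFunction X t →
      twTrace t 1 (tm τ.symm r * blockElt T) = ∑ s ∈ R, (m s : ℂ) * twTrace t 1 s := by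
    intro r hr
    refine exists_mult hMp hJ hRJ hEl E_idem E_comm (locCoeff_tm _ (hrl r hr)) ?_
    rw [← tm_mul, hr2 r hr]
  choose! m hm using hm'
  set N : ℕ := p ^ (Nat.card X).factorization p with hN
  have hN0 : (N : ℂ) ≠ 0 := by
    rw [hN]
    exact_mod_cast pow_ne_zero _ hMp.1.ne_zero
  -- the expansions of the regular parts
  have hA' : ∀ ξ ∈ T, ∃ A : MonoidAlgebra ℂ X → ℤ, ∀ η : IrrCharacter X,
      classInner (η : X → ℂ) (fun y => (N : ℂ) * reg p (ξ : X → ℂ) y) = ∑ r ∈ R, (A r : ℂ) * (D r η : ℂ) := by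
    intro ξ hξ
    have hF : (fun y => (N : ℂ) * reg p (ξ : X → ℂ) y) ∈ Pl M X := by
      refine mem_Pl_of_vanish_singular hMp ?_ ?_
      · have := Cfsg.Agent.Lib.Blocks.RegLift.isGeneralized_pow_reg p
          (Cfsg.Agent.Lib.Char.Values.IsIrrCharacter.isCharacter ξ.2)
        simpa [hN] using this
      · intro y hy
        rw [reg_of_dvd _ hy, mul_zero]
    obtain ⟨A, hA⟩ := exists_expand' hMp hT hJ hRJ hF
    refine ⟨A, fun η => ?_⟩
    by_cases hη : η ∈ T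
    · rw [hA η hη]
      refine Finset.sum_congr rfl fun r hr => ?_
      rw [hD r hr]
    · have h1 : Finset.sum R (fun r => (A r : ℂ) * (D r η : ℂ)) = 0 :=
        Finset.sum_eq_zero fun r hr => by rw [hDT η hη r hr, mul_zero]
      rw [h1, ← classInner_conj_symm]
      have h2 : classInner (fun y => (N : ℂ) * reg p (ξ : X → ℂ) y) (η : X → ℂ) = (N : ℂ) * classInner (reg p (ξ : X → ℂ)) (η : X → ℂ) :=
        classInner_smul_left (N : ℂ) (reg p (ξ : X → ℂ)) (η : X → ℂ)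
      rw [h2, Cfsg.Agent.Lib.Blocks.Regular.classInner_reg_eq_zero hMp, mul_zero, map_zero]
      intro hs
      exact hη (hT ξ hξ hs)
  choose! A hA using hA'
  set Tf := Finset.univ.filter (· ∈ T) with hTf
  have hTfm : ∀ ξ ∈ Tf, ξ ∈ T := fun ξ hξ => (Finset.mem_filter.mp hξ).2
  -- duality
  have hK : ∀ s ∈ R, ∀ r ∈ R, ∑ ξ ∈ Tf, (D s ξ : ℤ) * A ξ r = if r = s then (N : ℤ) else 0 := by
    intro s hs r hr
    have h0 := eq_zero_of_sum_eq_zero hMp hJ hEl E_idem E_comm hRs hR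
      (fun r => ∑ ξ ∈ Tf, (D s ξ : ℤ) * A ξ r - if r = s then (N : ℤ) else 0) ?_ hr
    · exact sub_eq_zero.mp h0
    intro χ
    have hΦ : ∀ y, ∑ ξ ∈ Tf, (D s ξ : ℂ) * reg p (ξ : X → ℂ) y = ∑ ξ ∈ Tf, (D s ξ : ℂ) * (ξ : X → ℂ) y := by
      intro y
      by_cases hy : p ∣ orderOf y
      · rw [hTf, sum_D_eq_zero hMp (hrl s hs) (hr2 s hs) (hEr s hs) (D s) (hD s hs) hy]
        simp [reg_of_dvd _ hy]
      · simp [reg_of_not_dvd _ hy]
    have hF : (∑ ξ ∈ Tf, (D s ξ : ℂ) • (fun y => (N : ℂ) * reg p (ξ : X → ℂ) y)) =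
        (N : ℂ) • ∑ ξ ∈ Tf, (D s ξ : ℂ) • (ξ : X → ℂ) := by
      funext y
      simp only [Finset.sum_apply, Pi.smul_apply, smul_eq_mul]
      have := hΦ y
      rw [← this, Finset.mul_sum]
      refine Finset.sum_congr rfl fun ξ _ => ?_
      ring
    have h1 := congrArg (classInner (χ : X → ℂ)) hF
    rw [classInner_sum_right, classInner_smul_right, classInner_sum_right] at h1
    simp only [classInner_smul_right, Complex.conj_natCast] at h1
    have h2 : ∑ ξ ∈ Tf, (D s ξ : ℂ) * classInner (χ : X → ℂ) (ξ : X → ℂ) = (D s χ : ℂ) := by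
      by_cases hχ : χ ∈ T
      · rw [Finset.sum_eq_single χ]
        · rw [classInner_irr_self χ.2, mul_one]
        · intro ξ _ hne
          rw [classInner_irr_of_ne χ.2 ξ.2 (fun h => hne (Subtype.ext h.symm)), mul_zero]
        · intro h
          exact absurd (Finset.mem_filter.mpr ⟨Finset.mem_univ _, hχ⟩) h
      · rw [hDT χ hχ s hs]
        refine Finset.sum_eq_zero fun ξ hξ => ?_
        have hne : χ ≠ ξ := fun h => hχ (h ▸ hTfm ξ hξ)
        rw [classInner_irr_of_ne χ.2 ξ.2 (fun h => hne (Subtype.ext h)), mul_zero]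
    rw [h2] at h1
    have h3 : ∑ ξ ∈ Tf, (D s ξ : ℂ) * ∑ r ∈ R, (A ξ r : ℂ) * (D r χ : ℂ) = (N : ℂ) * (D s χ : ℂ) := by
      rw [← h1]
      refine Finset.sum_congr rfl fun ξ hξ => ?_
      rw [hA ξ (hTfm ξ hξ) χ]
    rw [Finset.sum_congr rfl (fun r hr => by rw [hD r hr χ])]
    push_cast
    simp only [sub_mul, Finset.sum_sub_distrib, Finset.sum_mul]
    have h4 : ∑ r ∈ R, (if r = s then (N : ℂ) else 0) * (D r χ : ℂ) = (N : ℂ) * (D s χ : ℂ) := by
      rw [Finset.sum_eq_single s]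
      · rw [if_pos rfl]
      · intro b _ hb
        rw [if_neg hb, zero_mul]
      · intro h
        exact absurd hs h
    have h5 : ∑ r ∈ R, ((if r = s then ((N : ℤ) : ℂ) else 0)) * (D r χ : ℂ) = (N : ℂ) * (D s χ : ℂ) := by
      simpa using h4
    rw [sub_eq_zero]
    rw [show (∑ r ∈ R, ∑ ξ ∈ Tf, (D s ξ : ℂ) * (A ξ r : ℂ) * (D r χ : ℂ)) =
        ∑ ξ ∈ Tf, (D s ξ : ℂ) * ∑ r ∈ R, (A ξ r : ℂ) * (D r χ : ℂ) by
      rw [Finset.sum_comm]
      refine Finset.sum_congr rfl fun ξ _ => ?_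
      rw [Finset.mul_sum]
      refine Finset.sum_congr rfl fun r _ => ?_
      ring]
    rw [h3]
    exact h4.symm
  -- traces of the transported idempotents
  have hη : ∀ ξ : IrrCharacter X, IsIrrCharacter X (fun g => (ξ : X → ℂ) (τ.symm g)) := fun ξ =>
    Cfsg.Agent.Lib.Char.Basic.isIrrCharacter_comp_surjective ξ.2 (τ.symm : X →* X) τ.symm.surjective
  have hDη : ∀ ξ ∈ T, ∀ r ∈ R, twTrace (fun g => (ξ : X → ℂ) (τ.symm g)) 1 r = ∑ s ∈ R, (m r s : ℂ) * (D s ξ : ℂ) := by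
    intro ξ hξ r hr
    rw [← twTrace_tm τ.symm, ← twTrace_blockElt_mul T hξ 1, E_comm, hm r hr _ (isClassFunction_of_irr ξ.2)]
    exact Finset.sum_congr rfl fun s hs => by rw [hD s hs]
  have hin : ∀ ξ ∈ T, ∑ y, ((N : ℂ) * reg p (ξ : X → ℂ) (τ y)) * conj ((ξ : X → ℂ) y) =
      (Nat.card X : ℂ) * ∑ r ∈ R, (A ξ r : ℂ) * ∑ s ∈ R, (m r s : ℂ) * (D s ξ : ℂ) := by
    intro ξ hξ
    have h1 := hA ξ hξ ⟨_, hη ξ⟩
    have h2 := classInner_conj_symm (fun g => (ξ : X → ℂ) (τ.symm g)) (fun y => (N : ℂ) * reg p (ξ : X → ℂ) y)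
    have h3 : ∀ r ∈ R, (D r ⟨_, hη ξ⟩ : ℂ) = ∑ s ∈ R, (m r s : ℂ) * (D s ξ : ℂ) := by
      intro r hr
      rw [← hD r hr ⟨_, hη ξ⟩]
      exact hDη ξ hξ r hr
    rw [Finset.sum_congr rfl (fun r hr => by rw [h3 r hr])] at h1
    have h1' : classInner (fun g => (ξ : X → ℂ) (τ.symm g)) (fun y => (N : ℂ) * reg p (ξ : X → ℂ) y) =
        ∑ r ∈ R, (A ξ r : ℂ) * ∑ s ∈ R, (m r s : ℂ) * (D s ξ : ℂ) := h1
    rw [h1'] at h2
    have h4 : conj (∑ r ∈ R, (A ξ r : ℂ) * ∑ s ∈ R, (m r s : ℂ) * (D s ξ : ℂ)) =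
        ∑ r ∈ R, (A ξ r : ℂ) * ∑ s ∈ R, (m r s : ℂ) * (D s ξ : ℂ) := by
      simp only [map_sum, map_mul, map_natCast, map_intCast]
    rw [h4] at h2
    rw [h2, classInner, ← mul_assoc, mul_inv_cancel₀ (by exact_mod_cast Nat.card_pos.ne'), one_mul]
    refine Fintype.sum_equiv τ.toEquiv _ _ fun y => ?_
    simp
  refine ⟨∑ r ∈ R, m r r, ?_⟩
  apply mul_left_cancel₀ hN0
  have hL : (N : ℂ) * ∑ y ∈ Finset.univ.filter (fun y : X => ¬ p ∣ orderOf y),
      ∑ ξ ∈ Tf, (ξ : X → ℂ) (τ y) * conj ((ξ : X → ℂ) y) =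
      ∑ ξ ∈ Tf, ∑ y, ((N : ℂ) * reg p (ξ : X → ℂ) (τ y)) * conj ((ξ : X → ℂ) y) := by
    rw [Finset.sum_comm, Finset.mul_sum]
    refine Finset.sum_congr rfl fun ξ _ => ?_
    rw [Finset.sum_filter, Finset.mul_sum]
    refine Finset.sum_congr rfl fun y _ => ?_
    have ho : orderOf (τ y) = orderOf y := MulEquiv.orderOf_eq τ y
    by_cases hy : p ∣ orderOf y
    · rw [if_neg (not_not.mpr hy), reg_of_dvd _ (ho ▸ hy)]
      simp
    · rw [if_pos hy, reg_of_not_dvd _ (ho ▸ hy)]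
      ring
  rw [hL, Finset.sum_congr rfl (fun ξ hξ => hin ξ (hTfm ξ hξ)), ← Finset.mul_sum]
  have hsw : ∑ ξ ∈ Tf, ∑ r ∈ R, (A ξ r : ℂ) * ∑ s ∈ R, (m r s : ℂ) * (D s ξ : ℂ) =
      ∑ r ∈ R, ∑ s ∈ R, (m r s : ℂ) * ((∑ ξ ∈ Tf, (D s ξ : ℤ) * A ξ r : ℤ) : ℂ) := by
    rw [Finset.sum_comm]
    refine Finset.sum_congr rfl fun r _ => ?_
    simp only [Finset.mul_sum]
    rw [Finset.sum_comm]
    refine Finset.sum_congr rfl fun s _ => ?_
    push_cast
    rw [Finset.mul_sum]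
    refine Finset.sum_congr rfl fun ξ _ => ?_
    ring
  rw [hsw]
  have hfin : ∑ r ∈ R, ∑ s ∈ R, (m r s : ℂ) * ((∑ ξ ∈ Tf, (D s ξ : ℤ) * A ξ r : ℤ) : ℂ) =
      (N : ℂ) * ∑ r ∈ R, (m r r : ℂ) := by
    rw [Finset.mul_sum]
    refine Finset.sum_congr rfl fun r hr => ?_
    rw [Finset.sum_eq_single r]
    · rw [hK r hr r hr, if_pos rfl]
      push_cast
      ring
    · intro s hs hne
      rw [hK s hs r hr, if_neg (fun h => hne h.symm)]
      simp
    · intro h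
      exact absurd hr h
  rw [hfin]
  push_cast
  ring

end Main

end Cfsg.Agent.Lib.Blocks.Rat
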