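/-
The number of irreducible characters of a block fixed by a Galois automorphism that is trivial on
the roots of unity of order prime to `p` is at least the `p`-regular rank of the block.
-/
import Mathlib
import Cfsg.Agent.Lib.Blocks.RatA
import Cfsg.Agent.Lib.Blocks.SectionSum
import Cfsg.Agent.Lib.Blocks.SubsectionNorm
import Cfsg.Agent.Lib.Char.Galois

set_option autoImplicit false

namespace Cfsg.Agent.Lib.Blocks.Rat

open Cfsg Cfsg.Agent.Lib.Blocks.Local Cfsg.Agent.Lib.Blocks.Central Cfsg.Agent.Lib.Blocks.Osima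
open Cfsg.Agent.Lib.Blocks.Covering Cfsg.Agent.Lib.Blocks.BlockHom Cfsg.Agent.Lib.Blocks.Pairs
open Cfsg.Agent.Lib.Blocks.Twisted Cfsg.Agent.Lib.Blocks.Nilp Cfsg.Agent.Lib.Blocks.Sections
open Cfsg.Agent.Lib.Blocks.Regular Cfsg.Agent.Lib.Blocks.Pim Cfsg.Agent.Lib.Blocks.BlockCount
open Cfsg.Agent.Lib.Blocks.SectionSum Cfsg.Agent.Lib.Blocks.SubsectionNorm
open Cfsg.Agent.Lib.Blocks.SecondMain
open Cfsg.Agent.Lib.Char.Ortho
open scoped ComplexConjugate

universe u

section Rank

variable {X : Type u} [Group X] [Fintype X] {M : Ideal AlgInt} [hM : M.IsPrime] {p : ℕ} [hp : Fact p.Prime]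

open Classical in
/-- The sum of the squares over the `p`-regular elements and a union of blocks is `|X| l(T)`. -/
theorem sum_reg_eq_rank (hMp : IsPModular p M) {T : Set (IrrCharacter X)}
    (hT : ∀ χ ∈ T, blockOf M (χ : X → ℂ) ⊆ T) :
    ∑ y ∈ Finset.univ.filter (fun y : X => ¬ p ∣ orderOf y),
      ∑ ξ ∈ Finset.univ.filter (· ∈ T), (ξ : X → ℂ) y * conj ((ξ : X → ℂ) y) =
      (Nat.card X : ℂ) * (blockRank p T : ℂ) := by
  obtain ⟨w, hwmem, hwon, hwexp⟩ := exists_orthonormal (regSpan p T)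
  have hcard0 : (Nat.card X : ℂ) ≠ 0 := by exact_mod_cast Nat.card_pos.ne'
  -- the inner products with the irreducible characters outside `T` vanish
  have hout : ∀ i, ∀ η : IrrCharacter X, η ∉ T → classInner (w i) (η : X → ℂ) = 0 := by
    intro i η hη
    have key : ∀ u ∈ regSpan p T, classInner u (η : X → ℂ) = 0 := by
      intro u hu
      refine Submodule.span_induction ?_ ?_ ?_ ?_ hu
      · rintro _ ⟨χ, hχ, rfl⟩
        simp only [Cfsg.Agent.Lib.Blocks.Cartan.pRegularPart_eq_reg]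
        refine classInner_reg_eq_zero hMp fun hs => hη (hT χ hχ hs)
      · exact classInner_zero_left _
      · intro a b _ _ ha hb
        rw [classInner_add_left, ha, hb, add_zero]
      · intro c a _ ha
        rw [classInner_smul_left, ha, mul_zero]
    exact key _ (hwmem i)
  -- Parseval for `w i`
  have hpars : ∀ i, ∑ ξ ∈ Finset.univ.filter (· ∈ T), conj (sumInner (ξ : X → ℂ) (w i)) * sumInner (ξ : X → ℂ) (w i) =
      (Nat.card X : ℂ) := by
    intro i
    have hcl := mem_regSpan_classFunction (hwmem i)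
    have h1 := Cfsg.Agent.Lib.Char.Complete.eq_sum_classInner (w i) hcl
    have h2 : classInner (w i) (w i) = ∑ η : IrrCharacter X, conj (classInner (w i) (η : X → ℂ)) * classInner (w i) (η : X → ℂ) := by
      calc classInner (w i) (w i) = classInner (w i) (∑ η : IrrCharacter X, classInner (w i) (η : X → ℂ) • (η : X → ℂ)) :=
            congrArg _ h1
        _ = _ := by
            rw [classInner_sum_right]
            exact Finset.sum_congr rfl fun η _ => classInner_smul_right _ _ _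
    have h3 : classInner (w i) (w i) = (Nat.card X : ℂ)⁻¹ := by
      have := hwon i i
      rw [if_pos rfl] at this
      rw [classInner, this, mul_one]
    have h4 : ∀ ξ : IrrCharacter X, sumInner (ξ : X → ℂ) (w i) = (Nat.card X : ℂ) * conj (classInner (w i) (ξ : X → ℂ)) := by
      intro ξ
      rw [classInner_conj_symm, classInner, ← mul_assoc, mul_inv_cancel₀ hcard0, one_mul]
      rfl
    have h5 : ∑ ξ ∈ Finset.univ.filter (· ∈ T), conj (sumInner (ξ : X → ℂ) (w i)) * sumInner (ξ : X → ℂ) (w i) =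
        (Nat.card X : ℂ) * (Nat.card X : ℂ) * ∑ η : IrrCharacter X, conj (classInner (w i) (η : X → ℂ)) * classInner (w i) (η : X → ℂ) := by
      rw [Finset.sum_filter, Finset.mul_sum]
      refine Finset.sum_congr rfl fun ξ _ => ?_
      by_cases hξ : ξ ∈ T
      · rw [if_pos hξ, h4 ξ, map_mul, Complex.conj_conj, Complex.conj_natCast]
        ring
      · rw [if_neg hξ, hout i ξ hξ]
        simp
    rw [h5, ← h2, h3, mul_assoc, mul_inv_cancel₀ hcard0, mul_one]
  have hone : ∀ ξ ∈ T, ∑ y ∈ Finset.univ.filter (fun y : X => ¬ p ∣ orderOf y), (ξ : X → ℂ) y * conj ((ξ : X → ℂ) y) =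
      ∑ i, conj (sumInner (ξ : X → ℂ) (w i)) * sumInner (ξ : X → ℂ) (w i) := by
    intro ξ hξ
    set v : X → ℂ := reg p (ξ : X → ℂ) with hv
    have hvmem : v ∈ regSpan p T := Submodule.subset_span ⟨ξ, hξ, by
      simp only [Cfsg.Agent.Lib.Blocks.Cartan.pRegularPart_eq_reg, hv]⟩
    have h4 := hwexp v hvmem
    have ha : ∀ i, ∑ x, v x * conj (w i x) = sumInner (ξ : X → ℂ) (w i) := by
      intro i
      rw [sumInner]
      refine Finset.sum_congr rfl fun x _ => ?_
      by_cases hx : p ∣ orderOf x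
      · rw [mem_regSpan_vanish (hwmem i) hx]
        simp
      · rw [hv, reg_of_not_dvd _ hx]
    have h5 : ∀ y, conj (v y) = ∑ i, conj (sumInner (ξ : X → ℂ) (w i)) * conj (w i y) := by
      intro y
      conv_lhs => rw [h4]
      rw [Finset.sum_apply, map_sum]
      refine Finset.sum_congr rfl fun i _ => ?_
      rw [← ha i, Pi.smul_apply, smul_eq_mul, map_mul]
    have h6 : ∑ y ∈ Finset.univ.filter (fun y : X => ¬ p ∣ orderOf y), (ξ : X → ℂ) y * conj ((ξ : X → ℂ) y) =
        ∑ y, v y * conj (v y) := by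
      rw [Finset.sum_filter]
      refine Finset.sum_congr rfl fun y _ => ?_
      by_cases hy : p ∣ orderOf y
      · rw [if_neg (not_not.mpr hy), hv, reg_of_dvd _ hy, zero_mul]
      · rw [if_pos hy, hv, reg_of_not_dvd _ hy]
    rw [h6]
    simp only [h5, Finset.mul_sum]
    rw [Finset.sum_comm]
    refine Finset.sum_congr rfl fun i _ => ?_
    rw [← ha i, Finset.mul_sum]
    refine Finset.sum_congr rfl fun y _ => ?_
    ring
  rw [Finset.sum_comm]
  rw [Finset.sum_congr rfl (fun ξ hξ => hone ξ (Finset.mem_filter.mp hξ).2), Finset.sum_comm]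
  simp only [hpars, Finset.sum_const, Finset.card_univ, Fintype.card_fin, nsmul_eq_mul]
  rw [mul_comm]
  rfl

end Rank

section Count

variable {G : Type u} [Group G] [Fintype G] {M : Ideal AlgInt} [hM : M.IsPrime] {p : ℕ} [hp : Fact p.Prime]

/-- The conjugation automorphism of a centralizer. -/
theorem exists_tau {z d : G} {k : ℕ} (hd : d * z * d⁻¹ = z ^ k) (hcop : k.Coprime (orderOf z)) :
    ∃ τ : Cen z ≃* Cen z, ∀ y : Cen z, (τ y : G) = d⁻¹ * y * d := by
  have h1 : ∀ y : G, y ∈ Cen z → y * z = z * y := fun y hy => (Subgroup.mem_centralizer_iff.mp hy z rfl).symm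
  have h2 : ∀ y : G, y * z = z * y → y ∈ Cen z := fun y hy => by
    refine Subgroup.mem_centralizer_iff.mpr fun h hh => ?_
    rw [Set.mem_singleton_iff.mp hh, hy]
  obtain ⟨e, he⟩ := exists_pow_eq_self_of_coprime hcop
  have hz : z = d⁻¹ * z ^ k * d := by rw [← hd]; group
  have mem1 : ∀ y : Cen z, d⁻¹ * (y : G) * d ∈ Cen z := by
    intro y
    apply h2
    have hc : Commute (y : G) z := h1 y y.2
    have hc' : (y : G) * z ^ k = z ^ k * y := (hc.pow_right k).eq
    calc d⁻¹ * (y : G) * d * z = d⁻¹ * ((y : G) * (d * z * d⁻¹)) * d := by group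
      _ = d⁻¹ * (z ^ k * y) * d := by rw [hd, hc']
      _ = d⁻¹ * ((d * z * d⁻¹) * y) * d := by rw [hd]
      _ = z * (d⁻¹ * (y : G) * d) := by group
  have mem2 : ∀ y : Cen z, d * (y : G) * d⁻¹ ∈ Cen z := by
    intro y
    apply h2
    have hc : Commute (y : G) z := h1 y y.2
    have h3 : Commute (d * (y : G) * d⁻¹) (z ^ k) := by
      rw [Commute, SemiconjBy, ← hd]
      calc d * (y : G) * d⁻¹ * (d * z * d⁻¹) = d * ((y : G) * z) * d⁻¹ := by group
        _ = d * (z * y) * d⁻¹ := by rw [hc.eq]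
        _ = d * z * d⁻¹ * (d * (y : G) * d⁻¹) := by group
    have h4 := h3.pow_right e
    rw [he] at h4
    exact h4.eq
  refine ⟨{ toFun := fun y => ⟨d⁻¹ * (y : G) * d, mem1 y⟩
            invFun := fun y => ⟨d * (y : G) * d⁻¹, mem2 y⟩
            left_inv := fun y => Subtype.ext (by simp only; group)
            right_inv := fun y => Subtype.ext (by simp only; group)
            map_mul' := fun a b => Subtype.ext (by simp only [Subgroup.coe_mul]; group) }, fun y => rfl⟩

open Classical in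
/-- The sum over a section. -/
theorem exists_nat_section (hMp : IsPModular p M) (χ₀ : IrrCharacter G) {k m : ℕ} (hk : k.Coprime (Nat.card G))
    (hmk : k ≡ 1 [MOD m]) (hm : ∀ y : G, ¬ p ∣ orderOf y → orderOf y ∣ m) {z : G} {j : ℕ} (hj : orderOf z = p ^ j)
    [Fintype (Cen z)] :
    ∃ n : ℕ, ∑ y ∈ Finset.univ.filter (fun y : Cen z => ¬ p ∣ orderOf y),
      ∑ χ ∈ Finset.univ.filter (· ∈ blockOf M (χ₀ : G → ℂ)),
        (χ : G → ℂ) ((z * y) ^ k) * conj ((χ : G → ℂ) (z * y)) = (n : ℂ) := by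
  have hcop : k.Coprime (orderOf z) := Nat.Coprime.coprime_dvd_right (orderOf_dvd_natCard z) hk
  have hoz : orderOf (z ^ k) = p ^ j := by
    rw [Nat.Coprime.orderOf_pow hcop.symm, hj]
  have hpow : ∀ y : Cen z, ¬ p ∣ orderOf y → ((z * y : G)) ^ k = z ^ k * y := by
    intro y hy
    have hc : Commute z (y : G) := (Subgroup.mem_centralizer_iff.mp y.2 z rfl)
    rw [hc.mul_pow]
    congr 1
    have hy' : ¬ p ∣ orderOf (y : G) := by rwa [Subgroup.orderOf_coe]
    exact (pow_eq_pow_iff_modEq.mpr (hmk.of_dvd (hm _ hy'))).trans (pow_one _)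
  by_cases hc : IsConj (z ^ k) z
  · obtain ⟨c, hc'⟩ := isConj_iff.mp hc
    have hd : c⁻¹ * z * c⁻¹⁻¹ = z ^ k := by
      calc c⁻¹ * z * c⁻¹⁻¹ = c⁻¹ * (c * z ^ k * c⁻¹) * c⁻¹⁻¹ := by rw [hc']
        _ = z ^ k := by group
    obtain ⟨τ, hτ⟩ := exists_tau hd hcop
    obtain ⟨n, hn⟩ := exists_nat_trace hMp (inducers_closed (Cen z) (M := M) (χ₀ : G → ℂ)) τ
    refine ⟨Nat.card (Cen z) * n, ?_⟩
    push_cast
    rw [← hn]
    refine Finset.sum_congr rfl fun y hy => ?_
    have hyr : ¬ p ∣ orderOf y := (Finset.mem_filter.mp hy).2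
    have hτr : ¬ p ∣ orderOf (τ y) := by rwa [MulEquiv.orderOf_eq τ y]
    rw [← sum_block_section hMp hj χ₀ (τ y) y hτr hyr]
    refine Finset.sum_congr rfl fun χ _ => ?_
    congr 1
    rw [hpow y hyr, ← isClassFunction_of_irr χ.2 (z * (τ y : G)) c⁻¹, hτ y]
    congr 1
    rw [← hd]
    group
  · refine ⟨0, ?_⟩
    rw [Nat.cast_zero]
    refine Finset.sum_eq_zero fun y hy => ?_
    have hyr : ¬ p ∣ orderOf y := (Finset.mem_filter.mp hy).2
    have hyr' : ¬ p ∣ orderOf (y : G) := by rwa [Subgroup.orderOf_coe]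
    have hzy : Commute z (y : G) := (Subgroup.mem_centralizer_iff.mp y.2 z rfl)
    have h1 : IsPPart p (z ^ k * y) (z ^ k) := ⟨y, rfl, hzy.pow_left k, ⟨j, hoz⟩, hyr'⟩
    have h2 : IsPPart p (z * y) z := isPPart_mul hj y hyr
    have h3 := block_orthogonality hMp h1 h2 hc (B := blockOf M (χ₀ : G → ℂ)) ⟨χ₀, rfl⟩
    rw [Cfsg.Agent.Lib.Blocks.Osima.finsum_mem_eq_sum_filter] at h3
    rw [hpow y hyr, ← h3]
    refine Finset.sum_congr rfl fun χ _ => ?_
    rw [Cfsg.Agent.Lib.Char.Complete.isIrr_inv χ.2]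

open Classical in
/-- The number of characters of a block fixed by a power map trivial on the `p`-regular elements is at least
the `p`-regular rank of the block. -/
theorem rank_le_card_fix (hMp : IsPModular p M) (χ₀ : IrrCharacter G) {k m : ℕ} (hk : k.Coprime (Nat.card G))
    (hmk : k ≡ 1 [MOD m]) (hm : ∀ y : G, ¬ p ∣ orderOf y → orderOf y ∣ m) :
    blockRank p (blockOf M (χ₀ : G → ℂ)) ≤
      ((Finset.univ.filter (· ∈ blockOf M (χ₀ : G → ℂ))).filter
        (fun χ : IrrCharacter G => ∀ g, (χ : G → ℂ) (g ^ k) = (χ : G → ℂ) g)).card := by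
  set B := blockOf M (χ₀ : G → ℂ) with hB
  set Bf := Finset.univ.filter (· ∈ B) with hBf
  have hcard0 : (Nat.card G : ℂ) ≠ 0 := by exact_mod_cast Nat.card_pos.ne'
  let K : G → ℂ := fun g => ∑ χ ∈ Bf, (χ : G → ℂ) (g ^ k) * conj ((χ : G → ℂ) g)
  have h1 : ∑ g, K g = (Nat.card G : ℂ) * ((Bf.filter (fun χ : IrrCharacter G => ∀ g, (χ : G → ℂ) (g ^ k) = (χ : G → ℂ) g)).card : ℂ) := by
    simp only [K]
    rw [Finset.sum_comm, Finset.card_filter, Nat.cast_sum, Finset.mul_sum]
    refine Finset.sum_congr rfl fun χ _ => ?_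
    have hirr := Cfsg.Agent.Lib.Char.Galois.isIrrCharacter_pow_of_coprime χ.2 hk
    have h2 : ∑ g, (χ : G → ℂ) (g ^ k) * conj ((χ : G → ℂ) g) =
        (Nat.card G : ℂ) * classInner (fun g => (χ : G → ℂ) (g ^ k)) (χ : G → ℂ) := by
      rw [classInner, ← mul_assoc, mul_inv_cancel₀ hcard0, one_mul]
    rw [h2]
    congr 1
    by_cases hfix : ∀ g, (χ : G → ℂ) (g ^ k) = (χ : G → ℂ) g
    · have : (fun g => (χ : G → ℂ) (g ^ k)) = (χ : G → ℂ) := funext hfix
      rw [this, classInner_irr_self χ.2, if_pos hfix, Nat.cast_one]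
    · rw [classInner_irr_of_ne hirr χ.2 (fun h => hfix (congrFun h)), if_neg hfix, Nat.cast_zero]
  choose f hf using fun g : G => Cfsg.Agent.Lib.Blocks.SecondMain.exists_isPPart p g
  let J : G → ℂ := fun z => ∑ g ∈ Finset.univ.filter (fun g => f g = z), K g
  have hsum : ∑ z, J z = ∑ g, K g := Finset.sum_fiberwise _ _ _
  have hJ : ∀ z, ∃ n : ℕ, J z = n := by
    intro z
    by_cases hz : ∃ j, orderOf z = p ^ j
    · obtain ⟨j, hj⟩ := hz
      letI : Fintype (Cen z) := Fintype.ofFinite _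
      obtain ⟨n, hn⟩ := exists_nat_section hMp χ₀ hk hmk hm hj
      refine ⟨n, ?_⟩
      rw [← hn]
      symm
      refine Finset.sum_bij (fun y _ => z * (y : G)) ?_ ?_ ?_ ?_
      · intro y hy
        exact Finset.mem_filter.mpr ⟨Finset.mem_univ _,
          isPPart_unique (hf _) (isPPart_mul hj y (Finset.mem_filter.mp hy).2)⟩
      · intro y _ y' _ h
        exact Subtype.ext (mul_left_cancel h)
      · intro g hg
        have hfg : f g = z := (Finset.mem_filter.mp hg).2
        obtain ⟨y, hzy, hcomm, -, hyr⟩ := hf g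
        rw [hfg] at hzy hcomm
        have hmem : y ∈ Cen z := Subgroup.mem_centralizer_iff.mpr fun h hh => by
          rw [Set.mem_singleton_iff.mp hh]
          exact hcomm
        refine ⟨⟨y, hmem⟩, Finset.mem_filter.mpr ⟨Finset.mem_univ _, ?_⟩, hzy⟩
        rwa [Subgroup.orderOf_mk]
      · intro y _
        rfl
    · refine ⟨0, ?_⟩
      rw [Nat.cast_zero]
      refine Finset.sum_eq_zero fun g hg => ?_
      have hfg : f g = z := (Finset.mem_filter.mp hg).2
      obtain ⟨y, -, -, h3, -⟩ := hf g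
      rw [hfg] at h3
      exact absurd h3 hz
  have hpow : ∀ g : G, ¬ p ∣ orderOf g → g ^ k = g := by
    intro g hg
    exact (pow_eq_pow_iff_modEq.mpr (hmk.of_dvd (hm _ hg))).trans (pow_one _)
  have hJ1 : J 1 = (Nat.card G : ℂ) * (blockRank p B : ℂ) := by
    have hset : Finset.univ.filter (fun g => f g = 1) = Finset.univ.filter (fun y : G => ¬ p ∣ orderOf y) := by
      ext g
      simp only [Finset.mem_filter, Finset.mem_univ, true_and]
      constructor
      · intro hfg
        obtain ⟨y, hzy, -, -, hyr⟩ := hf g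
        rw [hfg, one_mul] at hzy
        rwa [← hzy]
      · intro hg
        exact isPPart_unique (hf g) ⟨g, one_mul g, Commute.one_left g, ⟨0, by simp⟩, hg⟩
    have hcl : ∀ χ ∈ B, blockOf M (χ : G → ℂ) ⊆ B := isClosed_of_isPBlock ⟨χ₀, rfl⟩
    rw [← sum_reg_eq_rank hMp hcl]
    simp only [J]
    rw [hset]
    refine Finset.sum_congr rfl fun g hg => ?_
    simp only [K]
    rw [hpow g (Finset.mem_filter.mp hg).2]
  choose n hn using hJ
  have h3 : ∑ z, n z = Nat.card G * (Bf.filter (fun χ : IrrCharacter G => ∀ g, (χ : G → ℂ) (g ^ k) = (χ : G → ℂ) g)).card := by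
    have : ((∑ z, n z : ℕ) : ℂ) = ((Nat.card G * (Bf.filter (fun χ : IrrCharacter G => ∀ g, (χ : G → ℂ) (g ^ k) = (χ : G → ℂ) g)).card : ℕ) : ℂ) := by
      push_cast
      rw [← h1, ← hsum]
      exact Finset.sum_congr rfl fun z _ => (hn z).symm
    exact_mod_cast this
  have h4 : n 1 = Nat.card G * blockRank p B := by
    have : ((n 1 : ℕ) : ℂ) = ((Nat.card G * blockRank p B : ℕ) : ℂ) := by
      push_cast
      rw [← hn, hJ1]
    exact_mod_cast this
  have h5 : n 1 ≤ ∑ z, n z := Finset.single_le_sum (fun _ _ => Nat.zero_le _) (Finset.mem_univ 1)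
  rw [h3, h4] at h5
  exact Nat.le_of_mul_le_mul_left h5 Nat.card_pos

end Count

section Gen

/-- A generator of the Galois group fixing the roots of unity of order prime to `p`. -/
theorem exists_gen {p a m : ℕ} (hp : p.Prime) (hodd : p ≠ 2) (hpm : ¬ p ∣ m) :
    ∃ k : ℕ, k.Coprime (p ^ a * m) ∧ k ≡ 1 [MOD m] ∧
      ∀ k' : ℕ, k'.Coprime (p ^ a * m) → k' ≡ 1 [MOD m] → ∃ e : ℕ, k' ≡ k ^ e [MOD p ^ a * m] := by
  have hcop : (p ^ a).Coprime m := Nat.Coprime.pow_left a ((Nat.Prime.coprime_iff_not_dvd hp).2 hpm)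
  haveI : NeZero (p ^ a) := ⟨pow_ne_zero _ hp.ne_zero⟩
  haveI : IsCyclic (ZMod (p ^ a))ˣ := ZMod.isCyclic_units_of_prime_pow p hp hodd a
  obtain ⟨u, hu⟩ := IsCyclic.exists_generator (α := (ZMod (p ^ a))ˣ)
  set g := ZMod.val (u : ZMod (p ^ a)) with hg
  have hgu : ((g : ℕ) : ZMod (p ^ a)) = (u : ZMod (p ^ a)) := ZMod.natCast_zmod_val _
  obtain ⟨k, hk1, hk2⟩ := Nat.chineseRemainder hcop g 1
  have hku : ((k : ℕ) : ZMod (p ^ a)) = (u : ZMod (p ^ a)) := by
    rw [← hgu]
    exact (ZMod.natCast_eq_natCast_iff _ _ _).mpr hk1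
  have hc1 : k.Coprime (p ^ a) := (ZMod.isUnit_iff_coprime k (p ^ a)).mp (by rw [hku]; exact u.isUnit)
  have hc2 : k.Coprime m := by
    have := hk2.gcd_eq
    rw [Nat.Coprime, this]
    simp
  refine ⟨k, Nat.Coprime.mul_right hc1 hc2, hk2, fun k' hk' hk1' => ?_⟩
  have hc3 : k'.Coprime (p ^ a) := Nat.Coprime.coprime_mul_right_right hk'
  obtain ⟨v, hv⟩ := (ZMod.isUnit_iff_coprime k' (p ^ a)).mpr hc3
  have hmem : v ∈ Submonoid.powers u := by
    rw [mem_powers_iff_mem_zpowers]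
    exact hu v
  obtain ⟨e, he⟩ := hmem
  refine ⟨e, (Nat.modEq_and_modEq_iff_modEq_mul hcop).mp ⟨?_, ?_⟩⟩
  · apply (ZMod.natCast_eq_natCast_iff _ _ _).mp
    rw [← hv, ← he]
    push_cast
    rw [hku]
  · exact hk1'.trans ((hk2.pow e).trans (by simp [Nat.ModEq])).symm

end Gen

end Cfsg.Agent.Lib.Blocks.Rat
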