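import Mathlib
import Cfsg.Agent.Lib.Blocks.FongCover
import Cfsg.Agent.Lib.Blocks.HeightZero
import Cfsg.Agent.Lib.Blocks.CentSupport
import Cfsg.Agent.Lib.Blocks.FirstMain2
import Cfsg.Agent.S0908
import Cfsg.Agent.S4436
import Cfsg.Agent.Lib.Char.DegreeDvd

set_option autoImplicit false
set_option linter.style.haveILetI false
set_option linter.unusedSectionVars false

/-!
# Blocks over a block of a normal subgroup containing `C_G(Q)`

Let `Q` be a normal `p`-subgroup of `G` and `C_G(Q) ≤ N ⊴ G`. If `T` is the stabilizer of a block `b` of `N`, then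
there is a unique block of `T` over `b`, so that `d(B) = d(b) + ν_p |T : N|` for every block `B` of `G` over `b`, and
every member of `b` lies under a member of `B`.
-/

namespace Cfsg.Agent.Lib.Blocks.ReyDefect

open Cfsg Cfsg.Agent.Lib.Blocks.Local Cfsg.Agent.Lib.Blocks.Central Cfsg.Agent.Lib.Blocks.Osima
  Cfsg.Agent.Lib.Blocks.Covering Cfsg.Agent.Lib.Blocks.FongReynolds Cfsg.Agent.Lib.Blocks.Transport
  Cfsg.Agent.Lib.Blocks.Knorr Cfsg.Agent.Lib.Blocks.Induced

universe u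

variable {G : Type u} [Group G] [Fintype G] {N : Subgroup G} [hN : N.Normal] [Fintype N]
  {M : Ideal AlgInt} {p : ℕ} [hp : Fact p.Prime] {T : Subgroup G}

lemma card_map_subtype {X : Type*} [Group X] (H : Subgroup X) (D : Subgroup H) :
    Nat.card (D.map H.subtype) = Nat.card D :=
  Nat.card_congr (D.equivMapOfInjective _ H.subtype_injective).toEquiv.symm

section

variable (Q : Subgroup G) [hQn : Q.Normal] (hQ : IsPGroup p Q)
  (hQN : Q ≤ N) (hCN : Subgroup.centralizer (Q : Set G) ≤ N) {b : Set (IrrCharacter N)}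

include hQ hQN hCN

/-- The block of `T` over `b` is unique. -/
theorem unique_cover [M.IsPrime] (hM : IsPModular p M) (hb : IsPBlock M b) (hNT : N ≤ T)
    {B₁ B₂ : Set (IrrCharacter T)} (hB₁ : IsPBlock M B₁) (hB₂ : IsPBlock M B₂)
    {ψ₁ ψ₂ : IrrCharacter T} (h₁ : ψ₁ ∈ B₁) (h₂ : ψ₂ ∈ B₂) {θ₁ θ₂ : IrrCharacter N} (hθ₁ : θ₁ ∈ b)
    (hθ₂ : θ₂ ∈ b)
    (hc₁ : classInner (fun n : N => (ψ₁ : T → ℂ) (Subgroup.inclusion hNT n)) (θ₁ : N → ℂ) ≠ 0)
    (hc₂ : classInner (fun n : N => (ψ₂ : T → ℂ) (Subgroup.inclusion hNT n)) (θ₂ : N → ℂ) ≠ 0) :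
    B₁ = B₂ := by
  classical
  haveI : Fintype T := Fintype.ofFinite _
  haveI : Fintype (N.subgroupOf T) := Fintype.ofFinite _
  have hQT : IsPGroup p (Q.subgroupOf T) := hQ.comap_of_injective _ (Subgroup.subtype_injective T)
  have hCT : Subgroup.centralizer ((Q.subgroupOf T : Subgroup T) : Set T) ≤ N.subgroupOf T := by
    intro t ht
    rw [Subgroup.mem_subgroupOf]
    apply hCN
    rw [Subgroup.mem_centralizer_iff] at ht ⊢
    intro q hq
    have hqT : q ∈ T := hNT (hQN hq)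
    exact congrArg Subtype.val (ht ⟨q, hqT⟩ (Subgroup.mem_subgroupOf.2 hq))
  have hb' : IsPBlock M (bT hNT b) := isPBlock_blockMap _ hb
  have h1 := Cfsg.Agent.Lib.Blocks.CentSupport.isInducedBlock_of_constituent hM (Q.subgroupOf T) hQT
    (N.subgroupOf T) hCT hb' hB₁ h₁ (irrComap_mem_blockMap (Subgroup.subgroupOfEquivOfLe hNT) hθ₁)
    (by rwa [classInner_res])
  have h2 := Cfsg.Agent.Lib.Blocks.CentSupport.isInducedBlock_of_constituent hM (Q.subgroupOf T) hQT
    (N.subgroupOf T) hCT hb' hB₂ h₂ (irrComap_mem_blockMap (Subgroup.subgroupOfEquivOfLe hNT) hθ₂)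
    (by rwa [classInner_res])
  exact Cfsg.Agent.Lib.Blocks.FirstMain2.induced_unique h1 h2

omit Q hQn hQ hQN hCN in
/-- The defect of the block `b`, viewed in `T`. -/
lemma blockDefect_bT (hM : IsPModular p M) (hb : IsPBlock M b) (hNT : N ≤ T) [Fintype (N.subgroupOf T)] :
    blockDefect p (bT hNT b) = blockDefect p b := by
  classical
  haveI hMp := isPrime_of_isPModular hM
  obtain ⟨g₀, hg₀⟩ := exists_isDefectClass (M := M) hb
  obtain ⟨Q₀⟩ : Nonempty (Sylow p (Subgroup.centralizer ({g₀} : Set N))) := inferInstance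
  have hQ₀ : IsDefectGroup p M b ((Q₀ : Subgroup (Subgroup.centralizer ({g₀} : Set N))).map
      (Subgroup.centralizer ({g₀} : Set N)).subtype) := ⟨g₀, hg₀, Q₀, rfl⟩
  have h1 := Cfsg.Agent.S0908.result p M hM b hb _ hQ₀
  have h2 := Cfsg.Agent.S0908.result p M hM (bT hNT b) (isPBlock_blockMap _ hb) _
    (isDefectGroup_blockMap (p := p) (Subgroup.subgroupOfEquivOfLe hNT) hQ₀)
  rw [card_comap, h1] at h2
  exact (Nat.pow_right_injective hp.out.two_le h2).symm

/-- **The defect of a block over `b`.** -/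
theorem blockDefect_eq (hM : IsPModular p M) (hb : IsPBlock M b) (hS : IsStabilizer b T) (hNT : N ≤ T)
    {B : Set (IrrCharacter G)} (hB : IsPBlock M B) {χ : IrrCharacter G} (hχ : χ ∈ B) {θ : IrrCharacter N}
    (hθ : θ ∈ b) (hcon : classInner (fun n : N => (χ : G → ℂ) n) (θ : N → ℂ) ≠ 0) :
    blockDefect p B = blockDefect p b + (N.relIndex T).factorization p := by
  classical
  haveI hMp := isPrime_of_isPModular hM
  haveI : Fintype T := Fintype.ofFinite _
  haveI : Fintype (N.subgroupOf T) := Fintype.ofFinite _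
  obtain ⟨B', hB', ⟨ψ, hψ, θ₂, hθ₂, hc⟩, hind⟩ := exists_induced_of_covers hNT hb hS hB hχ hθ hcon
  -- the defect of `B'`
  obtain ⟨g₀, hg₀⟩ := exists_isDefectClass (M := M) hB'
  obtain ⟨D₀⟩ : Nonempty (Sylow p (Subgroup.centralizer ({g₀} : Set T))) := inferInstance
  have hD₀ : IsDefectGroup p M B' ((D₀ : Subgroup (Subgroup.centralizer ({g₀} : Set T))).map
      (Subgroup.centralizer ({g₀} : Set T)).subtype) := ⟨g₀, hg₀, D₀, rfl⟩
  have hD₁ := (Cfsg.Agent.S4436.result p M hM N b hb T (forall_of_isStabilizer hS) hNT B' hB'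
    ⟨ψ, hψ, θ₂, hθ₂, hc⟩ B hind).1 _ hD₀
  have h1 := Cfsg.Agent.S0908.result p M hM B' hB' _ hD₀
  have h2 := Cfsg.Agent.S0908.result p M hM B hB _ hD₁
  rw [card_map_subtype, h1] at h2
  have hdd : blockDefect p B' = blockDefect p B := Nat.pow_right_injective hp.out.two_le h2
  rw [← hdd, ← blockDefect_bT hM hb hNT]
  -- Fong's theorem in `T`
  have hb' : IsPBlock M (bT hNT b) := isPBlock_blockMap _ hb
  have hcov' : ∃ χ' ∈ B', ∃ θ' ∈ bT hNT b,
      classInner (fun n : N.subgroupOf T => (χ' : T → ℂ) n) (θ' : N.subgroupOf T → ℂ) ≠ 0 :=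
    ⟨ψ, hψ, _, irrComap_mem_blockMap (Subgroup.subgroupOfEquivOfLe hNT) hθ₂, by rwa [classInner_res]⟩
  have hmax : ∀ B'' : Set (IrrCharacter T), IsPBlock M B'' →
      (∃ χ' ∈ B'', ∃ θ' ∈ bT hNT b,
        classInner (fun n : N.subgroupOf T => (χ' : T → ℂ) n) (θ' : N.subgroupOf T → ℂ) ≠ 0) →
      blockDefect p B'' ≤ blockDefect p B' := by
    rintro B'' hB'' ⟨ψ'', hψ'', θ'', hθ'', hc''⟩
    have hθb : irrComap (Subgroup.subgroupOfEquivOfLe hNT).symm θ'' ∈ b := (mem_blockMap_iff _).1 hθ''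
    have hc3 : classInner (fun n : N => (ψ'' : T → ℂ) (Subgroup.inclusion hNT n))
        (irrComap (Subgroup.subgroupOfEquivOfLe hNT).symm θ'' : N → ℂ) ≠ 0 := by
      rw [← classInner_res hNT, irrComap_irrComap_symm]
      exact hc''
    rw [unique_cover Q hQ hQN hCN hM hb hNT hB'' hB' hψ'' hψ hθb hθ₂ hc3 hc]
  have := (Cfsg.Agent.Lib.Blocks.FongCover.fong (G := T) (N := N.subgroupOf T) hM hb'
    (isConjStable_bT hNT hS) hB' hcov' hmax _ hD₀).2.2
  rw [this]
  rfl

/-- Every member of `b` lies under a member of `B`. -/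
theorem exists_mem_over (hM : IsPModular p M) (hb : IsPBlock M b) (hS : IsStabilizer b T) (hNT : N ≤ T)
    {B : Set (IrrCharacter G)} (hB : IsPBlock M B) {χ : IrrCharacter G} (hχ : χ ∈ B) {θ : IrrCharacter N}
    (hθ : θ ∈ b) (hcon : classInner (fun n : N => (χ : G → ℂ) n) (θ : N → ℂ) ≠ 0)
    {θ' : IrrCharacter N} (hθ' : θ' ∈ b) :
    ∃ ψ : IrrCharacter T, classInner (fun n : N => (ψ : T → ℂ) (Subgroup.inclusion hNT n)) (θ' : N → ℂ) ≠ 0 ∧
      ∃ χ' ∈ B, (χ' : G → ℂ) = indFun T (ψ : T → ℂ) := by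
  classical
  haveI hMp := isPrime_of_isPModular hM
  haveI : Fintype T := Fintype.ofFinite _
  haveI : Fintype (N.subgroupOf T) := Fintype.ofFinite _
  haveI : (N.subgroupOf T).Normal := Subgroup.Normal.subgroupOf hN T
  obtain ⟨B', hB', ⟨ψ₀, hψ₀, θ₂, hθ₂, hc⟩, hind⟩ := exists_induced_of_covers hNT hb hS hB hχ hθ hcon
  obtain ⟨ψ, hψ⟩ := exists_irr_of_constituent (G := T) (N := N.subgroupOf T)
    (irrComap (Subgroup.subgroupOfEquivOfLe hNT) θ').2
  rw [classInner_res] at hψ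
  refine ⟨ψ, hψ, ?_⟩
  have hψB' : ψ ∈ B' := by
    rw [← unique_cover Q hQ hQN hCN hM hb hNT ⟨ψ, rfl⟩ hB' (mem_blockOf_self ψ) hψ₀ hθ' hθ₂ hψ hc]
    exact mem_blockOf_self ψ
  obtain ⟨B₁, hi₁, -, hirr, hmem⟩ := induced_of_covers hNT hb hS hB' hψ₀ hθ₂ hc
  have hBB : B = B₁ := Cfsg.Agent.Lib.Blocks.FirstMain2.induced_unique hind hi₁
  subst hBB
  exact ⟨⟨_, hirr ψ hψB'⟩, (hmem _).2 ⟨ψ, hψB', rfl⟩, rfl⟩

/-- Every member of `b` lies under a member of `B`, with the degree formula. -/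
theorem exists_mem_degree (hM : IsPModular p M) (hb : IsPBlock M b) (hS : IsStabilizer b T) (hNT : N ≤ T)
    {B : Set (IrrCharacter G)} (hB : IsPBlock M B) {χ : IrrCharacter G} (hχ : χ ∈ B) {θ : IrrCharacter N}
    (hθ : θ ∈ b) (hcon : classInner (fun n : N => (χ : G → ℂ) n) (θ : N → ℂ) ≠ 0)
    {θ' : IrrCharacter N} (hθ' : θ' ∈ b) :
    ∃ χ' ∈ B, ∃ e : ℕ, (χ' : G → ℂ) 1 = (T.index : ℂ) * ((e : ℂ) * (θ' : N → ℂ) 1) := by
  classical
  haveI : Fintype T := Fintype.ofFinite _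
  haveI : Fintype (N.subgroupOf T) := Fintype.ofFinite _
  haveI : (N.subgroupOf T).Normal := Subgroup.Normal.subgroupOf hN T
  obtain ⟨ψ, hψ, χ', hχ', he⟩ := exists_mem_over Q hQ hQN hCN hM hb hS hNT hB hχ hθ hcon hθ'
  rw [← classInner_res hNT] at hψ
  obtain ⟨e, he1, -⟩ := Cfsg.Agent.Lib.Char.DegreeDvd.exists_degree_ratio (N.subgroupOf T) ψ.2
    (irrComap (Subgroup.subgroupOfEquivOfLe hNT) θ').2 hψ
  refine ⟨χ', hχ', e, ?_⟩
  rw [he, Cfsg.Agent.Lib.Char.Induced.indFun_one, he1]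
  simp

end

section Reynolds

/-- The minimal exponent of a block in terms of a defect group. -/
theorem sInf_eq {X : Type*} [Group X] [Fintype X] (hM : IsPModular p M) {B : Set (IrrCharacter X)}
    (hB : IsPBlock M B) {P : Subgroup X} (hP : IsDefectGroup p M B P) :
    sInf ((fun χ : IrrCharacter X => (charDegree (χ : X → ℂ)).factorization p) '' B) =
      P.index.factorization p := by
  classical
  haveI hMp := isPrime_of_isPModular hM
  have hcard := Cfsg.Agent.S0908.result p M hM B hB P hP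
  have h1 : (Nat.card X).factorization p = P.index.factorization p + blockDefect p B := by
    rw [← Subgroup.index_mul_card P, hcard, Nat.factorization_mul Subgroup.index_ne_zero_of_finite
      (pow_ne_zero _ hp.out.ne_zero), Nat.Prime.factorization_pow hp.out]
    simp
  obtain ⟨χ₀, rfl⟩ := id hB
  have hne : ((fun χ : IrrCharacter X => (charDegree (χ : X → ℂ)).factorization p) ''
      blockOf M (χ₀ : X → ℂ)).Nonempty := ⟨_, χ₀, mem_blockOf_self χ₀, rfl⟩
  obtain ⟨χ, -, hχ⟩ := Nat.sInf_mem hne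
  have h2 : sInf ((fun χ : IrrCharacter X => (charDegree (χ : X → ℂ)).factorization p) ''
      blockOf M (χ₀ : X → ℂ)) ≤ (Nat.card X).factorization p := by
    rw [← hχ]
    exact (Nat.factorization_le_iff_dvd (Cfsg.Agent.Lib.Blocks.FongReynolds.charDegree_ne_zero χ.2)
      Nat.card_pos.ne').2 (Cfsg.Agent.Lib.Blocks.HeightZero.charDegree_dvd_card χ.2) p
  have h3 : blockDefect p (blockOf M (χ₀ : X → ℂ)) = (Nat.card X).factorization p -
    sInf ((fun χ : IrrCharacter X => (charDegree (χ : X → ℂ)).factorization p) '' blockOf M (χ₀ : X → ℂ)) := rfl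
  omega

/-- A normal defect group `P` meets a covered block. -/
theorem isDefectGroup_subgroupOf (hM : IsPModular p M) {B : Set (IrrCharacter G)} (hB : IsPBlock M B)
    {P : Subgroup G} [hPn : P.Normal] (hP : IsDefectGroup p M B P) (hPN : P ≤ N) {b : Set (IrrCharacter N)}
    (hb : IsPBlock M b) {χ : IrrCharacter G} (hχ : χ ∈ B) {θ : IrrCharacter N} (hθ : θ ∈ b)
    (hcon : classInner (fun n : N => (χ : G → ℂ) n) (θ : N → ℂ) ≠ 0) :
    IsDefectGroup p M b (P.subgroupOf N) := by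
  classical
  haveI hMp := isPrime_of_isPModular hM
  obtain ⟨g₀, hg₀⟩ := exists_isDefectClass (M := M) hb
  obtain ⟨Q₀⟩ : Nonempty (Sylow p (Subgroup.centralizer ({g₀} : Set N))) := inferInstance
  have hQ₀ : IsDefectGroup p M b ((Q₀ : Subgroup (Subgroup.centralizer ({g₀} : Set N))).map
      (Subgroup.centralizer ({g₀} : Set N)).subtype) := ⟨g₀, hg₀, Q₀, rfl⟩
  obtain ⟨P', hP', hinf⟩ := exists_defect_inf_eq hM hB hb hQ₀ hχ hθ hcon
  obtain ⟨x, hx⟩ := Cfsg.Agent.Lib.Blocks.HeightZero.exists_map_conj_eq_of_isDefectGroup hM hB hP' hP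
  have hPP' : P' = P := by
    rw [← hx]
    ext y
    constructor
    · rintro ⟨z, hz, rfl⟩
      exact hPn.conj_mem z hz x
    · intro hy
      refine ⟨x⁻¹ * y * x, ?_, ?_⟩
      · simpa using hPn.conj_mem y hy x⁻¹
      · simp [mul_assoc]
  rw [hPP', inf_eq_left.2 hPN] at hinf
  have : P.subgroupOf N = ((Q₀ : Subgroup (Subgroup.centralizer ({g₀} : Set N))).map
      (Subgroup.centralizer ({g₀} : Set N)).subtype) := by
    rw [Subgroup.subgroupOf, hinf]
    exact Subgroup.comap_map_eq_self_of_injective N.subtype_injective _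
  rw [this]
  exact hQ₀

end Reynolds

end Cfsg.Agent.Lib.Blocks.ReyDefect
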